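import Mathlib
import Cfsg.Prelude.Def_CaseTheorems
import Cfsg.Agent.Helper2.Conj

/-! `p`-rank conditions and the `k`-generated `p`-core criterion. -/

namespace Cfsg.Agent.Helper2.PRank

variable {G : Type*} [Group G]

/-- `X` contains an elementary abelian `p`-subgroup of order `> p^m` -/
def HasEA (p m : ℕ) (X : Subgroup G) : Prop :=
  ∃ A : Subgroup G, A ≤ X ∧ (∀ a ∈ A, ∀ b ∈ A, a * b = b * a) ∧ (∀ a ∈ A, a ^ p = 1) ∧
    p ^ m < Nat.card A

lemma HasEA.mono {p m : ℕ} {X Y : Subgroup G} (h : HasEA p m X) (hXY : X ≤ Y) : HasEA p m Y := by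
  obtain ⟨A, hA, h1, h2, h3⟩ := h
  exact ⟨A, hA.trans hXY, h1, h2, h3⟩

lemma HasEA.map {K : Type*} [Group K] {p m : ℕ} {X : Subgroup K} (h : HasEA p m X)
    (f : K →* G) (hf : Function.Injective f) : HasEA p m (X.map f) := by
  obtain ⟨A, hA, h1, h2, h3⟩ := h
  refine ⟨A.map f, Subgroup.map_mono hA, ?_, ?_, ?_⟩
  · rintro _ ⟨a, ha, rfl⟩ _ ⟨b, hb, rfl⟩
    rw [← map_mul, ← map_mul, h1 a ha b hb]
  · rintro _ ⟨a, ha, rfl⟩
    rw [← map_pow, h2 a ha, map_one]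
  · rw [Subgroup.card_map_of_injective hf]; exact h3

lemma not_pRankLE_iff (p m : ℕ) (X : Subgroup G) : ¬ Cfsg.PRankLE p m ↥X ↔ HasEA p m X := by
  constructor
  · intro h
    unfold Cfsg.PRankLE at h
    push_neg at h
    obtain ⟨A, hA, hexp, hcard⟩ := h
    refine ⟨A.map X.subtype, Subgroup.map_subtype_le A, ?_, ?_, ?_⟩
    · rintro _ ⟨a, ha, rfl⟩ _ ⟨b, hb, rfl⟩
      have := hA.is_comm.comm (⟨a, ha⟩ : A) ⟨b, hb⟩
      have h2 : a * b = b * a := congrArg Subtype.val this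
      rw [← map_mul, ← map_mul, h2]
    · rintro _ ⟨a, ha, rfl⟩
      rw [← map_pow, hexp a ha, map_one]
    · rw [Subgroup.card_map_of_injective X.subtype_injective]; exact hcard
  · rintro ⟨A, hA, h1, h2, h3⟩ h
    have hcomm : IsMulCommutative (A.subgroupOf X) := by
      refine ⟨⟨fun a b => ?_⟩⟩
      apply Subtype.ext
      apply Subtype.ext
      exact h1 _ a.2 _ b.2
    have hexp : ∀ a ∈ A.subgroupOf X, a ^ p = 1 := by
      intro a ha
      apply Subtype.ext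
      rw [Subgroup.coe_pow]
      exact h2 _ ha
    have := h (A.subgroupOf X) hcomm hexp
    rw [Nat.card_congr (Subgroup.subgroupOfEquivOfLe hA).toEquiv] at this
    omega

lemma isPGroup_of_exp {p : ℕ} {A : Subgroup G} (h : ∀ a ∈ A, a ^ p = 1) : IsPGroup p A := by
  intro a
  refine ⟨1, ?_⟩
  apply Subtype.ext
  rw [pow_one, Subgroup.coe_pow]
  exact h _ a.2

/-- the core argument: `Γ_{P,k}(G) ≤ H` forces `m_p(H ∩ H^g) < k` for `g ∉ H` -/
theorem core [Finite G] {p : ℕ} [Fact p.Prime] (m : ℕ) (H Pg : Subgroup G) (hPH : Pg ≤ H)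
    (hPp : IsPGroup p Pg)
    (hSyl : ∀ R : Subgroup G, R ≤ H → IsPGroup p R → ∃ h ∈ H, ∀ x ∈ R, h * x * h⁻¹ ∈ Pg)
    (hPrank : HasEA p m Pg)
    (hN : ∀ X : Subgroup G, X ≤ Pg → HasEA p m X → Subgroup.normalizer (X : Set G) ≤ H)
    (g : G) (hg : g ∉ H) (hr : HasEA p m (H ⊓ H.map (MulAut.conj g).toMonoidHom)) : False := by
  classical
  -- a maximal p-subgroup R of H ∩ gHg⁻¹ of large rank
  obtain ⟨A, hA, hA1, hA2, hA3⟩ := hr
  have hne : Nonempty {R : Subgroup G // IsPGroup p R ∧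
      R ≤ H ⊓ H.map (MulAut.conj g).toMonoidHom ∧ HasEA p m R} :=
    ⟨⟨A, isPGroup_of_exp hA2, hA, ⟨A, le_rfl, hA1, hA2, hA3⟩⟩⟩
  obtain ⟨⟨R, hRp, hRle, hRrank⟩, hmax⟩ := Finite.exists_max
    (fun R : {R : Subgroup G // IsPGroup p R ∧
      R ≤ H ⊓ H.map (MulAut.conj g).toMonoidHom ∧ HasEA p m R} => Nat.card (R : Subgroup G))
  have hRH : R ≤ H := hRle.trans inf_le_left
  have hRg : ∀ x ∈ R, g⁻¹ * x * g ∈ H := fun x hx =>
    (Cfsg.Agent.Helper2.mem_map_conj_iff H g x).mp (hRle hx).2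
  -- conjugate R into Pg
  obtain ⟨h, hh, hhR⟩ := hSyl R hRH hRp
  have hR1le : R.map (MulAut.conj h).toMonoidHom ≤ Pg := by
    rintro _ ⟨x, hx, rfl⟩
    exact hhR x hx
  have hR1rank : HasEA p m (R.map (MulAut.conj h).toMonoidHom) :=
    hRrank.map _ (MulAut.conj h).injective
  have hNR1 := hN _ hR1le hR1rank
  have hNR : Subgroup.normalizer (R : Set G) ≤ H := by
    intro n hn
    have h1 : h * n * h⁻¹ ∈ Subgroup.normalizer
        ((R.map (MulAut.conj h).toMonoidHom : Subgroup G) : Set G) := by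
      rw [Subgroup.mem_normalizer_iff]
      intro y
      rw [Cfsg.Agent.Helper2.mem_map_conj_iff, Cfsg.Agent.Helper2.mem_map_conj_iff]
      have h2 : h⁻¹ * (h * n * h⁻¹ * y * (h * n * h⁻¹)⁻¹) * h = n * (h⁻¹ * y * h) * n⁻¹ := by
        group
      rw [h2]
      exact Subgroup.mem_normalizer_iff.mp hn _
    have h3 := hNR1 h1
    have h4 : n = h⁻¹ * (h * n * h⁻¹) * h := by group
    rw [h4]
    exact mul_mem (mul_mem (inv_mem hh) h3) hh
  -- conjugate g⁻¹Rg into Pg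
  have hR'H : R.map (MulAut.conj g⁻¹).toMonoidHom ≤ H := by
    rintro _ ⟨x, hx, rfl⟩
    have := hRg x hx
    simpa using this
  obtain ⟨h', hh', hh'R⟩ := hSyl _ hR'H (hRp.map _)
  have hh'R2 : ∀ x ∈ R, h' * (g⁻¹ * x * g) * h'⁻¹ ∈ Pg := by
    intro x hx
    have := hh'R ((MulAut.conj g⁻¹).toMonoidHom x) ⟨x, hx, rfl⟩
    simpa using this
  -- Q = (g h'⁻¹) Pg (g h'⁻¹)⁻¹
  have hQmem : ∀ x : G, x ∈ Pg.map (MulAut.conj (g * h'⁻¹)).toMonoidHom ↔
      h' * (g⁻¹ * x * g) * h'⁻¹ ∈ Pg := by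
    intro x
    rw [Cfsg.Agent.Helper2.mem_map_conj_iff]
    have : (g * h'⁻¹)⁻¹ * x * (g * h'⁻¹) = h' * (g⁻¹ * x * g) * h'⁻¹ := by group
    rw [this]
  have hQp : IsPGroup p (Pg.map (MulAut.conj (g * h'⁻¹)).toMonoidHom) := hPp.map _
  have hQcard : Nat.card (Pg.map (MulAut.conj (g * h'⁻¹)).toMonoidHom) = Nat.card Pg :=
    Subgroup.card_map_of_injective (MulAut.conj (g * h'⁻¹)).injective
  generalize hQdef : Pg.map (MulAut.conj (g * h'⁻¹)).toMonoidHom = Q at hQmem hQp hQcard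
  have hRQ : R ≤ Q := fun x hx => (hQmem x).mpr (hh'R2 x hx)
  have hQg : ∀ x ∈ Q, g⁻¹ * x * g ∈ H := by
    intro x hx
    have h1 := hPH ((hQmem x).mp hx)
    have h2 : g⁻¹ * x * g = h'⁻¹ * (h' * (g⁻¹ * x * g) * h'⁻¹) * h' := by group
    rw [h2]
    exact mul_mem (mul_mem (inv_mem hh') h1) hh'
  -- M = N_Q(R) equals R by maximality
  have hMeq : Q ⊓ Subgroup.normalizer (R : Set G) = R := by
    have hle : R ≤ Q ⊓ Subgroup.normalizer (R : Set G) := le_inf hRQ Subgroup.le_normalizer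
    have hMp : IsPGroup p ↥(Q ⊓ Subgroup.normalizer (R : Set G)) := hQp.to_le inf_le_left
    have hMle : Q ⊓ Subgroup.normalizer (R : Set G) ≤ H ⊓ H.map (MulAut.conj g).toMonoidHom := by
      intro x hx
      refine Subgroup.mem_inf.mpr ⟨hNR hx.2, ?_⟩
      rw [Cfsg.Agent.Helper2.mem_map_conj_iff]
      exact hQg x hx.1
    have hc := hmax ⟨Q ⊓ Subgroup.normalizer (R : Set G), hMp, hMle, hRrank.mono hle⟩
    exact (Subgroup.eq_of_le_of_card_ge hle hc).symm
  -- normalizers grow in the p-group Q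
  have hRQeq : R = Q := by
    by_contra hne'
    haveI : Group.IsNilpotent ↥Q := hQp.isNilpotent
    have hcond : NormalizerCondition ↥Q := Group.normalizerCondition_of_isNilpotent
    have hlt : R.subgroupOf Q < ⊤ := by
      rw [lt_top_iff_ne_top]
      intro htop
      rw [Subgroup.subgroupOf_eq_top] at htop
      exact hne' (le_antisymm hRQ htop)
    have hlt2 := hcond _ hlt
    obtain ⟨x, hxn, hxR⟩ := SetLike.exists_of_lt hlt2
    apply hxR
    rw [Subgroup.mem_subgroupOf]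
    have hxM : (x : G) ∈ Q ⊓ Subgroup.normalizer (R : Set G) := by
      refine Subgroup.mem_inf.mpr ⟨x.2, ?_⟩
      rw [Subgroup.mem_normalizer_iff]
      intro y
      constructor
      · intro hy
        have h1 := (Subgroup.mem_normalizer_iff.mp hxn ⟨y, hRQ hy⟩).mp
          (by rw [Subgroup.mem_subgroupOf]; exact hy)
        rw [Subgroup.mem_subgroupOf] at h1
        simpa using h1
      · intro hy
        have hyQ : y ∈ Q := by
          have h1 : y = (x : G)⁻¹ * ((x : G) * y * (x : G)⁻¹) * (x : G) := by group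
          rw [h1]
          exact mul_mem (mul_mem (inv_mem x.2) (hRQ hy)) x.2
        have h1 := (Subgroup.mem_normalizer_iff.mp hxn ⟨y, hyQ⟩).mpr
          (by rw [Subgroup.mem_subgroupOf]; simpa using hy)
        rw [Subgroup.mem_subgroupOf] at h1
        exact h1
    rw [hMeq] at hxM
    exact hxM
  -- hence h R h⁻¹ = Pg and h g h'⁻¹ normalizes Pg
  have hR1eq : R.map (MulAut.conj h).toMonoidHom = Pg := by
    apply Subgroup.eq_of_le_of_card_ge hR1le
    rw [Subgroup.card_map_of_injective (MulAut.conj h).injective, hRQeq, hQcard]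
  have hnorm : (h * g * h'⁻¹)⁻¹ ∈ Subgroup.normalizer (Pg : Set G) := by
    rw [Subgroup.mem_normalizer_iff]
    intro y
    have h1 : y ∈ Pg ↔ h⁻¹ * y * h ∈ R := by
      rw [← hR1eq, Cfsg.Agent.Helper2.mem_map_conj_iff]
    rw [h1, hRQeq, hQmem]
    have h2 : h' * (g⁻¹ * (h⁻¹ * y * h) * g) * h'⁻¹ =
        (h * g * h'⁻¹)⁻¹ * y * (h * g * h'⁻¹)⁻¹⁻¹ := by group
    rw [h2]
  have h5 := hN Pg le_rfl hPrank hnorm
  apply hg
  have h6 : g = h⁻¹ * ((h * g * h'⁻¹)⁻¹)⁻¹ * h' := by group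
  rw [h6]
  exact mul_mem (mul_mem (inv_mem hh) (inv_mem h5)) hh'

end Cfsg.Agent.Helper2.PRank
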