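import Mathlib
import Cfsg.Prelude.Def_CaseTheorems
import Cfsg.Agent.Helper2.PRank

/-! Abelian Sylow 2-subgroups in groups without subgroups of index 2. -/

namespace Cfsg.Agent.Helper2.AbSyl

open scoped IsMulCommutative

variable {G : Type*} [Group G] [Finite G]

/-- a nontrivial homomorphism to a finite 2-group gives a subgroup of index 2 -/
lemma exists_index_two_of_hom {A : Type*} [Group A] [Finite A] (hA : IsPGroup 2 A) (f : G →* A)
    (g : G) (hg : f g ≠ 1) : ∃ M : Subgroup G, M.index = 2 := by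
  haveI : Fact (Nat.Prime 2) := ⟨Nat.prime_two⟩
  obtain ⟨m, hm⟩ := (hA.to_subgroup f.range).exists_card_eq
  have hm0 : m ≠ 0 := by
    rintro rfl
    rw [pow_zero] at hm
    have hbot : f.range = ⊥ := Subgroup.card_eq_one.mp hm
    have h1 : f g ∈ f.range := ⟨g, rfl⟩
    rw [hbot, Subgroup.mem_bot] at h1
    exact hg h1
  obtain ⟨M, hM, hMcard⟩ := Sylow.exists_subgroup_le_card_pow_prime_of_le_card Nat.prime_two hA
    (H := f.range) (n := m - 1) (by rw [hm]; exact Nat.pow_le_pow_right (by norm_num) (by omega))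
  refine ⟨M.comap f, ?_⟩
  rw [Subgroup.index_comap]
  have h1 : Nat.card (M.subgroupOf f.range) * M.relIndex f.range = Nat.card f.range :=
    Subgroup.card_mul_index (M.subgroupOf f.range)
  rw [Nat.card_congr (Subgroup.subgroupOfEquivOfLe hM).toEquiv, hMcard, hm] at h1
  have h2 : (2 : ℕ) ^ m = 2 ^ (m - 1) * 2 := by
    rw [← pow_succ]; congr 1; omega
  rw [h2] at h1
  exact Nat.eq_of_mul_eq_mul_left (pow_pos (by norm_num) _) h1

/-- an involution of an abelian Sylow 2-subgroup central in its normaliser forces a subgroup of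
index 2 -/
theorem no_central_invol (hG : ∀ H : Subgroup G, H.index ≠ 2) (S : Sylow 2 G)
    (hS : IsMulCommutative (S : Subgroup G)) (z : G) (hz1 : z ≠ 1) (hz2 : z * z = 1)
    (hzS : z ∈ S)
    (hzN : ∀ n ∈ Subgroup.normalizer ((S : Subgroup G) : Set G), n * z * n⁻¹ = z) : False := by
  haveI : Fact (Nat.Prime 2) := ⟨Nat.prime_two⟩
  haveI := hS
  have key : ∀ (k : ℕ) (g₀ : G), g₀⁻¹ * z ^ k * g₀ ∈ (S : Subgroup G) →
      g₀⁻¹ * z ^ k * g₀ = z ^ k := by
    intro k g₀ h
    obtain ⟨n, hn, hn2⟩ := S.conj_eq_normalizer_conj_of_mem (z ^ k) g₀ (pow_mem hzS k) h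
    rw [hn2]
    have h1 := hzN n⁻¹ (inv_mem hn)
    rw [inv_inv] at h1
    have h2 : n⁻¹ * z ^ k * n = (n⁻¹ * z * n) ^ k := by
      have := conj_pow (a := n⁻¹) (b := z) (i := k)
      rw [inv_inv] at this
      exact this.symm
    rw [h2, h1]
  have h1 := MonoidHom.transfer_eq_pow (MonoidHom.id (S : Subgroup G)) z key
  have hodd : ¬ 2 ∣ (S : Subgroup G).index := S.not_dvd_index
  have hpow : z ^ (S : Subgroup G).index = z := by
    obtain ⟨j, hj⟩ := Nat.odd_iff.mpr (Nat.two_dvd_ne_zero.mp hodd)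
    rw [hj, pow_succ, pow_mul, pow_two, hz2, one_pow, one_mul]
  have hne : MonoidHom.transfer (MonoidHom.id (S : Subgroup G)) z ≠ 1 := by
    rw [h1]
    intro h
    have h2 := congrArg Subtype.val h
    simp only [MonoidHom.id_apply, Subgroup.coe_one] at h2
    rw [hpow] at h2
    exact hz1 h2
  obtain ⟨M, hM⟩ := exists_index_two_of_hom S.isPGroup' _ z hne
  exact hG M hM

/-- the elements of order at most two of `R` form a hyperplane among those of `S` -/
lemma hyper (S : Sylow 2 G) (hS : IsMulCommutative (S : Subgroup G)) (r : ℕ) (hr1 : 1 ≤ r)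
    (hSr : Cfsg.PRankLE 2 r (S : Subgroup G)) (R : Subgroup G) (hRS : R ≤ S)
    (hRr : r = 1 ∨ ¬ Cfsg.PRankLE 2 (r - 2) R) :
    ∀ x ∈ (S : Subgroup G), x * x = 1 → x ∉ R → ∀ y ∈ (S : Subgroup G), y * y = 1 → y ∉ R →
      x * y ∈ R := by
  haveI : Fact (Nat.Prime 2) := ⟨Nat.prime_two⟩
  have hcomm : ∀ a ∈ (S : Subgroup G), ∀ b ∈ (S : Subgroup G), a * b = b * a :=
    fun a ha b hb => Cfsg.Agent.Helper2.comm_of_isMulCommutative hS ha hb
  let E : Subgroup G :=
    { carrier := {x | x ∈ (S : Subgroup G) ∧ x * x = 1}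
      mul_mem' := by
        rintro a b ⟨ha, ha2⟩ ⟨hb, hb2⟩
        refine ⟨mul_mem ha hb, ?_⟩
        calc a * b * (a * b) = a * (b * a) * b := by group
          _ = a * (a * b) * b := by rw [hcomm b hb a ha]
          _ = (a * a) * (b * b) := by group
          _ = 1 := by rw [ha2, hb2, one_mul]
      one_mem' := ⟨one_mem _, one_mul 1⟩
      inv_mem' := by
        rintro a ⟨ha, ha2⟩
        refine ⟨inv_mem ha, ?_⟩
        calc a⁻¹ * a⁻¹ = (a * a)⁻¹ := by group
          _ = 1 := by rw [ha2, inv_one] }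
  have hEmem : ∀ x, x ∈ E ↔ x ∈ (S : Subgroup G) ∧ x * x = 1 := fun x => Iff.rfl
  have hES : E ≤ (S : Subgroup G) := fun x hx => hx.1
  have hEcard : Nat.card E ≤ 2 ^ r := by
    by_contra hlt
    push_neg at hlt
    have hEA : Cfsg.Agent.Helper2.PRank.HasEA 2 r (S : Subgroup G) :=
      ⟨E, hES, fun a ha b hb => hcomm a ha.1 b hb.1, fun a ha => by rw [pow_two]; exact ha.2, hlt⟩
    exact (Cfsg.Agent.Helper2.PRank.not_pRankLE_iff 2 r (S : Subgroup G)).mpr hEA hSr
  have hE0card : 2 ^ (r - 1) ≤ Nat.card ↥(E ⊓ R) := by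
    have hp : IsPGroup 2 ↥(E ⊓ R) := S.isPGroup'.to_le (inf_le_left.trans hES)
    obtain ⟨j, hj⟩ := hp.exists_card_eq
    rcases hRr with h | h
    · rw [h]
      exact Nat.card_pos
    · rw [Cfsg.Agent.Helper2.PRank.not_pRankLE_iff] at h
      obtain ⟨A, hAR, -, hAexp, hAcard⟩ := h
      have hAE : A ≤ E ⊓ R := by
        intro a ha
        refine Subgroup.mem_inf.mpr ⟨⟨hRS (hAR ha), ?_⟩, hAR ha⟩
        have := hAexp a ha
        rw [pow_two] at this
        exact this
      have h1 := Subgroup.card_le_of_le hAE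
      rw [hj] at h1 ⊢
      have h2 : r - 2 < j := (Nat.pow_lt_pow_iff_right (by norm_num)).mp (lt_of_lt_of_le hAcard h1)
      exact Nat.pow_le_pow_right (by norm_num) (by omega)
  have h1 : Nat.card ((E ⊓ R).subgroupOf E) * (E ⊓ R).relIndex E = Nat.card E :=
    Subgroup.card_mul_index ((E ⊓ R).subgroupOf E)
  rw [Nat.card_congr (Subgroup.subgroupOfEquivOfLe (inf_le_left : E ⊓ R ≤ E)).toEquiv] at h1
  have h2 : (2 : ℕ) ^ r = 2 ^ (r - 1) * 2 := by
    rw [← pow_succ]; congr 1; omega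
  have hEpos : 0 < Nat.card E := Nat.card_pos
  have hidx : (E ⊓ R).relIndex E ∣ 2 := by
    have h3 : (E ⊓ R).relIndex E ≤ 2 := by
      by_contra hgt
      push_neg at hgt
      have h4 : Nat.card ↥(E ⊓ R) * 3 ≤ Nat.card ↥(E ⊓ R) * (E ⊓ R).relIndex E :=
        Nat.mul_le_mul_left _ hgt
      have h5 : 0 < Nat.card ↥(E ⊓ R) := Nat.card_pos
      omega
    have h4 : (E ⊓ R).relIndex E ≠ 0 := by
      intro h0
      rw [h0, mul_zero] at h1
      omega
    interval_cases hh : (E ⊓ R).relIndex E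
    · exact absurd rfl h4
    · exact one_dvd 2
    · exact dvd_refl 2
  obtain ⟨a, haE, ha⟩ := Subgroup.relIndex_dvd_two_iff.mp hidx
  intro x hxS hx2 hxR y hyS hy2 hyR
  have hx := ha x ⟨hxS, hx2⟩
  have hy := ha y ⟨hyS, hy2⟩
  have hx' : x * a ∈ E ⊓ R := by
    rcases hx with h | h
    · exact h
    · exact absurd (Subgroup.mem_inf.mp h).2 hxR
  have hy' : y * a ∈ E ⊓ R := by
    rcases hy with h | h
    · exact h
    · exact absurd (Subgroup.mem_inf.mp h).2 hyR
  have h3 : (x * a) * (y * a)⁻¹ ∈ E ⊓ R := mul_mem hx' (inv_mem hy')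
  have h4 : (x * a) * (y * a)⁻¹ = x * y := by
    have hyinv : y⁻¹ = y := inv_eq_of_mul_eq_one_left hy2
    calc (x * a) * (y * a)⁻¹ = x * y⁻¹ := by group
      _ = x * y := by rw [hyinv]
  rw [h4] at h3
  exact (Subgroup.mem_inf.mp h3).2

end Cfsg.Agent.Helper2.AbSyl
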