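import Mathlib
import Cfsg.Prelude.Def_CaseTheorems
import Cfsg.Agent.Helper2.AbSyl

/-! Orbit products of involutions in an abelian Sylow 2-subgroup. -/

namespace Cfsg.Agent.Helper2.AbSyl

variable {G : Type*} [Group G] [Finite G]

theorem orbit_prod (S R N : Subgroup G) (hScomm : ∀ a ∈ S, ∀ b ∈ S, a * b = b * a) (hSN : S ≤ N)
    (hconj : ∀ n ∈ N, ∀ x ∈ S, n * x * n⁻¹ ∈ S) (hodd : ¬ 2 ∣ S.relIndex N)
    (hyp : ∀ x ∈ S, x * x = 1 → x ∉ R → ∀ y ∈ S, y * y = 1 → y ∉ R → x * y ∈ R)
    (t : G) (htS : t ∈ S) (ht2 : t * t = 1) (hcon : ∀ n ∈ N, n * t * n⁻¹ ∉ R) :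
    ∃ z ∈ S, z ≠ 1 ∧ z * z = 1 ∧ ∀ n ∈ N, n * z * n⁻¹ = z := by
  classical
  letI : CommGroup ↥S :=
    { (inferInstance : Group ↥S) with
      mul_comm := fun a b => Subtype.ext (hScomm a a.2 b b.2) }
  letI : Fintype (↥N ⧸ S.subgroupOf N) := Fintype.ofFinite _
  let f0 : ↥N → ↥S := fun c => ⟨(c : G) * t * (c : G)⁻¹, hconj c c.2 t htS⟩
  have hf0 : ∀ a b : ↥N, (QuotientGroup.leftRel (S.subgroupOf N)) a b → f0 a = f0 b := by
    intro a b hab
    rw [QuotientGroup.leftRel_apply, Subgroup.mem_subgroupOf] at hab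
    apply Subtype.ext
    show (a : G) * t * (a : G)⁻¹ = (b : G) * t * (b : G)⁻¹
    have h1 : ((a : G)⁻¹ * (b : G)) ∈ S := by simpa using hab
    have h2 := hScomm _ h1 t htS
    calc (a : G) * t * (a : G)⁻¹
        = a * (t * ((a : G)⁻¹ * b)) * ((a : G)⁻¹ * b)⁻¹ * (a : G)⁻¹ := by group
      _ = a * (((a : G)⁻¹ * b) * t) * ((a : G)⁻¹ * b)⁻¹ * (a : G)⁻¹ := by rw [h2]
      _ = (b : G) * t * (b : G)⁻¹ := by group
  let f : ↥N ⧸ S.subgroupOf N → ↥S := Quotient.lift f0 hf0
  have hf : ∀ c : ↥N, f (QuotientGroup.mk c) = f0 c := fun c => rfl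
  have hfsq : ∀ q, ((f q : ↥S) : G) * (f q : G) = 1 := by
    intro q
    induction q using QuotientGroup.induction_on with
    | H c =>
      rw [hf]
      show (c : G) * t * (c : G)⁻¹ * ((c : G) * t * (c : G)⁻¹) = 1
      calc (c : G) * t * (c : G)⁻¹ * ((c : G) * t * (c : G)⁻¹) = c * (t * t) * (c : G)⁻¹ := by
            group
        _ = 1 := by rw [ht2]; group
  have hfR : ∀ q, ((f q : ↥S) : G) ∉ R := by
    intro q
    induction q using QuotientGroup.induction_on with
    | H c =>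
      rw [hf]
      exact hcon c c.2
  have hprodsq : ∀ F : Finset (↥N ⧸ S.subgroupOf N),
      ((∏ q ∈ F, f q : ↥S) : G) * ((∏ q ∈ F, f q : ↥S) : G) = 1 := by
    intro F
    have h1 : (∏ q ∈ F, f q) * (∏ q ∈ F, f q) = (1 : ↥S) := by
      rw [← Finset.prod_mul_distrib]
      apply Finset.prod_eq_one
      intro q _
      apply Subtype.ext
      exact hfsq q
    have h2 := congrArg Subtype.val h1
    simpa using h2
  have hpar : ∀ F : Finset (↥N ⧸ S.subgroupOf N),
      (((∏ q ∈ F, f q : ↥S) : G) ∈ R ↔ Even F.card) := by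
    intro F
    induction F using Finset.induction_on with
    | empty => simp
    | insert a F haF ih =>
      rw [Finset.prod_insert haF, Finset.card_insert_of_notMem haF, Subgroup.coe_mul]
      by_cases hev : Even F.card
      · have hw := ih.mpr hev
        constructor
        · intro h
          exfalso
          apply hfR a
          have := mul_mem h (inv_mem hw)
          simpa using this
        · intro h
          exfalso
          rw [Nat.even_add_one] at h
          exact h hev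
      · have hw : ((∏ q ∈ F, f q : ↥S) : G) ∉ R := fun h => hev (ih.mp h)
        constructor
        · intro _
          rw [Nat.even_add_one]
          exact hev
        · intro _
          exact hyp _ (f a).2 (hfsq a) (hfR a) _ (∏ q ∈ F, f q : ↥S).2 (hprodsq F) hw
  have hcard : ¬ Even (Finset.univ : Finset (↥N ⧸ S.subgroupOf N)).card := by
    rw [Finset.card_univ, ← Nat.card_eq_fintype_card, ← Subgroup.index_eq_card]
    intro h
    exact hodd (even_iff_two_dvd.mp h)
  have hzR : ((∏ q, f q : ↥S) : G) ∉ R := fun h => hcard ((hpar Finset.univ).mp h)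
  refine ⟨((∏ q, f q : ↥S) : G), (∏ q, f q : ↥S).2, ?_, hprodsq Finset.univ, ?_⟩
  · intro h
    apply hzR
    rw [h]
    exact one_mem R
  · intro n hn
    let σ : ↥S →* ↥S :=
      { toFun := fun x => ⟨n * (x : G) * n⁻¹, hconj n hn x x.2⟩
        map_one' := by
          apply Subtype.ext
          show n * ((1 : ↥S) : G) * n⁻¹ = ((1 : ↥S) : G)
          rw [Subgroup.coe_one]; group
        map_mul' := by
          intro x y
          apply Subtype.ext
          show n * ((x * y : ↥S) : G) * n⁻¹ = (n * (x : G) * n⁻¹) * (n * (y : G) * n⁻¹)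
          rw [Subgroup.coe_mul]; group }
    have h1 : σ (∏ q, f q) = ∏ q, σ (f q) := map_prod σ f Finset.univ
    have h2 : ∀ q, σ (f q) = f ((⟨n, hn⟩ : ↥N) • q) := by
      intro q
      induction q using QuotientGroup.induction_on with
      | H c =>
        have h3 : ((⟨n, hn⟩ : ↥N) • (QuotientGroup.mk c : ↥N ⧸ S.subgroupOf N)) =
            QuotientGroup.mk ((⟨n, hn⟩ : ↥N) * c) := rfl
        rw [h3, hf, hf]
        apply Subtype.ext
        show n * ((c : G) * t * (c : G)⁻¹) * n⁻¹ = (n * (c : G)) * t * (n * (c : G))⁻¹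
        group
    have h4 : ∏ q, σ (f q) = ∏ q, f q := by
      rw [Finset.prod_congr rfl (fun q _ => h2 q)]
      exact Equiv.prod_comp (MulAction.toPerm (⟨n, hn⟩ : ↥N)) f
    have h5 : σ (∏ q, f q) = ∏ q, f q := h1.trans h4
    exact congrArg Subtype.val h5

theorem main (hG : ∀ H : Subgroup G, H.index ≠ 2) (S : Sylow 2 G)
    (hS : IsMulCommutative (S : Subgroup G)) (r : ℕ) (hr1 : 1 ≤ r)
    (hSr : Cfsg.PRankLE 2 r (S : Subgroup G)) (R : Subgroup G) (hRS : R ≤ S)
    (hRr : r = 1 ∨ ¬ Cfsg.PRankLE 2 (r - 2) R) (t : G) (ht : orderOf t = 2) (htS : t ∈ S) :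
    ∃ n ∈ Subgroup.normalizer ((S : Subgroup G) : Set G), n * t * n⁻¹ ∈ R := by
  haveI : Fact (Nat.Prime 2) := ⟨Nat.prime_two⟩
  by_contra hcon
  push_neg at hcon
  have hcomm : ∀ a ∈ (S : Subgroup G), ∀ b ∈ (S : Subgroup G), a * b = b * a :=
    fun a ha b hb => Cfsg.Agent.Helper2.comm_of_isMulCommutative hS ha hb
  have hSN : (S : Subgroup G) ≤ Subgroup.normalizer ((S : Subgroup G) : Set G) :=
    Subgroup.le_normalizer
  have hconj : ∀ n ∈ Subgroup.normalizer ((S : Subgroup G) : Set G), ∀ x ∈ (S : Subgroup G),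
      n * x * n⁻¹ ∈ (S : Subgroup G) := fun n hn x hx => (Subgroup.mem_normalizer_iff.mp hn x).mp hx
  have hodd : ¬ 2 ∣ (S : Subgroup G).relIndex (Subgroup.normalizer ((S : Subgroup G) : Set G)) := by
    intro h
    have h1 := Subgroup.relIndex_mul_index hSN
    have h2 : ¬ 2 ∣ (S : Subgroup G).index := S.not_dvd_index
    apply h2
    rw [← h1]
    exact Dvd.dvd.mul_right h _
  have ht2 : t * t = 1 := by
    have := pow_orderOf_eq_one t
    rw [ht, pow_two] at this
    exact this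
  obtain ⟨z, hzS, hz1, hz2, hzN⟩ := orbit_prod (S : Subgroup G) R _ hcomm hSN hconj hodd
    (hyper S hS r hr1 hSr R hRS hRr) t htS ht2 hcon
  exact no_central_invol hG S hS z hz1 hz2 hzS hzN

end Cfsg.Agent.Helper2.AbSyl
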