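import Mathlib
import Cfsg.Prelude.Def_LieRecognition
import Cfsg.Agent.Helper2.Conj
import Cfsg.Agent.Helper2.Isolated

namespace Cfsg.Agent.Helper2.RankOne

variable {G Ω : Type*} [Group G] [MulAction G Ω] {a : Ω} {t : G} {Q : Subgroup G}

lemma ta_ne (hS : Cfsg.IsRankOneSetup G Ω a t Q) : t • a ≠ a := fun h => hS.not_mem h

lemma two_trans (hS : Cfsg.IsRankOneSetup G Ω a t Q) {b c d e : Ω} (hbc : b ≠ c) (hde : d ≠ e) :
    ∃ g : G, g • b = d ∧ g • c = e :=
  (MulAction.is_two_pretransitive_iff.mp hS.two_transitive) hbc hde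

lemma trans (hS : Cfsg.IsRankOneSetup G Ω a t Q) (b c : Ω) : ∃ g : G, g • b = c := by
  by_cases h : b = c
  · exact ⟨1, by rw [one_smul, h]⟩
  · obtain ⟨g, hg, _⟩ := two_trans hS h (Ne.symm h)
    exact ⟨g, hg⟩

lemma stab_trans (hS : Cfsg.IsRankOneSetup G Ω a t Q) {b c : Ω} (hb : b ≠ a) (hc : c ≠ a) :
    ∃ g ∈ MulAction.stabilizer G a, g • b = c := by
  obtain ⟨g, hg1, hg2⟩ := two_trans hS (Ne.symm hb) (Ne.symm hc)
  exact ⟨g, hg1, hg2⟩

lemma Q_fix (hS : Cfsg.IsRankOneSetup G Ω a t Q) {x : G} (hx : x ∈ Q) : x • a = a := hS.le hx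

/-- every element of `G_a` moves `t • a` like some element of `Q` -/
lemma stab_smul_eq (hS : Cfsg.IsRankOneSetup G Ω a t Q) {h : G}
    (hh : h ∈ MulAction.stabilizer G a) : ∃ x ∈ Q, h • (t • a) = x • (t • a) := by
  rw [← hS.sup_eq, Subgroup.sup_eq_closure] at hh
  have key : h ∈ MulAction.stabilizer G a ∧ ∃ x ∈ Q, h • (t • a) = x • (t • a) := by
    induction hh using Subgroup.closure_induction with
    | mem x hx =>
      rcases hx with hx | hx
      · exact ⟨hS.le hx, x, hx, rfl⟩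
      · have hx' := Subgroup.mem_inf.mp hx
        refine ⟨hx'.1, 1, one_mem _, ?_⟩
        rw [one_smul]; exact hx'.2
    | one => exact ⟨one_mem _, 1, one_mem _, rfl⟩
    | mul x y _ _ ihx ihy =>
      obtain ⟨hx, x1, hx1, ex⟩ := ihx
      obtain ⟨hy, y1, hy1, ey⟩ := ihy
      refine ⟨mul_mem hx hy, (x * y1 * x⁻¹) * x1, mul_mem (hS.conj_mem x hx y1 hy1) hx1, ?_⟩
      calc (x * y) • (t • a) = x • (y • (t • a)) := mul_smul _ _ _
        _ = x • (y1 • (t • a)) := by rw [ey]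
        _ = (x * y1 * x⁻¹) • (x • (t • a)) := by
          rw [smul_smul (x * y1 * x⁻¹) x (t • a), smul_smul x y1 (t • a)]
          congr 1
          group
        _ = (x * y1 * x⁻¹) • (x1 • (t • a)) := by rw [ex]
        _ = ((x * y1 * x⁻¹) * x1) • (t • a) := (mul_smul _ _ _).symm
    | inv x _ ih =>
      obtain ⟨hx, x1, hx1, ex⟩ := ih
      refine ⟨inv_mem hx, x⁻¹ * x1⁻¹ * x, ?_, ?_⟩
      · have := hS.conj_mem x⁻¹ (inv_mem hx) x1⁻¹ (inv_mem hx1)
        rwa [inv_inv] at this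
      · rw [mul_smul, mul_smul, ex, inv_smul_smul]
  exact key.2

lemma Q_trans (hS : Cfsg.IsRankOneSetup G Ω a t Q) {b c : Ω} (hb : b ≠ a) (hc : c ≠ a) :
    ∃ x ∈ Q, x • b = c := by
  have h0 : ∀ c : Ω, c ≠ a → ∃ x ∈ Q, x • (t • a) = c := by
    intro c hc
    obtain ⟨h, hh, hc'⟩ := stab_trans hS (ta_ne hS) hc
    obtain ⟨x, hx, e⟩ := stab_smul_eq hS hh
    exact ⟨x, hx, e ▸ hc'⟩
  obtain ⟨x, hx, ex⟩ := h0 b hb
  obtain ⟨y, hy, ey⟩ := h0 c hc
  refine ⟨y * x⁻¹, mul_mem hy (inv_mem hx), ?_⟩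
  rw [mul_smul, ← ex, inv_smul_smul, ey]

lemma Q_free (hS : Cfsg.IsRankOneSetup G Ω a t Q) {x : G} (hx : x ∈ Q) {b : Ω} (hb : b ≠ a)
    (hxb : x • b = b) : x = 1 := by
  obtain ⟨y, hy, e⟩ := Q_trans hS (ta_ne hS) hb
  have h1 : y⁻¹ * x * y ∈ Q ⊓ MulAction.stabilizer G (t • a) := by
    refine Subgroup.mem_inf.mpr ⟨mul_mem (mul_mem (inv_mem hy) hx) hy, ?_⟩
    rw [MulAction.mem_stabilizer_iff, mul_smul, mul_smul, e, hxb, ← e, inv_smul_smul]
  rw [hS.inf_eq_bot, Subgroup.mem_bot] at h1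
  have : x = y * (y⁻¹ * x * y) * y⁻¹ := by group
  rw [this, h1]; group

lemma Q_unique (hS : Cfsg.IsRankOneSetup G Ω a t Q) {b c : Ω} (hb : b ≠ a) (hc : c ≠ a) :
    ∃! x : Q, (x : G) • b = c := by
  obtain ⟨x, hx, e⟩ := Q_trans hS hb hc
  refine ⟨⟨x, hx⟩, e, ?_⟩
  rintro ⟨y, hy⟩ ey
  have ey' : y • b = c := ey
  have h1 : x⁻¹ * y = 1 := by
    apply Q_free hS (mul_mem (inv_mem hx) hy) hb
    rw [mul_smul, ey', ← e, inv_smul_smul]
  apply Subtype.ext
  show y = x
  have : y = x * (x⁻¹ * y) := by group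
  rw [this, h1, mul_one]

/-- a nontrivial element of `Q` fixes only `a` -/
lemma fixed_eq_of_mem_Q (hS : Cfsg.IsRankOneSetup G Ω a t Q) {x : G} (hx : x ∈ Q) (hx1 : x ≠ 1)
    {b : Ω} (hb : x • b = b) : b = a := by
  by_contra hne
  exact hx1 (Q_free hS hx hne hb)

lemma finite_omega [Finite G] (hS : Cfsg.IsRankOneSetup G Ω a t Q) : Finite Ω :=
  Finite.of_surjective (fun g : G => g • a) (fun c => trans hS a c)

lemma card_omega [Finite G] (hS : Cfsg.IsRankOneSetup G Ω a t Q) :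
    Nat.card Ω = Nat.card Q + 1 := by
  classical
  have hbij : Function.Bijective (fun o : Option Q => match o with
      | none => a
      | some x => (x : G) • (t • a)) := by
    constructor
    · rintro (_ | x) (_ | y) h
      · rfl
      · exfalso
        have h' : a = (y : G) • (t • a) := h
        apply ta_ne hS
        have : (y : G)⁻¹ • a = t • a := by rw [inv_smul_eq_iff]; exact h'
        rw [← this]
        exact Q_fix hS (inv_mem y.2)
      · exfalso
        have h' : (x : G) • (t • a) = a := h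
        apply ta_ne hS
        have : (x : G)⁻¹ • a = t • a := by rw [inv_smul_eq_iff]; exact h'.symm
        rw [← this]
        exact Q_fix hS (inv_mem x.2)
      · have h' : (x : G) • (t • a) = (y : G) • (t • a) := h
        have h1 : (y : G)⁻¹ * (x : G) = 1 := by
          apply Q_free hS (mul_mem (inv_mem y.2) x.2) (ta_ne hS)
          rw [mul_smul, h', inv_smul_smul]
        congr 1
        apply Subtype.ext
        have : (x : G) = (y : G) * ((y : G)⁻¹ * (x : G)) := by group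
        rw [this, h1, mul_one]
    · intro c
      by_cases hc : c = a
      · exact ⟨none, hc.symm⟩
      · obtain ⟨x, hx, e⟩ := Q_trans hS (ta_ne hS) hc
        exact ⟨some ⟨x, hx⟩, e⟩
  rw [← Nat.card_congr (Equiv.ofBijective _ hbij), Finite.card_option]

lemma card_stab [Finite G] (hS : Cfsg.IsRankOneSetup G Ω a t Q) :
    Nat.card (MulAction.stabilizer G a) =
      Nat.card Q * Nat.card ↥(MulAction.stabilizer G a ⊓ MulAction.stabilizer G (t • a)) := by
  classical
  have hbij : Function.Bijective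
      (fun p : Q × ↥(MulAction.stabilizer G a ⊓ MulAction.stabilizer G (t • a)) =>
        (⟨(p.1 : G) * (p.2 : G),
          mul_mem (hS.le p.1.2) (Subgroup.mem_inf.mp p.2.2).1⟩ : MulAction.stabilizer G a)) := by
    constructor
    · rintro ⟨⟨x, hx⟩, ⟨d, hd⟩⟩ ⟨⟨y, hy⟩, ⟨e, he⟩⟩ h
      have h' : x * d = y * e := congrArg Subtype.val h
      have h1 : y⁻¹ * x = e * d⁻¹ := by
        have : y⁻¹ * x = y⁻¹ * (x * d) * d⁻¹ := by group
        rw [this, h']; group
      have h2 : y⁻¹ * x ∈ Q ⊓ MulAction.stabilizer G (t • a) := by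
        refine Subgroup.mem_inf.mpr ⟨mul_mem (inv_mem hy) hx, ?_⟩
        rw [h1]
        exact mul_mem (Subgroup.mem_inf.mp he).2 (inv_mem (Subgroup.mem_inf.mp hd).2)
      rw [hS.inf_eq_bot, Subgroup.mem_bot] at h2
      have hxy : x = y := by
        have : x = y * (y⁻¹ * x) := by group
        rw [this, h2, mul_one]
      subst hxy
      have hde : d = e := mul_left_cancel h'
      subst hde
      rfl
    · rintro ⟨h, hh⟩
      obtain ⟨x, hx, e⟩ := stab_smul_eq hS hh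
      refine ⟨⟨⟨x, hx⟩, ⟨x⁻¹ * h, ?_⟩⟩, ?_⟩
      · refine Subgroup.mem_inf.mpr ⟨mul_mem (inv_mem (hS.le hx)) hh, ?_⟩
        rw [MulAction.mem_stabilizer_iff, mul_smul, e, inv_smul_smul]
      · apply Subtype.ext
        show x * (x⁻¹ * h) = h
        group
  rw [← Nat.card_congr (Equiv.ofBijective _ hbij), Nat.card_prod]

lemma card_G [Finite G] (hS : Cfsg.IsRankOneSetup G Ω a t Q) :
    Nat.card G = Nat.card Q *
      Nat.card ↥(MulAction.stabilizer G a ⊓ MulAction.stabilizer G (t • a)) * (Nat.card Q + 1) := by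
  have h1 := (MulAction.stabilizer G a).card_mul_index
  have h2 : (MulAction.stabilizer G a).index = Nat.card Ω := by
    rw [MulAction.index_stabilizer]
    have : MulAction.orbit G a = Set.univ := by
      ext c
      simp only [Set.mem_univ, iff_true]
      obtain ⟨g, hg⟩ := trans hS a c
      exact ⟨g, hg⟩
    rw [this, Set.ncard_univ]
  rw [h2, card_omega hS, card_stab hS] at h1
  exact h1.symm

lemma exists_sylow_le [Finite G] (hS : Cfsg.IsRankOneSetup G Ω a t Q) :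
    ∃ P : Sylow 2 G, (P : Subgroup G) ≤ Q := by
  obtain ⟨S⟩ : Nonempty (Sylow 2 Q) := inferInstance
  have hidx : ¬ 2 ∣ Q.index := by
    have h1 := Q.card_mul_index
    rw [card_G hS, mul_assoc] at h1
    have h2 : Q.index =
        Nat.card ↥(MulAction.stabilizer G a ⊓ MulAction.stabilizer G (t • a)) * (Nat.card Q + 1) :=
      Nat.eq_of_mul_eq_mul_left Nat.card_pos h1
    rw [h2]
    have hodd : Odd (Nat.card ↥(MulAction.stabilizer G a ⊓ MulAction.stabilizer G (t • a)) *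
        (Nat.card Q + 1)) := hS.odd_card.mul hS.even_card.add_one
    intro h
    exact (Nat.not_even_iff_odd.mpr hodd) (even_iff_two_dvd.mpr h)
  have h3 : ¬ 2 ∣ ((S : Subgroup Q).map Q.subtype).index := by
    rw [Subgroup.index_map_subtype]
    intro h
    rcases (Nat.prime_two.dvd_mul).mp h with h | h
    · exact S.not_dvd_index h
    · exact hidx h
  refine ⟨(S.2.map Q.subtype).toSylow h3, ?_⟩
  intro x hx
  obtain ⟨y, _, rfl⟩ := hx
  exact y.2

lemma bruhat (hS : Cfsg.IsRankOneSetup G Ω a t Q) {g : G} (hg : g ∉ MulAction.stabilizer G a) :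
    ∃! p : G × G, p.1 ∈ MulAction.stabilizer G a ∧ p.2 ∈ Q ∧ g = p.1 * t * p.2 := by
  have hga : g⁻¹ • a ≠ a := by
    intro h
    apply hg
    rw [MulAction.mem_stabilizer_iff]
    nth_rewrite 1 [← h]
    rw [smul_inv_smul]
  obtain ⟨x, hx, e⟩ := Q_trans hS hga (ta_ne hS)
  have htt : t⁻¹ = t := inv_eq_of_mul_eq_one_left hS.mul_self
  refine ⟨(g * x⁻¹ * t, x), ⟨?_, hx, ?_⟩, ?_⟩
  · rw [MulAction.mem_stabilizer_iff, mul_smul, mul_smul, ← e, inv_smul_smul, smul_inv_smul]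
  · show g = g * x⁻¹ * t * t * x
    rw [mul_assoc (g * x⁻¹) t t, hS.mul_self]; group
  · rintro ⟨h, y⟩ ⟨hh, hy, e'⟩
    have e'' : g = h * t * y := e'
    have hh' : h • a = a := hh
    have h1 : y • (g⁻¹ • a) = t • a := by
      rw [e'']
      have : (h * t * y)⁻¹ = y⁻¹ * t⁻¹ * h⁻¹ := by group
      rw [this, htt, mul_smul, mul_smul, smul_inv_smul]
      congr 1
      rw [inv_smul_eq_iff, hh']
    have h2 : x⁻¹ * y = 1 := by
      apply Q_free hS (mul_mem (inv_mem hx) hy) hga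
      rw [mul_smul, h1, ← e, inv_smul_smul]
    have hyx : y = x := by
      have : y = x * (x⁻¹ * y) := by group
      rw [this, h2, mul_one]
    subst hyx
    have hh2 : h = g * y⁻¹ * t := by
      rw [e'']
      have : h * t * y * y⁻¹ * t = h * (t * t) := by group
      rw [this, hS.mul_self, mul_one]
    rw [hh2]

/-- every involution of `G` fixes exactly one point -/
lemma invol_fixed [Finite G] (hS : Cfsg.IsRankOneSetup G Ω a t Q) {u : G} (hu1 : u ≠ 1)
    (hu2 : u * u = 1) : ∃ b : Ω, u • b = b ∧ ∀ c : Ω, u • c = c → c = b := by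
  obtain ⟨P, hP⟩ := exists_sylow_le hS
  have hord : orderOf u = 2 := orderOf_eq_prime (by rw [pow_two]; exact hu2) hu1
  have hpg : IsPGroup 2 (Subgroup.zpowers u) := by
    apply IsPGroup.of_card (n := 1)
    rw [Nat.card_zpowers, hord, pow_one]
  obtain ⟨g, hg⟩ := Cfsg.Agent.Helper2.pgroup_exists_conj_le_sylow hpg P
  have hx : g * u * g⁻¹ ∈ Q := hP (hg u (Subgroup.mem_zpowers u))
  have hx1 : g * u * g⁻¹ ≠ 1 := by
    intro h
    apply hu1
    have : u = g⁻¹ * (g * u * g⁻¹) * g := by group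
    rw [this, h]; group
  refine ⟨g⁻¹ • a, ?_, ?_⟩
  · have h1 : (g * u * g⁻¹) • a = a := Q_fix hS hx
    rw [mul_smul, mul_smul] at h1
    rw [eq_inv_smul_iff]
    exact h1
  · intro c hc
    have h1 : (g * u * g⁻¹) • (g • c) = g • c := by
      rw [mul_smul, mul_smul, inv_smul_smul, hc]
    have := fixed_eq_of_mem_Q hS hx hx1 h1
    rw [← this, inv_smul_smul]

lemma exists_ne_one (hS : Cfsg.IsRankOneSetup G Ω a t Q) : ∃ x ∈ Q, x ≠ 1 := by
  by_contra hcon
  push_neg at hcon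
  have h1 : Q = ⊥ := (Subgroup.eq_bot_iff_forall _).mpr hcon
  have h2 := hS.even_card
  rw [h1, Subgroup.card_bot] at h2
  exact absurd h2 (by decide)

lemma conj_ne_one {g x : G} (hx : x ≠ 1) : g * x * g⁻¹ ≠ 1 := by
  intro h
  apply hx
  have : x = g⁻¹ * (g * x * g⁻¹) * g := by group
  rw [this, h]; group

lemma conj_mul_self {g x : G} (hx : x * x = 1) : (g * x * g⁻¹) * (g * x * g⁻¹) = 1 := by
  have : (g * x * g⁻¹) * (g * x * g⁻¹) = g * (x * x) * g⁻¹ := by group
  rw [this, hx]; group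

/-- two involutions with product of even order commute with a common involution -/
lemma invol_central_of_even [Finite G] {s u : G} (hs : s * s = 1) (hu : u * u = 1)
    (hev : Even (orderOf (s * u))) : ∃ z : G, z ≠ 1 ∧ z * z = 1 ∧ s * z = z * s ∧ u * z = z * u := by
  obtain ⟨m, hm⟩ := hev
  have hpos : 0 < orderOf (s * u) := orderOf_pos _
  have hm0 : m ≠ 0 := by omega
  have hz2 : (s * u) ^ m * (s * u) ^ m = 1 := by
    rw [← pow_add, ← hm]; exact pow_orderOf_eq_one _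
  have hzinv : ((s * u) ^ m)⁻¹ = (s * u) ^ m := inv_eq_of_mul_eq_one_left hz2
  refine ⟨(s * u) ^ m, pow_ne_one_of_lt_orderOf hm0 (by omega), hz2, ?_, ?_⟩
  · have := Cfsg.Agent.Helper2.invol_mul_pow_left hs hu m
    rw [hzinv] at this
    exact this
  · have := Cfsg.Agent.Helper2.invol_mul_pow_right hs hu m
    rw [hzinv] at this
    exact this

/-- an involution of `G_a` and an involution outside `G_a` have product of odd order -/
lemma invol_prod_odd [Finite G] (hS : Cfsg.IsRankOneSetup G Ω a t Q) {s u : G}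
    (hs : s ∈ MulAction.stabilizer G a) (hs1 : s ≠ 1) (hs2 : s * s = 1)
    (hu : u ∉ MulAction.stabilizer G a) (hu2 : u * u = 1) : Odd (orderOf (s * u)) := by
  by_contra hodd
  rw [Nat.not_odd_iff_even] at hodd
  obtain ⟨z, hz1, hz2, hsz, huz⟩ := invol_central_of_even hs2 hu2 hodd
  obtain ⟨c, hc, hcu⟩ := invol_fixed hS hz1 hz2
  obtain ⟨b, hb, hbu⟩ := invol_fixed hS hs1 hs2
  have h1 : s • c = c := by
    apply hcu
    rw [← mul_smul, ← hsz, mul_smul, hc]
  have h2 : u • c = c := by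
    apply hcu
    rw [← mul_smul, ← huz, mul_smul, hc]
  have h3 : c = a := (hbu c h1).trans (hbu a hs).symm
  apply hu
  rw [MulAction.mem_stabilizer_iff, ← h3]; exact h2

/-- involutions with different fixed points are conjugate -/
lemma invol_conj_of_ne [Finite G] (hS : Cfsg.IsRankOneSetup G Ω a t Q) {u v : G}
    (hu1 : u ≠ 1) (hu2 : u * u = 1) (hv1 : v ≠ 1) (hv2 : v * v = 1) {b c : Ω}
    (hb : u • b = b) (hc : v • c = c) (hbc : b ≠ c) : ∃ g : G, g * u * g⁻¹ = v := by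
  obtain ⟨g, hg⟩ := trans hS b a
  have hu' : g * u * g⁻¹ ∈ MulAction.stabilizer G a := by
    rw [MulAction.mem_stabilizer_iff, mul_smul, mul_smul, ← hg, inv_smul_smul, hb]
  have hv' : g * v * g⁻¹ ∉ MulAction.stabilizer G a := by
    intro h
    rw [MulAction.mem_stabilizer_iff, mul_smul, mul_smul, ← hg, inv_smul_smul] at h
    have h' : v • b = b := smul_left_cancel g h
    obtain ⟨c', _, hcu⟩ := invol_fixed hS hv1 hv2
    exact hbc ((hcu b h').trans (hcu c hc).symm)
  have hodd := invol_prod_odd hS hu' (conj_ne_one hu1) (conj_mul_self hu2) hv' (conj_mul_self hv2)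
  obtain ⟨k, hk⟩ := Cfsg.Agent.Helper2.invol_conj_of_odd (conj_mul_self hu2) (conj_mul_self hv2) hodd
  obtain ⟨w, hw⟩ : ∃ w : G, w = (g * u * g⁻¹ * (g * v * g⁻¹)) ^ k := ⟨_, rfl⟩
  rw [← hw] at hk
  refine ⟨g⁻¹ * w * g, ?_⟩
  have : g⁻¹ * w * g * u * (g⁻¹ * w * g)⁻¹ = g⁻¹ * (w * (g * u * g⁻¹) * w⁻¹) * g := by group
  rw [this, hk]; group

/-- all involutions are conjugate -/
lemma invol_conj [Finite G] (hS : Cfsg.IsRankOneSetup G Ω a t Q) {u v : G}
    (hu1 : u ≠ 1) (hu2 : u * u = 1) (hv1 : v ≠ 1) (hv2 : v * v = 1) : ∃ g : G, g * u * g⁻¹ = v := by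
  obtain ⟨b, hb, _⟩ := invol_fixed hS hu1 hu2
  obtain ⟨c, hc, _⟩ := invol_fixed hS hv1 hv2
  by_cases hbc : b = c
  · obtain ⟨d, hd⟩ : ∃ d : Ω, d ≠ b := by
      by_cases hba : b = a
      · exact ⟨t • a, by rw [hba]; exact ta_ne hS⟩
      · exact ⟨a, Ne.symm hba⟩
    obtain ⟨h, hh⟩ := trans hS b d
    have hwd : (h * u * h⁻¹) • d = d := by
      rw [mul_smul, mul_smul, ← hh, inv_smul_smul, hb]
    obtain ⟨g, hg⟩ := invol_conj_of_ne hS (conj_ne_one (g := h) hu1) (conj_mul_self hu2) hv1 hv2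
      hwd hc (by rw [← hbc]; exact hd)
    refine ⟨g * h, ?_⟩
    rw [← hg]; group
  · exact invol_conj_of_ne hS hu1 hu2 hv1 hv2 hb hc hbc

end Cfsg.Agent.Helper2.RankOne
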