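import Mathlib
import Cfsg.Agent.Helper2.RankOne

/-! Groups acting on a set so that every involution fixes exactly one point. -/

namespace Cfsg.Agent.Helper2.UF

variable {G Ω : Type*} [Group G] [MulAction G Ω]

lemma ne_one_of_orderOf_two {u : G} (hu : orderOf u = 2) : u ≠ 1 := by
  rintro rfl
  rw [orderOf_one] at hu
  exact absurd hu (by decide)

lemma mul_self_of_orderOf_two {u : G} (hu : orderOf u = 2) : u * u = 1 := by
  have := pow_orderOf_eq_one u
  rwa [hu, pow_two] at this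

lemma orderOf_two_of {u : G} (hu1 : u ≠ 1) (hu2 : u * u = 1) : orderOf u = 2 :=
  orderOf_eq_prime (by rw [pow_two]; exact hu2) hu1

lemma fix_eq (hF : ∀ u : G, u ≠ 1 → u * u = 1 → ∃ b : Ω, u • b = b ∧ ∀ c : Ω, u • c = c → c = b)
    {u : G} (hu1 : u ≠ 1) (hu2 : u * u = 1) {b c : Ω} (hb : u • b = b) (hc : u • c = c) :
    b = c := by
  obtain ⟨p, _, hp⟩ := hF u hu1 hu2
  exact (hp b hb).trans (hp c hc).symm

/-- involutions with distinct fixed points have a product of odd order -/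
lemma prod_odd [Finite G]
    (hF : ∀ u : G, u ≠ 1 → u * u = 1 → ∃ b : Ω, u • b = b ∧ ∀ c : Ω, u • c = c → c = b)
    {s u : G} (hs1 : s ≠ 1) (hs2 : s * s = 1) (hu1 : u ≠ 1) (hu2 : u * u = 1) {x y : Ω}
    (hsx : s • x = x) (huy : u • y = y) (hxy : x ≠ y) : Odd (orderOf (s * u)) := by
  by_contra hodd
  rw [Nat.not_odd_iff_even] at hodd
  obtain ⟨z, hz1, hz2, hsz, huz⟩ := Cfsg.Agent.Helper2.RankOne.invol_central_of_even hs2 hu2 hodd
  obtain ⟨c, hc, hcu⟩ := hF z hz1 hz2
  have h1 : s • c = c := by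
    apply hcu
    rw [← mul_smul, ← hsz, mul_smul, hc]
  have h2 : u • c = c := by
    apply hcu
    rw [← mul_smul, ← huz, mul_smul, hc]
  exact hxy ((fix_eq hF hs1 hs2 hsx h1).trans (fix_eq hF hu1 hu2 h2 huy))

/-- an involution conjugating `u` (fixing `y`) to `s'` (fixing `x ≠ y`), inside `⟨s', u⟩` -/
lemma exists_conj [Finite G]
    (hF : ∀ u : G, u ≠ 1 → u * u = 1 → ∃ b : Ω, u • b = b ∧ ∀ c : Ω, u • c = c → c = b)
    {s' u : G} (hs'1 : s' ≠ 1) (hs'2 : s' * s' = 1) (hu1 : u ≠ 1) (hu2 : u * u = 1) {x y : Ω}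
    (hs'x : s' • x = x) (huy : u • y = y) (hxy : x ≠ y) :
    ∃ v : G, v * v = 1 ∧ v * u * v = s' ∧
      (∀ g : G, g * s' = s' * g → g * u = u * g → g * v = v * g) := by
  have hodd := prod_odd hF hs'1 hs'2 hu1 hu2 hs'x huy hxy
  obtain ⟨j, hj⟩ := Cfsg.Agent.Helper2.invol_conj_of_odd hs'2 hu2 hodd
  obtain ⟨w, hw⟩ : ∃ w : G, w = (s' * u) ^ j := ⟨_, rfl⟩
  rw [← hw] at hj
  have hinv : s' * w = w⁻¹ * s' := by
    rw [hw]; exact Cfsg.Agent.Helper2.invol_mul_pow_left hs'2 hu2 j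
  refine ⟨w * s', ?_, ?_, ?_⟩
  · calc w * s' * (w * s') = w * (s' * w) * s' := by group
      _ = w * (w⁻¹ * s') * s' := by rw [hinv]
      _ = s' * s' := by group
      _ = 1 := hs'2
  · calc w * s' * u * (w * s') = w * s' * (w * s' * w⁻¹) * (w * s') := by rw [hj]
      _ = w * (s' * w) * (s' * s') := by group
      _ = w * (w⁻¹ * s') * 1 := by rw [hinv, hs'2]
      _ = s' := by group
  · intro g hgs hgu
    have hgw : g * w = w * g := by
      rw [hw]
      have h1 : Commute g (s' * u) := Commute.mul_right hgs hgu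
      exact (h1.pow_right j).eq
    calc g * (w * s') = (g * w) * s' := by group
      _ = w * g * s' := by rw [hgw]
      _ = w * (g * s') := by group
      _ = w * (s' * g) := by rw [hgs]
      _ = w * s' * g := by group

lemma conj_swap
    (hF : ∀ u : G, u ≠ 1 → u * u = 1 → ∃ b : Ω, u • b = b ∧ ∀ c : Ω, u • c = c → c = b)
    {s' u v : G} (hu1 : u ≠ 1) (hu2 : u * u = 1) {x y : Ω}
    (hs'x : s' • x = x) (huy : u • y = y)
    (hv2 : v * v = 1) (hv : v * u * v = s') : v • x = y ∧ v • y = x := by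
  have h1 : u * v = v * s' := by
    rw [← hv]
    calc u * v = (v * v) * u * v := by rw [hv2, one_mul]
      _ = v * (v * u * v) := by group
  have h2 : u • (v • x) = v • x := by
    rw [← mul_smul, h1, mul_smul, hs'x]
  have h3 : v • x = y := fix_eq hF hu1 hu2 h2 huy
  refine ⟨h3, ?_⟩
  rw [← h3, ← mul_smul, hv2, one_smul]

lemma conj_unique [Finite G]
    (hF : ∀ u : G, u ≠ 1 → u * u = 1 → ∃ b : Ω, u • b = b ∧ ∀ c : Ω, u • c = c → c = b)
    {s' u v v' : G} (hs'1 : s' ≠ 1) (hs'2 : s' * s' = 1) (hu1 : u ≠ 1) (hu2 : u * u = 1)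
    {x y : Ω} (hs'x : s' • x = x) (huy : u • y = y) (hxy : x ≠ y)
    (hv2 : v * v = 1) (hv : v * u * v = s') (hv'2 : v' * v' = 1) (hv' : v' * u * v' = s') :
    v = v' := by
  obtain ⟨v₀, hv₀2, hv₀, hcomm⟩ := exists_conj hF hs'1 hs'2 hu1 hu2 hs'x huy hxy
  have key : ∀ v : G, v * v = 1 → v * u * v = s' → v = v₀ := by
    intro v hv2 hv
    obtain ⟨ha1, hta1⟩ := conj_swap hF hu1 hu2 hs'x huy hv2 hv
    obtain ⟨ha0, hta0⟩ := conj_swap hF hu1 hu2 hs'x huy hv₀2 hv₀
    have hdx : (v * v₀) • x = x := by rw [mul_smul, ha0, hta1]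
    have hdy : (v * v₀) • y = y := by rw [mul_smul, hta0, ha1]
    have r1 : v₀ * s' = u * v₀ := by
      rw [← hv₀]
      calc v₀ * (v₀ * u * v₀) = (v₀ * v₀) * u * v₀ := by group
        _ = u * v₀ := by rw [hv₀2, one_mul]
    have r2 : v * u = s' * v := by
      rw [← hv]
      calc v * u = v * u * (v * v) := by rw [hv2, mul_one]
        _ = v * u * v * v := by group
    have r3 : v₀ * u = s' * v₀ := by
      rw [← hv₀]
      calc v₀ * u = v₀ * u * (v₀ * v₀) := by rw [hv₀2, mul_one]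
        _ = v₀ * u * v₀ * v₀ := by group
    have r4 : v * s' = u * v := by
      rw [← hv]
      calc v * (v * u * v) = (v * v) * u * v := by group
        _ = u * v := by rw [hv2, one_mul]
    have hxs : (v * v₀) * s' = s' * (v * v₀) := by
      calc v * v₀ * s' = v * (v₀ * s') := by group
        _ = v * (u * v₀) := by rw [r1]
        _ = (v * u) * v₀ := by group
        _ = s' * v * v₀ := by rw [r2]
        _ = s' * (v * v₀) := by group
    have hxu : (v * v₀) * u = u * (v * v₀) := by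
      calc v * v₀ * u = v * (v₀ * u) := by group
        _ = v * (s' * v₀) := by rw [r3]
        _ = (v * s') * v₀ := by group
        _ = u * v * v₀ := by rw [r4]
        _ = u * (v * v₀) := by group
    have hxv₀ := hcomm _ hxs hxu
    have hx2 : (v * v₀) * (v * v₀) = 1 := by
      calc (v * v₀) * (v * v₀) = (v * v₀) * (v * v₀) * (v₀ * v₀) := by rw [hv₀2, mul_one]
        _ = (v * v₀) * ((v * v₀) * v₀) * v₀ := by group
        _ = (v * v₀) * (v₀ * (v * v₀)) * v₀ := by rw [hxv₀]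
        _ = v * (v₀ * v₀) * v * (v₀ * v₀) := by group
        _ = v * v := by rw [hv₀2, mul_one, mul_one]
        _ = 1 := hv2
    have hx1 : v * v₀ = 1 := by
      by_contra hne
      exact hxy (fix_eq hF hne hx2 hdx hdy)
    calc v = (v * v₀) * v₀ := by rw [mul_assoc, hv₀2, mul_one]
      _ = v₀ := by rw [hx1, one_mul]
  exact (key v hv2 hv).trans (key v' hv'2 hv').symm

end Cfsg.Agent.Helper2.UF
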