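import Mathlib
import Cfsg.Prelude.Def_Involutions
import Cfsg.Agent.Lead.StronglyEmb
import Cfsg.Agent.Helper2.UniqFix

/-! Strongly embedded subgroups: every involution fixes exactly one coset. -/

namespace Cfsg.Agent.Helper2.SE

variable {G : Type*} [Group G]

lemma orderOf_conj_two {g u : G} (hu : orderOf u = 2) : orderOf (g * u * g⁻¹) = 2 :=
  Cfsg.Agent.Helper2.UF.orderOf_two_of
    (Cfsg.Agent.Helper2.RankOne.conj_ne_one (Cfsg.Agent.Helper2.UF.ne_one_of_orderOf_two hu))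
    (Cfsg.Agent.Helper2.RankOne.conj_mul_self (Cfsg.Agent.Helper2.UF.mul_self_of_orderOf_two hu))

lemma orderOf_conj_two' {g u : G} (hu : orderOf u = 2) : orderOf (g⁻¹ * u * g) = 2 := by
  have := orderOf_conj_two (g := g⁻¹) hu
  rwa [inv_inv] at this

lemma smul_mk_eq_iff {H : Subgroup G} (u k : G) :
    u • (k : G ⧸ H) = (k : G ⧸ H) ↔ k⁻¹ * u * k ∈ H := by
  have h1 : u • (k : G ⧸ H) = ((u * k : G) : G ⧸ H) := rfl
  rw [h1, QuotientGroup.eq]
  have h2 : (u * k)⁻¹ * k = (k⁻¹ * u * k)⁻¹ := by group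
  rw [h2, inv_mem_iff]

lemma mem_iff_fix_one {H : Subgroup G} (u : G) :
    u ∈ H ↔ u • ((1 : G) : G ⧸ H) = ((1 : G) : G ⧸ H) := by
  rw [smul_mk_eq_iff]
  simp

variable [Finite G] {H : Subgroup G}

lemma conj_mem (hH : Cfsg.IsStronglyEmbedded H) {g t : G} (ht : t ∈ H) (ht2 : orderOf t = 2)
    (hg : g * t * g⁻¹ ∈ H) : g ∈ H :=
  (Cfsg.Agent.Lead.stronglyEmbedded_iff H hH.1 hH.2.1).mp hH g t ht ht2 hg

/-- every involution is conjugate into a strongly embedded subgroup -/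
lemma exists_conj_mem (hH : Cfsg.IsStronglyEmbedded H) {u : G} (hu : orderOf u = 2) :
    ∃ g : G, g * u * g⁻¹ ∈ H := by
  obtain ⟨t₀, ht₀, ht₀2⟩ := Cfsg.Agent.Lead.exists_invol_of_even_card hH.2.1
  have ht₀sq := Cfsg.Agent.Helper2.UF.mul_self_of_orderOf_two ht₀2
  have husq := Cfsg.Agent.Helper2.UF.mul_self_of_orderOf_two hu
  by_cases hodd : Odd (orderOf (t₀ * u))
  · obtain ⟨k, hk⟩ := Cfsg.Agent.Helper2.invol_conj_of_odd ht₀sq husq hodd
    obtain ⟨w, hw⟩ : ∃ w : G, w = (t₀ * u) ^ k := ⟨_, rfl⟩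
    rw [← hw] at hk
    refine ⟨w⁻¹, ?_⟩
    have e : w⁻¹ * u * w⁻¹⁻¹ = t₀ := by
      rw [← hk]; group
    rw [e]; exact ht₀
  · rw [Nat.not_odd_iff_even] at hodd
    obtain ⟨z, hz1, hz2, htz, huz⟩ :=
      Cfsg.Agent.Helper2.RankOne.invol_central_of_even ht₀sq husq hodd
    have hzH : z ∈ H := by
      apply conj_mem hH ht₀ ht₀2
      have e : z * t₀ * z⁻¹ = t₀ := by rw [← htz]; group
      rw [e]; exact ht₀
    have huH : u ∈ H := by
      apply conj_mem hH hzH (Cfsg.Agent.Helper2.UF.orderOf_two_of hz1 hz2)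
      have e : u * z * u⁻¹ = z := by rw [huz]; group
      rw [e]; exact hzH
    exact ⟨1, by simpa using huH⟩

/-- every involution fixes exactly one coset of a strongly embedded subgroup -/
lemma uniqfix (hH : Cfsg.IsStronglyEmbedded H) :
    ∀ u : G, u ≠ 1 → u * u = 1 →
      ∃ b : G ⧸ H, u • b = b ∧ ∀ c : G ⧸ H, u • c = c → c = b := by
  intro u hu1 hu2
  have hu := Cfsg.Agent.Helper2.UF.orderOf_two_of hu1 hu2
  obtain ⟨g, hg⟩ := exists_conj_mem hH hu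
  refine ⟨((g⁻¹ : G) : G ⧸ H), ?_, ?_⟩
  · rw [smul_mk_eq_iff, inv_inv]; exact hg
  · intro c hc
    induction c using QuotientGroup.induction_on with
    | H k =>
    rw [smul_mk_eq_iff] at hc
    rw [QuotientGroup.eq]
    apply conj_mem hH hg (orderOf_conj_two hu)
    have e : k⁻¹ * g⁻¹ * (g * u * g⁻¹) * (k⁻¹ * g⁻¹)⁻¹ = k⁻¹ * u * k := by group
    rw [e]; exact hc

end Cfsg.Agent.Helper2.SE
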