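import Mathlib
import Cfsg.Prelude.Def_Involutions
import Cfsg.Agent.Helper2.StrEmbFix
import Cfsg.Agent.S1226

/-! Groups in which the centralizer of every involution is an elementary abelian 2-group. -/

namespace Cfsg.Agent.Helper2.CIT

variable {G : Type*} [Group G] [Finite G]

/-- basic structure of the Sylow 2-subgroup -/
theorem basic (T : Sylow 2 G) (hnc : ¬ IsCyclic (T : Subgroup G))
    (hC : ∀ t : G, orderOf t = 2 → IsMulCommutative (Subgroup.centralizer ({t} : Set G)) ∧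
      ∀ c ∈ Subgroup.centralizer ({t} : Set G), c ^ 2 = 1) :
    (∀ x ∈ (T : Subgroup G), ∀ y ∈ (T : Subgroup G), x * y = y * x) ∧
    (∀ z ∈ (T : Subgroup G), z * z = 1) ∧
    (∀ z ∈ (T : Subgroup G), z ≠ 1 → Subgroup.centralizer ({z} : Set G) = (T : Subgroup G)) ∧
    (∀ z ∈ Subgroup.normalizer ((T : Subgroup G) : Set G), orderOf z = 2 →
      z ∈ (T : Subgroup G)) ∧
    (∃ t0 ∈ (T : Subgroup G), orderOf t0 = 2) := by
  classical
  have : Fact (Nat.Prime 2) := ⟨Nat.prime_two⟩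
  have hTcard : 2 ∣ Nat.card (T : Subgroup G) := by
    rcases (T.isPGroup').card_eq_or_dvd with h | h
    · exfalso
      apply hnc
      have : Subsingleton (T : Subgroup G) := (Nat.card_eq_one_iff_unique.mp h).1
      exact isCyclic_of_subsingleton
    · exact h
  have hexp2 : ∀ t : G, orderOf t = 2 → IsPGroup 2 (Subgroup.centralizer ({t} : Set G)) := by
    intro t ht c
    refine ⟨1, ?_⟩
    have := (hC t ht).2 c.1 c.2
    exact Subtype.ext (by simpa using this)
  obtain ⟨t0, ht0T, ht0, hcent⟩ : ∃ t0 : G, t0 ∈ (T : Subgroup G) ∧ orderOf t0 = 2 ∧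
      ∀ x ∈ (T : Subgroup G), x * t0 = t0 * x := by
    have : Nontrivial (T : Subgroup G) := by
      rw [← Finite.one_lt_card_iff_nontrivial]
      have := Nat.le_of_dvd Nat.card_pos hTcard
      omega
    have hcn := (T.isPGroup').center_nontrivial
    have hcp : IsPGroup 2 (Subgroup.center (T : Subgroup G)) := (T.isPGroup').to_subgroup _
    have hdvd : 2 ∣ Nat.card (Subgroup.center (T : Subgroup G)) := by
      rcases hcp.card_eq_or_dvd with h | h
      · exfalso
        have : Subsingleton (Subgroup.center (T : Subgroup G)) :=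
          (Nat.card_eq_one_iff_unique.mp h).1
        exact not_subsingleton _ this
      · exact h
    obtain ⟨z, hz⟩ := exists_prime_orderOf_dvd_card' 2 hdvd
    refine ⟨((z : (T : Subgroup G)) : G), (z : (T : Subgroup G)).2, ?_, ?_⟩
    · rw [Subgroup.orderOf_coe, Subgroup.orderOf_coe]; exact hz
    · intro x hx
      have := Subgroup.mem_center_iff.mp z.2 ⟨x, hx⟩
      exact congrArg Subtype.val this
  have hT0 : Subgroup.centralizer ({t0} : Set G) = (T : Subgroup G) := by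
    apply T.3 (hexp2 t0 ht0)
    intro x hx
    rw [Subgroup.mem_centralizer_iff]
    intro y hy
    rw [Set.mem_singleton_iff] at hy
    rw [hy]; exact (hcent x hx).symm
  have hTcomm : ∀ x ∈ (T : Subgroup G), ∀ y ∈ (T : Subgroup G), x * y = y * x := by
    intro x hx y hy
    rw [← hT0] at hx hy
    have := (hC t0 ht0).1.is_comm.comm (⟨x, hx⟩ : Subgroup.centralizer ({t0} : Set G)) ⟨y, hy⟩
    exact congrArg Subtype.val this
  have hTsq : ∀ z ∈ (T : Subgroup G), z * z = 1 := by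
    intro z hz
    rw [← hT0] at hz
    have := (hC t0 ht0).2 z hz
    rwa [pow_two] at this
  have hTz : ∀ z ∈ (T : Subgroup G), z ≠ 1 →
      Subgroup.centralizer ({z} : Set G) = (T : Subgroup G) := by
    intro z hz hz1
    have hz2 : orderOf z = 2 := Cfsg.Agent.Helper2.UF.orderOf_two_of hz1 (hTsq z hz)
    apply T.3 (hexp2 z hz2)
    intro x hx
    rw [Subgroup.mem_centralizer_iff]
    intro y hy
    rw [Set.mem_singleton_iff] at hy
    rw [hy]; exact hTcomm z hz x hx
  have hA : ∀ z ∈ Subgroup.normalizer ((T : Subgroup G) : Set G), orderOf z = 2 →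
      z ∈ (T : Subgroup G) := by
    intro z hz hz2
    have hP : IsPGroup 2 (Subgroup.zpowers z) := by
      apply IsPGroup.of_card (n := 1)
      rw [Nat.card_zpowers, hz2]; rfl
    have h1 : z ∈ Subgroup.zpowers z ⊓ Subgroup.normalizer ((T : Subgroup G) : Set G) :=
      Subgroup.mem_inf.mpr ⟨Subgroup.mem_zpowers z, hz⟩
    have h2 : z ∈ Subgroup.zpowers z ⊓ (T : Subgroup G) := by
      rw [← hP.inf_normalizer_sylow T]; exact h1
    exact (Subgroup.mem_inf.mp h2).2
  exact ⟨hTcomm, hTsq, hTz, hA, t0, ht0T, ht0⟩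

end Cfsg.Agent.Helper2.CIT

namespace Cfsg.Agent.Helper2.SE

variable {G : Type*} [Group G] [Finite G] {H : Subgroup G}

/-- refined form of the transitivity of `D = H ∩ uHu⁻¹` on the involutions of `H`: the conjugating
element is `v * u` for an involution `v` -/
lemma exists_D_conj (hH : Cfsg.IsStronglyEmbedded H) {u : G} (hu : orderOf u = 2) (huH : u ∉ H)
    {s t : G} (hs : orderOf s = 2) (hsH : s ∈ H) (ht : orderOf t = 2) (htH : t ∈ H) :
    ∃ v : G, v * v = 1 ∧ v * u ∈ H ⊓ H.map (MulAut.conj u).toMonoidHom ∧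
      (v * u) * s * (v * u)⁻¹ = t := by
  have hF := uniqfix hH
  have hu1 := Cfsg.Agent.Helper2.UF.ne_one_of_orderOf_two hu
  have hu2 := Cfsg.Agent.Helper2.UF.mul_self_of_orderOf_two hu
  have huinv : u⁻¹ = u := inv_eq_of_mul_eq_one_left hu2
  have hs1 := Cfsg.Agent.Helper2.UF.ne_one_of_orderOf_two hs
  have hs2 := Cfsg.Agent.Helper2.UF.mul_self_of_orderOf_two hs
  have ht1 := Cfsg.Agent.Helper2.UF.ne_one_of_orderOf_two ht
  have ht2 := Cfsg.Agent.Helper2.UF.mul_self_of_orderOf_two ht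
  obtain ⟨x₀, hx₀def⟩ : ∃ x₀ : G ⧸ H, x₀ = ((1 : G) : G ⧸ H) := ⟨_, rfl⟩
  have hx₀ : ∀ h : G, h ∈ H ↔ h • x₀ = x₀ := by
    intro h
    rw [hx₀def]; exact mem_iff_fix_one h
  have hy : u • x₀ ≠ x₀ := fun h => huH ((hx₀ u).mpr h)
  have hu₀y : (u * s * u) • (u • x₀) = u • x₀ := by
    rw [mul_smul, mul_smul, ← mul_smul u u, hu2, one_smul, (hx₀ s).mp hsH]
  have hu₀1 : u * s * u ≠ 1 := by
    have := Cfsg.Agent.Helper2.RankOne.conj_ne_one (g := u) hs1
    rwa [huinv] at this
  have hu₀2 : (u * s * u) * (u * s * u) = 1 := by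
    have := Cfsg.Agent.Helper2.RankOne.conj_mul_self (g := u) hs2
    rwa [huinv] at this
  obtain ⟨v, hv2, hv, _⟩ := Cfsg.Agent.Helper2.UF.exists_conj hF ht1 ht2 hu₀1 hu₀2
    ((hx₀ t).mp htH) hu₀y (Ne.symm hy)
  obtain ⟨hvx, hvy⟩ := Cfsg.Agent.Helper2.UF.conj_swap hF hu₀1 hu₀2
    ((hx₀ t).mp htH) hu₀y hv2 hv
  have hvinv : v⁻¹ = v := inv_eq_of_mul_eq_one_left hv2
  refine ⟨v, hv2, Subgroup.mem_inf.mpr ⟨?_, ?_⟩, ?_⟩
  · rw [hx₀, mul_smul, hvy]
  · rw [Cfsg.Agent.Lead.mem_map_conj_iff, hx₀, huinv]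
    have e : u * (v * u) * u = u * v * (u * u) := by group
    rw [e, hu2, mul_one, mul_smul, hvx, ← mul_smul, hu2, one_smul]
  · rw [mul_inv_rev, huinv, hvinv, ← hv]
    group

end Cfsg.Agent.Helper2.SE
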