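import Mathlib
import Cfsg.Prelude.Def_Involutions
import Cfsg.Agent.Helper2.CIT
import Cfsg.Agent.S1224

/-! More on groups whose involution centralizers are elementary abelian 2-groups. -/

namespace Cfsg.Agent.Helper2.CIT

variable {G : Type*} [Group G] [Finite G]

/-- a noncyclic 2-group has more than two elements -/
theorem card_T_gt (T : Sylow 2 G) (hnc : ¬ IsCyclic (T : Subgroup G)) :
    2 < Nat.card (T : Subgroup G) := by
  haveI : Fact (Nat.Prime 2) := ⟨Nat.prime_two⟩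
  by_contra h
  push_neg at h
  have hpos : 0 < Nat.card (T : Subgroup G) := Nat.card_pos
  apply hnc
  rcases Nat.lt_or_ge (Nat.card (T : Subgroup G)) 2 with h1 | h1
  · have h2 : Nat.card (T : Subgroup G) = 1 := by omega
    have : Subsingleton (T : Subgroup G) := (Nat.card_eq_one_iff_unique.mp h2).1
    exact isCyclic_of_subsingleton
  · have h2 : Nat.card (T : Subgroup G) = 2 := by omega
    exact isCyclic_of_prime_card h2

/-- the two-point stabiliser `D_w = H ∩ wHw⁻¹` for an involution `w ∉ H = N(T)` -/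
theorem D_facts (T : Sylow 2 G) (hnc : ¬ IsCyclic (T : Subgroup G))
    (hnn : ¬ (T : Subgroup G).Normal)
    (hC : ∀ t : G, orderOf t = 2 → IsMulCommutative (Subgroup.centralizer ({t} : Set G)) ∧
      ∀ c ∈ Subgroup.centralizer ({t} : Set G), c ^ 2 = 1)
    (u : G) (hu : orderOf u = 2) (huH : u ∉ Subgroup.normalizer ((T : Subgroup G) : Set G)) :
    (∀ x ∈ Subgroup.normalizer ((T : Subgroup G) : Set G) ⊓
        (Subgroup.normalizer ((T : Subgroup G) : Set G)).map (MulAut.conj u).toMonoidHom,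
      x ∈ (T : Subgroup G) → x = 1) ∧
    (∀ s ∈ (T : Subgroup G), s ≠ 1 → ∀ t ∈ (T : Subgroup G), t ≠ 1 →
      ∃ d ∈ Subgroup.normalizer ((T : Subgroup G) : Set G) ⊓
        (Subgroup.normalizer ((T : Subgroup G) : Set G)).map (MulAut.conj u).toMonoidHom,
        d * s * d⁻¹ = t) ∧
    (∀ d ∈ Subgroup.normalizer ((T : Subgroup G) : Set G) ⊓
        (Subgroup.normalizer ((T : Subgroup G) : Set G)).map (MulAut.conj u).toMonoidHom,
      u * d * u⁻¹ = d⁻¹) ∧
    Nat.card (T : Subgroup G) = Nat.card ↥(Subgroup.normalizer ((T : Subgroup G) : Set G) ⊓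
        (Subgroup.normalizer ((T : Subgroup G) : Set G)).map (MulAut.conj u).toMonoidHom) + 1 ∧
    (∀ h ∈ Subgroup.normalizer ((T : Subgroup G) : Set G),
      ∃ d ∈ Subgroup.normalizer ((T : Subgroup G) : Set G) ⊓
        (Subgroup.normalizer ((T : Subgroup G) : Set G)).map (MulAut.conj u).toMonoidHom,
        d⁻¹ * h ∈ (T : Subgroup G)) := by
  classical
  have hH := Cfsg.Agent.S1226.result T hnc hnn hC
  obtain ⟨hTcomm, hTsq, hTz, hA, t0, ht0T, ht0⟩ := basic T hnc hC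
  have hTH0 : (T : Subgroup G) ≤ Subgroup.normalizer ((T : Subgroup G) : Set G) :=
    Subgroup.le_normalizer
  have hTn0 : ∀ h ∈ Subgroup.normalizer ((T : Subgroup G) : Set G), ∀ x ∈ (T : Subgroup G),
      h * x * h⁻¹ ∈ (T : Subgroup G) := by
    intro h hh x hx
    exact (Subgroup.mem_normalizer_iff.mp hh x).mp hx
  generalize hHdef : Subgroup.normalizer ((T : Subgroup G) : Set G) = H at hH huH hTH0 hTn0 ⊢
  have hD0 : Odd (Nat.card ↥(H ⊓ H.map (MulAut.conj u).toMonoidHom)) := hH.2.2 u huH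
  have hex := fun (s t : G) (hs : orderOf s = 2) (hsH : s ∈ H) (ht : orderOf t = 2) (htH : t ∈ H) =>
    Cfsg.Agent.Helper2.SE.exists_D_conj hH hu huH hs hsH ht htH
  generalize hDdef : H ⊓ H.map (MulAut.conj u).toMonoidHom = D at hD0 hex ⊢
  have hDH : D ≤ H := by rw [← hDdef]; exact inf_le_left
  have ht0H : t0 ∈ H := hTH0 ht0T
  have ht01 : t0 ≠ 1 := Cfsg.Agent.Helper2.UF.ne_one_of_orderOf_two ht0
  have hDT : ∀ x ∈ D, x ∈ (T : Subgroup G) → x = 1 := by
    intro x hxD hxT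
    by_contra hx1
    have hx2 : orderOf x = 2 := Cfsg.Agent.Helper2.UF.orderOf_two_of hx1 (hTsq x hxT)
    have := Cfsg.Agent.Lead.even_card_of_invol_mem hxD hx2
    exact (Nat.not_even_iff_odd.mpr hD0) this
  have htrans : ∀ s ∈ (T : Subgroup G), s ≠ 1 → ∀ t ∈ (T : Subgroup G), t ≠ 1 →
      ∃ v : G, v * v = 1 ∧ v * u ∈ D ∧ (v * u) * s * (v * u)⁻¹ = t := by
    intro s hsT hs1 t htT ht1
    exact hex s t (Cfsg.Agent.Helper2.UF.orderOf_two_of hs1 (hTsq s hsT)) (hTH0 hsT)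
      (Cfsg.Agent.Helper2.UF.orderOf_two_of ht1 (hTsq t htT)) (hTH0 htT)
  have hcent : ∀ d e : G, d * t0 * d⁻¹ = e * t0 * e⁻¹ → d⁻¹ * e ∈ (T : Subgroup G) := by
    intro d e h
    rw [← hTz t0 ht0T ht01, Subgroup.mem_centralizer_iff]
    intro x hx
    rw [Set.mem_singleton_iff] at hx
    rw [hx]
    calc t0 * (d⁻¹ * e) = d⁻¹ * (d * t0 * d⁻¹) * e := by group
      _ = d⁻¹ * (e * t0 * e⁻¹) * e := by rw [h]
      _ = d⁻¹ * e * t0 := by group
  have hDform : ∀ d ∈ D, ∃ v : G, v * v = 1 ∧ d = v * u := by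
    intro d hd
    have hdt : d * t0 * d⁻¹ ∈ (T : Subgroup G) := hTn0 d (hDH hd) t0 ht0T
    have hdt1 : d * t0 * d⁻¹ ≠ 1 := Cfsg.Agent.Helper2.RankOne.conj_ne_one ht01
    obtain ⟨v, hv2, hvD, hv⟩ := htrans t0 ht0T ht01 _ hdt hdt1
    refine ⟨v, hv2, ?_⟩
    have h1 := hcent d (v * u) hv.symm
    have h2 := hDT _ (mul_mem (inv_mem hd) hvD) h1
    exact inv_mul_eq_one.mp h2
  have hcardT : Nat.card (T : Subgroup G) = Nat.card D + 1 := by
    have hbij : Function.Bijective (fun o : Option D => match o with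
        | none => (1 : (T : Subgroup G))
        | some d => (⟨(d : G) * t0 * (d : G)⁻¹, hTn0 d (hDH d.2) t0 ht0T⟩ : (T : Subgroup G))) := by
      constructor
      · rintro (_ | d) (_ | e) h
        · rfl
        · exfalso
          have h' : (1 : G) = (e : G) * t0 * (e : G)⁻¹ := congrArg Subtype.val h
          exact Cfsg.Agent.Helper2.RankOne.conj_ne_one ht01 h'.symm
        · exfalso
          have h' : (d : G) * t0 * (d : G)⁻¹ = (1 : G) := congrArg Subtype.val h
          exact Cfsg.Agent.Helper2.RankOne.conj_ne_one ht01 h'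
        · have h' : (d : G) * t0 * (d : G)⁻¹ = (e : G) * t0 * (e : G)⁻¹ := congrArg Subtype.val h
          have h1 := hcent _ _ h'
          have h2 := hDT _ (mul_mem (inv_mem d.2) e.2) h1
          congr 1
          exact Subtype.ext (inv_mul_eq_one.mp h2)
      · rintro ⟨t, htT⟩
        by_cases ht1 : t = 1
        · exact ⟨none, Subtype.ext ht1.symm⟩
        · obtain ⟨v, _, hvD, hv⟩ := htrans t0 ht0T ht01 t htT ht1
          exact ⟨some ⟨v * u, hvD⟩, Subtype.ext hv⟩
    rw [← Nat.card_congr (Equiv.ofBijective _ hbij), Finite.card_option]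
  refine ⟨hDT, ?_, ?_, hcardT, ?_⟩
  · intro s hsT hs1 t htT ht1
    obtain ⟨v, _, hvD, hv⟩ := htrans s hsT hs1 t htT ht1
    exact ⟨v * u, hvD, hv⟩
  · intro d hd
    obtain ⟨v, hv2, rfl⟩ := hDform d hd
    have hu2 := Cfsg.Agent.Helper2.UF.mul_self_of_orderOf_two hu
    have huinv : u⁻¹ = u := inv_eq_of_mul_eq_one_left hu2
    have hvinv : v⁻¹ = v := inv_eq_of_mul_eq_one_left hv2
    rw [mul_inv_rev, huinv, hvinv, mul_assoc, mul_assoc, hu2, mul_one]
  · intro h hh
    have hht : h * t0 * h⁻¹ ∈ (T : Subgroup G) := hTn0 h hh t0 ht0T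
    have hht1 : h * t0 * h⁻¹ ≠ 1 := Cfsg.Agent.Helper2.RankOne.conj_ne_one ht01
    obtain ⟨v, _, hvD, hv⟩ := htrans t0 ht0T ht01 _ hht hht1
    exact ⟨v * u, hvD, hcent (v * u) h hv⟩

end Cfsg.Agent.Helper2.CIT
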