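import Mathlib
import Cfsg.Prelude.Def_Involutions
import Cfsg.Agent.Helper2.CIT2

namespace Cfsg.Agent.Helper2.CIT

variable {G : Type*} [Group G] [Finite G]

/-- membership in `D_w = N ∩ wNw⁻¹` via fixed points on `G ⧸ N` -/
lemma mem_D_iff (N : Subgroup G) (w g : G) :
    g ∈ N ⊓ N.map (MulAut.conj w).toMonoidHom ↔
      g • ((1 : G) : G ⧸ N) = ((1 : G) : G ⧸ N) ∧
        g • (w • ((1 : G) : G ⧸ N)) = w • ((1 : G) : G ⧸ N) := by
  rw [Subgroup.mem_inf, Cfsg.Agent.Lead.mem_map_conj_iff,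
    Cfsg.Agent.Helper2.SE.mem_iff_fix_one g, Cfsg.Agent.Helper2.SE.mem_iff_fix_one (w⁻¹ * g * w)]
  constructor
  · rintro ⟨h1, h2⟩
    refine ⟨h1, ?_⟩
    rw [mul_smul, mul_smul] at h2
    exact inv_smul_eq_iff.mp h2
  · rintro ⟨h1, h2⟩
    refine ⟨h1, ?_⟩
    rw [mul_smul, mul_smul, h2, inv_smul_smul]

lemma exists_invol_swap {H : Subgroup G} (hH : Cfsg.IsStronglyEmbedded H) {x y : G ⧸ H}
    (hxy : x ≠ y) : ∃ w : G, orderOf w = 2 ∧ w • x = y := by
  have h := Cfsg.Agent.S1224.result H hH x y hxy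
  obtain ⟨t₀, ht₀, ht₀2⟩ := Cfsg.Agent.Lead.exists_invol_of_even_card hH.2.1
  have hpos : 0 < Nat.card {t : G // orderOf t = 2 ∧ t ∈ H} := by
    haveI : Nonempty {t : G // orderOf t = 2 ∧ t ∈ H} := ⟨⟨t₀, ht₀2, ht₀⟩⟩
    exact Nat.card_pos
  rw [← h] at hpos
  obtain ⟨⟨w, hw⟩⟩ := (Nat.card_pos_iff.mp hpos).1
  exact ⟨w, hw⟩

/-- the normaliser of `D` in `H = N(T)` is `D` -/
theorem norm_D_in_H (T : Sylow 2 G) (hnc : ¬ IsCyclic (T : Subgroup G))
    (hnn : ¬ (T : Subgroup G).Normal)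
    (hC : ∀ t : G, orderOf t = 2 → IsMulCommutative (Subgroup.centralizer ({t} : Set G)) ∧
      ∀ c ∈ Subgroup.centralizer ({t} : Set G), c ^ 2 = 1)
    (u : G) (hu : orderOf u = 2) (huH : u ∉ Subgroup.normalizer ((T : Subgroup G) : Set G))
    (d : G) (hd : d ∈ Subgroup.normalizer ((T : Subgroup G) : Set G))
    (hdn : ∀ f ∈ Subgroup.normalizer ((T : Subgroup G) : Set G) ⊓
        (Subgroup.normalizer ((T : Subgroup G) : Set G)).map (MulAut.conj u).toMonoidHom,
      d * f * d⁻¹ ∈ Subgroup.normalizer ((T : Subgroup G) : Set G) ⊓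
        (Subgroup.normalizer ((T : Subgroup G) : Set G)).map (MulAut.conj u).toMonoidHom) :
    d ∈ Subgroup.normalizer ((T : Subgroup G) : Set G) ⊓
        (Subgroup.normalizer ((T : Subgroup G) : Set G)).map (MulAut.conj u).toMonoidHom := by
  obtain ⟨hDT, htr, hinv, hcard, hdec⟩ := D_facts T hnc hnn hC u hu huH
  obtain ⟨hTcomm, hTsq, hTz, hA, t0, ht0T, ht0⟩ := basic T hnc hC
  have hTn0 : ∀ h ∈ Subgroup.normalizer ((T : Subgroup G) : Set G), ∀ x ∈ (T : Subgroup G),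
      h * x * h⁻¹ ∈ (T : Subgroup G) := by
    intro h hh x hx
    exact (Subgroup.mem_normalizer_iff.mp hh x).mp hx
  have hgt := card_T_gt T hnc
  generalize hDdef : Subgroup.normalizer ((T : Subgroup G) : Set G) ⊓
        (Subgroup.normalizer ((T : Subgroup G) : Set G)).map (MulAut.conj u).toMonoidHom = D
    at hDT htr hinv hcard hdec hdn ⊢
  have hDN : D ≤ Subgroup.normalizer ((T : Subgroup G) : Set G) := by
    rw [← hDdef]; exact inf_le_left
  obtain ⟨e, he, het⟩ := hdec d hd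
  by_cases ht1 : e⁻¹ * d = 1
  · have : d = e := (inv_mul_eq_one.mp ht1).symm
    rw [this]; exact he
  · exfalso
    have hall : ∀ f ∈ D, f = 1 := by
      intro f hf
      have h1 : (e⁻¹ * d) * f * (e⁻¹ * d)⁻¹ ∈ D := by
        have h2 := hdn f hf
        have h3 : (e⁻¹ * d) * f * (e⁻¹ * d)⁻¹ = e⁻¹ * (d * f * d⁻¹) * e := by group
        rw [h3]
        exact mul_mem (mul_mem (inv_mem he) h2) he
      have h4 : (e⁻¹ * d) * f * (e⁻¹ * d)⁻¹ * f⁻¹ ∈ D := mul_mem h1 (inv_mem hf)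
      have h5 : (e⁻¹ * d) * f * (e⁻¹ * d)⁻¹ * f⁻¹ ∈ (T : Subgroup G) := by
        have h6 : (e⁻¹ * d) * f * (e⁻¹ * d)⁻¹ * f⁻¹ = (e⁻¹ * d) * (f * (e⁻¹ * d)⁻¹ * f⁻¹) := by
          group
        rw [h6]
        exact mul_mem het (hTn0 f (hDN hf) _ (inv_mem het))
      have h7 := hDT _ h4 h5
      have h8 : f ∈ Subgroup.centralizer ({e⁻¹ * d} : Set G) := by
        rw [Subgroup.mem_centralizer_iff]
        intro x hx
        rw [Set.mem_singleton_iff] at hx
        rw [hx]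
        calc e⁻¹ * d * f = ((e⁻¹ * d) * f * (e⁻¹ * d)⁻¹ * f⁻¹) * f * (e⁻¹ * d) := by group
          _ = f * (e⁻¹ * d) := by rw [h7, one_mul]
      rw [hTz _ het ht1] at h8
      exact hDT f hf h8
    have hbot : D = ⊥ := (Subgroup.eq_bot_iff_forall D).mpr hall
    rw [hbot, Subgroup.card_bot] at hcard
    omega

/-- the fixed points of `D` on the cosets of `H = N(T)` are `H` and `uH` -/
theorem fix_D (T : Sylow 2 G) (hnc : ¬ IsCyclic (T : Subgroup G))
    (hnn : ¬ (T : Subgroup G).Normal)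
    (hC : ∀ t : G, orderOf t = 2 → IsMulCommutative (Subgroup.centralizer ({t} : Set G)) ∧
      ∀ c ∈ Subgroup.centralizer ({t} : Set G), c ^ 2 = 1)
    (u : G) (hu : orderOf u = 2) (huH : u ∉ Subgroup.normalizer ((T : Subgroup G) : Set G))
    (x : G ⧸ Subgroup.normalizer ((T : Subgroup G) : Set G))
    (hx : ∀ d ∈ Subgroup.normalizer ((T : Subgroup G) : Set G) ⊓
        (Subgroup.normalizer ((T : Subgroup G) : Set G)).map (MulAut.conj u).toMonoidHom,
      d • x = x) :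
    x = ((1 : G) : G ⧸ Subgroup.normalizer ((T : Subgroup G) : Set G)) ∨
      x = u • ((1 : G) : G ⧸ Subgroup.normalizer ((T : Subgroup G) : Set G)) := by
  classical
  by_contra hcon
  push_neg at hcon
  obtain ⟨hx0, hxu⟩ := hcon
  have hH := Cfsg.Agent.S1226.result T hnc hnn hC
  have hgt := card_T_gt T hnc
  have hu2 := Cfsg.Agent.Helper2.UF.mul_self_of_orderOf_two hu
  have huinv : u⁻¹ = u := inv_eq_of_mul_eq_one_left hu2
  obtain ⟨hDT, htr, hinv, hcard, hdec⟩ := D_facts T hnc hnn hC u hu huH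
  -- an involution `w` with `w x₀ = x`, and `D = D_w`
  have key : ∀ y : G ⧸ Subgroup.normalizer ((T : Subgroup G) : Set G),
      y ≠ ((1 : G) : G ⧸ Subgroup.normalizer ((T : Subgroup G) : Set G)) →
      (∀ d ∈ Subgroup.normalizer ((T : Subgroup G) : Set G) ⊓
        (Subgroup.normalizer ((T : Subgroup G) : Set G)).map (MulAut.conj u).toMonoidHom,
        d • y = y) →
      ∃ w : G, w • ((1 : G) : G ⧸ Subgroup.normalizer ((T : Subgroup G) : Set G)) = y ∧
        ∀ d ∈ Subgroup.normalizer ((T : Subgroup G) : Set G) ⊓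
          (Subgroup.normalizer ((T : Subgroup G) : Set G)).map (MulAut.conj u).toMonoidHom,
          w * d * w⁻¹ = d⁻¹ := by
    intro y hy hyD
    obtain ⟨w, hw, hwy⟩ := exists_invol_swap hH (Ne.symm hy)
    have hwH : w ∉ Subgroup.normalizer ((T : Subgroup G) : Set G) := by
      intro h
      rw [Cfsg.Agent.Helper2.SE.mem_iff_fix_one, hwy] at h
      exact hy h
    obtain ⟨_, _, hinvw, hcardw, _⟩ := D_facts T hnc hnn hC w hw hwH
    have hle : Subgroup.normalizer ((T : Subgroup G) : Set G) ⊓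
        (Subgroup.normalizer ((T : Subgroup G) : Set G)).map (MulAut.conj u).toMonoidHom ≤
        Subgroup.normalizer ((T : Subgroup G) : Set G) ⊓
        (Subgroup.normalizer ((T : Subgroup G) : Set G)).map (MulAut.conj w).toMonoidHom := by
      intro d hd
      rw [mem_D_iff]
      refine ⟨((mem_D_iff _ u d).mp hd).1, ?_⟩
      rw [hwy]; exact hyD d hd
    have heq := Subgroup.eq_of_le_of_card_ge hle (by omega)
    refine ⟨w, hwy, fun d hd => ?_⟩
    rw [heq] at hd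
    exact hinvw d hd
  obtain ⟨w, hwx, hwinv⟩ := key x hx0 hx
  -- c = u * w centralizes D and moves x₀ to u • x
  have hcD : ∀ e ∈ Subgroup.normalizer ((T : Subgroup G) : Set G) ⊓
        (Subgroup.normalizer ((T : Subgroup G) : Set G)).map (MulAut.conj u).toMonoidHom,
      (u * w) * e = e * (u * w) := by
    intro e he
    have h1 := hwinv e he
    have h2 := hinv e⁻¹ (inv_mem he)
    rw [inv_inv] at h2
    calc u * w * e = u * (w * e * w⁻¹) * w := by group
      _ = u * e⁻¹ * w := by rw [h1]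
      _ = (u * e⁻¹ * u⁻¹) * (u * w) := by group
      _ = e * (u * w) := by rw [h2]
  have hx' : (u * w) • ((1 : G) : G ⧸ Subgroup.normalizer ((T : Subgroup G) : Set G)) ≠
      ((1 : G) : G ⧸ Subgroup.normalizer ((T : Subgroup G) : Set G)) := by
    intro h
    rw [mul_smul, hwx] at h
    apply hxu
    rw [← h, ← mul_smul, hu2, one_smul]
  have hx'D : ∀ d ∈ Subgroup.normalizer ((T : Subgroup G) : Set G) ⊓
        (Subgroup.normalizer ((T : Subgroup G) : Set G)).map (MulAut.conj u).toMonoidHom,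
      d • ((u * w) • ((1 : G) : G ⧸ Subgroup.normalizer ((T : Subgroup G) : Set G))) =
        (u * w) • ((1 : G) : G ⧸ Subgroup.normalizer ((T : Subgroup G) : Set G)) := by
    intro d hd
    rw [← mul_smul, ← hcD d hd, mul_smul, ((mem_D_iff _ u d).mp hd).1]
  obtain ⟨w', hw'x, hw'inv⟩ := key _ hx' hx'D
  -- d₀ = w'⁻¹ * (u * w) lies in H and inverts D
  have hd0H : w'⁻¹ * (u * w) ∈ Subgroup.normalizer ((T : Subgroup G) : Set G) := by
    rw [Cfsg.Agent.Helper2.SE.mem_iff_fix_one, mul_smul, ← hw'x, inv_smul_smul]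
  have hd0inv : ∀ e ∈ Subgroup.normalizer ((T : Subgroup G) : Set G) ⊓
        (Subgroup.normalizer ((T : Subgroup G) : Set G)).map (MulAut.conj u).toMonoidHom,
      (w'⁻¹ * (u * w)) * e * (w'⁻¹ * (u * w))⁻¹ = e⁻¹ := by
    intro e he
    have h1 := hw'inv e⁻¹ (inv_mem he)
    rw [inv_inv] at h1
    -- w' e⁻¹ w'⁻¹ = e  →  w'⁻¹ e w' = e⁻¹
    have h2 : w'⁻¹ * e * w' = e⁻¹ := by
      calc w'⁻¹ * e * w' = w'⁻¹ * (w' * e⁻¹ * w'⁻¹) * w' := by rw [h1]
        _ = e⁻¹ := by group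
    calc (w'⁻¹ * (u * w)) * e * (w'⁻¹ * (u * w))⁻¹
        = w'⁻¹ * ((u * w) * e) * (u * w)⁻¹ * w' := by group
      _ = w'⁻¹ * (e * (u * w)) * (u * w)⁻¹ * w' := by rw [hcD e he]
      _ = w'⁻¹ * e * w' := by group
      _ = e⁻¹ := h2
  have hd0D := norm_D_in_H T hnc hnn hC u hu huH _ hd0H
    (fun f hf => by rw [hd0inv f hf]; exact inv_mem hf)
  -- d₀ inverts itself, so d₀ = 1 and D is trivial
  have hd0sq : (w'⁻¹ * (u * w)) * (w'⁻¹ * (u * w)) = 1 := by
    have h := hd0inv _ hd0D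
    have h2 : (w'⁻¹ * (u * w)) * (w'⁻¹ * (u * w)) * (w'⁻¹ * (u * w))⁻¹ = w'⁻¹ * (u * w) := by
      group
    rw [h2] at h
    calc (w'⁻¹ * (u * w)) * (w'⁻¹ * (u * w)) = (w'⁻¹ * (u * w)) * (w'⁻¹ * (u * w))⁻¹ := by
          rw [← h]
      _ = 1 := by group
  have hodd : Odd (Nat.card ↥(Subgroup.normalizer ((T : Subgroup G) : Set G) ⊓
        (Subgroup.normalizer ((T : Subgroup G) : Set G)).map (MulAut.conj u).toMonoidHom)) :=
    hH.2.2 u huH
  have hsq1 : ∀ e ∈ Subgroup.normalizer ((T : Subgroup G) : Set G) ⊓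
        (Subgroup.normalizer ((T : Subgroup G) : Set G)).map (MulAut.conj u).toMonoidHom,
      e * e = 1 → e = 1 := by
    intro e he hee
    by_contra he1
    have := Cfsg.Agent.Lead.even_card_of_invol_mem he
      (Cfsg.Agent.Helper2.UF.orderOf_two_of he1 hee)
    exact (Nat.not_even_iff_odd.mpr hodd) this
  have hd01 := hsq1 _ hd0D hd0sq
  have hall : ∀ e ∈ Subgroup.normalizer ((T : Subgroup G) : Set G) ⊓
        (Subgroup.normalizer ((T : Subgroup G) : Set G)).map (MulAut.conj u).toMonoidHom,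
      e = 1 := by
    intro e he
    apply hsq1 e he
    have h := hd0inv e he
    rw [hd01] at h
    have h2 : e = e⁻¹ := by simpa using h
    calc e * e = e * e⁻¹ := by rw [← h2]
      _ = 1 := by group
  have hbot := (Subgroup.eq_bot_iff_forall _).mpr hall
  rw [hbot, Subgroup.card_bot] at hcard
  omega

end Cfsg.Agent.Helper2.CIT
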