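import Mathlib
import Cfsg.Prelude.Def_Involutions
import Cfsg.Agent.Helper2.CIT3

/-! Abstract package of facts on `N = N_G(T)` in a CIT group, and triple transitivity. -/

namespace Cfsg.Agent.Helper2.CIT

variable {G : Type*} [Group G] [Finite G]

structure Pkg (N T : Subgroup G) : Prop where
  se : Cfsg.IsStronglyEmbedded N
  TN : T ≤ N
  Tnorm : ∀ h ∈ N, ∀ x ∈ T, h * x * h⁻¹ ∈ T
  Tcomm : ∀ x ∈ T, ∀ y ∈ T, x * y = y * x
  Tsq : ∀ z ∈ T, z * z = 1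
  Tz : ∀ z ∈ T, z ≠ 1 → Subgroup.centralizer ({z} : Set G) = T
  Tgt : 2 < Nat.card T
  D1 : ∀ u : G, orderOf u = 2 → u ∉ N →
    ∀ x ∈ N ⊓ N.map (MulAut.conj u).toMonoidHom, x ∈ T → x = 1
  D2 : ∀ u : G, orderOf u = 2 → u ∉ N → ∀ s ∈ T, s ≠ 1 → ∀ t ∈ T, t ≠ 1 →
    ∃ d ∈ N ⊓ N.map (MulAut.conj u).toMonoidHom, d * s * d⁻¹ = t
  D3 : ∀ u : G, orderOf u = 2 → u ∉ N →
    ∀ d ∈ N ⊓ N.map (MulAut.conj u).toMonoidHom, u * d * u⁻¹ = d⁻¹
  D4 : ∀ u : G, orderOf u = 2 → u ∉ N →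
    Nat.card T = Nat.card ↥(N ⊓ N.map (MulAut.conj u).toMonoidHom) + 1
  D5 : ∀ u : G, orderOf u = 2 → u ∉ N → ∀ h ∈ N,
    ∃ d ∈ N ⊓ N.map (MulAut.conj u).toMonoidHom, d⁻¹ * h ∈ T
  fixD : ∀ u : G, orderOf u = 2 → u ∉ N → ∀ x : G ⧸ N,
    (∀ d ∈ N ⊓ N.map (MulAut.conj u).toMonoidHom, d • x = x) →
    x = ((1 : G) : G ⧸ N) ∨ x = u • ((1 : G) : G ⧸ N)

theorem pkg (T : Sylow 2 G) (hnc : ¬ IsCyclic (T : Subgroup G))
    (hnn : ¬ (T : Subgroup G).Normal)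
    (hC : ∀ t : G, orderOf t = 2 → IsMulCommutative (Subgroup.centralizer ({t} : Set G)) ∧
      ∀ c ∈ Subgroup.centralizer ({t} : Set G), c ^ 2 = 1) :
    Pkg (Subgroup.normalizer ((T : Subgroup G) : Set G)) (T : Subgroup G) := by
  obtain ⟨hTcomm, hTsq, hTz, hA, t0, ht0T, ht0⟩ := basic T hnc hC
  exact
  { se := Cfsg.Agent.S1226.result T hnc hnn hC
    TN := Subgroup.le_normalizer
    Tnorm := fun h hh x hx => (Subgroup.mem_normalizer_iff.mp hh x).mp hx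
    Tcomm := hTcomm
    Tsq := hTsq
    Tz := hTz
    Tgt := card_T_gt T hnc
    D1 := fun u hu huH => (D_facts T hnc hnn hC u hu huH).1
    D2 := fun u hu huH => (D_facts T hnc hnn hC u hu huH).2.1
    D3 := fun u hu huH => (D_facts T hnc hnn hC u hu huH).2.2.1
    D4 := fun u hu huH => (D_facts T hnc hnn hC u hu huH).2.2.2.1
    D5 := fun u hu huH => (D_facts T hnc hnn hC u hu huH).2.2.2.2
    fixD := fun u hu huH => fix_D T hnc hnn hC u hu huH }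

namespace Pkg

variable {N T : Subgroup G}

lemma D_comm (P : Pkg N T) {u : G} (hu : orderOf u = 2) (huN : u ∉ N) {a b : G}
    (ha : a ∈ N ⊓ N.map (MulAut.conj u).toMonoidHom)
    (hb : b ∈ N ⊓ N.map (MulAut.conj u).toMonoidHom) : a * b = b * a := by
  have h1 := P.D3 u hu huN a ha
  have h2 := P.D3 u hu huN b hb
  have h3 := P.D3 u hu huN (a * b) (mul_mem ha hb)
  have h4 : u * (a * b) * u⁻¹ = (u * a * u⁻¹) * (u * b * u⁻¹) := by group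
  rw [h4, h1, h2, mul_inv_rev] at h3
  have h5 : (a⁻¹ * b⁻¹)⁻¹ = (b⁻¹ * a⁻¹)⁻¹ := by rw [h3]
  simpa using h5.symm

lemma cent_in_D (P : Pkg N T) {u : G} (hu : orderOf u = 2) (huN : u ∉ N) {g h : G}
    (hg : g ∈ N ⊓ N.map (MulAut.conj u).toMonoidHom) (hg1 : g ≠ 1) (hh : h ∈ N)
    (hc : h * g = g * h) : h ∈ N ⊓ N.map (MulAut.conj u).toMonoidHom := by
  obtain ⟨d, hd, hdt⟩ := P.D5 u hu huN h hh
  by_cases ht : d⁻¹ * h = 1
  · have : h = d := by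
      have := inv_mul_eq_one.mp ht
      exact this.symm
    rw [this]; exact hd
  · exfalso
    have hdg := P.D_comm hu huN hd hg
    have hcomm : g * (d⁻¹ * h) = (d⁻¹ * h) * g := by
      have h1 : d⁻¹ * g = g * d⁻¹ := by
        calc d⁻¹ * g = d⁻¹ * (g * d) * d⁻¹ := by group
          _ = d⁻¹ * (d * g) * d⁻¹ := by rw [hdg]
          _ = g * d⁻¹ := by group
      calc g * (d⁻¹ * h) = (g * d⁻¹) * h := by group
        _ = (d⁻¹ * g) * h := by rw [h1]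
        _ = d⁻¹ * (g * h) := by group
        _ = d⁻¹ * (h * g) := by rw [hc]
        _ = (d⁻¹ * h) * g := by group
    have hgc : g ∈ Subgroup.centralizer ({d⁻¹ * h} : Set G) := by
      rw [Subgroup.mem_centralizer_iff]
      intro x hx
      rw [Set.mem_singleton_iff] at hx
      rw [hx]; exact hcomm.symm
    rw [P.Tz _ hdt ht] at hgc
    exact hg1 (P.D1 u hu huN g hg hgc)

lemma exists_invol (P : Pkg N T) {x : G ⧸ N} (hx : x ≠ ((1 : G) : G ⧸ N)) :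
    ∃ w : G, orderOf w = 2 ∧ w ∉ N ∧ w • ((1 : G) : G ⧸ N) = x := by
  obtain ⟨w, hw, hwx⟩ := exists_invol_swap P.se (Ne.symm hx)
  refine ⟨w, hw, ?_, hwx⟩
  intro h
  rw [Cfsg.Agent.Helper2.SE.mem_iff_fix_one, hwx] at h
  exact hx h

/-- special case of `three_fix` with first point the base point -/
lemma three_fix0 (P : Pkg N T) {g : G} {x₂ x₃ : G ⧸ N} (h2 : x₂ ≠ ((1 : G) : G ⧸ N))
    (h3 : x₃ ≠ ((1 : G) : G ⧸ N)) (h23 : x₂ ≠ x₃)
    (hg1 : g • ((1 : G) : G ⧸ N) = ((1 : G) : G ⧸ N)) (hg2 : g • x₂ = x₂) (hg3 : g • x₃ = x₃) :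
    g = 1 := by
  by_contra hne
  obtain ⟨w₂, hw₂, hw₂N, hw₂x⟩ := P.exists_invol h2
  obtain ⟨w₃, hw₃, hw₃N, hw₃x⟩ := P.exists_invol h3
  have hgD2 : g ∈ N ⊓ N.map (MulAut.conj w₂).toMonoidHom := by
    rw [mem_D_iff]; exact ⟨hg1, by rw [hw₂x]; exact hg2⟩
  have hgD3 : g ∈ N ⊓ N.map (MulAut.conj w₃).toMonoidHom := by
    rw [mem_D_iff]; exact ⟨hg1, by rw [hw₃x]; exact hg3⟩
  have hall : ∀ e ∈ N ⊓ N.map (MulAut.conj w₃).toMonoidHom, e • x₂ = x₂ := by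
    intro e he
    have hc := P.D_comm hw₃ hw₃N he hgD3
    have heD2 := P.cent_in_D hw₂ hw₂N hgD2 hne he.1 hc
    have := ((mem_D_iff N w₂ e).mp heD2).2
    rw [hw₂x] at this
    exact this
  rcases P.fixD w₃ hw₃ hw₃N x₂ hall with h | h
  · exact h2 h
  · rw [hw₃x] at h; exact h23 h

theorem three_fix (P : Pkg N T) {g : G} {x₁ x₂ x₃ : G ⧸ N} (h12 : x₁ ≠ x₂)
    (h13 : x₁ ≠ x₃) (h23 : x₂ ≠ x₃)
    (hg1 : g • x₁ = x₁) (hg2 : g • x₂ = x₂) (hg3 : g • x₃ = x₃) :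
    g = 1 := by
  obtain ⟨k, hk⟩ : ∃ k : G, k • ((1 : G) : G ⧸ N) = x₁ := by
    induction x₁ using QuotientGroup.induction_on with
    | H k => exact ⟨k, by rw [MulAction.Quotient.smul_mk, smul_eq_mul, mul_one]⟩
  have key : k⁻¹ * g * k = 1 := by
    apply P.three_fix0 (x₂ := k⁻¹ • x₂) (x₃ := k⁻¹ • x₃)
    · intro h
      apply h12
      rw [← hk, ← h, smul_inv_smul]
    · intro h
      apply h13
      rw [← hk, ← h, smul_inv_smul]
    · intro h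
      exact h23 (smul_left_cancel _ h)
    · rw [mul_smul, mul_smul, hk, hg1, ← hk, inv_smul_smul]
    · rw [mul_smul, mul_smul, smul_inv_smul, hg2]
    · rw [mul_smul, mul_smul, smul_inv_smul, hg3]
  calc g = k * (k⁻¹ * g * k) * k⁻¹ := by group
    _ = 1 := by rw [key]; group

lemma T_fix (P : Pkg N T) {t : G} (ht : t ∈ T) :
    t • ((1 : G) : G ⧸ N) = ((1 : G) : G ⧸ N) :=
  (Cfsg.Agent.Helper2.SE.mem_iff_fix_one t).mp (P.TN ht)

lemma T_free (P : Pkg N T) {t : G} (ht : t ∈ T) {x : G ⧸ N} (hx : x ≠ ((1 : G) : G ⧸ N))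
    (htx : t • x = x) : t = 1 := by
  by_contra hne
  obtain ⟨b, hb, hbu⟩ := Cfsg.Agent.Helper2.SE.uniqfix P.se t hne (P.Tsq t ht)
  have h1 := hbu _ (P.T_fix ht)
  have h2 := hbu _ htx
  exact hx (h2.trans h1.symm)

lemma exists_D_ne_one (P : Pkg N T) {u : G} (hu : orderOf u = 2) (huN : u ∉ N) :
    ∃ d ∈ N ⊓ N.map (MulAut.conj u).toMonoidHom, d ≠ 1 := by
  by_contra hcon
  push_neg at hcon
  have hbot := (Subgroup.eq_bot_iff_forall _).mpr hcon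
  have h4 := P.D4 u hu huN
  have hgt := P.Tgt
  rw [hbot, Subgroup.card_bot] at h4
  omega

/-- `T` moves every point other than the base point to `u • x₀` -/
theorem T_to (P : Pkg N T) {u : G} (hu : orderOf u = 2) (huN : u ∉ N) {x : G ⧸ N}
    (hx : x ≠ ((1 : G) : G ⧸ N)) : ∃ t ∈ T, t • x = u • ((1 : G) : G ⧸ N) := by
  classical
  obtain ⟨d, hd, hd1⟩ := P.exists_D_ne_one hu huN
  obtain ⟨w, hw, hwN, hwx⟩ := P.exists_invol hx
  obtain ⟨d₁, hd₁, hd₁t⟩ := P.D5 w hw hwN d hd.1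
  -- d = t₁ d₁ with t₁ = d₁ (d₁⁻¹ d) d₁⁻¹ ∈ T
  have ht₁ : d₁ * (d₁⁻¹ * d) * d₁⁻¹ ∈ T := P.Tnorm d₁ hd₁.1 _ hd₁t
  have hdx : d • x = (d₁ * (d₁⁻¹ * d) * d₁⁻¹) • x := by
    have h1 : d₁ • x = x := by
      have := ((mem_D_iff N w d₁).mp hd₁).2
      rw [hwx] at this; exact this
    have h2 : d = (d₁ * (d₁⁻¹ * d) * d₁⁻¹) * d₁ := by group
    conv_lhs => rw [h2, mul_smul, h1]
  -- the map t ↦ t⁻¹ (d t d⁻¹) on T is injective, hence surjective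
  let φ : T → T := fun t => ⟨(t : G)⁻¹ * (d * t * d⁻¹),
    mul_mem (inv_mem t.2) (P.Tnorm d hd.1 _ t.2)⟩
  have hφ : Function.Injective φ := by
    intro s t hst
    have h1 : (s : G)⁻¹ * (d * s * d⁻¹) = (t : G)⁻¹ * (d * t * d⁻¹) := congrArg Subtype.val hst
    have hsT := s.2
    have htT := t.2
    have hdsT : d * (s : G) * d⁻¹ ∈ T := P.Tnorm d hd.1 _ s.2
    have h2 : d * ((t : G) * (s : G)⁻¹) * d⁻¹ = (t : G) * (s : G)⁻¹ := by
      have h3 : (d * (t : G) * d⁻¹) = (t : G) * ((s : G)⁻¹ * (d * s * d⁻¹)) := by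
        rw [h1]; group
      calc d * ((t : G) * (s : G)⁻¹) * d⁻¹ = (d * t * d⁻¹) * (d * s * d⁻¹)⁻¹ := by group
        _ = (t : G) * ((s : G)⁻¹ * (d * s * d⁻¹)) * (d * s * d⁻¹)⁻¹ := by rw [h3]
        _ = (t : G) * (s : G)⁻¹ := by group
    by_cases hr : (t : G) * (s : G)⁻¹ = 1
    · apply Subtype.ext
      have := mul_inv_eq_one.mp hr
      exact this.symm
    · exfalso
      have hrT : (t : G) * (s : G)⁻¹ ∈ T := mul_mem htT (inv_mem hsT)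
      have hdc : d ∈ Subgroup.centralizer ({(t : G) * (s : G)⁻¹} : Set G) := by
        rw [Subgroup.mem_centralizer_iff]
        intro y hy
        rw [Set.mem_singleton_iff] at hy
        rw [hy]
        calc (t : G) * (s : G)⁻¹ * d = (d * ((t : G) * (s : G)⁻¹) * d⁻¹) * d := by rw [h2]
          _ = d * ((t : G) * (s : G)⁻¹) := by group
      rw [P.Tz _ hrT hr] at hdc
      exact hd1 (P.D1 u hu huN d hd hdc)
  have hsurj : Function.Surjective φ := Finite.injective_iff_surjective.mp hφ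
  obtain ⟨t, ht⟩ := hsurj ⟨(d₁ * (d₁⁻¹ * d) * d₁⁻¹)⁻¹, inv_mem ht₁⟩
  have ht' : (t : G)⁻¹ * (d * t * d⁻¹) = (d₁ * (d₁⁻¹ * d) * d₁⁻¹)⁻¹ := congrArg Subtype.val ht
  have htT := t.2
  -- d fixes t • x
  have hfix : d • ((t : G) • x) = (t : G) • x := by
    have h1 : d • ((t : G) • x) = (d * t * d⁻¹) • (d • x) := by
      rw [← mul_smul, ← mul_smul]; congr 1; group
    rw [h1, hdx, ← mul_smul]
    have h2 : d * (t : G) * d⁻¹ * (d₁ * (d₁⁻¹ * d) * d₁⁻¹) = (t : G) := by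
      have h3 : d * (t : G) * d⁻¹ = (t : G) * (d₁ * (d₁⁻¹ * d) * d₁⁻¹)⁻¹ := by
        rw [← ht']; group
      rw [h3]; group
    rw [h2]
  refine ⟨t, htT, ?_⟩
  by_contra hne
  apply hd1
  have hdfix := (mem_D_iff N u d).mp hd
  have hx0 : ((1 : G) : G ⧸ N) ≠ u • ((1 : G) : G ⧸ N) := by
    intro h
    exact huN ((Cfsg.Agent.Helper2.SE.mem_iff_fix_one u).mpr h.symm)
  have htx0 : ((1 : G) : G ⧸ N) ≠ (t : G) • x := by
    intro h
    apply hx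
    have : (t : G)⁻¹ • ((1 : G) : G ⧸ N) = x := by rw [h, inv_smul_smul]
    rw [← this]
    exact P.T_fix (inv_mem htT)
  exact P.three_fix hx0 htx0 (Ne.symm hne) hdfix.1 hdfix.2 hfix

/-- `T` is regular on the points other than the base point -/
theorem T_regular (P : Pkg N T) {x y : G ⧸ N} (hx : x ≠ ((1 : G) : G ⧸ N))
    (hy : y ≠ ((1 : G) : G ⧸ N)) : ∃! t : G, t ∈ T ∧ t • x = y := by
  obtain ⟨u, hu, huN, -⟩ := P.exists_invol hx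
  obtain ⟨a, ha, hax⟩ := P.T_to hu huN hx
  obtain ⟨b, hb, hby⟩ := P.T_to hu huN hy
  refine ⟨b⁻¹ * a, ⟨mul_mem (inv_mem hb) ha, ?_⟩, ?_⟩
  · rw [mul_smul, hax, ← hby, inv_smul_smul]
  · rintro t ⟨ht, htx⟩
    have h1 : ((b⁻¹ * a)⁻¹ * t) • x = x := by
      rw [mul_smul, htx, mul_inv_rev, inv_inv, mul_smul, hby, ← hax, inv_smul_smul]
    have h2 := P.T_free (mul_mem (inv_mem (mul_mem (inv_mem hb) ha)) ht) hx h1
    exact (inv_mul_eq_one.mp h2).symm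

/-- moving a triple to a standard triple -/
lemma to_std (P : Pkg N T) {u t0 : G} (hu : orderOf u = 2) (huN : u ∉ N) (ht0 : t0 ∈ T)
    (ht01 : t0 ≠ 1) {x₁ x₂ x₃ : G ⧸ N} (h12 : x₁ ≠ x₂) (h13 : x₁ ≠ x₃) (h23 : x₂ ≠ x₃) :
    ∃ g : G, g • x₁ = ((1 : G) : G ⧸ N) ∧ g • x₂ = u • ((1 : G) : G ⧸ N) ∧
      g • x₃ = t0 • (u • ((1 : G) : G ⧸ N)) := by
  obtain ⟨k, hk⟩ : ∃ k : G, k • x₁ = ((1 : G) : G ⧸ N) := by
    induction x₁ using QuotientGroup.induction_on with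
    | H k => exact ⟨k⁻¹, by rw [MulAction.Quotient.smul_mk, smul_eq_mul, inv_mul_cancel]⟩
  have hx2 : k • x₂ ≠ ((1 : G) : G ⧸ N) := by
    intro h; rw [← hk] at h; exact h12 (smul_left_cancel _ h).symm
  obtain ⟨t, ht, htx⟩ := P.T_to hu huN hx2
  have hx3 : t • k • x₃ ≠ ((1 : G) : G ⧸ N) := by
    intro h
    have h1 : t • k • x₁ = ((1 : G) : G ⧸ N) := by rw [hk]; exact P.T_fix ht
    rw [← h1] at h
    exact h13 (smul_left_cancel _ (smul_left_cancel _ h)).symm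
  have hx3' : t • k • x₃ ≠ u • ((1 : G) : G ⧸ N) := by
    intro h
    rw [← htx] at h
    exact h23 (smul_left_cancel _ (smul_left_cancel _ h)).symm
  obtain ⟨s, hs, hsx⟩ := P.T_to hu huN hx3
  have hs1 : s⁻¹ ≠ 1 := by
    intro h
    have : s = 1 := inv_eq_one.mp h
    rw [this, one_smul] at hsx
    exact hx3' hsx
  obtain ⟨d, hd, hds⟩ := P.D2 u hu huN s⁻¹ (inv_mem hs) hs1 t0 ht0 ht01
  have hdfix := (mem_D_iff N u d).mp hd
  refine ⟨d * t * k, ?_, ?_, ?_⟩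
  · rw [mul_smul, mul_smul, hk, P.T_fix ht, hdfix.1]
  · rw [mul_smul, mul_smul, htx, hdfix.2]
  · have h1 : t • k • x₃ = s⁻¹ • (u • ((1 : G) : G ⧸ N)) := by
      rw [← hsx, inv_smul_smul]
    rw [mul_smul, mul_smul, h1, ← hds]
    conv_rhs => rw [mul_smul, mul_smul]
    rw [inv_smul_eq_iff.mpr hdfix.2.symm]

theorem three_trans (P : Pkg N T) {x₁ x₂ x₃ y₁ y₂ y₃ : G ⧸ N} (h12 : x₁ ≠ x₂) (h13 : x₁ ≠ x₃)
    (h23 : x₂ ≠ x₃) (k12 : y₁ ≠ y₂) (k13 : y₁ ≠ y₃) (k23 : y₂ ≠ y₃) :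
    ∃ g : G, g • x₁ = y₁ ∧ g • x₂ = y₂ ∧ g • x₃ = y₃ := by
  -- an involution outside N and a nontrivial element of T
  have hex : ∃ x : G ⧸ N, x ≠ ((1 : G) : G ⧸ N) := by
    by_cases h : x₁ = ((1 : G) : G ⧸ N)
    · exact ⟨x₂, fun h2 => h12 (h.trans h2.symm)⟩
    · exact ⟨x₁, h⟩
  obtain ⟨x, hx⟩ := hex
  obtain ⟨u, hu, huN, -⟩ := P.exists_invol hx
  obtain ⟨t0, ht0, ht01⟩ : ∃ t0 ∈ T, t0 ≠ 1 := by
    by_contra hcon
    push_neg at hcon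
    have hbot := (Subgroup.eq_bot_iff_forall _).mpr hcon
    have hgt := P.Tgt
    rw [hbot, Subgroup.card_bot] at hgt
    omega
  obtain ⟨a, ha1, ha2, ha3⟩ := P.to_std hu huN ht0 ht01 h12 h13 h23
  obtain ⟨b, hb1, hb2, hb3⟩ := P.to_std hu huN ht0 ht01 k12 k13 k23
  refine ⟨b⁻¹ * a, ?_, ?_, ?_⟩
  · rw [mul_smul, ha1, ← hb1, inv_smul_smul]
  · rw [mul_smul, ha2, ← hb2, inv_smul_smul]
  · rw [mul_smul, ha3, ← hb3, inv_smul_smul]

end Pkg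

end Cfsg.Agent.Helper2.CIT
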