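import Mathlib

set_option autoImplicit false

namespace Cfsg.Agent.Helper2

open Classical in
/-- The fibres of `x ↦ x⁻¹ g x` over conjugates of `g` have the size of the centralizer. -/
lemma card_conj_fiber {G : Type*} [Group G] [Fintype G] (g y : G) (h : IsConj g y) :
    (Finset.univ.filter (fun x : G => x⁻¹ * g * x = y)).card =
      Nat.card (Subgroup.centralizer ({g} : Set G)) := by
  obtain ⟨c, hc⟩ := isConj_iff.mp h
  have hk : (c⁻¹)⁻¹ * g * c⁻¹ = y := by simpa using hc
  obtain ⟨k, hkk⟩ : ∃ k : G, k = c⁻¹ := ⟨_, rfl⟩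
  rw [← hkk] at hk
  rw [← Fintype.card_subtype, ← Nat.card_eq_fintype_card]
  symm
  have hcent : ∀ z : Subgroup.centralizer ({g} : Set G), (z : G)⁻¹ * g * (z : G) = g := by
    intro z
    have := Subgroup.mem_centralizer_iff.mp z.2 g rfl
    rw [mul_assoc, this]; group
  apply Nat.card_eq_of_bijective
    (fun z : Subgroup.centralizer ({g} : Set G) =>
      (⟨(z : G) * k, by
        calc ((z : G) * k)⁻¹ * g * ((z : G) * k) = k⁻¹ * ((z : G)⁻¹ * g * (z : G)) * k := by group
          _ = y := by rw [hcent z, hk]⟩ : {x : G // x⁻¹ * g * x = y}))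
  constructor
  · intro z z' e
    have e' : (z : G) * k = (z' : G) * k := congrArg Subtype.val e
    exact Subtype.ext (mul_right_cancel e')
  · rintro ⟨x, hx⟩
    have hmem : x * k⁻¹ ∈ Subgroup.centralizer ({g} : Set G) := by
      rw [Subgroup.mem_centralizer_iff]
      intro z hz
      rw [Set.mem_singleton_iff] at hz
      rw [hz]
      have e2 : g = k * y * k⁻¹ := by rw [← hk]; group
      calc g * (x * k⁻¹) = x * (x⁻¹ * g * x) * k⁻¹ := by group
        _ = x * y * k⁻¹ := by rw [hx]
        _ = x * k⁻¹ * (k * y * k⁻¹) := by group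
        _ = x * k⁻¹ * g := by rw [← e2]
    refine ⟨⟨x * k⁻¹, hmem⟩, Subtype.ext ?_⟩
    show x * k⁻¹ * k = x
    group

open Classical in
/-- Summing a function over the conjugates `x⁻¹ g x`, `x ∈ G`. -/
lemma sum_conj_eq {G : Type*} [Group G] [Fintype G] (g : G) (f : G → ℂ) :
    ∑ x : G, f (x⁻¹ * g * x) =
      (Nat.card (Subgroup.centralizer ({g} : Set G)) : ℂ) * ∑ y : G, if IsConj g y then f y else 0 := by
  have h1 : ∀ x : G, f (x⁻¹ * g * x) = ∑ y : G, if x⁻¹ * g * x = y then f y else 0 := by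
    intro x
    rw [Finset.sum_ite_eq]
    simp
  rw [Finset.sum_congr rfl (fun x _ => h1 x), Finset.sum_comm, Finset.mul_sum]
  apply Finset.sum_congr rfl
  intro y _
  rw [← Finset.sum_filter, Finset.sum_const, nsmul_eq_mul]
  by_cases hy : IsConj g y
  · rw [if_pos hy, card_conj_fiber g y hy]
  · rw [if_neg hy, mul_zero]
    have : Finset.univ.filter (fun x : G => x⁻¹ * g * x = y) = ∅ := by
      apply Finset.filter_eq_empty_iff.mpr
      intro x _ hx
      apply hy
      exact isConj_iff.mpr ⟨x⁻¹, by simpa using hx⟩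
    rw [this, Finset.card_empty]
    simp

end Cfsg.Agent.Helper2
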