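import Mathlib
import Cfsg.Prelude.Def_Blocks
import Cfsg.Agent.Lead.CharClifford
import Cfsg.Agent.Lead.CharConj2
import Cfsg.Agent.Helper2.ClassSum
import Cfsg.Agent.Helper2.CharN

/-! Constituents of the restriction to a normal subgroup, via central characters. -/

namespace Cfsg.Agent.Helper2.CentChar

open Cfsg.Agent.Lead

universe u

variable {G : Type u} [Group G] [Fintype G] (N : Subgroup G) [hN : N.Normal]

open Classical in
theorem card_fiber (θ : N → ℂ) (g₀ : G) :
    (Finset.univ.filter (fun g : G => conjFun N θ g = conjFun N θ g₀)).card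
      = (Finset.univ.filter (fun g : G => conjFun N θ g = θ)).card := by
  symm
  apply Finset.card_bij (fun a _ => a * g₀)
  · intro a ha
    rw [Finset.mem_filter] at ha ⊢
    refine ⟨Finset.mem_univ _, ?_⟩
    rw [← conjFun_conjFun, ha.2]
  · intro a _ b _ h
    exact mul_right_cancel h
  · intro g hg
    rw [Finset.mem_filter] at hg
    refine ⟨g * g₀⁻¹, ?_, by group⟩
    rw [Finset.mem_filter]
    refine ⟨Finset.mem_univ _, ?_⟩
    rw [← conjFun_conjFun, hg.2, conjFun_conjFun, mul_inv_cancel, conjFun_one]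

open Classical in
theorem sum_conjFun (θ : N → ℂ) :
    ∃ T : ℕ, T ≠ 0 ∧ ∑ g : G, conjFun N θ g = (T : ℂ) • ∑ᶠ ψ ∈ Set.range (conjFun N θ), ψ := by
  refine ⟨(Finset.univ.filter (fun g : G => conjFun N θ g = θ)).card, ?_, ?_⟩
  · apply Finset.card_ne_zero.mpr
    exact ⟨1, by
      rw [Finset.mem_filter]
      exact ⟨Finset.mem_univ _, conjFun_one N θ⟩⟩
  have hfin : (Set.range (conjFun N θ)).Finite := Set.finite_range _
  rw [finsum_mem_eq_finite_toFinset_sum _ hfin]
  rw [← Finset.sum_fiberwise_of_maps_to (s := Finset.univ) (t := hfin.toFinset)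
    (g := conjFun N θ) (fun g _ => by simp) (fun g => conjFun N θ g)]
  rw [Finset.smul_sum]
  refine Finset.sum_congr rfl (fun ψ hψ => ?_)
  rw [Set.Finite.mem_toFinset] at hψ
  obtain ⟨g₀, rfl⟩ := hψ
  rw [Finset.sum_congr rfl (fun g hg => (Finset.mem_filter.mp hg).2), Finset.sum_const,
    card_fiber N θ g₀, Nat.cast_smul_eq_nsmul]

variable [Fintype N]

theorem key_of_constituent {χ : G → ℂ} (hχ : Cfsg.IsIrrCharacter G χ) {θ : N → ℂ}
    (hθ : Cfsg.IsIrrCharacter N θ) (hcon : Cfsg.classInner (fun n : N => χ n) θ ≠ 0) (n : N) :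
    (Nat.card G : ℂ) * χ n / χ 1 = (∑ g : G, conjFun N θ g n) / θ 1 := by
  have h := clifford N hχ hθ hcon
  obtain ⟨T, hT0, hs⟩ := sum_conjFun N θ
  have hTpos : (T : ℂ) ≠ 0 := by exact_mod_cast hT0
  have h2 : ∀ m : N, (T : ℂ) * χ m
      = Cfsg.classInner (fun n : N => χ n) θ * ∑ g : G, conjFun N θ g m := by
    intro m
    have h3 := congrFun h m
    have h4 := congrFun hs m
    rw [Finset.sum_apply] at h4
    rw [h4, Pi.smul_apply, smul_eq_mul]
    simp only [Pi.smul_apply, smul_eq_mul] at h3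
    rw [h3]
    ring
  have hθ1 : θ 1 ≠ 0 := by
    obtain ⟨d, hd0, hd⟩ := isIrrCharacter_one_eq_nat hθ
    rw [hd]
    exact_mod_cast hd0.ne'
  have hχ1 : χ 1 ≠ 0 := by
    obtain ⟨d, hd0, hd⟩ := isIrrCharacter_one_eq_nat hχ
    rw [hd]
    exact_mod_cast hd0.ne'
  have h5 := h2 1
  have h6 : ∑ g : G, conjFun N θ g 1 = (Nat.card G : ℂ) * θ 1 := by
    have h7 : ∀ g : G, conjFun N θ g 1 = θ 1 := by
      intro g
      unfold conjFun
      congr 1
      apply Subtype.ext
      simp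
    rw [Finset.sum_congr rfl (fun g _ => h7 g), Finset.sum_const, Finset.card_univ, nsmul_eq_mul,
      Nat.card_eq_fintype_card]
  rw [h6] at h5
  have h5' : (T : ℂ) * χ 1
      = Cfsg.classInner (fun n : N => χ n) θ * ((Nat.card G : ℂ) * θ 1) := h5
  have h7 := h2 n
  rw [div_eq_div_iff hχ1 hθ1]
  apply mul_left_cancel₀ hTpos
  calc (T : ℂ) * ((Nat.card G : ℂ) * χ n * θ 1)
      = ((T : ℂ) * χ n) * ((Nat.card G : ℂ) * θ 1) := by ring
    _ = (Cfsg.classInner (fun n : N => χ n) θ * ∑ g : G, conjFun N θ g n)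
          * ((Nat.card G : ℂ) * θ 1) := by rw [h7]
    _ = (∑ g : G, conjFun N θ g n)
          * (Cfsg.classInner (fun n : N => χ n) θ * ((Nat.card G : ℂ) * θ 1)) := by ring
    _ = (∑ g : G, conjFun N θ g n) * ((T : ℂ) * χ 1) := by rw [← h5']
    _ = (T : ℂ) * ((∑ g : G, conjFun N θ g n) * χ 1) := by ring

open Classical in
theorem induced_eq (θ : N → ℂ) (n : N) :
    Cfsg.inducedCentralChar N θ (n : G)
      = (Nat.card (Subgroup.centralizer ({(n : G)} : Set G)) : ℂ)⁻¹
          * ((∑ g : G, conjFun N θ g n) / θ 1) := by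
  unfold Cfsg.inducedCentralChar
  have hC : (Nat.card (Subgroup.centralizer ({(n : G)} : Set G)) : ℂ) ≠ 0 :=
    natCard_ne_zero_complex _
  have h1 : ∑ᶠ h ∈ {h : N | IsConj (n : G) (h : G)}, θ h / θ 1
      = ∑ y : G, if IsConj (n : G) y then
          (if hy : y ∈ N then θ ⟨y, hy⟩ / θ 1 else 0) else 0 := by
    rw [finsum_mem_eq_finite_toFinset_sum _ (Set.toFinite _)]
    rw [Cfsg.Agent.Helper2.CharN.sum_split N (fun y => if IsConj (n : G) y then
          (if hy : y ∈ N then θ ⟨y, hy⟩ / θ 1 else 0) else 0)]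
    have h2 : ∑ g : G, (if g ∈ N then 0 else (if IsConj (n : G) g then
          (if hy : g ∈ N then θ ⟨g, hy⟩ / θ 1 else 0) else 0)) = 0 := by
      refine Finset.sum_eq_zero (fun g _ => ?_)
      by_cases hg : g ∈ N
      · rw [if_pos hg]
      · rw [if_neg hg, dif_neg hg, ite_self]
    rw [h2, add_zero, ← Finset.sum_filter]
    refine Finset.sum_congr ?_ (fun h _ => ?_)
    · ext h
      simp
    · rw [dif_pos h.2]
  rw [h1]
  have h3 := Cfsg.Agent.Helper2.sum_conj_eq (n : G)
    (fun y => if hy : y ∈ N then θ ⟨y, hy⟩ / θ 1 else 0)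
  have h4 : ∑ x : G, (fun y => if hy : y ∈ N then θ ⟨y, hy⟩ / θ 1 else 0) (x⁻¹ * (n : G) * x)
      = (∑ g : G, conjFun N θ g n) / θ 1 := by
    rw [Finset.sum_div, ← Equiv.sum_comp (Equiv.inv G) (fun g => conjFun N θ g n / θ 1)]
    refine Finset.sum_congr rfl (fun x _ => ?_)
    have hx : x⁻¹ * (n : G) * x ∈ N := by
      have h5 := hN.conj_mem (n : G) n.2 x⁻¹
      rwa [inv_inv] at h5
    simp only [dif_pos hx, Equiv.inv_apply]
    unfold conjFun
    congr 2
    apply Subtype.ext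
    simp
  rw [h4] at h3
  rw [h3, ← mul_assoc, inv_mul_cancel₀ hC, one_mul]

theorem main (χ : Cfsg.IrrCharacter G) (θ : Cfsg.IrrCharacter N) :
    Cfsg.classInner (fun n : N => (χ : G → ℂ) n) (θ : N → ℂ) ≠ 0 ↔
      ∀ n : N, Cfsg.centralChar (χ : G → ℂ) (n : G)
        = Cfsg.inducedCentralChar N (θ : N → ℂ) (n : G) := by
  classical
  have hcc : ∀ n : N, Cfsg.centralChar (χ : G → ℂ) (n : G)
      = (Nat.card (Subgroup.centralizer ({(n : G)} : Set G)) : ℂ)⁻¹
          * ((Nat.card G : ℂ) * (χ : G → ℂ) n / (χ : G → ℂ) 1) := by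
    intro n
    unfold Cfsg.centralChar
    have hC : (Nat.card (Subgroup.centralizer ({(n : G)} : Set G)) : ℂ) ≠ 0 :=
      natCard_ne_zero_complex _
    have h1 : (Nat.card G : ℂ) = (Nat.card (Subgroup.centralizer ({(n : G)} : Set G)) : ℂ)
        * ((Subgroup.centralizer ({(n : G)} : Set G)).index : ℂ) := by
      exact_mod_cast (Subgroup.card_mul_index _).symm
    rw [h1]
    field_simp
  have hχ1 : (χ : G → ℂ) 1 ≠ 0 := by
    obtain ⟨d, hd0, hd⟩ := isIrrCharacter_one_eq_nat χ.2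
    rw [hd]
    exact_mod_cast hd0.ne'
  have hθ1 : (θ : N → ℂ) 1 ≠ 0 := by
    obtain ⟨d, hd0, hd⟩ := isIrrCharacter_one_eq_nat θ.2
    rw [hd]
    exact_mod_cast hd0.ne'
  constructor
  · intro hcon n
    rw [hcc n, induced_eq N _ n, key_of_constituent N χ.2 θ.2 hcon n]
  · intro hall
    have hkey : ∀ n : N, (Nat.card G : ℂ) * (χ : G → ℂ) n / (χ : G → ℂ) 1
        = (∑ g : G, conjFun N (θ : N → ℂ) g n) / (θ : N → ℂ) 1 := by
      intro n
      have h1 := hall n
      rw [hcc n, induced_eq N _ n] at h1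
      exact mul_left_cancel₀ (inv_ne_zero (natCard_ne_zero_complex _)) h1
    obtain ⟨θ', hθ'⟩ : ∃ θ' : Cfsg.IrrCharacter N,
        Cfsg.classInner (fun n : N => (χ : G → ℂ) n) (θ' : N → ℂ) ≠ 0 := by
      by_contra hcon
      push_neg at hcon
      have hz := classFunction_eq_zero_of_orth (fun n : N => (χ : G → ℂ) n)
        (isCharacter_isClassFunction (isCharacter_res N (isCharacter_of_isIrrCharacter χ.2))) hcon
      have h1 := congrFun hz 1
      exact hχ1 h1
    have hθ'1 : (θ' : N → ℂ) 1 ≠ 0 := by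
      obtain ⟨d, hd0, hd⟩ := isIrrCharacter_one_eq_nat θ'.2
      rw [hd]
      exact_mod_cast hd0.ne'
    have hkey' := key_of_constituent N χ.2 θ'.2 hθ'
    have hfun : ((θ : N → ℂ) 1)⁻¹ • ∑ g : G, conjFun N (θ : N → ℂ) g
        = ((θ' : N → ℂ) 1)⁻¹ • ∑ g : G, conjFun N (θ' : N → ℂ) g := by
      funext n
      simp only [Pi.smul_apply, Finset.sum_apply, smul_eq_mul]
      have h1 := (hkey n).symm.trans (hkey' n)
      rw [div_eq_inv_mul, div_eq_inv_mul] at h1
      exact h1
    have hin := congrArg (fun F => Cfsg.classInner F (θ : N → ℂ)) hfun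
    simp only [classInner_smul_left, classInner_sum_left] at hin
    have hL : ∀ g : G, Cfsg.classInner (conjFun N (θ : N → ℂ) g) (θ : N → ℂ)
        = if conjFun N (θ : N → ℂ) g = θ then 1 else 0 := by
      intro g
      have h1 := classInner_irr ⟨_, isIrrCharacter_conjFun N θ.2 g⟩ θ
      rw [h1]
      by_cases h : conjFun N (θ : N → ℂ) g = θ
      · rw [if_pos h, if_pos (Subtype.ext h)]
      · rw [if_neg h, if_neg (fun h' => h (congrArg Subtype.val h'))]
    have hR : ∀ g : G, Cfsg.classInner (conjFun N (θ' : N → ℂ) g) (θ : N → ℂ)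
        = if conjFun N (θ' : N → ℂ) g = θ then 1 else 0 := by
      intro g
      have h1 := classInner_irr ⟨_, isIrrCharacter_conjFun N θ'.2 g⟩ θ
      rw [h1]
      by_cases h : conjFun N (θ' : N → ℂ) g = θ
      · rw [if_pos h, if_pos (Subtype.ext h)]
      · rw [if_neg h, if_neg (fun h' => h (congrArg Subtype.val h'))]
    rw [Finset.sum_congr rfl (fun g _ => hL g), Finset.sum_congr rfl (fun g _ => hR g),
      Finset.sum_boole, Finset.sum_boole] at hin
    have hT : (Finset.univ.filter (fun g : G => conjFun N (θ : N → ℂ) g = θ)).card ≠ 0 := by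
      apply Finset.card_ne_zero.mpr
      exact ⟨1, by
        rw [Finset.mem_filter]
        exact ⟨Finset.mem_univ _, conjFun_one N θ⟩⟩
    have hT' : (Finset.univ.filter (fun g : G => conjFun N (θ' : N → ℂ) g = θ)).card ≠ 0 := by
      intro h0
      rw [h0, Nat.cast_zero, mul_zero] at hin
      rcases mul_eq_zero.mp hin with h | h
      · exact hθ1 (inv_eq_zero.mp h)
      · exact hT (by exact_mod_cast h)
    obtain ⟨g, hg⟩ := Finset.card_pos.mp (Nat.pos_of_ne_zero hT')
    rw [Finset.mem_filter] at hg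
    have h1 := clifford_orbit N χ.2 θ'.2 hθ' θ
    rw [if_pos ⟨g, hg.2.symm⟩] at h1
    rw [h1]
    exact hθ'

end Cfsg.Agent.Helper2.CentChar
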