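import Mathlib
import Cfsg.Agent.Lead.CharEig
import Cfsg.Agent.Lead.CharCenter
import Cfsg.Agent.Lead.CharCore5

/-! Characters and the centre. -/

namespace Cfsg.Agent.Helper2.CenterChar

open Cfsg.Agent.Lead

universe u

/-- for a faithful irreducible character, `|χ x| = χ 1` forces `x` central -/
theorem mem_center_of_norm_eq {G : Type u} [Group G] [Finite G] {χ : G → ℂ}
    (hχ : Cfsg.IsIrrCharacter G χ) (hfaith : ∀ g : G, χ g = χ 1 → g = 1) (x : G)
    (h : ‖χ x‖ = ‖χ 1‖) : x ∈ Subgroup.center G := by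
  obtain ⟨n, ρ, hi, rfl⟩ := hχ
  have hnt : Nontrivial (Fin n → ℂ) := ((isIrreducible_iff ρ).mp hi).1
  have hpos : 0 < Module.finrank ℂ (Fin n → ℂ) := Module.finrank_pos
  rw [Representation.char_one, Complex.norm_natCast] at h
  set s := (ρ x).charpoly.roots with hs
  have hcard : s.card = Module.finrank ℂ (Fin n → ℂ) := charpoly_roots_card ρ x
  have hsum : ρ.character x = s.sum := character_eq_sum_roots ρ x
  have hn1 : ∀ μ ∈ s, ‖μ‖ = 1 := fun μ hμ => charpoly_root_norm ρ x hμ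
  obtain ⟨ω, hω⟩ := multiset_unit_norm_sum_eq_card hn1
    (by rw [← hsum, hcard]; exact h) (by rw [hcard]; exact hpos)
  have hsc : ρ x = ω • (LinearMap.id : (Fin n → ℂ) →ₗ[ℂ] (Fin n → ℂ)) :=
    rep_eq_smul_id_of_roots ρ x ω hω
  rw [Subgroup.mem_center_iff]
  intro y
  have hcomm : ρ (y * x) = ρ (x * y) := by
    rw [map_mul, map_mul, hsc]
    ext v
    simp
  have h1 : ρ (y * x * (x * y)⁻¹) = 1 := by
    rw [map_mul, hcomm, ← map_mul, mul_inv_cancel, map_one]
  have h2 : ρ.character (y * x * (x * y)⁻¹) = ρ.character 1 := by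
    show LinearMap.trace ℂ _ (ρ (y * x * (x * y)⁻¹)) = LinearMap.trace ℂ _ (ρ 1)
    have h1' : ρ 1 = 1 := map_one ρ
    rw [h1, h1']
  have h3 := hfaith _ h2
  exact mul_inv_eq_one.mp h3

/-- an irreducible character does not vanish on the centre -/
theorem center_ne_zero {A : Type u} [Group A] [Finite A] {ψ : A → ℂ}
    (hψ : Cfsg.IsIrrCharacter A ψ) {z : A} (hz : z ∈ Subgroup.center A) : ψ z ≠ 0 := by
  obtain ⟨n, ρ, hi, rfl⟩ := hψ
  have hnt : Nontrivial (Fin n → ℂ) := ((isIrreducible_iff ρ).mp hi).1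
  have hpos : 0 < Module.finrank ℂ (Fin n → ℂ) := Module.finrank_pos
  obtain ⟨c, hc⟩ := rep_center_scalar ρ hi hz
  have hcc := rep_scalar_norm ρ z c hc
  have hc0 : c ≠ 0 := by
    intro h0
    rw [h0, zero_mul] at hcc
    exact zero_ne_one hcc
  have hch : ρ.character z = c * (Module.finrank ℂ (Fin n → ℂ) : ℂ) := by
    show LinearMap.trace ℂ _ (ρ z) = _
    rw [hc, map_smul, LinearMap.trace_id, smul_eq_mul]
  rw [hch]
  exact mul_ne_zero hc0 (by exact_mod_cast hpos.ne')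

end Cfsg.Agent.Helper2.CenterChar
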