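import Mathlib
import Cfsg.Prelude.Def_ChevStructure
import Cfsg.Prelude.Def_LieTypes
import Cfsg.Prelude.Def_ChevB2

set_option autoImplicit false

namespace Cfsg.Agent.Helper2

open Cfsg.Lie

/-- Root elements are compatible with field homomorphisms applied entrywise. -/
lemma xMat_map (D : ChevalleyDatum) {F K : Type*} [Field F] [Field K] (f : F →+* K)
    (r : Fin D.nroots) (t : F) :
    (D.xMat F r t).map f = D.xMat K r (f t) := by
  ext row col
  rw [Matrix.map_apply]
  unfold ChevalleyDatum.xMat
  simp only [Matrix.of_apply]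
  rcases col with i | s
  · rcases row with i' | u
    · simp only []
      split_ifs <;> simp
    · simp only []
      split_ifs <;> simp
  · by_cases hsr : s = r
    · simp only [hsr, if_true]
      rcases row with i | u
      · simp
      · simp only []
        split_ifs <;> simp
    · simp only [hsr, if_false]
      by_cases hneg : s.val = D.negIdx.getD r.val 0
      · simp only [hneg, if_true]
        rcases row with i | u
        · simp
        · simp only []
          split_ifs <;> simp
      · simp only [hneg, if_false]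
        rcases row with i | u
        · simp
        · simp only [map_add, map_list_sum, List.map_map]
          congr 1
          · split_ifs <;> simp
          · congr 1
            apply List.map_congr_left
            intro km _
            simp

lemma x_of_lt (D : ChevalleyDatum) (F : Type*) [Field F] {r : ℕ} (hr : r < D.nroots) (t : F) :
    D.x F r t = D.xMat F ⟨r, hr⟩ t := by
  unfold ChevalleyDatum.x
  rw [dif_pos hr]

theorem negIdx_ok_G2 : ∀ r < chevG2.nroots, chevG2.negIdx.getD r 0 < chevG2.nroots ∧ chevG2.negIdx.getD r 0 ≠ r := by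
  decide +kernel
theorem negIdx_ok_B2 : ∀ r < chevB2.nroots, chevB2.negIdx.getD r 0 < chevB2.nroots ∧ chevB2.negIdx.getD r 0 ≠ r := by
  decide +kernel
theorem negIdx_ok_D4 : ∀ r < chevD4.nroots, chevD4.negIdx.getD r 0 < chevD4.nroots ∧ chevD4.negIdx.getD r 0 ≠ r := by
  decide +kernel
theorem negIdx_ok_F4 : ∀ r < chevF4.nroots, chevF4.negIdx.getD r 0 < chevF4.nroots ∧ chevF4.negIdx.getD r 0 ≠ r := by
  decide +kernel
theorem negIdx_ok_E6 : ∀ r < chevE6.nroots, chevE6.negIdx.getD r 0 < chevE6.nroots ∧ chevE6.negIdx.getD r 0 ≠ r := by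
  decide +kernel
theorem negIdx_ok_E7 : ∀ r < chevE7.nroots, chevE7.negIdx.getD r 0 < chevE7.nroots ∧ chevE7.negIdx.getD r 0 ≠ r := by
  decide +kernel
theorem negIdx_ok_E8 : ∀ r < chevE8.nroots, chevE8.negIdx.getD r 0 < chevE8.nroots ∧ chevE8.negIdx.getD r 0 ≠ r := by
  decide +kernel

theorem negIdx_ok (D : ChevalleyDatum)
    (hD : D ∈ [chevG2, chevB2, chevD4, chevF4, chevE6, chevE7, chevE8]) :
    ∀ r < D.nroots, D.negIdx.getD r 0 < D.nroots ∧ D.negIdx.getD r 0 ≠ r := by
  simp only [List.mem_cons, List.not_mem_nil, or_false] at hD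
  rcases hD with rfl | rfl | rfl | rfl | rfl | rfl | rfl
  · exact negIdx_ok_G2
  · exact negIdx_ok_B2
  · exact negIdx_ok_D4
  · exact negIdx_ok_F4
  · exact negIdx_ok_E6
  · exact negIdx_ok_E7
  · exact negIdx_ok_E8

theorem posneg_ok_G2 : ∀ r < chevG2.nroots, chevG2.IsPosRoot r ∨ chevG2.IsNegRoot r := by decide +kernel
theorem posneg_ok_B2 : ∀ r < chevB2.nroots, chevB2.IsPosRoot r ∨ chevB2.IsNegRoot r := by decide +kernel
theorem posneg_ok_D4 : ∀ r < chevD4.nroots, chevD4.IsPosRoot r ∨ chevD4.IsNegRoot r := by decide +kernel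
theorem posneg_ok_F4 : ∀ r < chevF4.nroots, chevF4.IsPosRoot r ∨ chevF4.IsNegRoot r := by decide +kernel
theorem posneg_ok_E6 : ∀ r < chevE6.nroots, chevE6.IsPosRoot r ∨ chevE6.IsNegRoot r := by decide +kernel
theorem posneg_ok_E7 : ∀ r < chevE7.nroots, chevE7.IsPosRoot r ∨ chevE7.IsNegRoot r := by decide +kernel
theorem posneg_ok_E8 : ∀ r < chevE8.nroots, chevE8.IsPosRoot r ∨ chevE8.IsNegRoot r := by decide +kernel

theorem posneg_ok (D : ChevalleyDatum)
    (hD : D ∈ [chevG2, chevB2, chevD4, chevF4, chevE6, chevE7, chevE8]) :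
    ∀ r < D.nroots, D.IsPosRoot r ∨ D.IsNegRoot r := by
  simp only [List.mem_cons, List.not_mem_nil, or_false] at hD
  rcases hD with rfl | rfl | rfl | rfl | rfl | rfl | rfl
  · exact posneg_ok_G2
  · exact posneg_ok_B2
  · exact posneg_ok_D4
  · exact posneg_ok_F4
  · exact posneg_ok_E6
  · exact posneg_ok_E7
  · exact posneg_ok_E8

/-- All exponents in the chain coefficient list are positive. -/
lemma chainCoeff_pos (D : ChevalleyDatum) (r s u : ℕ) : ∀ km ∈ D.chainCoeff r s u, km.1 ≠ 0 := by
  intro km hkm
  unfold ChevalleyDatum.chainCoeff at hkm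
  rw [List.mem_flatMap] at hkm
  obtain ⟨e, _, he⟩ := hkm
  rw [List.mem_map] at he
  obtain ⟨q, _, rfl⟩ := he
  exact Nat.succ_ne_zero _

/-- `x_r(0) = 1`. -/
lemma xMat_zero (D : ChevalleyDatum) (F : Type*) [Field F] (r : Fin D.nroots) :
    D.xMat F r 0 = 1 := by
  ext row col
  unfold ChevalleyDatum.xMat
  simp only [Matrix.of_apply]
  rcases col with i | s
  · rcases row with i' | u
    · simp only [Matrix.one_apply, Sum.inl.injEq]
    · simp [Matrix.one_apply]
  · by_cases hsr : s = r
    · subst hsr
      simp only [if_true]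
      rcases row with i | u
      · simp [Matrix.one_apply]
      · simp [Matrix.one_apply]
    · simp only [hsr, if_false]
      by_cases hneg : s.val = D.negIdx.getD r.val 0
      · simp only [hneg, if_true]
        rcases row with i | u
        · simp [Matrix.one_apply]
        · simp only [Matrix.one_apply, Sum.inr.injEq]
          split_ifs with h1 h2 <;> simp
      · simp only [hneg, if_false]
        rcases row with i | u
        · simp [Matrix.one_apply]
        · have hsum : ((D.chainCoeff r.val s.val u.val).map fun km => ((km.2 : ℤ) : F) * (0 : F) ^ km.1).sum = 0 := by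
            apply List.sum_eq_zero
            intro x hx
            rw [List.mem_map] at hx
            obtain ⟨km, hkm, rfl⟩ := hx
            rw [zero_pow (chainCoeff_pos D _ _ _ km hkm), mul_zero]
          simp only [hsum, add_zero, Matrix.one_apply, Sum.inr.injEq]

end Cfsg.Agent.Helper2
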