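import Mathlib
import Cfsg.Prelude.Def_Characters
import Cfsg.Agent.Lead.CharConj
import Cfsg.Agent.Lead.CharCore5
import Cfsg.Agent.Helper2.Brauer4

namespace Cfsg.Agent.Helper2.Dade

open scoped ComplexConjugate

universe u

/-- weighted fixed point congruence for an action all of whose orbits have `p`-power size -/
theorem weighted_fixed {P : Type*} [Group P] {p : ℕ} {X : Type*} [Fintype X] [MulAction P X]
    (horb : ∀ x : X, ∃ n : ℕ, Nat.card (MulAction.orbit P x) = p ^ n)
    (F : X → ℕ) (hF : ∀ (g : P) (x : X), F (g • x) = F x) (hsum : ¬ p ∣ ∑ x, F x) :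
    ∃ x, (∀ g : P, g • x = x) ∧ ¬ p ∣ F x := by
  classical
  by_contra hcon
  push_neg at hcon
  apply hsum
  let f : X → MulAction.orbitRel.Quotient P X := Quotient.mk''
  haveI : Fintype (MulAction.orbitRel.Quotient P X) := Fintype.ofFinite _
  have h1 : ∑ x, F x
      = ∑ s : (Σ ω : MulAction.orbitRel.Quotient P X, {a : X // f a = ω}), F s.2.1 :=
    (Fintype.sum_equiv (Equiv.sigmaFiberEquiv f) _ _ (fun s => rfl)).symm
  rw [h1, Fintype.sum_sigma]
  apply Finset.dvd_sum
  intro ω _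
  obtain ⟨a₀, ha₀⟩ : ∃ a₀, f a₀ = ω := Quotient.mk''_surjective ω
  have hmem : ∀ a : X, f a = ω ↔ a ∈ MulAction.orbit P a₀ := by
    intro a
    rw [← ha₀]
    constructor
    · intro h; exact Quotient.exact' h
    · intro h; exact Quotient.sound' h
  have h2 : ∀ a : {a : X // f a = ω}, F a.1 = F a₀ := by
    intro a
    obtain ⟨g, hg⟩ := (hmem a.1).mp a.2
    rw [← hg]
    exact hF g a₀
  rw [Finset.sum_congr rfl (fun a _ => h2 a), Finset.sum_const, Finset.card_univ, smul_eq_mul]
  by_cases hfix : ∀ g : P, g • a₀ = a₀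
  · exact Dvd.dvd.mul_left (hcon a₀ hfix) _
  · apply Dvd.dvd.mul_right
    have h3 : Fintype.card {a : X // f a = ω} = Nat.card (MulAction.orbit P a₀) := by
      rw [← Nat.card_eq_fintype_card]
      exact Nat.card_congr (Equiv.subtypeEquivRight hmem)
    obtain ⟨n, hn⟩ := horb a₀
    rw [h3, hn]
    rcases Nat.eq_zero_or_pos n with h0 | hpos
    · exfalso
      apply hfix
      intro g
      rw [h0, pow_zero, Nat.card_eq_one_iff_unique] at hn
      obtain ⟨hsub, _⟩ := hn
      have := hsub.elim (⟨g • a₀, MulAction.mem_orbit a₀ g⟩ : MulAction.orbit P a₀)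
        ⟨a₀, MulAction.mem_orbit_self a₀⟩
      exact congrArg Subtype.val this
    · exact dvd_pow_self p hpos.ne'

section mackey

variable {G : Type u} [Group G] [Fintype G] (N E : Subgroup G) [hN : N.Normal]

/-- the Mackey-type evaluation of an induced function against an invariant weight on a
normal subgroup -/
theorem mackey_sum [Fintype N] [Fintype ↥(E ⊓ N)] (φ : E → ℂ) (w : N → ℂ)
    (hw : ∀ (g : G) (n : N), w ⟨g * n * g⁻¹, hN.conj_mem n n.2 g⟩ = w n) :
    ∑ n : N, Cfsg.indFun E φ (n : G) * w n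
      = (Nat.card G : ℂ) * (Nat.card E : ℂ)⁻¹
        * ∑ x : ↥(E ⊓ N), φ ⟨x, x.2.1⟩ * w ⟨x, x.2.2⟩ := by
  classical
  have h1 : ∀ y : G, ∑ n : N, Cfsg.extendByZero E φ (y⁻¹ * (n : G) * y) * w n
      = ∑ n : N, Cfsg.extendByZero E φ (n : G) * w n := by
    intro y
    have := Equiv.sum_comp (MulAut.conjNormal y⁻¹ : N ≃* N).toEquiv
      (fun n : N => Cfsg.extendByZero E φ (n : G) * w n)
    rw [← this]
    refine Finset.sum_congr rfl (fun n _ => ?_)
    have h2 : (((MulAut.conjNormal y⁻¹ : N ≃* N).toEquiv n : N) : G) = y⁻¹ * n * y := by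
      change ((MulAut.conjNormal y⁻¹ n : N) : G) = _
      rw [MulAut.conjNormal_apply, inv_inv]
    have h3 : w ((MulAut.conjNormal y⁻¹ : N ≃* N).toEquiv n) = w n := by
      have h4 := hw y⁻¹ n
      rw [← h4]
      congr 1
    rw [h2, h3]
  have h5 : ∑ n : N, Cfsg.extendByZero E φ (n : G) * w n
      = ∑ x : ↥(E ⊓ N), φ ⟨x, x.2.1⟩ * w ⟨x, x.2.2⟩ := by
    symm
    apply Fintype.sum_of_injective (fun x : ↥(E ⊓ N) => (⟨x, x.2.2⟩ : N))
    · intro x y hxy
      exact Subtype.ext (congrArg (fun n : N => (n : G)) hxy)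
    · intro n hn
      have hnE : (n : G) ∉ E := by
        intro h
        exact hn ⟨⟨n, ⟨h, n.2⟩⟩, rfl⟩
      rw [Cfsg.Agent.Lead.extendByZero_not_mem E φ hnE, zero_mul]
    · intro x
      rw [Cfsg.Agent.Lead.extendByZero_mem E φ x.2.1]
  calc ∑ n : N, Cfsg.indFun E φ (n : G) * w n
      = ∑ n : N, (Nat.card E : ℂ)⁻¹
          * ∑ y : G, Cfsg.extendByZero E φ (y⁻¹ * (n : G) * y) * w n := by
        refine Finset.sum_congr rfl (fun n _ => ?_)
        rw [Cfsg.Agent.Lead.indFun_apply, mul_assoc, Finset.sum_mul]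
    _ = (Nat.card E : ℂ)⁻¹
          * ∑ y : G, ∑ n : N, Cfsg.extendByZero E φ (y⁻¹ * (n : G) * y) * w n := by
        rw [← Finset.mul_sum, Finset.sum_comm]
    _ = _ := by
        rw [Finset.sum_congr rfl (fun y _ => h1 y), Finset.sum_const, Finset.card_univ,
          nsmul_eq_mul, h5, Nat.card_eq_fintype_card (α := G)]
        ring

omit [Fintype G] in
theorem index_arith [Finite G] :
    Nat.card G * Nat.card ↥(E ⊓ N) = (E ⊔ N).index * Nat.card N * Nat.card E := by
  have h1 : N.relIndex (E ⊔ N) = N.relIndex E := Subgroup.relIndex_sup_right E N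
  have h2 : Nat.card ↥(E ⊔ N) * (E ⊔ N).index = Nat.card G := Subgroup.card_mul_index _
  have h3 : Nat.card N * N.relIndex (E ⊔ N) = Nat.card ↥(E ⊔ N) := by
    have := Subgroup.relIndex_mul_relIndex (H := (⊥ : Subgroup G)) (K := N) (L := E ⊔ N)
      bot_le le_sup_right
    rwa [Subgroup.relIndex_bot_left, Subgroup.relIndex_bot_left] at this
  have h4 : Nat.card ↥(E ⊓ N) * N.relIndex E = Nat.card E := by
    have := Subgroup.relIndex_mul_relIndex (H := (⊥ : Subgroup G)) (K := E ⊓ N) (L := E)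
      bot_le inf_le_left
    rw [Subgroup.relIndex_bot_left, Subgroup.relIndex_bot_left, inf_comm,
      Subgroup.inf_relIndex_right] at this
    rwa [inf_comm]
  rw [← h2, ← h3, h1, ← h4]
  ring

end mackey

section action

variable {G : Type u} [Group G] (E N : Subgroup G) [hN : N.Normal]

/-- conjugation by an element of `E` on `E ⊓ N` -/
def cD (g : E) : ↥(E ⊓ N) ≃* ↥(E ⊓ N) where
  toFun x := ⟨g * x * (g : G)⁻¹,
    ⟨E.mul_mem (E.mul_mem g.2 x.2.1) (E.inv_mem g.2), hN.conj_mem x x.2.2 g⟩⟩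
  invFun x := ⟨(g : G)⁻¹ * x * g,
    ⟨E.mul_mem (E.mul_mem (E.inv_mem g.2) x.2.1) g.2, by
      have := hN.conj_mem x x.2.2 (g : G)⁻¹
      simpa using this⟩⟩
  left_inv x := Subtype.ext (by simp [mul_assoc])
  right_inv x := Subtype.ext (by simp [mul_assoc])
  map_mul' x y := Subtype.ext (by simp [mul_assoc])

theorem cD_coe (g : E) (x : ↥(E ⊓ N)) : ((cD E N g x : ↥(E ⊓ N)) : G) = g * x * (g : G)⁻¹ := rfl

/-- the conjugate of an irreducible character of `E ⊓ N` by an element of `E` -/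
noncomputable def conjIrr [Finite G] (g : E) (φ : Cfsg.IrrCharacter ↥(E ⊓ N)) :
    Cfsg.IrrCharacter ↥(E ⊓ N) :=
  ⟨φ.1 ∘ (cD E N g⁻¹), Cfsg.Agent.Lead.isIrrCharacter_comp_mulEquiv _ φ.2⟩

/-- the conjugation action of `E` on the irreducible characters of `E ⊓ N` -/
noncomputable def act [Finite G] : MulAction E (Cfsg.IrrCharacter ↥(E ⊓ N)) where
  smul g φ := conjIrr E N g φ
  one_smul φ := Subtype.ext (funext fun x => congrArg φ.1 (Subtype.ext (by
    simp [cD_coe])))
  mul_smul g h φ := Subtype.ext (funext fun x => congrArg φ.1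
    (Subtype.ext (by simp [cD_coe, mul_assoc])))

theorem classInner_conjIrr [Finite G] [Fintype ↥(E ⊓ N)] (f : ↥(E ⊓ N) → ℂ)
    (hf : ∀ (g : E) (x : ↥(E ⊓ N)), f (cD E N g x) = f x) (g : E)
    (φ : Cfsg.IrrCharacter ↥(E ⊓ N)) :
    Cfsg.classInner f (conjIrr E N g φ).1 = Cfsg.classInner f φ.1 := by
  unfold Cfsg.classInner
  congr 1
  rw [← Equiv.sum_comp (cD E N g).toEquiv]
  refine Finset.sum_congr rfl (fun x _ => ?_)
  have h1 : (conjIrr E N g φ).1 ((cD E N g).toEquiv x) = φ.1 x := by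
    change φ.1 (cD E N g⁻¹ (cD E N g x)) = φ.1 x
    refine congrArg φ.1 (Subtype.ext ?_)
    simp [cD_coe, mul_assoc]
  have h2 : f ((cD E N g).toEquiv x) = f x := hf g x
  rw [h1, h2]

end action

/-- expansion of an inner product against a multiset sum of irreducible characters -/
theorem inner_expand {D : Type u} [Group D] [Fintype D] [Fintype (Cfsg.IrrCharacter D)]
    [DecidableEq (Cfsg.IrrCharacter D)] (f : D → ℂ) (ms : Multiset (Cfsg.IrrCharacter D)) :
    Cfsg.classInner f (ms.map (fun ψ : Cfsg.IrrCharacter D => (ψ : D → ℂ))).sum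
      = ∑ φ : Cfsg.IrrCharacter D, (ms.count φ : ℂ) * Cfsg.classInner f φ.1 := by
  induction ms using Multiset.induction_on with
  | empty => simp [Cfsg.Agent.Lead.classInner_zero_right]
  | cons a ms ih =>
    rw [Multiset.map_cons, Multiset.sum_cons, Cfsg.Agent.Lead.classInner_add_right, ih]
    have h1 : ∀ φ : Cfsg.IrrCharacter D,
        ((Multiset.count φ (a ::ₘ ms) : ℕ) : ℂ) * Cfsg.classInner f φ.1
          = (if φ = a then Cfsg.classInner f φ.1 else 0)
            + (ms.count φ : ℂ) * Cfsg.classInner f φ.1 := by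
      intro φ
      rw [Multiset.count_cons]
      split_ifs with h
      · push_cast; ring
      · push_cast; ring
    rw [Finset.sum_congr rfl (fun φ _ => h1 φ), Finset.sum_add_distrib,
      Finset.sum_ite_eq' Finset.univ a]
    simp

end Cfsg.Agent.Helper2.Dade
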