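import Mathlib
import Cfsg.Prelude.Def_Characters
import Cfsg.Agent.Helper2.Dade
import Cfsg.Agent.Helper2.Brauer5
import Cfsg.Agent.Helper2.Conj
import Cfsg.Agent.Helper2.LinExt
import Cfsg.Agent.Helper2.Mono

namespace Cfsg.Agent.Helper2.Dade

open scoped ComplexConjugate

universe u

/-- In the situation of Isaacs (8.26), an irreducible character of `E ⊓ N`, for `E` a
`p`-elementary subgroup, extends to a character of `E`. -/
theorem exists_ext {G : Type u} [Group G] [Fintype G] (p : ℕ) [Fact p.Prime] (N : Subgroup G)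
    [hN : N.Normal] (hind : ∃ k : ℕ, N.index = p ^ k) (P : Sylow p G)
    (hcent : ∀ x ∈ (P : Subgroup G) ⊓ N, ∀ y ∈ (P : Subgroup G), x * y = y * x)
    (hlin : ∀ lam : ↥((P : Subgroup G) ⊓ N) → ℂ, Cfsg.IsCharacter ↥((P : Subgroup G) ⊓ N) lam →
      lam 1 = 1 → ∃ μ : ↥(P : Subgroup G) → ℂ, Cfsg.IsCharacter ↥(P : Subgroup G) μ ∧ μ 1 = 1 ∧
        ∀ x : ↥((P : Subgroup G) ⊓ N), μ ⟨(x : G), x.2.1⟩ = lam x)
    (E : Subgroup G) (hE : Cfsg.IsElementary p E) (φ : ↥(E ⊓ N) → ℂ)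
    (hφ : Cfsg.IsIrrCharacter ↥(E ⊓ N) φ) :
    ∃ ψ : E → ℂ, Cfsg.IsCharacter E ψ ∧ ∀ x : ↥(E ⊓ N), ψ ⟨x, x.2.1⟩ = φ x := by
  classical
  obtain ⟨k, hk⟩ := hind
  obtain ⟨x, hxc, hxcop, j, hj⟩ := hE
  have hp : p.Prime := Fact.out
  set C : Subgroup E := Subgroup.zpowers x with hC
  haveI hCn : C.Normal := (Cfsg.Agent.Helper2.Brauer.zpowers_normal_of_center hxc).2
  have hCcent : C ≤ Subgroup.center E :=
    (Cfsg.Agent.Helper2.Brauer.zpowers_normal_of_center hxc).1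
  have hxN : ∀ c ∈ C, ((c : E) : G) ∈ N := by
    intro c hc
    have hco : Nat.Coprime (p ^ k) (orderOf (c : G)) := by
      have h1 : orderOf c ∣ orderOf x := orderOf_dvd_of_mem_zpowers hc
      rw [Subgroup.orderOf_coe]
      exact (Nat.Coprime.pow_right k (Nat.Coprime.coprime_dvd_left h1 hxcop)).symm
    have h3 : (c : G) ^ (p ^ k) ∈ N := by rw [← hk]; exact Subgroup.pow_index_mem N (c : G)
    obtain ⟨a, ha⟩ := exists_pow_eq_self_of_coprime hco
    rw [← ha]; exact N.pow_mem h3 a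
  obtain ⟨Q⟩ := (inferInstance : Nonempty (Sylow p E))
  have hcardE : Nat.card E = Nat.card C * p ^ j := by
    rw [← hj]; exact (Subgroup.card_mul_index C).symm
  have hcardC : Nat.card C = orderOf x := Nat.card_zpowers x
  have hcopC : Nat.Coprime (Nat.card C) p := by rw [hcardC]; exact hxcop
  have hcardQ : Nat.card (Q : Subgroup E) = p ^ j := by
    rw [Sylow.card_eq_multiplicity, hcardE]
    congr 1
    rw [Nat.factorization_mul Nat.card_pos.ne' (pow_ne_zero _ hp.ne_zero)]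
    have h1 : (Nat.card C).factorization p = 0 :=
      Nat.factorization_eq_zero_of_not_dvd ((Nat.Prime.coprime_iff_not_dvd hp).mp hcopC.symm)
    rw [Finsupp.add_apply, h1, hp.factorization_pow, Finsupp.single_eq_same, zero_add]
  have hcompl : Subgroup.IsComplement' (Q : Subgroup E) C := by
    apply Subgroup.isComplement'_of_coprime
    · rw [hcardQ, hcardE, mul_comm]
    · rw [hcardQ]; exact Nat.Coprime.pow_left j hcopC.symm
  let eq : E ⧸ C ≃* (Q : Subgroup E) := hcompl.QuotientMulEquiv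
  let π : E →* (Q : Subgroup E) := eq.toMonoidHom.comp (QuotientGroup.mk' C)
  have hπmk : ∀ e : E, (QuotientGroup.mk ((π e : (Q : Subgroup E)) : E) : E ⧸ C)
      = QuotientGroup.mk e := by
    intro e
    exact Subgroup.IsComplement.quotientGroupMk_leftQuotientEquiv hcompl (QuotientGroup.mk e)
  have hπC : ∀ e : E, e * ((π e : (Q : Subgroup E)) : E)⁻¹ ∈ C := by
    intro e
    have h2 := QuotientGroup.eq.mp (hπmk e)
    have h3 := hCn.conj_mem _ h2 ((π e : (Q : Subgroup E)) : E)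
    have h4 : ((π e : (Q : Subgroup E)) : E) * (((π e : (Q : Subgroup E)) : E)⁻¹ * e)
        * ((π e : (Q : Subgroup E)) : E)⁻¹ = e * ((π e : (Q : Subgroup E)) : E)⁻¹ := by group
    rw [h4] at h3
    exact h3
  have hQp : IsPGroup p ((Q : Subgroup E).map E.subtype) := Q.isPGroup'.map _
  obtain ⟨g, hg⟩ := Cfsg.Agent.Helper2.pgroup_exists_conj_le_sylow hQp P
  have hgQ : ∀ q : (Q : Subgroup E), g * ((q : E) : G) * g⁻¹ ∈ (P : Subgroup G) :=
    fun q => hg _ ⟨q, q.2, rfl⟩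
  have hcomm : ∀ (u v : (Q : Subgroup E)), ((u : E) : G) ∈ N →
      ((u : E) : G) * ((v : E) : G) = ((v : E) : G) * ((u : E) : G) := by
    intro u v hu
    have h1 := hcent (g * u * g⁻¹) ⟨hgQ u, hN.conj_mem _ hu g⟩ (g * v * g⁻¹) (hgQ v)
    have h2 : g * (((u : E) : G) * ((v : E) : G)) * g⁻¹
        = g * (((v : E) : G) * ((u : E) : G)) * g⁻¹ := by
      calc g * (((u : E) : G) * ((v : E) : G)) * g⁻¹
          = (g * u * g⁻¹) * (g * v * g⁻¹) := by group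
        _ = (g * v * g⁻¹) * (g * u * g⁻¹) := h1
        _ = g * (((v : E) : G) * ((u : E) : G)) * g⁻¹ := by group
    exact mul_left_cancel (mul_right_cancel h2)
  have hπN : ∀ e : E, (e : G) ∈ N → (((π e : (Q : Subgroup E)) : E) : G) ∈ N := by
    intro e he
    have h1 := hxN _ (hπC e)
    have h2 : (((π e : (Q : Subgroup E)) : E) : G)
        = ((e * ((π e : (Q : Subgroup E)) : E)⁻¹ : E) : G)⁻¹ * (e : G) := by
      simp
    rw [h2]; exact N.mul_mem (N.inv_mem h1) he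
  have hEcomm : ∀ e₁ e₂ : E, (e₁ : G) ∈ N → e₁ * e₂ = e₂ * e₁ := by
    intro e₁ e₂ he₁
    have hz₁ := Subgroup.mem_center_iff.mp (hCcent (hπC e₁))
    have hz₂ := Subgroup.mem_center_iff.mp (hCcent (hπC e₂))
    have hq : ((π e₁ : (Q : Subgroup E)) : E) * ((π e₂ : (Q : Subgroup E)) : E)
        = ((π e₂ : (Q : Subgroup E)) : E) * ((π e₁ : (Q : Subgroup E)) : E) :=
      Subtype.ext (hcomm (π e₁) (π e₂) (hπN e₁ he₁))
    have h1 : e₁ = (e₁ * ((π e₁ : (Q : Subgroup E)) : E)⁻¹) * ((π e₁ : (Q : Subgroup E)) : E) := by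
      group
    have h2 : e₂ = (e₂ * ((π e₂ : (Q : Subgroup E)) : E)⁻¹) * ((π e₂ : (Q : Subgroup E)) : E) := by
      group
    have hc1 : ∀ y : E, Commute (e₁ * ((π e₁ : (Q : Subgroup E)) : E)⁻¹) y := fun y => (hz₁ y).symm
    have hc2 : ∀ y : E, Commute (e₂ * ((π e₂ : (Q : Subgroup E)) : E)⁻¹) y := fun y => (hz₂ y).symm
    have hfin : Commute ((e₁ * ((π e₁ : (Q : Subgroup E)) : E)⁻¹) * ((π e₁ : (Q : Subgroup E)) : E))
        ((e₂ * ((π e₂ : (Q : Subgroup E)) : E)⁻¹) * ((π e₂ : (Q : Subgroup E)) : E)) :=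
      Commute.mul_left (hc1 _) (Commute.mul_right (hc2 _).symm hq)
    rw [h1, h2]
    exact hfin
  have hDcomm : ∀ d₁ d₂ : ↥(E ⊓ N), d₁ * d₂ = d₂ * d₁ := by
    intro d₁ d₂
    have := hEcomm ⟨d₁, d₁.2.1⟩ ⟨d₂, d₂.2.1⟩ d₁.2.2
    exact Subtype.ext (congrArg (fun e : E => (e : G)) this)
  have hφ1 : φ 1 = 1 := by
    apply Cfsg.Agent.Helper2.Mono.linear_of_comm_ker hφ
    intro a b
    have : a * b * a⁻¹ * b⁻¹ = 1 := by rw [hDcomm a b]; group
    rw [this]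
  let φh : ↥(E ⊓ N) →* ℂˣ := Cfsg.Agent.Helper2.LinExt.toUnitsHom φ
    (Cfsg.Agent.Lead.isCharacter_of_isIrrCharacter hφ) hφ1
  have hφh : ∀ d, ((φh d : ℂˣ) : ℂ) = φ d := fun d => rfl
  letI : CommGroup ↥((P : Subgroup G) ⊓ N) :=
    { (inferInstance : Group ↥((P : Subgroup G) ⊓ N)) with
      mul_comm := fun a b => Subtype.ext (hcent a a.2 b b.2.1) }
  let cg : ↥((P : Subgroup G) ⊓ N) →* G :=
    ((MulAut.conj g⁻¹).toMonoidHom).comp (Subgroup.subtype _)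
  have hcg : ∀ a : ↥((P : Subgroup G) ⊓ N), cg a = g⁻¹ * a * g := by
    intro a
    simp [cg]
  let B : Subgroup ↥((P : Subgroup G) ⊓ N) := E.comap cg
  let βD : B →* ↥(E ⊓ N) :=
    { toFun := fun b => ⟨cg b, ⟨b.2, by
        rw [hcg]
        have := hN.conj_mem _ (b : ↥((P : Subgroup G) ⊓ N)).2.2 g⁻¹
        simpa using this⟩⟩
      map_one' := Subtype.ext (by simp)
      map_mul' := fun a b => Subtype.ext (by simp) }
  obtain ⟨Ψ, hΨ⟩ := MonoidHom.domRestrict_surjective ℂ B (φh.comp βD)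
  have hΨb : ∀ b : B, Ψ (b : ↥((P : Subgroup G) ⊓ N)) = φh (βD b) := by
    intro b
    have := DFunLike.congr_fun hΨ b
    simpa using this
  obtain ⟨μ, hμc, hμ1, hμA⟩ := hlin (fun a => ((Ψ a : ℂˣ) : ℂ))
    (Cfsg.Agent.Helper2.LinExt.isCharacter_of_hom Ψ).1
    (Cfsg.Agent.Helper2.LinExt.isCharacter_of_hom Ψ).2
  let μh : ↥(P : Subgroup G) →* ℂˣ := Cfsg.Agent.Helper2.LinExt.toUnitsHom μ hμc hμ1
  let κ : (Q : Subgroup E) →* ↥(P : Subgroup G) :=
    { toFun := fun q => ⟨g * ((q : E) : G) * g⁻¹, hgQ q⟩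
      map_one' := Subtype.ext (by simp)
      map_mul' := fun a b => Subtype.ext (by simp [mul_assoc]) }
  let ν : (Q : Subgroup E) →* ℂˣ := μh.comp κ
  have hν : ∀ (q : (Q : Subgroup E)) (hq : ((q : E) : G) ∈ N),
      ν q = φh ⟨((q : E) : G), ⟨(q : E).2, hq⟩⟩ := by
    intro q hq
    let a : ↥((P : Subgroup G) ⊓ N) := ⟨g * ((q : E) : G) * g⁻¹, ⟨hgQ q, hN.conj_mem _ hq g⟩⟩
    have hcga : cg a = ((q : E) : G) := by
      rw [hcg]
      change g⁻¹ * (g * ((q : E) : G) * g⁻¹) * g = _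
      group
    have haB : a ∈ B := by
      change cg a ∈ E
      rw [hcga]; exact (q : E).2
    have h1 : ((ν q : ℂˣ) : ℂ) = μ (κ q) := rfl
    have h2 : μ (κ q) = ((Ψ a : ℂˣ) : ℂ) := hμA a
    have h3 := hΨb ⟨a, haB⟩
    have h4 : βD ⟨a, haB⟩ = ⟨((q : E) : G), ⟨(q : E).2, hq⟩⟩ := Subtype.ext hcga
    apply Units.ext
    rw [h1, h2]
    change ((Ψ a : ℂˣ) : ℂ) = _
    rw [h3, h4]
  let ρC : E →* ↥(E ⊓ N) :=
    { toFun := fun e => ⟨((e * ((π e : (Q : Subgroup E)) : E)⁻¹ : E) : G),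
        ⟨(e * ((π e : (Q : Subgroup E)) : E)⁻¹).2, hxN _ (hπC e)⟩⟩
      map_one' := Subtype.ext (by simp)
      map_mul' := fun a b => Subtype.ext (by
        have hz := Subgroup.mem_center_iff.mp (hCcent (hπC b))
        have h1 : a * b * ((π (a * b) : (Q : Subgroup E)) : E)⁻¹
            = (a * ((π a : (Q : Subgroup E)) : E)⁻¹) * (b * ((π b : (Q : Subgroup E)) : E)⁻¹) := by
          rw [map_mul]
          have h2 := hz (((π a : (Q : Subgroup E)) : E)⁻¹)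
          simp only [Subgroup.coe_mul, mul_inv_rev]
          calc a * b * ((((π b : (Q : Subgroup E)) : E))⁻¹ * (((π a : (Q : Subgroup E)) : E))⁻¹)
              = a * ((b * (((π b : (Q : Subgroup E)) : E))⁻¹) * (((π a : (Q : Subgroup E)) : E))⁻¹) := by
                group
            _ = a * ((((π a : (Q : Subgroup E)) : E))⁻¹ * (b * (((π b : (Q : Subgroup E)) : E))⁻¹)) := by
                rw [h2]
            _ = _ := by group
        exact congrArg (fun e : E => (e : G)) h1) }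
  let φhat : E →* ℂˣ := (φh.comp ρC) * (ν.comp π)
  refine ⟨fun e => ((φhat e : ℂˣ) : ℂ), (Cfsg.Agent.Helper2.LinExt.isCharacter_of_hom φhat).1, ?_⟩
  intro d
  have h1 := hν (π ⟨d, d.2.1⟩) (hπN ⟨d, d.2.1⟩ d.2.2)
  have h2 : ρC ⟨d, d.2.1⟩ * ⟨(((π ⟨d, d.2.1⟩ : (Q : Subgroup E)) : E) : G),
      ⟨((π ⟨d, d.2.1⟩ : (Q : Subgroup E)) : E).2, hπN ⟨d, d.2.1⟩ d.2.2⟩⟩ = d :=
    Subtype.ext (by simp [ρC])
  change ((φh (ρC ⟨d, d.2.1⟩) * ν (π ⟨d, d.2.1⟩) : ℂˣ) : ℂ) = φ d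
  rw [h1, ← map_mul, h2]
  rfl

end Cfsg.Agent.Helper2.Dade
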