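import Mathlib
import Cfsg.Prelude.Def_Characters
import Cfsg.Prelude.Def_CharExt
import Cfsg.Agent.Helper2.DetExt

namespace Cfsg.Agent.Helper2.DetExt

open Cfsg.Agent.Lead Cfsg.Agent.Helper2.DetChar Cfsg.Agent.Helper2.CycExt

universe u

/-- extension to an intermediate subgroup with solvable quotient -/
theorem exists_extension_of_det_subgroup {G : Type u} [Group G] [Finite G] (N : Subgroup G)
    [hN : N.Normal] (ϑ : N → ℂ) (hϑ : Cfsg.IsIrrCharacter N ϑ)
    (hinv : ∀ (g : G) (n : N), ϑ ⟨g * n * g⁻¹, hN.conj_mem (n : G) n.2 g⟩ = ϑ n)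
    (d : ℕ) (hd : ϑ 1 = d) (hcop : Nat.Coprime N.index d)
    (μ : G → ℂ) (hμ : Cfsg.IsCharacter G μ) (hμ1 : μ 1 = 1)
    (hμN : ∀ n : N, μ n = Cfsg.detChar ϑ n)
    (M : Subgroup G) (hNM : N ≤ M) (hsolv : Group.IsSolvable (M ⧸ N.subgroupOf M)) :
    ∃ ψ : M → ℂ, Cfsg.IsIrrCharacter M ψ ∧ ∀ n : N, ψ ⟨(n : G), hNM n.2⟩ = ϑ n := by
  classical
  let N' : Subgroup M := N.subgroupOf M
  haveI hN'n : N'.Normal := Subgroup.normal_subgroupOf
  let e : N' ≃* N := Subgroup.subgroupOfEquivOfLe hNM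
  let ϑ' : N' → ℂ := fun x => ϑ (e x)
  have hϑ' : Cfsg.IsIrrCharacter N' ϑ' := isIrrCharacter_comp_mulEquiv e hϑ
  have hinv' : ∀ (m : M) (x : N'),
      ϑ' ⟨m * x * m⁻¹, hN'n.conj_mem (x : M) x.2 m⟩ = ϑ' x := by
    intro m x
    have h1 := hinv (m : G) (e x)
    show ϑ (e ⟨m * x * m⁻¹, _⟩) = ϑ (e x)
    rw [← h1]
    congr 1
  have hd' : ϑ' 1 = d := by
    show ϑ (e 1) = d
    rw [map_one, hd]
  have hidx : N.relIndex M * M.index = N.index := Subgroup.relIndex_mul_index hNM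
  have hcop' : Nat.Coprime N'.index d :=
    Nat.Coprime.coprime_dvd_left (Dvd.intro _ hidx) hcop
  let μ' : M → ℂ := fun m => μ m
  have hμ' : Cfsg.IsCharacter M μ' := isCharacter_res M hμ
  have hμ1' : μ' 1 = 1 := hμ1
  have hμN' : ∀ x : N', μ' x = Cfsg.detChar ϑ' x := by
    intro x
    have h1 := detChar_comp_mulEquiv e ϑ hϑ
    show μ ((x : M) : G) = Cfsg.detChar (fun y => ϑ (e y)) x
    rw [h1]
    exact hμN (e x)
  obtain ⟨ψ, hψ, hψN⟩ :=
    exists_extension_of_det N' hsolv ϑ' hϑ' hinv' d hd' hcop' μ' hμ' hμ1' hμN'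
  refine ⟨ψ, hψ, fun n => ?_⟩
  exact hψN ⟨⟨(n : G), hNM n.2⟩, n.2⟩

/-- the preimage of a Sylow subgroup of the quotient -/
theorem exists_sylow_preimage {G : Type u} [Group G] [Finite G] (N : Subgroup G)
    [hN : N.Normal] (p : ℕ) (hp : p.Prime) :
    ∃ P : Subgroup G, N ≤ P ∧ Nat.Coprime P.index p ∧ (∃ k : ℕ, N.relIndex P = p ^ k) ∧
      Group.IsSolvable (P ⧸ N.subgroupOf P) := by
  classical
  haveI : Fact p.Prime := ⟨hp⟩
  obtain ⟨S⟩ : Nonempty (Sylow p (G ⧸ N)) := inferInstance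
  let P : Subgroup G := (S : Subgroup (G ⧸ N)).comap (QuotientGroup.mk' N)
  have hNP : N ≤ P := by
    intro n hn
    show (QuotientGroup.mk' N) n ∈ (S : Subgroup (G ⧸ N))
    have h1 : (QuotientGroup.mk' N) n = 1 := (QuotientGroup.eq_one_iff n).mpr hn
    rw [h1]
    exact Subgroup.one_mem _
  have hidx : P.index = (S : Subgroup (G ⧸ N)).index :=
    Subgroup.index_comap_of_surjective _ (QuotientGroup.mk'_surjective N)
  have hcopS : Nat.Coprime (Nat.card S) (S : Subgroup (G ⧸ N)).index := S.card_coprime_index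
  obtain ⟨k, hk⟩ := IsPGroup.iff_card.mp S.isPGroup'
  have hrel : N.relIndex P = p ^ k := by
    have h1 : N.relIndex P * P.index = N.index := Subgroup.relIndex_mul_index hNP
    have h2 : Nat.card S * (S : Subgroup (G ⧸ N)).index = Nat.card (G ⧸ N) :=
      Subgroup.card_mul_index _
    have h3 : N.index = Nat.card (G ⧸ N) := rfl
    have h4 : P.index ≠ 0 := Subgroup.index_ne_zero_of_finite
    rw [hidx] at h1 h4
    rw [h3, ← h2] at h1
    rw [← hk]
    exact Nat.eq_of_mul_eq_mul_right (Nat.pos_of_ne_zero h4) h1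
  have hcop : Nat.Coprime P.index p := by
    rw [hidx]
    by_cases hk0 : k = 0
    · have hS1 : Nat.card S = 1 := by rw [hk, hk0, pow_zero]
      -- p does not divide the index of a Sylow subgroup
      exact (Nat.Prime.coprime_iff_not_dvd hp).mpr S.not_dvd_index |>.symm
    · exact (Nat.Prime.coprime_iff_not_dvd hp).mpr S.not_dvd_index |>.symm
  refine ⟨P, hNP, hcop, ⟨k, hrel⟩, ?_⟩
  have hcard : Nat.card (P ⧸ N.subgroupOf P) = p ^ k := hrel
  have hpg : IsPGroup p (P ⧸ N.subgroupOf P) := IsPGroup.of_card hcard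
  haveI := hpg.isNilpotent
  infer_instance

end Cfsg.Agent.Helper2.DetExt
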