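import Mathlib
import Cfsg.Prelude.Def_Characters
import Cfsg.Agent.Helper2.Dual
import Cfsg.Agent.Helper2.CharN5

namespace Cfsg.Agent.Helper2.Dual

open Cfsg.Agent.Lead Cfsg.Agent.Helper2.CharN Cfsg.Agent.Helper2.DetChar
open scoped ComplexConjugate

universe u

/-- `abelian_quotient_decomp` with the quotient given by a commutator condition -/
theorem abelian_quotient_decomp' {T : Type u} [Group T] [Fintype T] (H : Subgroup T)
    [hH : H.Normal] [Fintype H] (hab : ∀ x y : T, x * y * x⁻¹ * y⁻¹ ∈ H)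
    (θ : H → ℂ) (hθ : Cfsg.IsIrrCharacter H θ)
    (hinv : ∀ (g : T) (n : H), θ ⟨g * n * g⁻¹, hH.conj_mem (n : T) n.2 g⟩ = θ n)
    (ψ : T → ℂ) (hψ : Cfsg.IsIrrCharacter T ψ)
    (hne : Cfsg.classInner (fun h : H => ψ h) θ ≠ 0) :
    ∃ (e : ℕ) (C : Finset (T → ℂ)), 0 < e ∧ (fun h : H => ψ h) = (e : ℂ) • θ ∧
      (∀ χ ∈ C, Cfsg.IsIrrCharacter T χ ∧ (fun h : H => χ h) = (e : ℂ) • θ) ∧
      e ^ 2 * C.card = H.index ∧ Cfsg.indFun H θ = (e : ℂ) • ∑ χ ∈ C, χ := by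
  letI : CommGroup (T ⧸ H) :=
    { (inferInstance : Group (T ⧸ H)) with
      mul_comm := by
        intro a b
        obtain ⟨x, rfl⟩ := QuotientGroup.mk_surjective a
        obtain ⟨y, rfl⟩ := QuotientGroup.mk_surjective b
        rw [← QuotientGroup.mk_mul, ← QuotientGroup.mk_mul, QuotientGroup.eq]
        have h1 := hab y⁻¹ x⁻¹
        have h2 : y⁻¹ * x⁻¹ * y⁻¹⁻¹ * x⁻¹⁻¹ = (x * y)⁻¹ * (y * x) := by group
        rwa [h2] at h1 }
  exact abelian_quotient_decomp H (QuotientGroup.mk' H) (QuotientGroup.mk'_surjective H)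
    (fun t => QuotientGroup.eq_one_iff t) θ hθ hinv ψ hψ hne

/-- lifting the decomposition from the inertia group to the whole group -/
theorem induced_decomp {G : Type u} [Group G] [Fintype G] (H T : Subgroup G) [hN : H.Normal]
    (θ : H → ℂ) (hθ : Cfsg.IsIrrCharacter H θ)
    (hT : ∀ g : G, g ∈ T ↔ ∀ h : H, θ ⟨g * h * g⁻¹, hN.conj_mem h h.2 g⟩ = θ h)
    (hab : ∀ x ∈ T, ∀ y ∈ T, x * y * x⁻¹ * y⁻¹ ∈ H) (hHT : H ≤ T)
    (ψ : T → ℂ) (hψ : Cfsg.IsIrrCharacter T ψ) (e₀ : ℕ) (he₀ : e₀ ≠ 0)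
    (hψH : ∀ h : H, ψ ⟨h, hHT h.2⟩ = (e₀ : ℂ) * θ h) :
    ∃ C : Finset (G → ℂ), (∀ χ ∈ C, Cfsg.IsIrrCharacter G χ) ∧
      e₀ ^ 2 * C.card * Nat.card H = Nat.card T ∧
      Cfsg.indFun H θ = (e₀ : ℂ) • ∑ χ ∈ C, χ ∧
      ∀ χ ∈ C, χ 1 = (T.index : ℂ) * e₀ * θ 1 := by
  classical
  haveI : Fintype T := Fintype.ofFinite T
  haveI : Fintype H := Fintype.ofFinite H
  haveI : Finite (Cfsg.IrrCharacter T) := finite_irrCharacter T
  haveI : Fintype (Cfsg.IrrCharacter T) := Fintype.ofFinite _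
  let H' : Subgroup T := H.subgroupOf T
  haveI hH'n : H'.Normal := Subgroup.normal_subgroupOf
  haveI : Fintype H' := Fintype.ofFinite _
  let e : H' ≃* H := Subgroup.subgroupOfEquivOfLe hHT
  let θ' : H' → ℂ := fun x => θ ⟨((x : T) : G), Subgroup.mem_subgroupOf.mp x.2⟩
  have hθ'e : θ' = θ ∘ e := rfl
  have hθ' : Cfsg.IsIrrCharacter H' θ' := by
    rw [hθ'e]
    exact isIrrCharacter_comp_mulEquiv e hθ
  have hθ'inv : ∀ (t : T) (n : H'),
      θ' ⟨t * n * t⁻¹, hH'n.conj_mem (n : T) n.2 t⟩ = θ' n := by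
    intro t n
    exact (hT (t : G)).mp t.2 ⟨((n : T) : G), Subgroup.mem_subgroupOf.mp n.2⟩
  have hab' : ∀ x y : T, x * y * x⁻¹ * y⁻¹ ∈ H' := by
    intro x y
    exact Subgroup.mem_subgroupOf.mpr (hab x x.2 y y.2)
  have hθ1 : θ 1 ≠ 0 := by
    obtain ⟨k, hk0, hk⟩ := isIrrCharacter_one_eq_nat hθ
    rw [hk]
    exact_mod_cast hk0.ne'
  have hθ'1 : θ' 1 = θ 1 := rfl
  have he₀' : (e₀ : ℂ) ≠ 0 := by exact_mod_cast he₀
  have hψres₀ : (fun h : H' => ψ h) = (e₀ : ℂ) • θ' := by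
    funext h
    exact hψH ⟨((h : T) : G), Subgroup.mem_subgroupOf.mp h.2⟩
  have hne' : Cfsg.classInner (fun h : H' => ψ h) θ' ≠ 0 := by
    rw [hψres₀, classInner_smul_left, classInner_self_of_isIrrCharacter hθ', mul_one]
    exact he₀'
  obtain ⟨e₁, CT, he₁pos, hψres, hC, hcard, hind⟩ :=
    abelian_quotient_decomp' H' hab' θ' hθ' hθ'inv ψ hψ hne'
  have hee : e₁ = e₀ := by
    have h1 := congrFun hψres 1
    have h2 := congrFun hψres₀ 1
    rw [h2] at h1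
    simp only [Pi.smul_apply, smul_eq_mul] at h1
    have h3 : (e₀ : ℂ) = (e₁ : ℂ) := mul_right_cancel₀ (by rw [hθ'1]; exact hθ1) h1
    exact_mod_cast h3.symm
  subst hee
  obtain ⟨f, hf1, hf2, hf3, hf4⟩ := clifford_corr_core H θ hθ T hT hHT
  have hfne : ∀ χ (hχ : χ ∈ CT), f ⟨χ, (hC χ hχ).1⟩ ≠ 0 := by
    intro χ hχ h0
    have h1 := hf1 ⟨χ, (hC χ hχ).1⟩
    rw [h0] at h1
    have h2 : Cfsg.classInner (Cfsg.indFun H' θ') χ = (e₁ : ℂ) := by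
      rw [Cfsg.Agent.S0146.result H' θ' χ
        (isCharacter_isClassFunction (isCharacter_of_isIrrCharacter (hC χ hχ).1)),
        (hC χ hχ).2, classInner_smul_right, classInner_self_of_isIrrCharacter hθ']
      simp
    rw [h2] at h1
    exact he₀' (by simpa using h1)
  have hirr : ∀ χ ∈ CT, Cfsg.IsIrrCharacter G (Cfsg.indFun T χ) := by
    intro χ hχ
    exact hf2 ⟨χ, (hC χ hχ).1⟩ (hfne χ hχ)
  have hinj : Set.InjOn (fun χ : T → ℂ => Cfsg.indFun T χ) (CT : Set (T → ℂ)) := by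
    intro χ hχ χ' hχ' heq
    by_contra hne
    have h1 := hf3 ⟨χ, (hC χ hχ).1⟩ ⟨χ', (hC χ' hχ').1⟩ (hfne χ hχ) (hfne χ' hχ')
      (fun h => hne (congrArg Subtype.val h))
    have h2 := classInner_self_of_isIrrCharacter (hirr χ hχ)
    have heq' : Cfsg.indFun T χ = Cfsg.indFun T χ' := heq
    have h3 : Cfsg.classInner (Cfsg.indFun T χ) (Cfsg.indFun T χ') = 0 := h1
    rw [← heq', h2] at h3
    exact one_ne_zero h3
  refine ⟨CT.image (fun χ : T → ℂ => Cfsg.indFun T χ), ?_, ?_, ?_, ?_⟩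
  · intro χ' hχ'
    obtain ⟨χ, hχ, rfl⟩ := Finset.mem_image.mp hχ'
    exact hirr χ hχ
  · rw [Finset.card_image_of_injOn hinj, hcard]
    have h1 : Nat.card H' = Nat.card H := Nat.card_congr e.toEquiv
    rw [← h1, mul_comm]
    exact Subgroup.card_mul_index H'
  · rw [← Cfsg.Agent.S0147.result H T hHT θ]
    have h1 : Cfsg.indFun H' θ' = ∑ χ ∈ CT, (e₁ : ℂ) • χ := by
      rw [hind, Finset.smul_sum]
    have h2 : Cfsg.indFun T (∑ χ ∈ CT, (e₁ : ℂ) • χ)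
        = ∑ χ ∈ CT, (e₁ : ℂ) • Cfsg.indFun T χ :=
      indFun_sum_smul (H := T) CT (fun _ => (e₁ : ℂ)) (fun χ => χ)
    show Cfsg.indFun T (Cfsg.indFun H' θ') = _
    rw [h1, h2, Finset.sum_image hinj, Finset.smul_sum]
  · intro χ' hχ'
    obtain ⟨χ, hχ, rfl⟩ := Finset.mem_image.mp hχ'
    show Cfsg.indFun T χ 1 = _
    rw [indFun_one]
    have h1 := congrFun (hC χ hχ).2 1
    simp only [Pi.smul_apply, smul_eq_mul] at h1
    have h2 : χ 1 = (e₁ : ℂ) * θ 1 := h1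
    rw [h2, mul_assoc]

end Cfsg.Agent.Helper2.Dual
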