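import Mathlib
import Cfsg.Prelude.Def_Characters
import Cfsg.Prelude.Def_CharExt
import Cfsg.Agent.Lead.CharOdd
import Cfsg.Agent.Lead.CharLin
import Cfsg.Agent.Helper2.Dual2
import Cfsg.Agent.Helper2.DetExt3
import Cfsg.Agent.S0867

namespace Cfsg.Agent.Helper2.Dual

open Cfsg.Agent.Lead Cfsg.Agent.Helper2.CharN Cfsg.Agent.Helper2.DetChar
open scoped ComplexConjugate

universe u

/-- an irreducible character of the inertia group lying over `θ` -/
theorem exists_constituent {G : Type u} [Group G] [Fintype G] (H T : Subgroup G)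
    [hN : H.Normal] (θ : H → ℂ) (hθ : Cfsg.IsIrrCharacter H θ)
    (hT : ∀ g : G, g ∈ T ↔ ∀ h : H, θ ⟨g * h * g⁻¹, hN.conj_mem h h.2 g⟩ = θ h)
    (hHT : H ≤ T) :
    ∃ (ψ : T → ℂ) (e₀ : ℕ), Cfsg.IsIrrCharacter T ψ ∧ e₀ ≠ 0 ∧
      ∀ h : H, ψ ⟨h, hHT h.2⟩ = (e₀ : ℂ) * θ h := by
  classical
  haveI : Fintype T := Fintype.ofFinite T
  haveI : Fintype H := Fintype.ofFinite H
  haveI : Finite (Cfsg.IrrCharacter T) := finite_irrCharacter T
  haveI : Fintype (Cfsg.IrrCharacter T) := Fintype.ofFinite _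
  let H' : Subgroup T := H.subgroupOf T
  haveI hH'n : H'.Normal := Subgroup.normal_subgroupOf
  haveI : Fintype H' := Fintype.ofFinite _
  let e : H' ≃* H := Subgroup.subgroupOfEquivOfLe hHT
  let θ' : H' → ℂ := fun x => θ ⟨((x : T) : G), Subgroup.mem_subgroupOf.mp x.2⟩
  have hθ'e : θ' = θ ∘ e := rfl
  have hθ' : Cfsg.IsIrrCharacter H' θ' := by
    rw [hθ'e]
    exact isIrrCharacter_comp_mulEquiv e hθ
  have hθ'inv : ∀ (t : T) (n : H'),
      θ' ⟨t * n * t⁻¹, hH'n.conj_mem (n : T) n.2 t⟩ = θ' n := by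
    intro t n
    exact (hT (t : G)).mp t.2 ⟨((n : T) : G), Subgroup.mem_subgroupOf.mp n.2⟩
  have hθ1 : θ 1 ≠ 0 := by
    obtain ⟨k, hk0, hk⟩ := isIrrCharacter_one_eq_nat hθ
    rw [hk]
    exact_mod_cast hk0.ne'
  obtain ⟨f, hf1, hf2, hf3, hf4⟩ := clifford_corr_core H θ hθ T hT hHT
  have h1 : Cfsg.classInner (Cfsg.indFun H θ) (Cfsg.indFun H θ) ≠ 0 := by
    apply classInner_self_ne_zero
    rw [indFun_one]
    have hidx : (H.index : ℂ) ≠ 0 := by
      exact_mod_cast (Subgroup.index_ne_zero_of_finite (H := H))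
    exact mul_ne_zero hidx hθ1
  rw [hf4] at h1
  obtain ⟨ψ, -, hψne⟩ := Finset.exists_ne_zero_of_sum_ne_zero h1
  have hfψ : f ψ ≠ 0 := by
    intro h0
    apply hψne
    rw [h0]
    simp
  have hne : Cfsg.classInner (fun h : H' => (ψ : T → ℂ) h) θ' ≠ 0 := by
    have h2 := hf1 ψ
    rw [Cfsg.Agent.S0146.result H' _ (ψ : T → ℂ)
      (isCharacter_isClassFunction (isCharacter_of_isIrrCharacter ψ.2))] at h2
    rw [← classInner_conj_symm]
    intro h0
    have h3 := (map_eq_zero (starRingEnd ℂ)).mp h0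
    have h4 : Cfsg.classInner θ' (fun h : H' => (ψ : T → ℂ) h) = (f ψ : ℂ) := h2
    rw [h3] at h4
    exact hfψ (by exact_mod_cast h4.symm)
  obtain ⟨e₀, he₀⟩ := res_inner_nat H' (isCharacter_of_isIrrCharacter ψ.2)
    (isCharacter_of_isIrrCharacter hθ')
  have hres := res_eq_smul_of_invariant H' ψ.2 hθ' hne hθ'inv
  rw [he₀] at hres hne
  refine ⟨(ψ : T → ℂ), e₀, ψ.2, ?_, fun h => ?_⟩
  · rintro rfl
    exact hne (by simp)
  · exact congrFun hres ⟨⟨(h : G), hHT h.2⟩, Subgroup.mem_subgroupOf.mpr h.2⟩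

/-- the determinantal order divides the group order -/
theorem detOrder_dvd_card {A : Type u} [Group A] [Finite A] (ψ : A → ℂ)
    (hψ : Cfsg.IsIrrCharacter A ψ) : Cfsg.detOrder ψ ∣ Nat.card A := by
  obtain ⟨hc, h1⟩ := Cfsg.Agent.Helper2.DetExt.detChar_linear ψ hψ
  have hmul := isCharacter_linear_mul hc h1
  have hpow : ∀ (a : A) (k : ℕ), Cfsg.detChar ψ (a ^ k) = (Cfsg.detChar ψ a) ^ k := by
    intro a k
    induction k with
    | zero => rw [pow_zero, pow_zero, h1]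
    | succ k ih => rw [pow_succ, hmul, ih, pow_succ]
  unfold Cfsg.detOrder
  apply orderOf_dvd_of_pow_eq_one
  funext a
  rw [Pi.pow_apply, ← hpow, pow_card_eq_one', h1]
  rfl

/-- in the coprime situation the character extends to its inertia group -/
theorem exists_extension_coprime {G : Type u} [Group G] [Fintype G] (H T : Subgroup G)
    [hN : H.Normal] (θ : H → ℂ) (hθ : Cfsg.IsIrrCharacter H θ)
    (hT : ∀ g : G, g ∈ T ↔ ∀ h : H, θ ⟨g * h * g⁻¹, hN.conj_mem h h.2 g⟩ = θ h)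
    (hHT : H ≤ T) (hcop : Nat.Coprime (Nat.card H) (H.relIndex T)) :
    ∃ ψ : T → ℂ, Cfsg.IsIrrCharacter T ψ ∧ ∀ h : H, ψ ⟨h, hHT h.2⟩ = θ h := by
  classical
  let H' : Subgroup T := H.subgroupOf T
  haveI hH'n : H'.Normal := Subgroup.normal_subgroupOf
  let e : H' ≃* H := Subgroup.subgroupOfEquivOfLe hHT
  let θ' : H' → ℂ := fun x => θ ⟨((x : T) : G), Subgroup.mem_subgroupOf.mp x.2⟩
  have hθ'e : θ' = θ ∘ e := rfl
  have hθ' : Cfsg.IsIrrCharacter H' θ' := by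
    rw [hθ'e]
    exact isIrrCharacter_comp_mulEquiv e hθ
  have hθ'inv : ∀ (t : T) (n : H'),
      θ' ⟨t * n * t⁻¹, hH'n.conj_mem (n : T) n.2 t⟩ = θ' n := by
    intro t n
    exact (hT (t : G)).mp t.2 ⟨((n : T) : G), Subgroup.mem_subgroupOf.mp n.2⟩
  obtain ⟨d, hd0, hd, hddvd⟩ := irrCharacter_degree_dvd_card (⟨θ', hθ'⟩ : Cfsg.IrrCharacter H')
  have hcard : Nat.card H' = Nat.card H := Nat.card_congr e.toEquiv
  have hcop' : Nat.Coprime H'.index (Cfsg.detOrder θ' * d) := by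
    have h1 : Nat.Coprime (H.relIndex T) (Nat.card H) := hcop.symm
    have h2 : Cfsg.detOrder θ' ∣ Nat.card H := by
      rw [← hcard]
      exact detOrder_dvd_card θ' hθ'
    have h3 : d ∣ Nat.card H := by
      rw [← hcard]
      exact hddvd
    exact Nat.Coprime.mul_right (Nat.Coprime.coprime_dvd_right h2 h1)
      (Nat.Coprime.coprime_dvd_right h3 h1)
  obtain ⟨χ, ⟨hχ, hχN, -⟩, -⟩ := Cfsg.Agent.S0867.result H' θ' hθ' hθ'inv d hd hcop'
  refine ⟨χ, hχ, fun h => ?_⟩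
  exact hχN ⟨⟨(h : G), hHT h.2⟩, Subgroup.mem_subgroupOf.mpr h.2⟩

end Cfsg.Agent.Helper2.Dual
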