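import Mathlib
import Cfsg.Agent.Helper2.Conj
import Cfsg.Agent.Helper2.Isolated3

/-! Groups with a self-centralizing element of prime order: counting. -/

namespace Cfsg.Agent.Helper2.SelfCent

open Cfsg.Agent.Helper2

variable {G : Type*} [Group G] [Finite G]

lemma zpowers_eq_of_card {p : ℕ} [Fact p.Prime] {H : Subgroup G} (hH : Nat.card H = p) {g : G}
    (hg : g ∈ H) (hg1 : g ≠ 1) : Subgroup.zpowers g = H := by
  have hpp : p.Prime := Fact.out
  have hle : Subgroup.zpowers g ≤ H := by rw [Subgroup.zpowers_le]; exact hg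
  apply Subgroup.eq_of_le_of_card_ge hle
  rw [hH, Nat.card_zpowers]
  have hdvd : orderOf g ∣ p := by
    have := Subgroup.card_dvd_of_le hle
    rw [Nat.card_zpowers, hH] at this; exact this
  rcases (Nat.dvd_prime hpp).mp hdvd with h | h
  · exact absurd (orderOf_eq_one_iff.mp h) hg1
  · exact h.ge

lemma orderOf_of_card {p : ℕ} [Fact p.Prime] {H : Subgroup G} (hH : Nat.card H = p) {g : G}
    (hg : g ∈ H) (hg1 : g ≠ 1) : orderOf g = p := by
  have := zpowers_eq_of_card hH hg hg1
  rw [← this, Nat.card_zpowers] at hH; exact hH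

lemma isPGroup_zpowers {p : ℕ} [Fact p.Prime] {g : G} (hg : orderOf g = p) :
    IsPGroup p (Subgroup.zpowers g) := by
  apply IsPGroup.of_card (n := 1); rw [Nat.card_zpowers, hg, pow_one]

lemma ne_one_of_orderOf {p : ℕ} [Fact p.Prime] {g : G} (hg : orderOf g = p) : g ≠ 1 := by
  have hpp : p.Prime := Fact.out
  intro h; rw [h, orderOf_one] at hg; exact hpp.ne_one hg.symm

lemma sylow_card (p : ℕ) [Fact p.Prime] (z : G) (hz : orderOf z = p)
    (hC : Subgroup.centralizer ({z} : Set G) = Subgroup.zpowers z) :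
    ∀ Q : Sylow p G, Nat.card Q = p := by
  have hpp : p.Prime := Fact.out
  obtain ⟨Q0, hQ0⟩ := (isPGroup_zpowers hz).exists_le_sylow
  have hzQ : z ∈ (Q0 : Subgroup G) := hQ0 (Subgroup.mem_zpowers z)
  have hz1 : z ≠ 1 := ne_one_of_orderOf hz
  haveI : Nontrivial (Q0 : Subgroup G) := ⟨⟨⟨z, hzQ⟩, 1, fun h => hz1 (congrArg Subtype.val h)⟩⟩
  haveI := IsPGroup.center_nontrivial Q0.isPGroup'
  obtain ⟨c, hc1⟩ := exists_ne (1 : Subgroup.center (Q0 : Subgroup G))
  have hcz : ((c : (Q0 : Subgroup G)) : G) ∈ Subgroup.zpowers z := by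
    rw [← hC, Subgroup.mem_centralizer_iff]
    intro y hy
    rw [Set.mem_singleton_iff] at hy; subst hy
    have := Subgroup.mem_center_iff.mp c.2 ⟨y, hzQ⟩
    exact congrArg Subtype.val this
  have hcne : ((c : (Q0 : Subgroup G)) : G) ≠ 1 := by
    intro h; apply hc1; apply Subtype.ext; apply Subtype.ext; exact h
  have hzc : Subgroup.zpowers ((c : (Q0 : Subgroup G)) : G) = Subgroup.zpowers z :=
    zpowers_eq_of_card (by rw [Nat.card_zpowers, hz]) hcz hcne
  have hQle : (Q0 : Subgroup G) ≤ Subgroup.zpowers z := by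
    intro q hq
    rw [← hC, Subgroup.mem_centralizer_iff]
    intro y hy
    rw [Set.mem_singleton_iff] at hy; subst hy
    have hy' : y ∈ Subgroup.zpowers ((c : (Q0 : Subgroup G)) : G) := by
      rw [hzc]; exact Subgroup.mem_zpowers y
    obtain ⟨k, hk⟩ := Subgroup.mem_zpowers_iff.mp hy'
    have h1 := Subgroup.mem_center_iff.mp c.2 ⟨q, hq⟩
    have h2 : q * (c : (Q0 : Subgroup G)).1 = (c : (Q0 : Subgroup G)).1 * q := congrArg Subtype.val h1
    rw [← hk]
    have h3 : Commute ((c : (Q0 : Subgroup G)) : G) q := h2.symm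
    exact (h3.zpow_left k).eq
  have hQ0card : Nat.card (Q0 : Subgroup G) = p := by
    have := le_antisymm hQle hQ0
    rw [this, Nat.card_zpowers, hz]
  intro Q
  rw [Sylow.card_eq_multiplicity, ← Sylow.card_eq_multiplicity Q0, hQ0card]

lemma card_centralizer (p : ℕ) [Fact p.Prime] (z : G) (hz : orderOf z = p)
    (hC : Subgroup.centralizer ({z} : Set G) = Subgroup.zpowers z) (g : G) (hg : orderOf g = p) :
    Nat.card (Subgroup.centralizer ({g} : Set G)) = p := by
  have hpp : p.Prime := Fact.out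
  have hz1 : z ≠ 1 := ne_one_of_orderOf hz
  have hg1 : g ≠ 1 := ne_one_of_orderOf hg
  obtain ⟨Q0, hQ0⟩ := (isPGroup_zpowers hz).exists_le_sylow
  have hQ0z : Subgroup.zpowers z = Q0 :=
    zpowers_eq_of_card (sylow_card p z hz hC Q0) (hQ0 (Subgroup.mem_zpowers z)) hz1
  obtain ⟨x, hx⟩ := pgroup_exists_conj_le_sylow (isPGroup_zpowers hg) Q0
  have hy : x * g * x⁻¹ ∈ Subgroup.zpowers z := by
    rw [hQ0z]; exact hx g (Subgroup.mem_zpowers g)
  have hy1 : x * g * x⁻¹ ≠ 1 := by
    intro h; apply hg1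
    have : g = x⁻¹ * (x * g * x⁻¹) * x := by group
    rw [this, h]; group
  have hzy : Subgroup.zpowers (x * g * x⁻¹) = Subgroup.zpowers z :=
    zpowers_eq_of_card (by rw [Nat.card_zpowers, hz]) hy hy1
  have hle : Subgroup.centralizer ({g} : Set G) ≤ Subgroup.zpowers g := by
    intro c hc
    have hcg : g * c = c * g := Subgroup.mem_centralizer_iff.mp hc g rfl
    have h1 : x * c * x⁻¹ ∈ Subgroup.centralizer ({z} : Set G) := by
      rw [Subgroup.mem_centralizer_iff]
      intro w hw; rw [Set.mem_singleton_iff] at hw; subst hw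
      have hw' : w ∈ Subgroup.zpowers (x * g * x⁻¹) := by rw [hzy]; exact Subgroup.mem_zpowers w
      obtain ⟨k, hk⟩ := Subgroup.mem_zpowers_iff.mp hw'
      rw [← hk]
      have h3 : Commute (x * g * x⁻¹) (x * c * x⁻¹) := by
        show x * g * x⁻¹ * (x * c * x⁻¹) = (x * c * x⁻¹) * (x * g * x⁻¹)
        calc x * g * x⁻¹ * (x * c * x⁻¹) = x * (g * c) * x⁻¹ := by group
          _ = x * (c * g) * x⁻¹ := by rw [hcg]
          _ = _ := by group
      exact (h3.zpow_left k).eq
    rw [hC, ← hzy] at h1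
    obtain ⟨k, hk⟩ := Subgroup.mem_zpowers_iff.mp h1
    rw [Subgroup.mem_zpowers_iff]; refine ⟨k, ?_⟩
    have h4 : c = x⁻¹ * (x * c * x⁻¹) * x := by group
    rw [h4, ← hk, conj_zpow]; group
  have hge : Subgroup.zpowers g ≤ Subgroup.centralizer ({g} : Set G) := by
    rw [Subgroup.zpowers_le, Subgroup.mem_centralizer_iff]
    intro w hw; rw [Set.mem_singleton_iff] at hw; subst hw; rfl
  rw [le_antisymm hle hge, Nat.card_zpowers, hg]

/-- Counting elements of order `p` by conjugacy classes. -/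
theorem card_E_classes (p : ℕ)
    (hcent : ∀ g : G, orderOf g = p → Nat.card (Subgroup.centralizer ({g} : Set G)) = p) :
    Nat.card {g : G // orderOf g = p} * p =
      Nat.card {c : ConjClasses G // ∃ g : G, ConjClasses.mk g = c ∧ orderOf g = p} * Nat.card G := by
  classical
  haveI := Fintype.ofFinite {c : ConjClasses G // ∃ g : G, ConjClasses.mk g = c ∧ orderOf g = p}
  let e : {g : G // orderOf g = p} ≃
      Σ c : {c : ConjClasses G // ∃ g : G, ConjClasses.mk g = c ∧ orderOf g = p},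
        {g : G // ConjClasses.mk g = c.1} :=
    { toFun := fun g => ⟨⟨ConjClasses.mk g.1, g.1, rfl, g.2⟩, g.1, rfl⟩
      invFun := fun x => ⟨x.2.1, by
        obtain ⟨g', hg', ho⟩ := x.1.2
        have h1 : ConjClasses.mk x.2.1 = ConjClasses.mk g' := x.2.2.trans hg'.symm
        have h2 : IsConj x.2.1 g' := ConjClasses.mk_eq_mk_iff_isConj.mp h1
        obtain ⟨c, hc⟩ := isConj_iff.mp h2
        have h3 : orderOf (c * x.2.1 * c⁻¹) = orderOf x.2.1 :=
          orderOf_injective (MulAut.conj c).toMonoidHom (MulAut.conj c).injective x.2.1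
        rw [hc] at h3
        exact h3.symm.trans ho⟩
      left_inv := fun g => rfl
      right_inv := fun x => by
        obtain ⟨⟨c, hc⟩, g, hg⟩ := x
        simp only at hg; subst hg; rfl }
  rw [Nat.card_congr e, Nat.card_sigma]
  have key : ∀ c : {c : ConjClasses G // ∃ g : G, ConjClasses.mk g = c ∧ orderOf g = p},
      Nat.card {g : G // ConjClasses.mk g = c.1} * p = Nat.card G := by
    rintro ⟨c, g', hg', ho⟩
    subst hg'
    have h1 := Iso.card_eq_centralizer_mul_class g'
    rw [hcent g' ho] at h1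
    have e2 : {g : G // ConjClasses.mk g = ConjClasses.mk g'} ≃ {d : G // IsConj g' d} :=
      Equiv.subtypeEquivRight (fun g => by rw [ConjClasses.mk_eq_mk_iff_isConj]; exact isConj_comm)
    rw [Nat.card_congr e2, h1, mul_comm]
  rw [Finset.sum_mul, Finset.sum_congr rfl (fun c _ => key c), Finset.sum_const, Finset.card_univ,
    smul_eq_mul, ← Nat.card_eq_fintype_card]

/-- Counting elements of order `p` by Sylow subgroups, when these have order `p`. -/
theorem card_E_sylow (p : ℕ) [Fact p.Prime] (hsyl : ∀ Q : Sylow p G, Nat.card Q = p) :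
    Nat.card {g : G // orderOf g = p} = Nat.card (Sylow p G) * (p - 1) := by
  classical
  have hpp : p.Prime := Fact.out
  haveI := Fintype.ofFinite (Sylow p G)
  have hex : ∀ g : {g : G // orderOf g = p}, ∃ Q : Sylow p G, g.1 ∈ (Q : Subgroup G) := by
    intro g
    obtain ⟨Q, hQ⟩ := (isPGroup_zpowers g.2).exists_le_sylow
    exact ⟨Q, hQ (Subgroup.mem_zpowers g.1)⟩
  let e : {g : G // orderOf g = p} ≃
      Σ Q : Sylow p G, {g : G // g ∈ (Q : Subgroup G) ∧ g ≠ 1} :=
    { toFun := fun g => ⟨(hex g).choose, g.1, (hex g).choose_spec, ne_one_of_orderOf g.2⟩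
      invFun := fun x => ⟨x.2.1, orderOf_of_card (hsyl x.1) x.2.2.1 x.2.2.2⟩
      left_inv := fun g => rfl
      right_inv := fun x => by
        obtain ⟨Q, g, hg, hg1⟩ := x
        have hgo : orderOf g = p := orderOf_of_card (hsyl Q) hg hg1
        have h1 : (hex ⟨g, hgo⟩).choose = Q := by
          apply Sylow.ext
          rw [← zpowers_eq_of_card (hsyl Q) hg hg1,
            ← zpowers_eq_of_card (hsyl (hex ⟨g, hgo⟩).choose) (hex ⟨g, hgo⟩).choose_spec hg1]
        have h2 := (hex ⟨g, hgo⟩).choose_spec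
        show (⟨(hex ⟨g, hgo⟩).choose, ⟨g, ⟨h2, hg1⟩⟩⟩ :
          Σ Q : Sylow p G, {g : G // g ∈ (Q : Subgroup G) ∧ g ≠ 1}) = ⟨Q, ⟨g, ⟨hg, hg1⟩⟩⟩
        generalize (hex ⟨g, hgo⟩).choose = Q' at h1 h2 ⊢
        subst h1; rfl }
  rw [Nat.card_congr e, Nat.card_sigma]
  have key : ∀ Q : Sylow p G, Nat.card {g : G // g ∈ (Q : Subgroup G) ∧ g ≠ 1} = p - 1 := by
    intro Q
    have e1 : {g : G // g ∈ (Q : Subgroup G) ∧ g ≠ 1} ≃ {y : (Q : Subgroup G) // y ≠ 1} :=
      { toFun := fun g => ⟨⟨g.1, g.2.1⟩, fun h => g.2.2 (congrArg Subtype.val h)⟩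
        invFun := fun y => ⟨y.1.1, y.1.2, fun h => y.2 (Subtype.ext h)⟩
        left_inv := fun g => rfl
        right_inv := fun y => rfl }
    have e2 := Equiv.optionSubtypeNe (1 : (Q : Subgroup G))
    have h1 := Nat.card_congr e2
    rw [Finite.card_option] at h1
    rw [Nat.card_congr e1]
    have := hsyl Q
    omega
  rw [Finset.sum_congr rfl (fun Q _ => key Q), Finset.sum_const, Finset.card_univ,
    smul_eq_mul, ← Nat.card_eq_fintype_card]

end Cfsg.Agent.Helper2.SelfCent
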