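import Mathlib
import Cfsg.Prelude.Def_Characters
import Cfsg.Prelude.Def_Transfer
import Cfsg.Agent.Lead.CharLin2
import Cfsg.Agent.Lead.CharCore5
import Cfsg.Agent.Lead.IndFun2
import Cfsg.Agent.Helper2.SelfCent

/-! Extraspecial groups: characters induced from maximal abelian subgroups. -/

namespace Cfsg.Agent.Helper2.Extra

open scoped ComplexConjugate
open Cfsg.Agent.Lead

variable {P : Type*} [Group P]

lemma comm_central (hc : commutator P = Subgroup.center P) (x y : P) :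
    x⁻¹ * y⁻¹ * x * y ∈ Subgroup.center P := by
  rw [← hc, commutator_def]
  have h := Subgroup.commutator_mem_commutator (Subgroup.mem_top x⁻¹) (Subgroup.mem_top y⁻¹)
  rw [commutatorElement_def, inv_inv, inv_inv] at h
  exact h

lemma comm_mul (hc : commutator P = Subgroup.center P) (x y y₀ : P) :
    x⁻¹ * (y * y₀)⁻¹ * x * (y * y₀) = (x⁻¹ * y₀⁻¹ * x * y₀) * (x⁻¹ * y⁻¹ * x * y) := by
  have h1 := comm_central hc x y
  have h2 : y⁻¹ * x * y = x * (x⁻¹ * y⁻¹ * x * y) := by group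
  have h3 : ∀ g, g * (x⁻¹ * y⁻¹ * x * y) = (x⁻¹ * y⁻¹ * x * y) * g :=
    fun g => Subgroup.mem_center_iff.mp h1 g
  calc x⁻¹ * (y * y₀)⁻¹ * x * (y * y₀) = x⁻¹ * y₀⁻¹ * (y⁻¹ * x * y) * y₀ := by group
    _ = x⁻¹ * y₀⁻¹ * (x * (x⁻¹ * y⁻¹ * x * y)) * y₀ := by rw [h2]
    _ = x⁻¹ * y₀⁻¹ * x * ((x⁻¹ * y⁻¹ * x * y) * y₀) := by group
    _ = x⁻¹ * y₀⁻¹ * x * (y₀ * (x⁻¹ * y⁻¹ * x * y)) := by rw [h3 y₀]
    _ = (x⁻¹ * y₀⁻¹ * x * y₀) * (x⁻¹ * y⁻¹ * x * y) := by group

theorem induced_values [Fintype P] (p : ℕ) [Fact p.Prime] (hc : commutator P = Subgroup.center P)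
    (hZ : Nat.card (Subgroup.center P) = p)
    (A : Subgroup P) (lam : A → ℂ) (hlam : Cfsg.IsCharacter A lam ∧ lam 1 = 1)
    (hZl : ∃ a : A, (a : P) ∈ Subgroup.center P ∧ lam a ≠ 1) :
    ∃ hZA : Subgroup.center P ≤ A,
      (∀ x : P, x ∉ Subgroup.center P → Cfsg.indFun A lam x = 0) ∧
      (∀ x (hx : x ∈ Subgroup.center P), Cfsg.indFun A lam x =
        (Nat.card A : ℂ)⁻¹ * (Nat.card P : ℂ) * lam ⟨x, hZA hx⟩) := by
  classical
  obtain ⟨a₀, ha₀Z, ha₀⟩ := hZl
  have hmul := isCharacter_linear_mul hlam.1 hlam.2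
  have ha₀1 : (a₀ : P) ≠ 1 := by
    intro h
    apply ha₀
    have : a₀ = 1 := Subtype.ext h
    rw [this]; exact hlam.2
  have hzp : Subgroup.zpowers (a₀ : P) = Subgroup.center P :=
    SelfCent.zpowers_eq_of_card hZ ha₀Z ha₀1
  have hZA : Subgroup.center P ≤ A := by
    rw [← hzp, Subgroup.zpowers_le]; exact a₀.2
  -- λ as a monoid hom
  let L : A →* ℂ := { toFun := lam, map_one' := hlam.2, map_mul' := hmul }
  have hLapp : ∀ a, L a = lam a := fun _ => rfl
  -- λ is nontrivial on every nonidentity central element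
  have hnontriv : ∀ z (hz : z ∈ Subgroup.center P), z ≠ 1 → lam ⟨z, hZA hz⟩ ≠ 1 := by
    intro z hz hz1 hl
    have hzp' : Subgroup.zpowers z = Subgroup.center P :=
      SelfCent.zpowers_eq_of_card hZ hz hz1
    have h1 : (a₀ : P) ∈ Subgroup.zpowers z := by rw [hzp']; exact ha₀Z
    rw [← mem_powers_iff_mem_zpowers] at h1
    obtain ⟨k, hk⟩ := h1
    have h2 : a₀ = (⟨z, hZA hz⟩ : A) ^ k := Subtype.ext (by simpa using hk.symm)
    apply ha₀
    rw [h2, ← hLapp, map_pow, hLapp, hl, one_pow]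
  -- A is normal
  have hAn : ∀ (y : P) (a : P), a ∈ A → y⁻¹ * a * y ∈ A := by
    intro y a ha
    have h1 : y⁻¹ * a * y = a * (a⁻¹ * y⁻¹ * a * y) := by group
    rw [h1]
    exact A.mul_mem ha (hZA (comm_central hc a y))
  refine ⟨hZA, ?_, ?_⟩
  · intro x hx
    rw [indFun_apply]
    by_cases hxA : x ∈ A
    · -- x ∈ A, not central
      have hex : ∃ y₀ : P, x⁻¹ * y₀⁻¹ * x * y₀ ≠ 1 := by
        by_contra hcon
        push_neg at hcon
        apply hx
        rw [Subgroup.mem_center_iff]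
        intro g
        have := hcon g
        have h2 : x * g = g * x * (x⁻¹ * g⁻¹ * x * g) := by group
        rw [h2, this, mul_one]
      obtain ⟨y₀, hy₀⟩ := hex
      have hterm : ∀ y : P, Cfsg.extendByZero A lam (y⁻¹ * x * y) =
          lam ⟨x, hxA⟩ * lam ⟨x⁻¹ * y⁻¹ * x * y, hZA (comm_central hc x y)⟩ := by
        intro y
        rw [extendByZero_mem A lam (hAn y x hxA), ← hmul]
        congr 1
        apply Subtype.ext
        show y⁻¹ * x * y = x * (x⁻¹ * y⁻¹ * x * y)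
        group
      simp only [hterm]
      rw [← Finset.mul_sum]
      have hsum : ∑ y : P, lam ⟨x⁻¹ * y⁻¹ * x * y, hZA (comm_central hc x y)⟩ = 0 := by
        have h1 : ∑ y : P, lam ⟨x⁻¹ * y⁻¹ * x * y, hZA (comm_central hc x y)⟩ =
            ∑ y : P, lam ⟨x⁻¹ * (y * y₀)⁻¹ * x * (y * y₀), hZA (comm_central hc x (y * y₀))⟩ := by
          symm
          exact Fintype.sum_equiv (Equiv.mulRight y₀) _ _ (fun y => rfl)
        have h2 : ∀ y : P, lam ⟨x⁻¹ * (y * y₀)⁻¹ * x * (y * y₀),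
            hZA (comm_central hc x (y * y₀))⟩ =
            lam ⟨x⁻¹ * y₀⁻¹ * x * y₀, hZA (comm_central hc x y₀)⟩ *
              lam ⟨x⁻¹ * y⁻¹ * x * y, hZA (comm_central hc x y)⟩ := by
          intro y
          rw [← hmul]
          congr 1
          apply Subtype.ext
          exact comm_mul hc x y y₀
        simp only [h2] at h1
        rw [← Finset.mul_sum] at h1
        have h3 := hnontriv _ (comm_central hc x y₀) hy₀
        have h4 : (1 - lam ⟨x⁻¹ * y₀⁻¹ * x * y₀, hZA (comm_central hc x y₀)⟩) *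
            ∑ y : P, lam ⟨x⁻¹ * y⁻¹ * x * y, hZA (comm_central hc x y)⟩ = 0 := by
          rw [sub_mul, one_mul, ← h1, sub_self]
        rcases mul_eq_zero.mp h4 with h5 | h5
        · exfalso; apply h3; rw [sub_eq_zero] at h5; exact h5.symm
        · exact h5
      rw [hsum, mul_zero, mul_zero]
    · have hterm : ∀ y : P, Cfsg.extendByZero A lam (y⁻¹ * x * y) = 0 := by
        intro y
        apply extendByZero_not_mem
        intro hmem
        apply hxA
        have := hAn y⁻¹ _ hmem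
        have h2 : y⁻¹⁻¹ * (y⁻¹ * x * y) * y⁻¹ = x := by group
        rw [h2] at this; exact this
      simp only [hterm, Finset.sum_const_zero, mul_zero]
  · intro x hx
    rw [indFun_apply]
    have hterm : ∀ y : P, Cfsg.extendByZero A lam (y⁻¹ * x * y) = lam ⟨x, hZA hx⟩ := by
      intro y
      have h1 : y⁻¹ * x * y = x := by
        have := Subgroup.mem_center_iff.mp hx y
        rw [mul_assoc, ← this, ← mul_assoc, inv_mul_cancel, one_mul]
      rw [extendByZero_mem A lam (by rw [h1]; exact hZA hx)]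
      congr 1
      exact Subtype.ext h1
    simp only [hterm]
    rw [Finset.sum_const, Finset.card_univ, nsmul_eq_mul, Nat.card_eq_fintype_card (α := P),
      mul_assoc]

end Cfsg.Agent.Helper2.Extra
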