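import Mathlib
import Cfsg.Prelude.Def_Characters
import Cfsg.Prelude.Def_Transfer
import Cfsg.Agent.Lead.CharComm
import Cfsg.Agent.Lead.CharCenter
import Cfsg.Agent.Lead.CharPerm
import Cfsg.Agent.Helper2.Extra

/-! Extraspecial groups: degrees of irreducible characters. -/

namespace Cfsg.Agent.Helper2.Extra

open scoped ComplexConjugate
open Cfsg.Agent.Lead

variable {P : Type*} [Group P]

/-- An irreducible character trivial on the centre (= derived subgroup) has degree one. -/
theorem degree_one_of_center_trivial [Finite P] (hc : commutator P = Subgroup.center P)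
    {χ : P → ℂ} (hχ : Cfsg.IsIrrCharacter P χ) (h : ∀ z ∈ Subgroup.center P, χ z = χ 1) :
    χ 1 = 1 := by
  obtain ⟨n, ρ, hi, rfl⟩ := hχ
  obtain ⟨hnt, hsub⟩ := (isIrreducible_iff ρ).mp hi
  have hn : (Module.finrank ℂ (Fin n → ℂ) : ℂ) ≠ 0 := by
    have : 0 < Module.finrank ℂ (Fin n → ℂ) := Module.finrank_pos
    exact_mod_cast this.ne'
  have hz1 : ∀ z ∈ Subgroup.center P, ρ z = 1 := by
    intro z hz
    obtain ⟨c, hc'⟩ := rep_center_scalar ρ hi hz
    have h1 := h z hz
    rw [Representation.char_one] at h1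
    have h2 : ρ.character z = c * (Module.finrank ℂ (Fin n → ℂ) : ℂ) := by
      show LinearMap.trace ℂ (Fin n → ℂ) (ρ z) = _
      rw [hc', map_smul, LinearMap.trace_id, smul_eq_mul]
    rw [h2] at h1
    have h3 : c = 1 := by
      have h4 : (c - 1) * (Module.finrank ℂ (Fin n → ℂ) : ℂ) = 0 := by
        rw [sub_mul, one_mul, h1, sub_self]
      rcases mul_eq_zero.mp h4 with h5 | h5
      · exact sub_eq_zero.mp h5
      · exact absurd h5 hn
    rw [hc', h3, one_smul]; rfl
  have hcomm : ∀ x y : P, ρ x * ρ y = ρ y * ρ x := by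
    intro x y
    have h2 : x * y = y * x * (x⁻¹ * y⁻¹ * x * y) := by group
    rw [← map_mul, h2, map_mul, hz1 _ (comm_central hc x y), mul_one, map_mul]
  have hscal : ∀ x : P, ∃ c : ℂ, ρ x = c • LinearMap.id :=
    fun x => schur_scalar ρ hi (ρ x) (fun g => hcomm x g)
  obtain ⟨v, hv⟩ := exists_ne (0 : Fin n → ℂ)
  have hinv : ∀ g, ∀ w ∈ Submodule.span ℂ ({v} : Set (Fin n → ℂ)),
      ρ g w ∈ Submodule.span ℂ ({v} : Set (Fin n → ℂ)) := by
    intro g w hw
    obtain ⟨c, hc'⟩ := hscal g
    rw [hc']
    exact Submodule.smul_mem _ c hw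
  have hrank : Module.finrank ℂ (Fin n → ℂ) = 1 := by
    rcases hsub _ hinv with h0 | h1
    · exfalso
      have : v ∈ Submodule.span ℂ ({v} : Set (Fin n → ℂ)) := Submodule.mem_span_singleton_self v
      rw [h0] at this
      exact hv ((Submodule.mem_bot ℂ).mp this)
    · have h2 := finrank_span_singleton (K := ℂ) hv
      rw [h1, finrank_top] at h2
      exact h2
  rw [Representation.char_one, hrank]; simp

/-- The centralizer of a non-central element of an extraspecial group has index `p`. -/
theorem card_centralizer_noncentral [Finite P] (p : ℕ) [Fact p.Prime]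
    (hc : commutator P = Subgroup.center P) (hZ : Nat.card (Subgroup.center P) = p)
    (g : P) (hg : g ∉ Subgroup.center P) :
    Nat.card P = Nat.card (Subgroup.centralizer ({g} : Set P)) * p := by
  have hpp : p.Prime := Fact.out
  let φ : P →* P := MonoidHom.mk' (fun y => g⁻¹ * y⁻¹ * g * y) (by
    intro y y₀
    have h1 := comm_mul hc g y y₀
    have h2 := Subgroup.mem_center_iff.mp (comm_central hc g y) (g⁻¹ * y₀⁻¹ * g * y₀)
    show g⁻¹ * (y * y₀)⁻¹ * g * (y * y₀) = g⁻¹ * y⁻¹ * g * y * (g⁻¹ * y₀⁻¹ * g * y₀)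
    rw [h1, h2])
  have hker : φ.ker = Subgroup.centralizer ({g} : Set P) := by
    ext y
    rw [MonoidHom.mem_ker, Subgroup.mem_centralizer_iff]
    show g⁻¹ * y⁻¹ * g * y = 1 ↔ _
    constructor
    · intro h w hw
      rw [Set.mem_singleton_iff] at hw; subst hw
      have h2 : w * y = y * w * (w⁻¹ * y⁻¹ * w * y) := by group
      rw [h2, h, mul_one]
    · intro h
      have h2 := h g rfl
      calc g⁻¹ * y⁻¹ * g * y = g⁻¹ * y⁻¹ * (g * y) := by group
        _ = g⁻¹ * y⁻¹ * (y * g) := by rw [h2]
        _ = 1 := by group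
  have hrange_le : φ.range ≤ Subgroup.center P := by
    rintro _ ⟨y, rfl⟩
    exact comm_central hc g y
  have hrange_ne : φ.range ≠ ⊥ := by
    intro hbot
    apply hg
    rw [Subgroup.mem_center_iff]
    intro y
    have h1 : φ y ∈ φ.range := ⟨y, rfl⟩
    rw [hbot, Subgroup.mem_bot] at h1
    have h2 : g⁻¹ * y⁻¹ * g * y = 1 := h1
    have h3 : y * g = g * y * (g⁻¹ * y⁻¹ * g * y)⁻¹ := by group
    rw [h3, h2, inv_one, mul_one]
  have hrange_card : Nat.card φ.range = p := by
    have h1 : Nat.card φ.range ∣ p := by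
      rw [← hZ]; exact Subgroup.card_dvd_of_le hrange_le
    rcases (Nat.dvd_prime hpp).mp h1 with h2 | h2
    · exact absurd (Subgroup.card_eq_one.mp h2) hrange_ne
    · exact h2
  have h1 := Subgroup.card_mul_index φ.ker
  rw [Subgroup.index_ker, hker, hrange_card] at h1
  exact h1.symm

/-- The number of conjugacy classes of an extraspecial group. -/
theorem card_conjClasses [Finite P] (p n : ℕ) [Fact p.Prime]
    (hc : commutator P = Subgroup.center P) (hZ : Nat.card (Subgroup.center P) = p)
    (hcard : Nat.card P = p ^ (2 * n + 1)) :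
    Nat.card (ConjClasses P) + 1 = p ^ (2 * n) + p := by
  classical
  haveI : Fintype P := Fintype.ofFinite P
  have hpp : p.Prime := Fact.out
  have h1 := sum_centralizer_card_of_class_pred (G := P) (fun _ => True) (fun _ _ _ => Iff.rfl)
  have e : {c : ConjClasses P // ∀ g, ConjClasses.mk g = c → True} ≃ ConjClasses P :=
    Equiv.subtypeUnivEquiv (fun c _ _ => trivial)
  rw [Nat.card_congr e] at h1
  simp only [if_true] at h1
  -- the centralizer orders
  have hcent : ∀ g : P, Nat.card (Subgroup.centralizer ({g} : Set P)) =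
      if g ∈ Subgroup.center P then p ^ (2 * n + 1) else p ^ (2 * n) := by
    intro g
    by_cases hg : g ∈ Subgroup.center P
    · rw [if_pos hg]
      have h2 : Subgroup.centralizer ({g} : Set P) = ⊤ := by
        ext y
        simp only [Subgroup.mem_centralizer_iff, Set.mem_singleton_iff, forall_eq, Subgroup.mem_top,
          iff_true]
        exact (Subgroup.mem_center_iff.mp hg y).symm
      rw [h2, Subgroup.card_top, hcard]
    · rw [if_neg hg]
      have h2 := card_centralizer_noncentral p hc hZ g hg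
      rw [hcard, pow_succ] at h2
      exact (Nat.eq_of_mul_eq_mul_right hpp.pos h2).symm
  have h2 : ∑ g : P, (Nat.card (Subgroup.centralizer ({g} : Set P)) : ℂ) =
      ((∑ g : P, if g ∈ Subgroup.center P then p ^ (2 * n + 1) else p ^ (2 * n) : ℕ) : ℂ) := by
    rw [Nat.cast_sum]
    refine Finset.sum_congr rfl (fun g _ => ?_)
    rw [hcent g]
  rw [h2] at h1
  have hcardZ : (Finset.univ.filter (fun g : P => g ∈ Subgroup.center P)).card = p := by
    rw [← hZ, Nat.card_eq_fintype_card, Fintype.card_subtype]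
  have hcardnZ : (Finset.univ.filter (fun g : P => ¬ g ∈ Subgroup.center P)).card + p =
      p ^ (2 * n + 1) := by
    have h := Finset.card_filter_add_card_filter_not (s := (Finset.univ : Finset P))
      (fun g : P => g ∈ Subgroup.center P)
    rw [hcardZ, Finset.card_univ, ← Nat.card_eq_fintype_card, hcard] at h
    omega
  have h3 : (∑ g : P, if g ∈ Subgroup.center P then p ^ (2 * n + 1) else p ^ (2 * n)) =
      p * p ^ (2 * n + 1) +
        (Finset.univ.filter (fun g : P => ¬ g ∈ Subgroup.center P)).card * p ^ (2 * n) := by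
    rw [Finset.sum_ite, Finset.sum_const, Finset.sum_const, smul_eq_mul, smul_eq_mul, hcardZ]
  rw [h3, hcard] at h1
  have h4 : p * p ^ (2 * n + 1) +
      (Finset.univ.filter (fun g : P => ¬ g ∈ Subgroup.center P)).card * p ^ (2 * n) =
      p ^ (2 * n + 1) * Nat.card (ConjClasses P) := by exact_mod_cast h1
  generalize (Finset.univ.filter (fun g : P => ¬ g ∈ Subgroup.center P)).card = N at hcardnZ h4
  generalize Nat.card (ConjClasses P) = k at h4 ⊢
  have hq : 0 < p ^ (2 * n) := pow_pos hpp.pos _
  have h5 : p ^ (2 * n + 1) = p ^ (2 * n) * p := pow_succ _ _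
  rw [h5] at h4 hcardnZ
  -- p * (q p) + N q = q p k,  N + p = q p
  have h6 : p ^ (2 * n) * (p * p + N) = p ^ (2 * n) * (p * k) := by
    calc p ^ (2 * n) * (p * p + N) = p * (p ^ (2 * n) * p) + N * p ^ (2 * n) := by ring
      _ = p ^ (2 * n) * p * k := h4
      _ = _ := by ring
  have h7 : p * p + N = p * k := Nat.eq_of_mul_eq_mul_left hq h6
  -- N = q p - p
  have h8 : p * (k + 1) = p * (p ^ (2 * n) + p) := by
    calc p * (k + 1) = p * k + p := by ring
      _ = p * p + N + p := by rw [h7]
      _ = p * p + (N + p) := by ring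
      _ = p * p + p ^ (2 * n) * p := by rw [hcardnZ]
      _ = _ := by ring
  exact Nat.eq_of_mul_eq_mul_left hpp.pos h8

end Cfsg.Agent.Helper2.Extra
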