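import Mathlib
import Cfsg.Prelude.Def_Characters
import Cfsg.Prelude.Def_Transfer
import Cfsg.Agent.Lead.CharComm
import Cfsg.Agent.Lead.CharCenter
import Cfsg.Agent.Lead.CharPerm
import Cfsg.Agent.Helper2.Extra
import Cfsg.Agent.Helper2.Extra2

/-! Extraspecial groups: degrees of irreducible characters, continued. -/

namespace Cfsg.Agent.Helper2.Extra

open scoped ComplexConjugate
open Cfsg.Agent.Lead

variable {P : Type*} [Group P]

/-- Central elements act by scalars: the character-theoretic form. -/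
lemma char_central_mul [Fintype P] {χ : P → ℂ} (hχ : Cfsg.IsIrrCharacter P χ) {z : P}
    (hz : z ∈ Subgroup.center P) (b : P) : χ (z * b) = χ z * χ b / χ 1 := by
  have h := sum_char_conj_mul hχ z b
  have h1 : ∀ y : P, χ (y * z * y⁻¹ * b) = χ (z * b) := by
    intro y
    have h2 : y * z * y⁻¹ = z := by
      have h3 := Subgroup.mem_center_iff.mp hz y
      rw [h3, mul_assoc, mul_inv_cancel, mul_one]
    rw [h2]
  simp only [h1] at h
  rw [Finset.sum_const, Finset.card_univ, nsmul_eq_mul, ← Nat.card_eq_fintype_card] at h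
  have hP : (Nat.card P : ℂ) ≠ 0 := by exact_mod_cast Nat.card_pos.ne'
  have h4 : (Nat.card P : ℂ) * χ (z * b) = (Nat.card P : ℂ) * (χ z * χ b / χ 1) := by
    rw [h]; ring
  exact mul_left_cancel₀ hP h4

theorem degree_of_center_nontrivial [Fintype P] (p n : ℕ) [Fact p.Prime]
    (hc : commutator P = Subgroup.center P)
    (hZ : Nat.card (Subgroup.center P) = p) (hcard : Nat.card P = p ^ (2 * n + 1)) {χ : P → ℂ}
    (hχ : Cfsg.IsIrrCharacter P χ) (z₀ : P) (hz₀ : z₀ ∈ Subgroup.center P) (h : χ z₀ ≠ χ 1) :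
    χ 1 = (p : ℂ) ^ n := by
  classical
  have hpp : p.Prime := Fact.out
  obtain ⟨m, hm, hm1⟩ := isIrrCharacter_one_eq_nat hχ
  have hd : χ 1 ≠ 0 := by rw [hm1]; exact_mod_cast hm.ne'
  have hcl := isCharacter_isClassFunction (isCharacter_of_isIrrCharacter hχ)
  have hpow : ∀ c ∈ Subgroup.center P, χ c = χ 1 → ∀ k : ℕ, χ (c ^ k) = χ 1 := by
    intro c hcZ hc1 k
    induction k with
    | zero => rw [pow_zero]
    | succ k ih =>
      rw [pow_succ', char_central_mul hχ hcZ, hc1, ih]; field_simp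
  have hvanish : ∀ x : P, x ∉ Subgroup.center P → χ x = 0 := by
    intro x hx
    have hex : ∃ y : P, x⁻¹ * y⁻¹ * x * y ≠ 1 := by
      by_contra hcon
      push_neg at hcon
      apply hx
      rw [Subgroup.mem_center_iff]
      intro g
      have h1 := hcon g
      have h2 : x * g = g * x * (x⁻¹ * g⁻¹ * x * g) := by group
      rw [h2, h1, mul_one]
    obtain ⟨y, hy⟩ := hex
    have hcZ : x⁻¹ * y⁻¹ * x * y ∈ Subgroup.center P := comm_central hc x y
    have hc1 : χ (x⁻¹ * y⁻¹ * x * y) ≠ χ 1 := by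
      intro hc1
      have hzp : Subgroup.zpowers (x⁻¹ * y⁻¹ * x * y) = Subgroup.center P :=
        SelfCent.zpowers_eq_of_card hZ hcZ hy
      have h1 : z₀ ∈ Subgroup.zpowers (x⁻¹ * y⁻¹ * x * y) := by rw [hzp]; exact hz₀
      rw [← mem_powers_iff_mem_zpowers] at h1
      obtain ⟨k, hk⟩ := h1
      apply h
      rw [← hk]; exact hpow _ hcZ hc1 k
    have h1 : χ (y⁻¹ * x * y) = χ x := by
      have h2 := hcl x y⁻¹
      rw [inv_inv] at h2; exact h2
    have h2 : y⁻¹ * x * y = (x⁻¹ * y⁻¹ * x * y) * x := by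
      have h3 : y⁻¹ * x * y = x * (x⁻¹ * y⁻¹ * x * y) := by group
      rw [h3]; exact (Subgroup.mem_center_iff.mp hcZ x)
    rw [h2, char_central_mul hχ hcZ] at h1
    have h4 : χ x * (χ (x⁻¹ * y⁻¹ * x * y) - χ 1) = 0 := by
      field_simp at h1
      linear_combination h1
    rcases mul_eq_zero.mp h4 with h5 | h5
    · exact h5
    · exact absurd (sub_eq_zero.mp h5) hc1
  have hnorm : ∀ z ∈ Subgroup.center P, χ z * conj (χ z) = χ 1 * χ 1 := by
    intro z hz
    rw [← isCharacter_inv (isCharacter_of_isIrrCharacter hχ) z]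
    have h1 := char_central_mul hχ hz z⁻¹
    rw [mul_inv_cancel] at h1
    field_simp at h1
    linear_combination -h1
  have hinner := classInner_self_of_isIrrCharacter hχ
  unfold Cfsg.classInner at hinner
  have hterm : ∀ g : P, χ g * conj (χ g) =
      if g ∈ Subgroup.center P then χ 1 * χ 1 else 0 := by
    intro g
    by_cases hg : g ∈ Subgroup.center P
    · rw [if_pos hg, hnorm g hg]
    · rw [if_neg hg, hvanish g hg, zero_mul]
  simp only [hterm] at hinner
  rw [Finset.sum_ite, Finset.sum_const_zero, add_zero, Finset.sum_const, nsmul_eq_mul] at hinner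
  have hcardZ : (Finset.univ.filter (fun g : P => g ∈ Subgroup.center P)).card = p := by
    rw [← hZ, Nat.card_eq_fintype_card, Fintype.card_subtype]
  rw [hcardZ, hcard, hm1] at hinner
  have hp0 : (p : ℂ) ≠ 0 := by exact_mod_cast hpp.ne_zero
  have hpn0 : ((p ^ (2 * n + 1) : ℕ) : ℂ) ≠ 0 := by
    exact_mod_cast (pow_pos hpp.pos _).ne'
  have h6 : ((p * (m * m) : ℕ) : ℂ) = ((p ^ (2 * n + 1) : ℕ) : ℂ) := by
    have h7 := congrArg (HMul.hMul (((p ^ (2 * n + 1) : ℕ) : ℂ))) hinner
    rw [← mul_assoc, mul_inv_cancel₀ hpn0, one_mul, mul_one] at h7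
    rw [← h7]; push_cast; ring
  have h7 : p * (m * m) = p ^ (2 * n + 1) := by exact_mod_cast h6
  have h8 : m * m = p ^ n * p ^ n := by
    have h9 : p * (m * m) = p * (p ^ n * p ^ n) := by
      rw [h7]; ring
    exact Nat.eq_of_mul_eq_mul_left hpp.pos h9
  have h9 : m = p ^ n := Nat.mul_self_inj.mp h8
  rw [hm1, h9]; push_cast; rfl

theorem count_degree [Finite P] (p n : ℕ) [Fact p.Prime]
    (hc : commutator P = Subgroup.center P)
    (hZ : Nat.card (Subgroup.center P) = p) (hcard : Nat.card P = p ^ (2 * n + 1))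
    (hdich : ∀ χ : Cfsg.IrrCharacter P, (χ : P → ℂ) 1 = 1 ∨ (χ : P → ℂ) 1 = (p : ℂ) ^ n) :
    Nat.card {χ : Cfsg.IrrCharacter P // (χ : P → ℂ) 1 = (p : ℂ) ^ n} = p - 1 := by
  classical
  haveI : Fintype P := Fintype.ofFinite P
  haveI : Finite (Cfsg.IrrCharacter P) := finite_irrCharacter P
  haveI : Fintype (Cfsg.IrrCharacter P) := Fintype.ofFinite _
  have hpp : p.Prime := Fact.out
  have hn : 1 ≤ n := by
    by_contra hn0
    have hn0' : n = 0 := by omega
    subst hn0'
    have hcard' : Nat.card P = p := by simpa using hcard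
    have h1 : Subgroup.center P = ⊤ := by
      apply Subgroup.eq_top_of_card_eq
      rw [hZ, hcard']
    have h2 : commutator P = ⊥ := by
      rw [commutator_eq_bot_iff_center_eq_top]; exact h1
    rw [hc, h1] at h2
    have h3 : Nat.card P = 1 := by
      rw [← Subgroup.card_top (G := P), h2, Subgroup.card_bot]
    rw [hcard'] at h3
    exact hpp.ne_one h3
  have hk := card_conjClasses p n hc hZ hcard
  rw [← card_irrCharacter] at hk
  have hsq := column_orth_of_isConj (G := P) (IsConj.refl (1 : P))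
  rw [finsum_eq_sum_of_fintype] at hsq
  have hc1 : Subgroup.centralizer ({(1 : P)} : Set P) = ⊤ := by
    ext x; simp [Subgroup.mem_centralizer_iff]
  rw [hc1, Subgroup.card_top, hcard] at hsq
  have hq2 : 2 ≤ p ^ (2 * n) := by
    have h1 : p ^ 1 ≤ p ^ (2 * n) := Nat.pow_le_pow_right hpp.pos (by omega)
    have h2 := hpp.two_le
    rw [pow_one] at h1; omega
  have hp1 : (p : ℂ) ^ n ≠ 1 := by
    intro h
    have h2 : p ^ n = 1 := by exact_mod_cast h
    have h3 : p ^ 1 ≤ p ^ n := Nat.pow_le_pow_right hpp.pos hn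
    have h4 := hpp.two_le
    rw [pow_one] at h3; omega
  have hterm : ∀ χ : Cfsg.IrrCharacter P, (χ : P → ℂ) 1 * conj ((χ : P → ℂ) 1) =
      if (χ : P → ℂ) 1 = (p : ℂ) ^ n then ((p ^ (2 * n) : ℕ) : ℂ) else ((1 : ℕ) : ℂ) := by
    intro χ
    rcases hdich χ with h | h
    · rw [if_neg (by rw [h]; exact fun h' => hp1 h'.symm), h]; simp
    · rw [if_pos h, h, map_pow, Complex.conj_natCast]; push_cast; ring
  simp only [hterm] at hsq
  rw [Finset.sum_ite, Finset.sum_const, Finset.sum_const, nsmul_eq_mul, nsmul_eq_mul] at hsq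
  have hml := Finset.card_filter_add_card_filter_not (s := (Finset.univ : Finset (Cfsg.IrrCharacter P)))
    (fun χ : Cfsg.IrrCharacter P => (χ : P → ℂ) 1 = (p : ℂ) ^ n)
  rw [Finset.card_univ, ← Nat.card_eq_fintype_card] at hml
  rw [Nat.card_eq_fintype_card, Fintype.card_subtype]
  generalize (Finset.univ.filter (fun χ : Cfsg.IrrCharacter P => (χ : P → ℂ) 1 = (p : ℂ) ^ n)).card
    = m at hsq hml ⊢
  generalize (Finset.univ.filter
    (fun χ : Cfsg.IrrCharacter P => ¬ (χ : P → ℂ) 1 = (p : ℂ) ^ n)).card = l at hsq hml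
  have hsq' : m * p ^ (2 * n) + l * 1 = p ^ (2 * n + 1) := by exact_mod_cast hsq
  rw [← hml] at hk
  rw [pow_succ] at hsq'
  generalize p ^ (2 * n) = q at hsq' hk hq2
  have e1 : (m : ℤ) + l + 1 = q + p := by exact_mod_cast hk
  have e2 : (m : ℤ) * q + l = q * p := by
    have : m * q + l = q * p := by rw [← hsq']; ring
    exact_mod_cast this
  have e3 : ((m : ℤ) - (p - 1)) * (q - 1) = 0 := by linear_combination e2 - e1
  have hq1 : (q : ℤ) - 1 ≠ 0 := by
    have : (2 : ℤ) ≤ q := by exact_mod_cast hq2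
    omega
  rcases mul_eq_zero.mp e3 with h5 | h5
  · have hp1' : 1 ≤ p := hpp.pos
    omega
  · exact absurd h5 hq1

end Cfsg.Agent.Helper2.Extra
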