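import Mathlib
import Cfsg.Prelude.Def_Local
import Cfsg.Agent.Helper3.Local3
import Cfsg.Agent.Helper3.Layer2

/-! Groups with `F* = O_p`: passage to centralizers of `p`-subgroups. -/

namespace Cfsg.Agent.Helper2.FS

universe u

open Cfsg.Agent.Helper3

variable {p : ℕ} [Fact p.Prime]

theorem cp_of_equiv {X Y : Type u} [Group X] [Group Y] [Finite X] [Finite Y] (e : X ≃* Y)
    (h : Cfsg.generalizedFittingSubgroup X = Cfsg.pCore p X) :
    Cfsg.generalizedFittingSubgroup Y = Cfsg.pCore p Y := by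
  apply fstar_eq_pCore_of_injective p e.toMonoidHom e.injective _ h
  intro y _
  exact ⟨e.symm y, e.apply_symm_apply y⟩

theorem cp_of_subnormal {X : Type u} [Group X] [Finite X] (A : Subgroup X) (hA : A.IsSubnormal)
    (h : Cfsg.generalizedFittingSubgroup X = Cfsg.pCore p X) :
    Cfsg.generalizedFittingSubgroup ↥A = Cfsg.pCore p ↥A := by
  rw [fstar_eq_pCore_iff] at h ⊢
  obtain ⟨hE, hO⟩ := h
  constructor
  · have h1 := layer_map_subtype_le A hA
    rw [hE, le_bot_iff] at h1
    exact (Subgroup.map_eq_bot_iff_of_injective _ A.subtype_injective).mp h1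
  · haveI := pPrimeCore_characteristic p ↥A
    have hsn : ((Cfsg.pPrimeCore p ↥A).map A.subtype).IsSubnormal :=
      (Subgroup.Normal.isSubnormal inferInstance).trans' hA
    have hc : (Nat.card ((Cfsg.pPrimeCore p ↥A).map A.subtype)).Coprime p := by
      rw [Subgroup.card_map_of_injective A.subtype_injective]
      exact pPrimeCore_coprime p ↥A
    have h1 := subnormal_coprime_le_pPrimeCore _ hsn hc
    rw [hO, le_bot_iff] at h1
    exact (Subgroup.map_eq_bot_iff_of_injective _ A.subtype_injective).mp h1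

theorem cp_iff_isPGroup {X : Type u} [Group X] [Finite X] :
    IsPGroup p ↥(Cfsg.generalizedFittingSubgroup X) ↔
      Cfsg.generalizedFittingSubgroup X = Cfsg.pCore p X := by
  constructor
  · intro h
    haveI := fstar_characteristic X
    apply le_antisymm
    · exact le_pCore _ h
    · exact (pCore_le_fitting p X).trans (fitting_le_fstar X)
  · intro h
    rw [h]; exact pCore_isPGroup p X

theorem cp_normalizer_of_centralizer {G : Type u} [Group G] [Finite G] (V : Subgroup G)
    (hVp : IsPGroup p V)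
    (h : Cfsg.generalizedFittingSubgroup ↥(Subgroup.centralizer (V : Set G)) =
      Cfsg.pCore p ↥(Subgroup.centralizer (V : Set G))) :
    Cfsg.generalizedFittingSubgroup ↥(Subgroup.normalizer (V : Set G)) =
      Cfsg.pCore p ↥(Subgroup.normalizer (V : Set G)) := by
  apply fstar_eq_pCore_of_injective p
    (Subgroup.inclusion (Subgroup.centralizer_le_normalizer (V : Set G)))
    (Subgroup.inclusion_injective _) _ h
  intro y hy
  haveI : (V.subgroupOf (Subgroup.normalizer (V : Set G))).Normal :=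
    (Subgroup.normal_subgroupOf_iff_le_normalizer Subgroup.le_normalizer).mpr le_rfl
  have hVle : V.subgroupOf (Subgroup.normalizer (V : Set G)) ≤
      Cfsg.pCore p ↥(Subgroup.normalizer (V : Set G)) := le_pCore _ hVp.comap_subtype
  have hyC : (y : G) ∈ Subgroup.centralizer (V : Set G) := by
    rw [Subgroup.mem_centralizer_iff]
    intro v hv
    have := Subgroup.mem_centralizer_iff.mp hy ⟨v, Subgroup.le_normalizer hv⟩
      (hVle (Subgroup.mem_subgroupOf.mpr hv))
    exact congrArg Subtype.val this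
  exact ⟨⟨(y : G), hyC⟩, Subtype.ext rfl⟩

theorem cp_centralizer_of_normalizer {G : Type u} [Group G] [Finite G] (M U : Subgroup G)
    (hUM : U ≤ M) (hCM : Subgroup.centralizer (U : Set G) ≤ M) (hU : IsPGroup p U)
    (h : Cfsg.generalizedFittingSubgroup ↥M = Cfsg.pCore p ↥M) :
    Cfsg.generalizedFittingSubgroup ↥(Subgroup.centralizer (U : Set G)) =
      Cfsg.pCore p ↥(Subgroup.centralizer (U : Set G)) := by
  have hB := fstar_normalizer_eq_pCore p h (U.subgroupOf M) hU.comap_subtype
  have hnU : ∀ b : ↥M, b ∈ Subgroup.normalizer ((U.subgroupOf M : Subgroup ↥M) : Set ↥M) →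
      ∀ u ∈ U, (b : G)⁻¹ * u * (b : G) ∈ U := by
    intro b hb u hu
    have h1 := (Subgroup.mem_normalizer_iff.mp hb (b⁻¹ * ⟨u, hUM hu⟩ * b)).mpr (by
      rw [Subgroup.mem_subgroupOf]
      have : ((b * (b⁻¹ * ⟨u, hUM hu⟩ * b) * b⁻¹ : ↥M) : G) = u := by
        simp only [Subgroup.coe_mul, Subgroup.coe_inv]; group
      rw [this]; exact hu)
    rw [Subgroup.mem_subgroupOf] at h1
    simpa using h1
  have hC'B : (Subgroup.centralizer (U : Set G)).subgroupOf M ≤
      Subgroup.normalizer ((U.subgroupOf M : Subgroup ↥M) : Set ↥M) := by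
    intro y hy
    rw [Subgroup.mem_subgroupOf] at hy
    rw [Subgroup.mem_normalizer_iff]
    intro x
    rw [Subgroup.mem_subgroupOf, Subgroup.mem_subgroupOf]
    have hyN := Subgroup.centralizer_le_normalizer _ hy
    have := Subgroup.mem_normalizer_iff.mp hyN (x : G)
    simpa using this
  have hAn : (((Subgroup.centralizer (U : Set G)).subgroupOf M).subgroupOf
      (Subgroup.normalizer ((U.subgroupOf M : Subgroup ↥M) : Set ↥M))).Normal := by
    constructor
    intro a ha b
    rw [Subgroup.mem_subgroupOf, Subgroup.mem_subgroupOf] at ha ⊢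
    rw [Subgroup.mem_centralizer_iff] at ha ⊢
    intro u hu
    have h1 := hnU (b : ↥M) b.2 u hu
    have h2 := ha _ h1
    simp only [Subgroup.coe_mul, Subgroup.coe_inv]
    calc u * (((b : ↥M) : G) * ((a : ↥M) : G) * ((b : ↥M) : G)⁻¹)
        = ((b : ↥M) : G) * ((((b : ↥M) : G)⁻¹ * u * ((b : ↥M) : G)) * ((a : ↥M) : G)) *
          ((b : ↥M) : G)⁻¹ := by group
      _ = ((b : ↥M) : G) * (((a : ↥M) : G) * (((b : ↥M) : G)⁻¹ * u * ((b : ↥M) : G))) *
          ((b : ↥M) : G)⁻¹ := by rw [h2]
      _ = ((b : ↥M) : G) * ((a : ↥M) : G) * ((b : ↥M) : G)⁻¹ * u := by group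
  have hA := cp_of_subnormal _ (Subgroup.Normal.isSubnormal hAn) hB
  exact cp_of_equiv ((Subgroup.subgroupOfEquivOfLe hC'B).trans (Subgroup.subgroupOfEquivOfLe hCM)) hA

theorem cp_step {G : Type u} [Group G] [Finite G] (U V : Subgroup G) (hVU : V ≤ U)
    (hUN : U ≤ Subgroup.normalizer (V : Set G)) (hU : IsPGroup p U)
    (h : Cfsg.generalizedFittingSubgroup ↥(Subgroup.centralizer (V : Set G)) =
      Cfsg.pCore p ↥(Subgroup.centralizer (V : Set G))) :
    Cfsg.generalizedFittingSubgroup ↥(Subgroup.centralizer (U : Set G)) =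
      Cfsg.pCore p ↥(Subgroup.centralizer (U : Set G)) := by
  have h1 := cp_normalizer_of_centralizer V (hU.to_le hVU) h
  apply cp_centralizer_of_normalizer (Subgroup.normalizer (V : Set G)) U hUN _ hU h1
  exact (Subgroup.centralizer_le (SetLike.coe_subset_coe.mpr hVU)).trans
    (Subgroup.centralizer_le_normalizer _)

lemma exists_normalizer_not_mem {G : Type*} [Group G] [Finite G] (Q R : Subgroup G)
    (hQp : IsPGroup p Q) (hRQ : R ≤ Q) (hne : R ≠ Q) :
    ∃ x ∈ Q, x ∈ Subgroup.normalizer (R : Set G) ∧ x ∉ R := by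
  haveI : Group.IsNilpotent ↥Q := hQp.isNilpotent
  have hcond : NormalizerCondition ↥Q := Group.normalizerCondition_of_isNilpotent
  have hlt : R.subgroupOf Q < ⊤ := by
    rw [lt_top_iff_ne_top]
    intro htop
    rw [Subgroup.subgroupOf_eq_top] at htop
    exact hne (le_antisymm hRQ htop)
  have hlt2 := hcond _ hlt
  obtain ⟨x, hxn, hxR⟩ := SetLike.exists_of_lt hlt2
  refine ⟨x, x.2, ?_, fun h => hxR (Subgroup.mem_subgroupOf.mpr h)⟩
  rw [Subgroup.mem_normalizer_iff]
  intro y
  constructor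
  · intro hy
    have h1 := (Subgroup.mem_normalizer_iff.mp hxn ⟨y, hRQ hy⟩).mp
      (by rw [Subgroup.mem_subgroupOf]; exact hy)
    rw [Subgroup.mem_subgroupOf] at h1
    simpa using h1
  · intro hy
    have hyQ : y ∈ Q := by
      have h1 : y = (x : G)⁻¹ * ((x : G) * y * (x : G)⁻¹) * (x : G) := by group
      rw [h1]
      exact mul_mem (mul_mem (inv_mem x.2) (hRQ hy)) x.2
    have h1 := (Subgroup.mem_normalizer_iff.mp hxn ⟨y, hyQ⟩).mpr
      (by rw [Subgroup.mem_subgroupOf]; simpa using hy)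
    rw [Subgroup.mem_subgroupOf] at h1
    exact h1

theorem cp_centralizer_mono {G : Type u} [Group G] [Finite G] (U V : Subgroup G) (hVU : V ≤ U)
    (hU : IsPGroup p U)
    (h : Cfsg.generalizedFittingSubgroup ↥(Subgroup.centralizer (V : Set G)) =
      Cfsg.pCore p ↥(Subgroup.centralizer (V : Set G))) :
    Cfsg.generalizedFittingSubgroup ↥(Subgroup.centralizer (U : Set G)) =
      Cfsg.pCore p ↥(Subgroup.centralizer (U : Set G)) := by
  classical
  haveI : Nonempty {W : Subgroup G // V ≤ W ∧ W ≤ U ∧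
      Cfsg.generalizedFittingSubgroup ↥(Subgroup.centralizer (W : Set G)) =
      Cfsg.pCore p ↥(Subgroup.centralizer (W : Set G))} := ⟨⟨V, le_rfl, hVU, h⟩⟩
  obtain ⟨⟨W, hVW, hWU, hW⟩, hmax⟩ := Finite.exists_max
    (fun W : {W : Subgroup G // V ≤ W ∧ W ≤ U ∧
      Cfsg.generalizedFittingSubgroup ↥(Subgroup.centralizer (W : Set G)) =
      Cfsg.pCore p ↥(Subgroup.centralizer (W : Set G))} => Nat.card (W : Subgroup G))
  by_cases hWeq : W = U
  · rw [← hWeq]; exact hW
  · exfalso
    obtain ⟨x, hxU, hxN, hxW⟩ := exists_normalizer_not_mem U W hU hWU hWeq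
    have hW1 : W ≤ U ⊓ Subgroup.normalizer (W : Set G) := le_inf hWU Subgroup.le_normalizer
    have h1 := cp_step (U ⊓ Subgroup.normalizer (W : Set G)) W hW1 inf_le_right
      (hU.to_le inf_le_left) hW
    have h2 := hmax ⟨U ⊓ Subgroup.normalizer (W : Set G), hVW.trans hW1, inf_le_left, h1⟩
    have h3 := Subgroup.eq_of_le_of_card_ge hW1 h2
    apply hxW
    rw [h3]
    exact Subgroup.mem_inf.mpr ⟨hxU, hxN⟩

end Cfsg.Agent.Helper2.FS
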