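import Mathlib

/-! Class number of a Frobenius group, by counting commuting pairs. -/

namespace Cfsg.Agent.Helper2.FrobClassNum

open scoped BigOperators

theorem comm_sum (X : Type*) [Group X] [Fintype X] :
    ∑ a : X, Nat.card {b : X // Commute a b} = Nat.card (ConjClasses X) * Nat.card X := by
  rw [← card_comm_eq_card_conjClasses_mul_card,
    Nat.card_congr (Equiv.subtypeProdEquivSigmaSubtype (fun a b : X => Commute a b)), Nat.card_sigma]

theorem card_comm_one (X : Type*) [Group X] : Nat.card {b : X // Commute (1 : X) b} = Nat.card X :=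
  Nat.card_congr (Equiv.subtypeUnivEquiv (fun b => Commute.one_left b))

theorem main {G : Type*} [Group G] [Finite G] (K H : Subgroup G) [hKn : K.Normal] (hKH : K ⊓ H = ⊥)
    (hKH' : K ⊔ H = ⊤) (hfpf : ∀ h ∈ H, h ≠ 1 → ∀ k ∈ K, h * k = k * h → k = 1) :
    Nat.card H * Nat.card (ConjClasses G) + 1 =
      Nat.card H * Nat.card (ConjClasses H) + Nat.card (ConjClasses K) := by
  classical
  haveI : Fintype G := Fintype.ofFinite G
  haveI : Fintype K := Fintype.ofFinite K
  haveI : Fintype H := Fintype.ofFinite H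
  have hint : ∀ g : G, g ∈ K → g ∈ H → g = 1 := by
    intro g hgK hgH
    have : g ∈ K ⊓ H := ⟨hgK, hgH⟩
    rw [hKH] at this
    exact Subgroup.mem_bot.mp this
  have hdecomp : ∀ g : G, ∃ k ∈ K, ∃ h ∈ H, g = k * h := by
    intro g
    have hg : g ∈ K ⊔ H := by rw [hKH']; exact Subgroup.mem_top g
    have hg' : g ∈ ((K ⊔ H : Subgroup G) : Set G) := hg
    rw [Subgroup.normal_mul] at hg'
    obtain ⟨k, hk, h, hh, rfl⟩ := Set.mem_mul.mp hg'
    exact ⟨k, hk, h, hh, rfl⟩
  have hsurj : ∀ h ∈ H, h ≠ 1 → ∀ k ∈ K, ∃ y ∈ K, y * h * y⁻¹ * h⁻¹ = k := by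
    intro h hh hh1 k hk
    have hmem : ∀ y : K, (y : G) * h * (y : G)⁻¹ * h⁻¹ ∈ K := by
      intro y
      have h1 : h * (y : G)⁻¹ * h⁻¹ ∈ K := hKn.conj_mem _ (K.inv_mem y.2) h
      have h2 : (y : G) * (h * (y : G)⁻¹ * h⁻¹) ∈ K := K.mul_mem y.2 h1
      have e : (y : G) * h * (y : G)⁻¹ * h⁻¹ = (y : G) * (h * (y : G)⁻¹ * h⁻¹) := by group
      rw [e]; exact h2
    have hinj : Function.Injective (fun y : K => (⟨(y : G) * h * (y : G)⁻¹ * h⁻¹, hmem y⟩ : K)) := by
      intro y z hyz
      have h1 : (y : G) * h * (y : G)⁻¹ * h⁻¹ = (z : G) * h * (z : G)⁻¹ * h⁻¹ :=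
        congrArg Subtype.val hyz
      have h3 : (y : G) * h * (y : G)⁻¹ = (z : G) * h * (z : G)⁻¹ := mul_right_cancel h1
      have h2 : h * ((z : G)⁻¹ * y) = ((z : G)⁻¹ * y) * h := by
        calc h * ((z : G)⁻¹ * y) = (z : G)⁻¹ * ((z : G) * h * (z : G)⁻¹) * y := by group
          _ = (z : G)⁻¹ * ((y : G) * h * (y : G)⁻¹) * y := by rw [h3]
          _ = ((z : G)⁻¹ * y) * h := by group
      have h4 := hfpf h hh hh1 ((z : G)⁻¹ * y) (K.mul_mem (K.inv_mem z.2) y.2) h2
      apply Subtype.ext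
      exact (inv_mul_eq_one.mp h4).symm
    obtain ⟨y, hy⟩ := (Finite.injective_iff_surjective.mp hinj) ⟨k, hk⟩
    exact ⟨y, y.2, congrArg Subtype.val hy⟩
  have hCK : ∀ g ∈ K, g ≠ 1 → ∀ b : G, Commute g b → b ∈ K := by
    intro g hg hg1 b hb
    obtain ⟨k, hk, h, hh, rfl⟩ := hdecomp b
    by_cases hh1 : h = 1
    · subst hh1; rw [mul_one]; exact hk
    · exfalso
      obtain ⟨y, hy, hyk⟩ := hsurj h hh hh1 k hk
      have e : k * h = y * h * y⁻¹ := by rw [← hyk]; group
      have hc : g * (y * h * y⁻¹) = (y * h * y⁻¹) * g := by rw [← e]; exact hb.eq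
      have h2 : h * (y⁻¹ * g * y) = (y⁻¹ * g * y) * h := by
        calc h * (y⁻¹ * g * y) = y⁻¹ * ((y * h * y⁻¹) * g) * y := by group
          _ = y⁻¹ * (g * (y * h * y⁻¹)) * y := by rw [hc]
          _ = (y⁻¹ * g * y) * h := by group
      have hmemK : y⁻¹ * g * y ∈ K := by
        have := hKn.conj_mem g hg y⁻¹
        rwa [inv_inv] at this
      have h4 := hfpf h hh hh1 _ hmemK h2
      apply hg1
      have e2 : g = y * (y⁻¹ * g * y) * y⁻¹ := by group
      rw [e2, h4]; group
  have hCH : ∀ h ∈ H, h ≠ 1 → ∀ b : G, Commute h b → b ∈ H := by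
    intro h hh hh1 b hb
    obtain ⟨k, hk, h₁, hh₁, rfl⟩ := hdecomp b
    have hc : h * (k * h₁) = (k * h₁) * h := hb.eq
    have h5 : k⁻¹ * h * k = h₁ * h * h₁⁻¹ := by
      calc k⁻¹ * h * k = k⁻¹ * (h * (k * h₁)) * h₁⁻¹ := by group
        _ = k⁻¹ * ((k * h₁) * h) * h₁⁻¹ := by rw [hc]
        _ = h₁ * h * h₁⁻¹ := by group
    have hu : h⁻¹ * k⁻¹ * h * k = h⁻¹ * (h₁ * h * h₁⁻¹) := by
      calc h⁻¹ * k⁻¹ * h * k = h⁻¹ * (k⁻¹ * h * k) := by group
        _ = h⁻¹ * (h₁ * h * h₁⁻¹) := by rw [h5]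
    have huK : h⁻¹ * k⁻¹ * h * k ∈ K := by
      have h1 : h⁻¹ * k⁻¹ * h ∈ K := by
        have := hKn.conj_mem k⁻¹ (K.inv_mem hk) h⁻¹
        rwa [inv_inv] at this
      exact K.mul_mem h1 hk
    have huH : h⁻¹ * k⁻¹ * h * k ∈ H := by
      rw [hu]
      exact H.mul_mem (H.inv_mem hh) (H.mul_mem (H.mul_mem hh₁ hh) (H.inv_mem hh₁))
    have hu1 := hint _ huK huH
    have hcomm : h * k = k * h := by
      calc h * k = k * h * (h⁻¹ * k⁻¹ * h * k) := by group
        _ = k * h := by rw [hu1, mul_one]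
    have hk1 := hfpf h hh hh1 k hk hcomm
    rw [hk1, one_mul]; exact hh₁
  have P1 : ∀ x : K, x ≠ 1 →
      Nat.card {b : G // Commute (x : G) b} = Nat.card {b : K // Commute x b} := by
    intro x hx
    have hx1 : (x : G) ≠ 1 := fun h => hx (Subtype.ext h)
    exact Nat.card_congr
      { toFun := fun b => ⟨⟨b.1, hCK x x.2 hx1 b.1 b.2⟩, by
          show x * _ = _ * x
          exact Subtype.ext b.2.eq⟩
        invFun := fun b => ⟨(b.1 : G), by
          have h1 := congrArg Subtype.val b.2.eq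
          show (x : G) * (b.1 : G) = (b.1 : G) * (x : G)
          exact h1⟩
        left_inv := fun b => rfl
        right_inv := fun b => rfl }
  have P3 : ∀ (x : K) (h : H), h ≠ 1 →
      Nat.card {b : G // Commute ((x : G) * (h : G)) b} = Nat.card {b : H // Commute h b} := by
    intro x h hh
    have hh1 : (h : G) ≠ 1 := fun e => hh (Subtype.ext e)
    obtain ⟨y, hy, hyx⟩ := hsurj h h.2 hh1 x x.2
    have e : (x : G) * h = y * h * y⁻¹ := by rw [← hyx]; group
    rw [e]
    have key : ∀ b : G, Commute (y * (h : G) * y⁻¹) b → Commute (h : G) (y⁻¹ * b * y) := by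
      intro b hb
      have h1 := hb.eq
      show (h : G) * (y⁻¹ * b * y) = (y⁻¹ * b * y) * h
      calc (h : G) * (y⁻¹ * b * y) = y⁻¹ * ((y * h * y⁻¹) * b) * y := by group
        _ = y⁻¹ * (b * (y * h * y⁻¹)) * y := by rw [h1]
        _ = (y⁻¹ * b * y) * h := by group
    exact Nat.card_congr
      { toFun := fun b => ⟨⟨y⁻¹ * b.1 * y, hCH h h.2 hh1 _ (key b.1 b.2)⟩, by
          show h * _ = _ * h
          exact Subtype.ext (key b.1 b.2).eq⟩
        invFun := fun c => ⟨y * (c.1 : G) * y⁻¹, by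
          have h1 : (h : G) * (c.1 : G) = (c.1 : G) * h := congrArg Subtype.val c.2.eq
          show (y * (h : G) * y⁻¹) * (y * (c.1 : G) * y⁻¹)
            = (y * (c.1 : G) * y⁻¹) * (y * (h : G) * y⁻¹)
          calc (y * (h : G) * y⁻¹) * (y * (c.1 : G) * y⁻¹)
              = y * ((h : G) * (c.1 : G)) * y⁻¹ := by group
            _ = y * ((c.1 : G) * h) * y⁻¹ := by rw [h1]
            _ = (y * (c.1 : G) * y⁻¹) * (y * (h : G) * y⁻¹) := by group⟩
        left_inv := fun b => by
          apply Subtype.ext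
          show y * (y⁻¹ * b.1 * y) * y⁻¹ = b.1
          group
        right_inv := fun c => by
          apply Subtype.ext
          apply Subtype.ext
          show y⁻¹ * (y * (c.1 : G) * y⁻¹) * y = (c.1 : G)
          group }
  let e : K × H ≃ G := Equiv.ofBijective (fun p : K × H => (p.1 : G) * (p.2 : G)) ⟨by
      intro p q hpq
      have hpq' : (p.1 : G) * (p.2 : G) = (q.1 : G) * (q.2 : G) := hpq
      have h1 : (q.1 : G)⁻¹ * (p.1 : G) = (q.2 : G) * (p.2 : G)⁻¹ := by
        calc (q.1 : G)⁻¹ * (p.1 : G)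
            = (q.1 : G)⁻¹ * ((p.1 : G) * (p.2 : G)) * (p.2 : G)⁻¹ := by group
          _ = (q.1 : G)⁻¹ * ((q.1 : G) * (q.2 : G)) * (p.2 : G)⁻¹ := by rw [hpq']
          _ = (q.2 : G) * (p.2 : G)⁻¹ := by group
      have h2 : (q.1 : G)⁻¹ * (p.1 : G) = 1 :=
        hint _ (K.mul_mem (K.inv_mem q.1.2) p.1.2)
          (by rw [h1]; exact H.mul_mem q.2.2 (H.inv_mem p.2.2))
      have h3 : (q.2 : G) * (p.2 : G)⁻¹ = 1 := by rw [← h1]; exact h2
      apply Prod.ext
      · exact Subtype.ext (inv_mul_eq_one.mp h2).symm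
      · exact Subtype.ext (mul_inv_eq_one.mp h3).symm, by
      intro g
      obtain ⟨k, hk, h, hh, rfl⟩ := hdecomp g
      exact ⟨(⟨k, hk⟩, ⟨h, hh⟩), rfl⟩⟩
  have hcardG : Nat.card G = Nat.card K * Nat.card H := by
    rw [← Nat.card_prod]; exact (Nat.card_congr e).symm
  have sG := comm_sum G
  have sK := comm_sum K
  have sH := comm_sum H
  obtain ⟨A', hA'⟩ : ∃ A', A' = ∑ x ∈ (Finset.univ : Finset K).erase 1,
      Nat.card {b : K // Commute x b} := ⟨_, rfl⟩
  obtain ⟨B, hB'⟩ : ∃ B, B = ∑ h ∈ (Finset.univ : Finset H).erase 1,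
      Nat.card {b : H // Commute h b} := ⟨_, rfl⟩
  have hA : Nat.card K + A' = Nat.card (ConjClasses K) * Nat.card K := by
    rw [← sK, hA', ← card_comm_one K]
    exact Finset.add_sum_erase Finset.univ (fun x : K => Nat.card {b : K // Commute x b})
      (Finset.mem_univ 1)
  have hB : Nat.card H + B = Nat.card (ConjClasses H) * Nat.card H := by
    rw [← sH, hB', ← card_comm_one H]
    exact Finset.add_sum_erase Finset.univ (fun x : H => Nat.card {b : H // Commute x b})
      (Finset.mem_univ 1)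
  have s1 : ∑ a : G, Nat.card {b : G // Commute a b}
      = ∑ x : K, ∑ h : H, Nat.card {b : G // Commute ((x : G) * (h : G)) b} := by
    calc ∑ a : G, Nat.card {b : G // Commute a b}
        = ∑ p : K × H, Nat.card {b : G // Commute (e p) b} :=
          (Equiv.sum_comp e (fun a => Nat.card {b : G // Commute a b})).symm
      _ = ∑ x : K, ∑ h : H, Nat.card {b : G // Commute (e (x, h)) b} :=
          Fintype.sum_prod_type _
      _ = _ := rfl
  have inner : ∀ x : K, ∑ h : H, Nat.card {b : G // Commute ((x : G) * (h : G)) b}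
      = Nat.card {b : G // Commute (x : G) b} + B := by
    intro x
    rw [← Finset.add_sum_erase Finset.univ _ (Finset.mem_univ (1 : H)), hB']
    congr 1
    · simp only [Subgroup.coe_one, mul_one]
    · exact Finset.sum_congr rfl (fun h hh => P3 x h (Finset.ne_of_mem_erase hh))
  have outer : ∑ x : K, Nat.card {b : G // Commute (x : G) b} = Nat.card G + A' := by
    rw [← Finset.add_sum_erase Finset.univ _ (Finset.mem_univ (1 : K)), hA']
    congr 1
    · simp only [Subgroup.coe_one]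
      exact card_comm_one G
    · exact Finset.sum_congr rfl (fun x hx => P1 x (Finset.ne_of_mem_erase hx))
  have hG : Nat.card G + A' + Nat.card K * B = Nat.card (ConjClasses G) * Nat.card G := by
    rw [← sG, s1, Finset.sum_congr rfl (fun x _ => inner x), Finset.sum_add_distrib, outer,
      Finset.sum_const, Finset.card_univ, smul_eq_mul, Nat.card_eq_fintype_card (α := K)]
  have ha : 0 < Nat.card K := Nat.card_pos
  apply Nat.eq_of_mul_eq_mul_left ha
  rw [hcardG] at hG
  calc Nat.card K * (Nat.card H * Nat.card (ConjClasses G) + 1)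
      = Nat.card (ConjClasses G) * (Nat.card K * Nat.card H) + Nat.card K := by ring
    _ = (Nat.card K * Nat.card H + A' + Nat.card K * B) + Nat.card K := by rw [← hG]
    _ = Nat.card K * (Nat.card H + B) + (Nat.card K + A') := by ring
    _ = Nat.card K * (Nat.card (ConjClasses H) * Nat.card H)
        + Nat.card (ConjClasses K) * Nat.card K := by rw [hB, hA]
    _ = Nat.card K * (Nat.card H * Nat.card (ConjClasses H) + Nat.card (ConjClasses K)) := by ring

end Cfsg.Agent.Helper2.FrobClassNum
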