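import Mathlib
import Cfsg.Agent.Helper2.GalAM

/-! Rationality of a value taken at all primitive roots (resultant over `ℤ[X]`). -/

namespace Cfsg.Agent.Helper2.GalAM

open Polynomial

universe u

/-- if an integer polynomial takes the same value `c` at all primitive `n`-th roots of unity,
then `c` is rational -/
theorem rational_of_const (F : ℤ[X]) (n : ℕ) (hn : 0 < n) (c : ℂ)
    (h : ∀ ω ∈ primitiveRoots n ℂ, aeval ω F = c) : ∃ q : ℚ, c = (q : ℂ) := by
  -- polynomials in `Y` over `ℤ[X]` and `ℂ[X]`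
  let φ : ℤ[X] →+* ℂ[X] := mapRingHom (Int.castRingHom ℂ)
  let f : (ℤ[X])[X] := (cyclotomic n ℤ).map (C : ℤ →+* ℤ[X])
  let g : (ℤ[X])[X] := C (X : ℤ[X]) - F.map (C : ℤ →+* ℤ[X])
  have hfmap : f.map φ = (cyclotomic n ℂ).map (C : ℂ →+* ℂ[X]) := by
    show ((cyclotomic n ℤ).map (C : ℤ →+* ℤ[X])).map φ = _
    rw [Polynomial.map_map, ← map_cyclotomic_int n ℂ, Polynomial.map_map]
    congr 1
    ext z
    simp [φ]
  have hgmap : g.map φ = C (X : ℂ[X]) - F.map ((C : ℂ →+* ℂ[X]).comp (Int.castRingHom ℂ)) := by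
    show (C (X : ℤ[X]) - F.map (C : ℤ →+* ℤ[X])).map φ = _
    rw [Polynomial.map_sub, Polynomial.map_C, Polynomial.map_map]
    congr 2
    · simp [φ]
    · ext z
      simp [φ]
  have hsplit0 : (cyclotomic n ℂ).Splits := IsAlgClosed.splits _
  have hsplit : (f.map φ).Splits := by
    rw [hfmap]; exact hsplit0.map _
  haveI : NeZero ((n : ℕ) : ℂ) := ⟨by exact_mod_cast hn.ne'⟩
  have hroots0 : (cyclotomic n ℂ).roots = (primitiveRoots n ℂ).val :=
    cyclotomic.roots_eq_primitiveRoots_val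
  have hroots : (f.map φ).roots = (primitiveRoots n ℂ).val.map (C : ℂ →+* ℂ[X]) := by
    rw [hfmap, hsplit0.roots_map_of_injective C_injective, hroots0]
  have hmonic : (f.map φ).leadingCoeff = 1 := by
    rw [hfmap]
    exact ((cyclotomic.monic n ℂ).map _).leadingCoeff
  have hdeg : (g.map φ).natDegree ≤ F.natDegree := by
    rw [hgmap]
    refine (natDegree_sub_le _ _).trans ?_
    rw [natDegree_C]
    exact max_le (Nat.zero_le _) natDegree_map_le
  have hres := resultant_eq_prod_eval (f.map φ) (g.map φ) F.natDegree hdeg hsplit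
  rw [hmonic, one_pow, one_mul, hroots, resultant_map_map, Multiset.map_map] at hres
  have hev : ∀ ω ∈ (primitiveRoots n ℂ).val,
      ((fun x => eval x (g.map φ)) ∘ (C : ℂ →+* ℂ[X])) ω = X - C c := by
    intro ω hω
    have hω' : ω ∈ primitiveRoots n ℂ := hω
    simp only [Function.comp_apply]
    rw [hgmap, eval_sub, eval_C, eval_map, ← hom_eval₂]
    congr 1
    rw [← h ω hω', aeval_def]
    rfl
  rw [Multiset.map_congr rfl hev, Multiset.map_const', Multiset.prod_replicate] at hres
  set N := (primitiveRoots n ℂ).val.card with hN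
  have hNpos : 0 < N := by
    have hζ : IsPrimitiveRoot (Complex.exp (2 * Real.pi * Complex.I / n)) n :=
      Complex.isPrimitiveRoot_exp n hn.ne'
    have : N = Nat.totient n := hζ.card_primitiveRoots
    rw [this]
    exact Nat.totient_pos.mpr hn
  have hcoeff := congrArg (fun P : ℂ[X] => P.coeff (N - 1)) hres
  beta_reduce at hcoeff
  have e1 : ((X - C c : ℂ[X]) ^ N).coeff (N - 1) = -c * (N : ℂ) := by
    rw [sub_eq_add_neg, ← C_neg, coeff_X_add_C_pow]
    have h1 : N - (N - 1) = 1 := by omega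
    have h2 : N.choose (N - 1) = N := by
      rw [Nat.choose_symm (by omega), Nat.choose_one_right]
    rw [h1, pow_one, h2]
  have e2 : ∃ z : ℤ, (φ (f.resultant g (f.map φ).natDegree F.natDegree)).coeff (N - 1) = (z : ℂ) := by
    refine ⟨(f.resultant g (f.map φ).natDegree F.natDegree).coeff (N - 1), ?_⟩
    simp [φ]
  obtain ⟨z, hz⟩ := e2
  rw [hz, e1] at hcoeff
  refine ⟨-(z : ℚ) / (N : ℚ), ?_⟩
  have hNC : (N : ℂ) ≠ 0 := by exact_mod_cast hNpos.ne'
  push_cast
  field_simp
  linear_combination hcoeff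

end Cfsg.Agent.Helper2.GalAM
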