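import Mathlib
import Cfsg.Agent.Lead.CharCore
import Cfsg.Agent.Lead.CharCore2
import Cfsg.Agent.Lead.CharCore5
import Cfsg.Agent.Lead.IndFun

/-! Complex representations of a finite group with equal characters are equivalent. -/

set_option autoImplicit false

namespace Cfsg.Agent.Helper2.RepEq

open Cfsg Cfsg.Agent.Lead

universe u v w

/-- `ρ` is a direct summand of `σ` -/
def Summand {G : Type u} [Group G] {V : Type v} {W : Type w} [AddCommGroup V] [Module ℂ V]
    [AddCommGroup W] [Module ℂ W] (ρ : Representation ℂ G V) (σ : Representation ℂ G W) : Prop :=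
  ∃ (i : V →ₗ[ℂ] W) (p : W →ₗ[ℂ] V), (∀ g v, i (ρ g v) = σ g (i v)) ∧
    (∀ g w, p (σ g w) = ρ g (p w)) ∧ ∀ v, p (i v) = v

theorem toRep_coe {G : Type u} [Group G] {W : Type w} [AddCommGroup W] [Module ℂ W]
    {σ : Representation ℂ G W} (S : Subrepresentation σ) (g : G) (s : S.toSubmodule) :
    ((S.toRepresentation g s : S.toSubmodule) : W) = σ g (s : W) := rfl

theorem proj_equiv {G : Type u} [Group G] {W : Type w} [AddCommGroup W] [Module ℂ W]
    {σ : Representation ℂ G W} (S S' : Subrepresentation σ)
    (h : IsCompl S.toSubmodule S'.toSubmodule) (g : G) (x : W) :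
    Submodule.projectionOnto S.toSubmodule S'.toSubmodule h (σ g x)
      = S.toRepresentation g (Submodule.projectionOnto S.toSubmodule S'.toSubmodule h x) := by
  have h1 : x - ((Submodule.projectionOnto S.toSubmodule S'.toSubmodule h x
      : S.toSubmodule) : W) ∈ LinearMap.ker
        (Submodule.projectionOnto S.toSubmodule S'.toSubmodule h) := by
    rw [LinearMap.mem_ker, map_sub, Submodule.projectionOnto_apply_left, sub_self]
  rw [Submodule.ker_projectionOnto] at h1
  have h2 : σ g x = σ g ((Submodule.projectionOnto S.toSubmodule S'.toSubmodule h x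
      : S.toSubmodule) : W) + σ g (x - ((Submodule.projectionOnto S.toSubmodule
        S'.toSubmodule h x : S.toSubmodule) : W)) := by
    rw [← map_add]
    congr 1
    abel
  have h3 : Submodule.projectionOnto S.toSubmodule S'.toSubmodule h
      (σ g ((Submodule.projectionOnto S.toSubmodule S'.toSubmodule h x
        : S.toSubmodule) : W))
      = S.toRepresentation g (Submodule.projectionOnto S.toSubmodule S'.toSubmodule h x) := by
    rw [← toRep_coe S g, Submodule.projectionOnto_apply_left]
  have h4 : Submodule.projectionOnto S.toSubmodule S'.toSubmodule h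
      (σ g (x - ((Submodule.projectionOnto S.toSubmodule S'.toSubmodule h x
        : S.toSubmodule) : W))) = 0 := by
    rw [← LinearMap.mem_ker, Submodule.ker_projectionOnto]
    exact S'.apply_mem_toSubmodule g h1
  rw [h2, map_add, h3, h4, add_zero]

theorem isCompl_range_ker {V : Type v} {W : Type w} [AddCommGroup V] [Module ℂ V]
    [AddCommGroup W] [Module ℂ W] (i : V →ₗ[ℂ] W) (p : W →ₗ[ℂ] V) (hpi : ∀ v, p (i v) = v) :
    IsCompl (LinearMap.range i) (LinearMap.ker p) := by
  constructor
  · rw [Submodule.disjoint_def]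
    rintro x ⟨v, rfl⟩ hx
    rw [LinearMap.mem_ker, hpi] at hx
    rw [hx, map_zero]
  · rw [codisjoint_iff, eq_top_iff]
    intro x _
    rw [Submodule.mem_sup]
    refine ⟨i (p x), ⟨p x, rfl⟩, x - i (p x), ?_, by abel⟩
    rw [LinearMap.mem_ker, map_sub, hpi, sub_self]

/-- an irreducible representation occurring in the character of `σ` is a summand of `σ` -/
theorem summand_of_irr {G : Type u} [Group G] [Fintype G] {U : Type v} [AddCommGroup U]
    [Module ℂ U] [FiniteDimensional ℂ U] (τ : Representation ℂ G U) (hτ : τ.IsIrreducible) :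
    ∀ (W : Type w) [AddCommGroup W] [Module ℂ W] [FiniteDimensional ℂ W]
      (σ : Representation ℂ G W), Cfsg.classInner σ.character τ.character ≠ 0 → Summand τ σ := by
  refine rep_induction (G := G) (fun (W : Type w) [AddCommGroup W] [Module ℂ W]
    [FiniteDimensional ℂ W] (σ : Representation ℂ G W) =>
      Cfsg.classInner σ.character τ.character ≠ 0 → Summand τ σ) ?_ ?_ ?_
  · intro W _ _ _ σ hs hne
    exfalso
    apply hne
    rw [character_eq_zero_of_subsingleton σ hs, classInner_zero_left]
  · intro W _ _ _ σ hσ hne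
    haveI := hτ
    haveI := hσ
    have hG : (Nat.card G : ℂ) ≠ 0 := natCard_ne_zero_complex G
    haveI : Invertible (Nat.card G : ℂ) := invertibleOfNonzero hG
    have h1 := Representation.char_orthonormal σ τ
    have h2 : Cfsg.classInner σ.character τ.character
        = (Nat.card G : ℂ)⁻¹ * ∑ g : G, σ.character g * τ.character g⁻¹ := by
      unfold Cfsg.classInner
      congr 1
      refine Finset.sum_congr rfl (fun g _ => ?_)
      rw [character_inv τ g]
    rw [h2, h1] at hne
    by_cases hN : Nonempty (Representation.Equiv τ σ)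
    · obtain ⟨φ⟩ := hN
      refine ⟨φ.toIntertwiningMap.toLinearMap, φ.symm.toIntertwiningMap.toLinearMap, ?_, ?_, ?_⟩
      · intro g v
        exact LinearMap.congr_fun (φ.toIntertwiningMap.isIntertwining' g) v
      · intro g x
        exact LinearMap.congr_fun (φ.symm.toIntertwiningMap.isIntertwining' g) x
      · intro v
        exact φ.toLinearEquiv.symm_apply_apply v
    · rw [if_neg hN] at hne
      simp at hne
  · intro W _ _ _ σ S S' hc hS hS' hne
    rw [character_add_of_isCompl σ S S' hc, classInner_add_left] at hne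
    by_cases h1 : Cfsg.classInner S.toRepresentation.character τ.character ≠ 0
    · obtain ⟨i₀, p₀, hi₀, hp₀, hpi₀⟩ := hS h1
      refine ⟨S.toSubmodule.subtype ∘ₗ i₀,
        p₀ ∘ₗ Submodule.projectionOnto S.toSubmodule S'.toSubmodule hc, ?_, ?_, ?_⟩
      · intro g x
        simp only [LinearMap.comp_apply, Submodule.subtype_apply]
        rw [hi₀ g x, toRep_coe]
      · intro g x
        simp only [LinearMap.comp_apply]
        rw [proj_equiv S S' hc g x, hp₀]
      · intro x
        simp only [LinearMap.comp_apply, Submodule.subtype_apply]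
        rw [Submodule.projectionOnto_apply_left, hpi₀]
    · rw [not_not] at h1
      rw [h1, zero_add] at hne
      obtain ⟨i₀, p₀, hi₀, hp₀, hpi₀⟩ := hS' hne
      refine ⟨S'.toSubmodule.subtype ∘ₗ i₀,
        p₀ ∘ₗ Submodule.projectionOnto S'.toSubmodule S.toSubmodule hc.symm, ?_, ?_, ?_⟩
      · intro g x
        simp only [LinearMap.comp_apply, Submodule.subtype_apply]
        rw [hi₀ g x, toRep_coe]
      · intro g x
        simp only [LinearMap.comp_apply]
        rw [proj_equiv S' S hc.symm g x, hp₀]
      · intro x
        simp only [LinearMap.comp_apply, Submodule.subtype_apply]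
        rw [Submodule.projectionOnto_apply_left, hpi₀]

/-- a representation whose character is dominated by that of `σ` is a summand of `σ` -/
theorem summand_of_le {G : Type u} [Group G] [Fintype G] :
    ∀ (V : Type v) [AddCommGroup V] [Module ℂ V] [FiniteDimensional ℂ V]
      (ρ : Representation ℂ G V),
    ∀ (W : Type w) [AddCommGroup W] [Module ℂ W] [FiniteDimensional ℂ W]
      (σ : Representation ℂ G W),
      (∃ θ : G → ℂ, Cfsg.IsCharacter G θ ∧ σ.character = ρ.character + θ) → Summand ρ σ := by
  refine rep_induction (G := G) (fun (V : Type v) [AddCommGroup V] [Module ℂ V]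
    [FiniteDimensional ℂ V] (ρ : Representation ℂ G V) =>
      ∀ (W : Type w) [AddCommGroup W] [Module ℂ W] [FiniteDimensional ℂ W]
        (σ : Representation ℂ G W),
        (∃ θ : G → ℂ, Cfsg.IsCharacter G θ ∧ σ.character = ρ.character + θ) → Summand ρ σ)
    ?_ ?_ ?_
  · intro V _ _ _ ρ hs W _ _ _ σ _
    refine ⟨0, 0, ?_, ?_, ?_⟩
    · intro g x
      simp
    · intro g x
      simp
    · intro x
      exact Subsingleton.elim _ _
  · intro V _ _ _ ρ hρ W _ _ _ σ hθ
    obtain ⟨θ, hθ, hσ⟩ := hθ
    apply summand_of_irr ρ hρ W σ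
    rw [hσ, classInner_add_left, classInner_self_of_isIrrCharacter (isIrrCharacter_of_rep ρ hρ)]
    obtain ⟨k, hk⟩ := classInner_isCharacter_nat hθ (isCharacter_of_rep ρ)
    rw [hk]
    intro h
    have h2 : ((1 + k : ℕ) : ℂ) = 0 := by
      push_cast
      exact h
    exact absurd (Nat.cast_eq_zero.mp h2) (by omega)
  · intro V _ _ _ ρ S S' hc hS hS' W _ _ _ σ hθ
    obtain ⟨θ, hθ, hσ⟩ := hθ
    have hρch := character_add_of_isCompl ρ S S' hc
    obtain ⟨i₁, p₁, hi₁, hp₁, hpi₁⟩ := hS W σ ⟨S'.toRepresentation.character + θ,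
      isCharacter_add (isCharacter_of_rep _) hθ, by rw [hσ, hρch, add_assoc]⟩
    let W₀ : Subrepresentation σ := ⟨LinearMap.range i₁, by
      rintro g _ ⟨s, rfl⟩
      exact ⟨S.toRepresentation g s, hi₁ g s⟩⟩
    let W₁ : Subrepresentation σ := ⟨LinearMap.ker p₁, by
      intro g x hx
      rw [LinearMap.mem_ker] at hx ⊢
      rw [hp₁, hx, map_zero]⟩
    have hcW : IsCompl W₀.toSubmodule W₁.toSubmodule := isCompl_range_ker i₁ p₁ hpi₁
    have hσch := character_add_of_isCompl σ W₀ W₁ hcW
    have hW₀ : W₀.toRepresentation.character = S.toRepresentation.character := by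
      have hinj : Function.Injective i₁ := Function.LeftInverse.injective hpi₁
      have φ : Representation.Equiv S.toRepresentation W₀.toRepresentation :=
        Representation.Equiv.mk (LinearEquiv.ofInjective i₁ hinj) (by
          intro g
          ext s
          exact hi₁ g s)
      exact (Representation.char_iso φ).symm
    have hW₁ : W₁.toRepresentation.character = S'.toRepresentation.character + θ := by
      have h5 : W₀.toRepresentation.character + W₁.toRepresentation.character
          = S.toRepresentation.character + (S'.toRepresentation.character + θ) := by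
        rw [← hσch, hσ, hρch, add_assoc]
      rw [hW₀] at h5
      exact add_left_cancel h5
    obtain ⟨i₂, p₂, hi₂, hp₂, hpi₂⟩ := hS' W₁.toSubmodule W₁.toRepresentation ⟨θ, hθ, hW₁⟩
    obtain ⟨q, hq⟩ : ∃ q : W →ₗ[ℂ] W₁.toSubmodule,
        ∀ x, ((q x : W₁.toSubmodule) : W) = x - i₁ (p₁ x) :=
      ⟨LinearMap.codRestrict (LinearMap.ker p₁) (LinearMap.id - i₁ ∘ₗ p₁) (by
        intro x
        rw [LinearMap.mem_ker, LinearMap.sub_apply, LinearMap.id_apply, LinearMap.comp_apply,
          map_sub, hpi₁, sub_self]), fun x => rfl⟩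
    have hqg : ∀ g x, q (σ g x) = W₁.toRepresentation g (q x) := by
      intro g x
      apply Subtype.ext
      rw [hq, toRep_coe, hq, hp₁, hi₁, map_sub]
    refine ⟨i₁ ∘ₗ Submodule.projectionOnto S.toSubmodule S'.toSubmodule hc
        + (W₁.toSubmodule.subtype ∘ₗ i₂)
          ∘ₗ Submodule.projectionOnto S'.toSubmodule S.toSubmodule hc.symm,
      S.toSubmodule.subtype ∘ₗ p₁ + (S'.toSubmodule.subtype ∘ₗ p₂) ∘ₗ q, ?_, ?_, ?_⟩
    · intro g x
      simp only [LinearMap.add_apply, LinearMap.comp_apply, Submodule.subtype_apply]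
      rw [proj_equiv S S' hc g x, proj_equiv S' S hc.symm g x, hi₁, hi₂, toRep_coe, map_add]
    · intro g x
      simp only [LinearMap.add_apply, LinearMap.comp_apply, Submodule.subtype_apply]
      rw [hp₁, hqg, hp₂, toRep_coe, toRep_coe, map_add]
    · intro x
      simp only [LinearMap.add_apply, LinearMap.comp_apply, Submodule.subtype_apply]
      have hker : p₁ ((i₂ (Submodule.projectionOnto S'.toSubmodule S.toSubmodule hc.symm x)
          : W₁.toSubmodule) : W) = 0 :=
        LinearMap.mem_ker.mp
          (i₂ (Submodule.projectionOnto S'.toSubmodule S.toSubmodule hc.symm x)).2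
      have ha : p₁ (i₁ (Submodule.projectionOnto S.toSubmodule S'.toSubmodule hc x)
          + ((i₂ (Submodule.projectionOnto S'.toSubmodule S.toSubmodule hc.symm x)
            : W₁.toSubmodule) : W))
          = Submodule.projectionOnto S.toSubmodule S'.toSubmodule hc x := by
        rw [map_add, hpi₁, hker, add_zero]
      have hb : q (i₁ (Submodule.projectionOnto S.toSubmodule S'.toSubmodule hc x)
          + ((i₂ (Submodule.projectionOnto S'.toSubmodule S.toSubmodule hc.symm x)
            : W₁.toSubmodule) : W))
          = i₂ (Submodule.projectionOnto S'.toSubmodule S.toSubmodule hc.symm x) := by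
        apply Subtype.ext
        rw [hq, ha]
        abel
      rw [ha, hb, hpi₂]
      rw [Submodule.coe_projectionOnto_apply, Submodule.coe_projectionOnto_apply]
      exact Submodule.projection_add_projection_eq_self hc x

theorem equiv_of_char_eq {G : Type u} [Group G] [Finite G] {V : Type v} {W : Type w}
    [AddCommGroup V] [Module ℂ V] [FiniteDimensional ℂ V] [AddCommGroup W] [Module ℂ W]
    [FiniteDimensional ℂ W] (ρ : Representation ℂ G V) (σ : Representation ℂ G W)
    (h : ρ.character = σ.character) : Nonempty (ρ.Equiv σ) := by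
  haveI : Fintype G := Fintype.ofFinite G
  obtain ⟨i, p, hi, hp, hpi⟩ := summand_of_le V ρ W σ ⟨0, isCharacter_zero, by rw [h, add_zero]⟩
  have hinj : Function.Injective i := Function.LeftInverse.injective hpi
  have hdim : Module.finrank ℂ V = Module.finrank ℂ W := by
    have h1 := congrFun h 1
    rw [Representation.char_one, Representation.char_one] at h1
    exact_mod_cast h1
  exact ⟨Representation.Equiv.mk (i.linearEquivOfInjective hinj hdim) (by
    intro g
    ext x
    simp only [LinearMap.comp_apply, LinearEquiv.coe_coe, LinearMap.linearEquivOfInjective_apply]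
    exact hi g x)⟩

end Cfsg.Agent.Helper2.RepEq
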