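import Mathlib
import Cfsg.Agent.Lead.CharCore
import Cfsg.Agent.Lead.CharCore2
import Cfsg.Agent.Lead.CharCore3
import Cfsg.Agent.Lead.CharCore5
import Cfsg.Agent.Lead.CharCore6
import Cfsg.Agent.Lead.PermChar
import Cfsg.Agent.Helper2.RepEq
import Cfsg.Prelude.Def_Perm

/-! Multiplicity-free representations and commutativity of the commutant. -/

set_option autoImplicit false

namespace Cfsg.Agent.Helper2.MultFree

open Cfsg Cfsg.Agent.Lead

universe u v w

/-- an injective equivariant map exhibits the source character as a summand -/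
theorem char_of_injective {G : Type u} [Group G] [Fintype G] {U₁ : Type v} {U₂ : Type w}
    [AddCommGroup U₁] [Module ℂ U₁] [FiniteDimensional ℂ U₁]
    [AddCommGroup U₂] [Module ℂ U₂] [FiniteDimensional ℂ U₂]
    (ρ₁ : Representation ℂ G U₁) (ρ₂ : Representation ℂ G U₂) (L : U₁ →ₗ[ℂ] U₂)
    (hL : ∀ g x, L (ρ₁ g x) = ρ₂ g (L x)) (hinj : Function.Injective L) :
    ∃ θ : G → ℂ, Cfsg.IsCharacter G θ ∧ ρ₂.character = ρ₁.character + θ := by
  let R : Subrepresentation ρ₂ := ⟨LinearMap.range L, by
    rintro g v ⟨x, rfl⟩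
    exact ⟨ρ₁ g x, hL g x⟩⟩
  have : NeZero (Nat.card G : ℂ) := ⟨by exact_mod_cast Nat.card_pos.ne'⟩
  obtain ⟨R', hR'⟩ := exists_isCompl R
  have hc : IsCompl R.toSubmodule R'.toSubmodule := by
    refine IsCompl.of_eq ?_ ?_
    · exact congrArg Subrepresentation.toSubmodule hR'.inf_eq_bot
    · exact congrArg Subrepresentation.toSubmodule hR'.sup_eq_top
  refine ⟨R'.toRepresentation.character, isCharacter_of_rep _, ?_⟩
  rw [character_add_of_isCompl ρ₂ R R' hc]
  congr 1
  funext g
  let e : U₁ ≃ₗ[ℂ] LinearMap.range L := LinearEquiv.ofInjective L hinj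
  have h1 : R.toRepresentation g = e.conj (ρ₁ g) := by
    apply LinearMap.ext
    intro y
    obtain ⟨x, hx⟩ : ∃ x, e x = y := e.surjective y
    subst hx
    apply Subtype.ext
    rw [LinearEquiv.conj_apply_apply, LinearEquiv.symm_apply_apply]
    show ρ₂ g (L x) = L (ρ₁ g x)
    exact (hL g x).symm
  show LinearMap.trace ℂ _ (R.toRepresentation g) = LinearMap.trace ℂ _ (ρ₁ g)
  rw [h1, LinearMap.trace_conj']

/-- representations without common constituents have no nonzero equivariant maps -/
theorem hom_zero {G : Type u} [Group G] [Fintype G] {U₂ : Type w}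
    [AddCommGroup U₂] [Module ℂ U₂] [FiniteDimensional ℂ U₂] (ρ₂ : Representation ℂ G U₂) :
    ∀ (U₁ : Type v) [AddCommGroup U₁] [Module ℂ U₁] [FiniteDimensional ℂ U₁]
      (ρ₁ : Representation ℂ G U₁),
      (∀ χ : G → ℂ, Cfsg.IsIrrCharacter G χ →
        Cfsg.classInner ρ₁.character χ = 0 ∨ Cfsg.classInner ρ₂.character χ = 0) →
      ∀ L : U₁ →ₗ[ℂ] U₂, (∀ g x, L (ρ₁ g x) = ρ₂ g (L x)) → L = 0 := by
  refine rep_induction (G := G) (fun (U₁ : Type v) [AddCommGroup U₁] [Module ℂ U₁]
    [FiniteDimensional ℂ U₁] (ρ₁ : Representation ℂ G U₁) =>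
      (∀ χ : G → ℂ, Cfsg.IsIrrCharacter G χ →
        Cfsg.classInner ρ₁.character χ = 0 ∨ Cfsg.classInner ρ₂.character χ = 0) →
      ∀ L : U₁ →ₗ[ℂ] U₂, (∀ g x, L (ρ₁ g x) = ρ₂ g (L x)) → L = 0) ?_ ?_ ?_
  · intro U₁ _ _ _ ρ₁ hs _ L _
    apply LinearMap.ext
    intro x
    rw [Subsingleton.elim x 0, map_zero, LinearMap.zero_apply]
  · intro U₁ _ _ _ ρ₁ hi h L hL
    have hirr := (isIrreducible_iff ρ₁).mp hi
    rcases hirr.2 (LinearMap.ker L) (by
      intro g v hv
      rw [LinearMap.mem_ker] at hv ⊢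
      rw [hL, hv, map_zero]) with hk | hk
    · exfalso
      have hinj : Function.Injective L := LinearMap.ker_eq_bot.mp hk
      obtain ⟨θ, hθ, hchar⟩ := char_of_injective ρ₁ ρ₂ L hL hinj
      have hχ := isIrrCharacter_of_rep ρ₁ hi
      have h11 := classInner_self_of_isIrrCharacter hχ
      obtain ⟨k, hk'⟩ := classInner_isCharacter_nat hθ (isCharacter_of_rep ρ₁)
      rcases h _ hχ with h0 | h0
      · rw [h11] at h0
        exact one_ne_zero h0
      · rw [hchar, classInner_add_left, h11, hk'] at h0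
        have : (1 + k : ℕ) = 0 := by exact_mod_cast h0
        omega
    · apply LinearMap.ext
      intro x
      have : x ∈ LinearMap.ker L := by rw [hk]; exact Submodule.mem_top
      rw [LinearMap.mem_ker.mp this, LinearMap.zero_apply]
  · intro U₁ _ _ _ ρ₁ S S' hc ih ih' h L hL
    have hchar := character_add_of_isCompl ρ₁ S S' hc
    have key : ∀ χ : G → ℂ, Cfsg.IsIrrCharacter G χ → Cfsg.classInner ρ₁.character χ = 0 →
        Cfsg.classInner S.toRepresentation.character χ = 0 ∧
          Cfsg.classInner S'.toRepresentation.character χ = 0 := by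
      intro χ hχ h0
      obtain ⟨a, ha⟩ := classInner_isCharacter_nat (isCharacter_of_rep S.toRepresentation)
        (isCharacter_of_isIrrCharacter hχ)
      obtain ⟨b, hb⟩ := classInner_isCharacter_nat (isCharacter_of_rep S'.toRepresentation)
        (isCharacter_of_isIrrCharacter hχ)
      rw [hchar, classInner_add_left, ha, hb] at h0
      have hab : a + b = 0 := by exact_mod_cast h0
      rw [ha, hb]
      have ha0 : a = 0 := by omega
      have hb0 : b = 0 := by omega
      rw [ha0, hb0]
      exact ⟨Nat.cast_zero, Nat.cast_zero⟩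
    have h1 : L ∘ₗ S.toSubmodule.subtype = 0 := ih (fun χ hχ => by
        rcases h χ hχ with h0 | h0
        · exact Or.inl (key χ hχ h0).1
        · exact Or.inr h0) _ (fun g x => by
        simp only [LinearMap.comp_apply, Submodule.subtype_apply]
        rw [RepEq.toRep_coe, hL])
    have h2 : L ∘ₗ S'.toSubmodule.subtype = 0 := ih' (fun χ hχ => by
        rcases h χ hχ with h0 | h0
        · exact Or.inl (key χ hχ h0).2
        · exact Or.inr h0) _ (fun g x => by
        simp only [LinearMap.comp_apply, Submodule.subtype_apply]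
        rw [RepEq.toRep_coe, hL])
    apply LinearMap.ext
    intro x
    have hx : x ∈ S.toSubmodule ⊔ S'.toSubmodule := by rw [hc.sup_eq_top]; exact Submodule.mem_top
    obtain ⟨y, hy, z, hz, rfl⟩ := Submodule.mem_sup.mp hx
    have e1 := LinearMap.congr_fun h1 ⟨y, hy⟩
    have e2 := LinearMap.congr_fun h2 ⟨z, hz⟩
    simp only [LinearMap.comp_apply, Submodule.subtype_apply, LinearMap.zero_apply] at e1 e2
    rw [map_add, e1, e2, add_zero, LinearMap.zero_apply]

/-- a multiplicity-free representation has commutative commutant -/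
theorem comm_of_multfree {G : Type u} [Group G] [Fintype G] :
    ∀ (V : Type v) [AddCommGroup V] [Module ℂ V] [FiniteDimensional ℂ V]
      (ρ : Representation ℂ G V),
      (∀ χ : G → ℂ, Cfsg.IsIrrCharacter G χ →
        Cfsg.classInner ρ.character χ = 0 ∨ Cfsg.classInner ρ.character χ = 1) →
      ∀ A B : V →ₗ[ℂ] V, (∀ g x, A (ρ g x) = ρ g (A x)) → (∀ g x, B (ρ g x) = ρ g (B x)) →
        A ∘ₗ B = B ∘ₗ A := by
  refine rep_induction (G := G) (fun (V : Type v) [AddCommGroup V] [Module ℂ V]
    [FiniteDimensional ℂ V] (ρ : Representation ℂ G V) =>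
      (∀ χ : G → ℂ, Cfsg.IsIrrCharacter G χ →
        Cfsg.classInner ρ.character χ = 0 ∨ Cfsg.classInner ρ.character χ = 1) →
      ∀ A B : V →ₗ[ℂ] V, (∀ g x, A (ρ g x) = ρ g (A x)) → (∀ g x, B (ρ g x) = ρ g (B x)) →
        A ∘ₗ B = B ∘ₗ A) ?_ ?_ ?_
  · intro V _ _ _ ρ hs _ A B _ _
    apply LinearMap.ext
    intro x
    exact Subsingleton.elim _ _
  · intro V _ _ _ ρ hi _ A B hA hB
    obtain ⟨a, rfl⟩ := schur_scalar ρ hi A (fun g => LinearMap.ext (fun x => hA g x))
    obtain ⟨b, rfl⟩ := schur_scalar ρ hi B (fun g => LinearMap.ext (fun x => hB g x))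
    apply LinearMap.ext
    intro x
    simp only [LinearMap.comp_apply, LinearMap.smul_apply, LinearMap.id_apply]
    rw [smul_comm]
  · intro V _ _ _ ρ S S' hc ih ih' h A B hA hB
    have hchar := character_add_of_isCompl ρ S S' hc
    have key : ∀ χ : G → ℂ, Cfsg.IsIrrCharacter G χ →
        (Cfsg.classInner S.toRepresentation.character χ = 0 ∨
          Cfsg.classInner S.toRepresentation.character χ = 1) ∧
        (Cfsg.classInner S'.toRepresentation.character χ = 0 ∨
          Cfsg.classInner S'.toRepresentation.character χ = 1) ∧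
        (Cfsg.classInner S.toRepresentation.character χ = 0 ∨
          Cfsg.classInner S'.toRepresentation.character χ = 0) := by
      intro χ hχ
      obtain ⟨a, ha⟩ := classInner_isCharacter_nat (isCharacter_of_rep S.toRepresentation)
        (isCharacter_of_isIrrCharacter hχ)
      obtain ⟨b, hb⟩ := classInner_isCharacter_nat (isCharacter_of_rep S'.toRepresentation)
        (isCharacter_of_isIrrCharacter hχ)
      have h0 := h χ hχ
      rw [hchar, classInner_add_left, ha, hb] at h0
      have hab : a + b = 0 ∨ a + b = 1 := by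
        rcases h0 with h0 | h0
        · left; exact_mod_cast h0
        · right; exact_mod_cast h0
      rw [ha, hb]
      have h3 : (a = 0 ∨ a = 1) ∧ (b = 0 ∨ b = 1) ∧ (a = 0 ∨ b = 0) := by omega
      obtain ⟨h1, h2, h3⟩ := h3
      refine ⟨?_, ?_, ?_⟩
      · rcases h1 with h1 | h1
        · left; rw [h1]; exact Nat.cast_zero
        · right; rw [h1]; exact Nat.cast_one
      · rcases h2 with h2 | h2
        · left; rw [h2]; exact Nat.cast_zero
        · right; rw [h2]; exact Nat.cast_one
      · rcases h3 with h3 | h3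
        · left; rw [h3]; exact Nat.cast_zero
        · right; rw [h3]; exact Nat.cast_zero
    have inv : ∀ A : V →ₗ[ℂ] V, (∀ g x, A (ρ g x) = ρ g (A x)) →
        (∀ x ∈ S.toSubmodule, A x ∈ S.toSubmodule) ∧
          (∀ x ∈ S'.toSubmodule, A x ∈ S'.toSubmodule) := by
      intro A hA
      constructor
      · intro x hx
        have hz : (Submodule.projectionOnto S'.toSubmodule S.toSubmodule hc.symm) ∘ₗ A ∘ₗ
            S.toSubmodule.subtype = 0 :=
          hom_zero S'.toRepresentation S.toSubmodule S.toRepresentation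
            (fun χ hχ => (key χ hχ).2.2) _ (fun g y => by
              simp only [LinearMap.comp_apply, Submodule.subtype_apply]
              rw [RepEq.toRep_coe, hA, RepEq.proj_equiv S' S hc.symm])
        have hz' := LinearMap.congr_fun hz ⟨x, hx⟩
        simp only [LinearMap.comp_apply, Submodule.subtype_apply, LinearMap.zero_apply] at hz'
        have hmem : A x ∈ LinearMap.ker
            (Submodule.projectionOnto S'.toSubmodule S.toSubmodule hc.symm) := hz'
        rw [Submodule.ker_projectionOnto] at hmem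
        exact hmem
      · intro x hx
        have hz : (Submodule.projectionOnto S.toSubmodule S'.toSubmodule hc) ∘ₗ A ∘ₗ
            S'.toSubmodule.subtype = 0 :=
          hom_zero S.toRepresentation S'.toSubmodule S'.toRepresentation
            (fun χ hχ => (key χ hχ).2.2.symm) _ (fun g y => by
              simp only [LinearMap.comp_apply, Submodule.subtype_apply]
              rw [RepEq.toRep_coe, hA, RepEq.proj_equiv S S' hc])
        have hz' := LinearMap.congr_fun hz ⟨x, hx⟩
        simp only [LinearMap.comp_apply, Submodule.subtype_apply, LinearMap.zero_apply] at hz'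
        have hmem : A x ∈ LinearMap.ker
            (Submodule.projectionOnto S.toSubmodule S'.toSubmodule hc) := hz'
        rw [Submodule.ker_projectionOnto] at hmem
        exact hmem
    obtain ⟨hA1, hA2⟩ := inv A hA
    obtain ⟨hB1, hB2⟩ := inv B hB
    have c1 := ih (fun χ hχ => (key χ hχ).1) (A.restrict hA1) (B.restrict hB1)
      (fun g x => Subtype.ext (hA g x)) (fun g x => Subtype.ext (hB g x))
    have c2 := ih' (fun χ hχ => (key χ hχ).2.1) (A.restrict hA2) (B.restrict hB2)
      (fun g x => Subtype.ext (hA g x)) (fun g x => Subtype.ext (hB g x))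
    apply LinearMap.ext
    intro x
    have hx : x ∈ S.toSubmodule ⊔ S'.toSubmodule := by rw [hc.sup_eq_top]; exact Submodule.mem_top
    obtain ⟨y, hy, z, hz, rfl⟩ := Submodule.mem_sup.mp hx
    have e1 : A (B y) = B (A y) := congrArg Subtype.val (LinearMap.congr_fun c1 ⟨y, hy⟩)
    have e2 : A (B z) = B (A z) := congrArg Subtype.val (LinearMap.congr_fun c2 ⟨z, hz⟩)
    rw [LinearMap.comp_apply, LinearMap.comp_apply, map_add, map_add, map_add, map_add, e1, e2]

/-- a repeated constituent yields non-commuting equivariant endomorphisms -/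
theorem not_comm_of_mult {G : Type u} [Group G] [Fintype G] {W : Type w} [AddCommGroup W]
    [Module ℂ W] [FiniteDimensional ℂ W] (σ : Representation ℂ G W) (χ : G → ℂ)
    (hχ : Cfsg.IsIrrCharacter G χ)
    (h : Cfsg.classInner σ.character χ ≠ 0) (h' : Cfsg.classInner σ.character χ ≠ 1) :
    ∃ A B : W →ₗ[ℂ] W, (∀ g x, A (σ g x) = σ g (A x)) ∧ (∀ g x, B (σ g x) = σ g (B x)) ∧
      A ∘ₗ B ≠ B ∘ₗ A := by
  classical
  obtain ⟨n, τ, hτ, hτχ⟩ := hχ
  obtain ⟨m, hm⟩ := exists_multiset_irr_of_rep σ
  let φ : Cfsg.IrrCharacter G := ⟨χ, ⟨n, τ, hτ, hτχ⟩⟩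
  have hcount : Cfsg.classInner σ.character χ = (m.count φ : ℂ) := by
    rw [hm]; exact classInner_multiset_irr m φ
  have h2 : 2 ≤ m.count φ := by
    rw [hcount] at h h'
    have h0 : m.count φ ≠ 0 := fun e => h (by rw [e]; exact Nat.cast_zero)
    have h1 : m.count φ ≠ 1 := fun e => h' (by rw [e]; exact Nat.cast_one)
    omega
  have hmem : φ ∈ m := Multiset.count_pos.mp (by omega)
  obtain ⟨m₁, rfl⟩ := Multiset.exists_cons_of_mem hmem
  rw [Multiset.count_cons_self] at h2
  have hmem₁ : φ ∈ m₁ := Multiset.count_pos.mp (by omega)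
  obtain ⟨m₂, rfl⟩ := Multiset.exists_cons_of_mem hmem₁
  let ρ₂ : Representation ℂ G ((Fin n → ℂ) × (Fin n → ℂ)) := Representation.prod τ τ
  have hρ₂ : ρ₂.character = τ.character + τ.character := by
    funext g
    show LinearMap.trace ℂ _ ((τ g).prodMap (τ g)) = _
    rw [LinearMap.trace_prodMap']
    rfl
  have hsum : ∃ θ : G → ℂ, Cfsg.IsCharacter G θ ∧ σ.character = ρ₂.character + θ := by
    refine ⟨_, isCharacter_multiset_sum m₂, ?_⟩
    rw [hm, hρ₂, Multiset.map_cons, Multiset.sum_cons, Multiset.map_cons, Multiset.sum_cons, hτχ]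
    show χ + (χ + _) = χ + χ + _
    rw [add_assoc]
  obtain ⟨i, p, hi, hp, hpi⟩ := RepEq.summand_of_le _ ρ₂ W σ hsum
  have hρfst : ∀ g (y : (Fin n → ℂ) × (Fin n → ℂ)),
      ρ₂ g (y.1, 0) = ((ρ₂ g y).1, 0) := by
    intro g y
    show ((τ g).prodMap (τ g)) (y.1, 0) = ((((τ g).prodMap (τ g)) y).1, 0)
    rw [LinearMap.prodMap_apply, LinearMap.prodMap_apply, map_zero]
  have hρsnd : ∀ g (y : (Fin n → ℂ) × (Fin n → ℂ)),
      ρ₂ g (y.2, 0) = ((ρ₂ g y).2, 0) := by
    intro g y
    show ((τ g).prodMap (τ g)) (y.2, 0) = ((((τ g).prodMap (τ g)) y).2, 0)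
    rw [LinearMap.prodMap_apply, LinearMap.prodMap_apply, map_zero]
  refine ⟨i ∘ₗ (LinearMap.inl ℂ _ _ ∘ₗ LinearMap.fst ℂ _ _) ∘ₗ p,
    i ∘ₗ (LinearMap.inl ℂ _ _ ∘ₗ LinearMap.snd ℂ _ _) ∘ₗ p, ?_, ?_, ?_⟩
  · intro g x
    simp only [LinearMap.comp_apply, LinearMap.fst_apply, LinearMap.inl_apply]
    rw [hp, ← hi, hρfst]
  · intro g x
    simp only [LinearMap.comp_apply, LinearMap.snd_apply, LinearMap.inl_apply]
    rw [hp, ← hi, hρsnd]
  · intro hAB
    have hnt : Nontrivial (Fin n → ℂ) := ((isIrreducible_iff τ).mp hτ).1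
    obtain ⟨v, hv⟩ := exists_ne (0 : Fin n → ℂ)
    have e := LinearMap.congr_fun hAB (i (0, v))
    simp only [LinearMap.comp_apply, hpi, LinearMap.fst_apply, LinearMap.snd_apply,
      LinearMap.inl_apply] at e
    have hinj : Function.Injective i := Function.LeftInverse.injective hpi
    have e' := hinj e
    exact hv (congrArg Prod.fst e')

theorem permRep_eq (G : Type u) (Ω : Type v) [Group G] [MulAction G Ω] :
    Cfsg.permRep ℂ G Ω = Cfsg.Agent.Lead.permRep G Ω := by
  refine DFunLike.ext _ _ (fun g => ?_)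
  apply LinearMap.ext
  intro f
  rfl

theorem permRep_char (G : Type u) (Ω : Type v) [Group G] [MulAction G Ω] [Finite Ω] (g : G) :
    (Cfsg.permRep ℂ G Ω).character g = (Nat.card (MulAction.fixedBy Ω g) : ℂ) := by
  rw [permRep_eq]
  exact Cfsg.Agent.Lead.permRep_character G Ω g

end Cfsg.Agent.Helper2.MultFree
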