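import Mathlib
import Cfsg.Agent.Lead.CharCore
import Cfsg.Agent.Lead.CharCore2
import Cfsg.Agent.Lead.CharCore3
import Cfsg.Agent.Lead.CharCore5
import Cfsg.Agent.Helper2.MultFree
import Cfsg.Agent.Helper2.ClsSep

/-! Class-function operators on representations and the commutant of a multiplicity-free
representation. -/

set_option autoImplicit false

namespace Cfsg.Agent.Helper2.GenTrans

open Cfsg Cfsg.Agent.Lead

universe u v w

variable {G : Type u} [Group G] [Fintype G]

/-- the operator `∑ φ(g) σ(g)` -/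
noncomputable def E {W : Type w} [AddCommGroup W] [Module ℂ W] (σ : Representation ℂ G W)
    (φ : G → ℂ) : W →ₗ[ℂ] W := ∑ g : G, φ g • σ g

theorem E_apply {W : Type w} [AddCommGroup W] [Module ℂ W] (σ : Representation ℂ G W)
    (φ : G → ℂ) (x : W) : E σ φ x = ∑ g : G, φ g • σ g x := by
  unfold E
  rw [LinearMap.sum_apply]
  rfl

theorem E_equiv {W : Type w} [AddCommGroup W] [Module ℂ W] (σ : Representation ℂ G W)
    (φ : G → ℂ) (hφ : Cfsg.IsClassFunction G φ) (h : G) (x : W) :
    E σ φ (σ h x) = σ h (E σ φ x) := by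
  have hmul : ∀ a b : G, σ a (σ b x) = σ (a * b) x := fun a b => by rw [map_mul]; rfl
  rw [E_apply, E_apply, map_sum]
  refine Fintype.sum_equiv (MulAut.conj h⁻¹).toEquiv _ _ (fun g => ?_)
  simp only [MulEquiv.toEquiv_eq_coe, EquivLike.coe_coe, MulAut.conj_apply, inv_inv]
  rw [map_smul]
  have h1 : φ (h⁻¹ * g * h) = φ g := by
    have := hφ g h⁻¹
    rwa [inv_inv] at this
  rw [h1, hmul, hmul]
  congr 3
  group

theorem E_trace {W : Type w} [AddCommGroup W] [Module ℂ W]
    (σ : Representation ℂ G W) (φ : G → ℂ) :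
    LinearMap.trace ℂ W (E σ φ) = ∑ g, φ g * σ.character g := by
  unfold E
  rw [map_sum]
  refine Finset.sum_congr rfl (fun g _ => ?_)
  rw [map_smul, smul_eq_mul]
  rfl

theorem E_sub {W : Type w} [AddCommGroup W] [Module ℂ W] (σ : Representation ℂ G W)
    (S : Subrepresentation σ) (φ : G → ℂ) (x : S.toSubmodule) :
    ((E S.toRepresentation φ x : S.toSubmodule) : W) = E σ φ (x : W) := by
  rw [E_apply, E_apply, Submodule.coe_sum]
  refine Finset.sum_congr rfl (fun g _ => ?_)
  rw [Submodule.coe_smul, RepEq.toRep_coe]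

theorem E_irr {W : Type w} [AddCommGroup W] [Module ℂ W] [FiniteDimensional ℂ W]
    (σ : Representation ℂ G W) (hi : σ.IsIrreducible) (φ : G → ℂ)
    (hφ : Cfsg.IsClassFunction G φ) :
    ∃ c : ℂ, E σ φ = c • LinearMap.id ∧ c * σ.character 1 = ∑ g, φ g * σ.character g := by
  obtain ⟨c, hc⟩ := schur_scalar σ hi (E σ φ)
    (fun g => LinearMap.ext (fun x => E_equiv σ φ hφ g x))
  refine ⟨c, hc, ?_⟩
  have h1 : σ.character 1 = LinearMap.trace ℂ W LinearMap.id := by
    show LinearMap.trace ℂ W (σ 1) = _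
    rw [map_one]
    rfl
  rw [← E_trace, hc, map_smul, smul_eq_mul, h1]

theorem conj_cf {χ : G → ℂ} (hχ : Cfsg.IsIrrCharacter G χ) :
    Cfsg.IsClassFunction G (fun g => (starRingEnd ℂ) (χ g)) := by
  have hcf := isCharacter_isClassFunction (isCharacter_of_isIrrCharacter hχ)
  intro g h
  show (starRingEnd ℂ) (χ (h * g * h⁻¹)) = (starRingEnd ℂ) (χ g)
  rw [hcf g h]

theorem sum_of_inner_zero (f χ : G → ℂ) (h0 : Cfsg.classInner f χ = 0) :
    ∑ g, (starRingEnd ℂ) (χ g) * f g = 0 := by
  have hG : (Nat.card G : ℂ) ≠ 0 := by exact_mod_cast Nat.card_pos.ne'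
  unfold Cfsg.classInner at h0
  rcases mul_eq_zero.mp h0 with h | h
  · exact absurd h (inv_ne_zero hG)
  · rw [← h]
    exact Finset.sum_congr rfl (fun g _ => mul_comm _ _)

theorem sum_of_inner_one (f χ : G → ℂ) (h1 : Cfsg.classInner f χ = 1) :
    ∑ g, (starRingEnd ℂ) (χ g) * f g = (Nat.card G : ℂ) := by
  have hG : (Nat.card G : ℂ) ≠ 0 := by exact_mod_cast Nat.card_pos.ne'
  unfold Cfsg.classInner at h1
  rw [inv_mul_eq_iff_eq_mul₀ hG, mul_one] at h1
  rw [← h1]
  exact Finset.sum_congr rfl (fun g _ => mul_comm _ _)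

/-- the operator of a non-constituent vanishes -/
theorem E_zero :
    ∀ (W : Type w) [AddCommGroup W] [Module ℂ W] [FiniteDimensional ℂ W]
      (σ : Representation ℂ G W),
      ∀ χ : G → ℂ, Cfsg.IsIrrCharacter G χ → Cfsg.classInner σ.character χ = 0 →
        E σ (fun g => (starRingEnd ℂ) (χ g)) = 0 := by
  refine rep_induction (G := G) (fun (W : Type w) [AddCommGroup W] [Module ℂ W]
    [FiniteDimensional ℂ W] (σ : Representation ℂ G W) =>
      ∀ χ : G → ℂ, Cfsg.IsIrrCharacter G χ → Cfsg.classInner σ.character χ = 0 →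
        E σ (fun g => (starRingEnd ℂ) (χ g)) = 0) ?_ ?_ ?_
  · intro W _ _ _ σ hs χ _ _
    apply LinearMap.ext
    intro x
    exact Subsingleton.elim _ _
  · intro W _ _ _ σ hi χ hχ h0
    obtain ⟨c, hc, hc2⟩ := E_irr σ hi (fun g => (starRingEnd ℂ) (χ g)) (conj_cf hχ)
    rw [sum_of_inner_zero _ _ h0] at hc2
    have hd : σ.character 1 ≠ 0 :=
      Cfsg.Agent.Helper2.ClsSep.irr_one_ne_zero (isIrrCharacter_of_rep σ hi)
    have hc0 : c = 0 := by
      rcases mul_eq_zero.mp hc2 with h | h
      · exact h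
      · exact absurd h hd
    rw [hc, hc0, zero_smul]
  · intro W _ _ _ σ S S' hc ih ih' χ hχ h0
    have hchar := character_add_of_isCompl σ S S' hc
    obtain ⟨a, ha⟩ := classInner_isCharacter_nat (isCharacter_of_rep S.toRepresentation)
      (isCharacter_of_isIrrCharacter hχ)
    obtain ⟨b, hb⟩ := classInner_isCharacter_nat (isCharacter_of_rep S'.toRepresentation)
      (isCharacter_of_isIrrCharacter hχ)
    rw [hchar, classInner_add_left, ha, hb] at h0
    have hab : a + b = 0 := by exact_mod_cast h0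
    have ha0 : Cfsg.classInner S.toRepresentation.character χ = 0 := by
      rw [ha]
      have : a = 0 := by omega
      rw [this]
      exact Nat.cast_zero
    have hb0 : Cfsg.classInner S'.toRepresentation.character χ = 0 := by
      rw [hb]
      have : b = 0 := by omega
      rw [this]
      exact Nat.cast_zero
    have e1 := ih χ hχ ha0
    have e2 := ih' χ hχ hb0
    apply LinearMap.ext
    intro x
    have hx : x ∈ S.toSubmodule ⊔ S'.toSubmodule := by rw [hc.sup_eq_top]; exact Submodule.mem_top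
    obtain ⟨y, hy, z, hz, rfl⟩ := Submodule.mem_sup.mp hx
    have f1 := E_sub σ S (fun g => (starRingEnd ℂ) (χ g)) ⟨y, hy⟩
    have f2 := E_sub σ S' (fun g => (starRingEnd ℂ) (χ g)) ⟨z, hz⟩
    rw [e1] at f1
    rw [e2] at f2
    rw [map_add, ← f1, ← f2]
    simp

theorem mf_split {W : Type w} [AddCommGroup W] [Module ℂ W] [FiniteDimensional ℂ W]
    (σ : Representation ℂ G W) (S S' : Subrepresentation σ)
    (hc : IsCompl S.toSubmodule S'.toSubmodule)
    (h : ∀ χ : G → ℂ, Cfsg.IsIrrCharacter G χ →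
      Cfsg.classInner σ.character χ = 0 ∨ Cfsg.classInner σ.character χ = 1)
    (χ : G → ℂ) (hχ : Cfsg.IsIrrCharacter G χ) :
    (Cfsg.classInner S.toRepresentation.character χ = 0 ∨
      Cfsg.classInner S.toRepresentation.character χ = 1) ∧
    (Cfsg.classInner S'.toRepresentation.character χ = 0 ∨
      Cfsg.classInner S'.toRepresentation.character χ = 1) ∧
    (Cfsg.classInner S.toRepresentation.character χ = 0 ∨
      Cfsg.classInner S'.toRepresentation.character χ = 0) ∧
    (Cfsg.classInner σ.character χ = 0 →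
      Cfsg.classInner S.toRepresentation.character χ = 0 ∧
      Cfsg.classInner S'.toRepresentation.character χ = 0) := by
  have hchar := character_add_of_isCompl σ S S' hc
  obtain ⟨a, ha⟩ := classInner_isCharacter_nat (isCharacter_of_rep S.toRepresentation)
    (isCharacter_of_isIrrCharacter hχ)
  obtain ⟨b, hb⟩ := classInner_isCharacter_nat (isCharacter_of_rep S'.toRepresentation)
    (isCharacter_of_isIrrCharacter hχ)
  have h0 := h χ hχ
  rw [hchar, classInner_add_left, ha, hb] at h0 ⊢
  have hab : a + b = 0 ∨ a + b = 1 := by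
    rcases h0 with h0 | h0
    · left; exact_mod_cast h0
    · right; exact_mod_cast h0
  have h3 : (a = 0 ∨ a = 1) ∧ (b = 0 ∨ b = 1) ∧ (a = 0 ∨ b = 0) := by omega
  obtain ⟨h1, h2, h3⟩ := h3
  refine ⟨?_, ?_, ?_, ?_⟩
  · rcases h1 with h1 | h1
    · left; rw [h1]; exact Nat.cast_zero
    · right; rw [h1]; exact Nat.cast_one
  · rcases h2 with h2 | h2
    · left; rw [h2]; exact Nat.cast_zero
    · right; rw [h2]; exact Nat.cast_one
  · rcases h3 with h3 | h3
    · left; rw [h3]; exact Nat.cast_zero
    · right; rw [h3]; exact Nat.cast_zero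
  · intro h4
    have hab0 : a + b = 0 := by exact_mod_cast h4
    have ha0 : a = 0 := by omega
    have hb0 : b = 0 := by omega
    rw [ha0, hb0]
    exact ⟨Nat.cast_zero, Nat.cast_zero⟩

theorem preserve {W : Type w} [AddCommGroup W] [Module ℂ W] [FiniteDimensional ℂ W]
    (σ : Representation ℂ G W) (S S' : Subrepresentation σ)
    (hc : IsCompl S.toSubmodule S'.toSubmodule)
    (hdisj : ∀ χ : G → ℂ, Cfsg.IsIrrCharacter G χ →
      Cfsg.classInner S.toRepresentation.character χ = 0 ∨
      Cfsg.classInner S'.toRepresentation.character χ = 0)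
    (A : W →ₗ[ℂ] W) (hA : ∀ g x, A (σ g x) = σ g (A x)) :
    (∀ x ∈ S.toSubmodule, A x ∈ S.toSubmodule) ∧
      (∀ x ∈ S'.toSubmodule, A x ∈ S'.toSubmodule) := by
  constructor
  · intro x hx
    have hz : (Submodule.projectionOnto S'.toSubmodule S.toSubmodule hc.symm) ∘ₗ A ∘ₗ
        S.toSubmodule.subtype = 0 :=
      MultFree.hom_zero S'.toRepresentation S.toSubmodule S.toRepresentation
        (fun χ hχ => hdisj χ hχ) _ (fun g y => by
          simp only [LinearMap.comp_apply, Submodule.subtype_apply]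
          rw [RepEq.toRep_coe, hA, RepEq.proj_equiv S' S hc.symm])
    have hz' := LinearMap.congr_fun hz ⟨x, hx⟩
    simp only [LinearMap.comp_apply, Submodule.subtype_apply, LinearMap.zero_apply] at hz'
    have hmem : A x ∈ LinearMap.ker
        (Submodule.projectionOnto S'.toSubmodule S.toSubmodule hc.symm) := hz'
    rw [Submodule.ker_projectionOnto] at hmem
    exact hmem
  · intro x hx
    have hz : (Submodule.projectionOnto S.toSubmodule S'.toSubmodule hc) ∘ₗ A ∘ₗ
        S'.toSubmodule.subtype = 0 :=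
      MultFree.hom_zero S.toRepresentation S'.toSubmodule S'.toRepresentation
        (fun χ hχ => (hdisj χ hχ).symm) _ (fun g y => by
          simp only [LinearMap.comp_apply, Submodule.subtype_apply]
          rw [RepEq.toRep_coe, hA, RepEq.proj_equiv S S' hc])
    have hz' := LinearMap.congr_fun hz ⟨x, hx⟩
    simp only [LinearMap.comp_apply, Submodule.subtype_apply, LinearMap.zero_apply] at hz'
    have hmem : A x ∈ LinearMap.ker
        (Submodule.projectionOnto S.toSubmodule S'.toSubmodule hc) := hz'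
    rw [Submodule.ker_projectionOnto] at hmem
    exact hmem

end Cfsg.Agent.Helper2.GenTrans
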