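import Mathlib
import Cfsg.Agent.Helper2.GenTrans
import Cfsg.Agent.Lead.CharConj2

/-! The commutant of a multiplicity-free representation; generously transitive groups. -/

set_option autoImplicit false

namespace Cfsg.Agent.Helper2.GenTrans

open Cfsg Cfsg.Agent.Lead

open scoped Matrix

universe u v w

variable {G : Type u} [Group G] [Fintype G]

theorem decomp_comm [Fintype (Cfsg.IrrCharacter G)] [DecidableEq (Cfsg.IrrCharacter G)] :
    ∀ (W : Type w) [AddCommGroup W] [Module ℂ W] [FiniteDimensional ℂ W]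
      (σ : Representation ℂ G W),
      (∀ χ : G → ℂ, Cfsg.IsIrrCharacter G χ →
        Cfsg.classInner σ.character χ = 0 ∨ Cfsg.classInner σ.character χ = 1) →
      ∀ A : W →ₗ[ℂ] W, (∀ g x, A (σ g x) = σ g (A x)) →
        ∃ c : Cfsg.IrrCharacter G → ℂ,
          (∀ χ : Cfsg.IrrCharacter G,
            Cfsg.classInner σ.character (χ : G → ℂ) = 0 → c χ = 0) ∧
          A = ∑ χ : Cfsg.IrrCharacter G,
            c χ • E σ (fun g => (starRingEnd ℂ) ((χ : G → ℂ) g)) := by
  refine rep_induction (G := G) (fun (W : Type w) [AddCommGroup W] [Module ℂ W]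
    [FiniteDimensional ℂ W] (σ : Representation ℂ G W) =>
      (∀ χ : G → ℂ, Cfsg.IsIrrCharacter G χ →
        Cfsg.classInner σ.character χ = 0 ∨ Cfsg.classInner σ.character χ = 1) →
      ∀ A : W →ₗ[ℂ] W, (∀ g x, A (σ g x) = σ g (A x)) →
        ∃ c : Cfsg.IrrCharacter G → ℂ,
          (∀ χ : Cfsg.IrrCharacter G,
            Cfsg.classInner σ.character (χ : G → ℂ) = 0 → c χ = 0) ∧
          A = ∑ χ : Cfsg.IrrCharacter G,
            c χ • E σ (fun g => (starRingEnd ℂ) ((χ : G → ℂ) g))) ?_ ?_ ?_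
  · intro W _ _ _ σ hs _ A _
    exact ⟨fun _ => 0, fun _ _ => rfl, LinearMap.ext (fun x => Subsingleton.elim _ _)⟩
  · intro W _ _ _ σ hi _ A hA
    obtain ⟨a, rfl⟩ := schur_scalar σ hi A (fun g => LinearMap.ext (fun x => hA g x))
    have hψ := isIrrCharacter_of_rep σ hi
    obtain ⟨c₀, hc₀, hc₀'⟩ := E_irr σ hi (fun g => (starRingEnd ℂ) (σ.character g)) (conj_cf hψ)
    have hG : (Nat.card G : ℂ) ≠ 0 := by exact_mod_cast Nat.card_pos.ne'
    rw [sum_of_inner_one _ _ (classInner_self_of_isIrrCharacter hψ)] at hc₀'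
    have hc₀ne : c₀ ≠ 0 := by
      intro h
      rw [h, zero_mul] at hc₀'
      exact hG hc₀'.symm
    refine ⟨fun χ => if χ = ⟨σ.character, hψ⟩ then a / c₀ else 0, ?_, ?_⟩
    · intro χ hχ0
      show (if χ = ⟨σ.character, hψ⟩ then a / c₀ else 0) = 0
      rw [if_neg]
      intro h
      rw [h] at hχ0
      have h1 : Cfsg.classInner σ.character σ.character = 0 := hχ0
      rw [classInner_self_of_isIrrCharacter hψ] at h1
      exact one_ne_zero h1
    · rw [Finset.sum_eq_single (⟨σ.character, hψ⟩ : Cfsg.IrrCharacter G)]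
      · dsimp only
        rw [if_pos rfl]
        show a • LinearMap.id = (a / c₀) • E σ (fun g => (starRingEnd ℂ) (σ.character g))
        rw [hc₀, smul_smul, div_mul_cancel₀ a hc₀ne]
      · intro χ _ hne
        dsimp only
        rw [if_neg hne, zero_smul]
      · intro h
        exact absurd (Finset.mem_univ _) h
  · intro W _ _ _ σ S S' hc ih ih' h A hA
    obtain ⟨hA1, hA2⟩ := preserve σ S S' hc
      (fun χ hχ => (mf_split σ S S' hc h χ hχ).2.2.1) A hA
    obtain ⟨c, hc0, hcA⟩ := ih (fun χ hχ => (mf_split σ S S' hc h χ hχ).1) (A.restrict hA1)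
      (fun g x => Subtype.ext (hA g x))
    obtain ⟨c', hc0', hcA'⟩ := ih' (fun χ hχ => (mf_split σ S S' hc h χ hχ).2.1)
      (A.restrict hA2) (fun g x => Subtype.ext (hA g x))
    refine ⟨fun χ => c χ + c' χ, ?_, ?_⟩
    · intro χ hχ0
      obtain ⟨h1, h2⟩ := (mf_split σ S S' hc h χ χ.2).2.2.2 hχ0
      show c χ + c' χ = 0
      rw [hc0 χ h1, hc0' χ h2, add_zero]
    · have ey : ∀ y (hy : y ∈ S.toSubmodule), A y = ∑ χ : Cfsg.IrrCharacter G,
          (c χ + c' χ) • E σ (fun g => (starRingEnd ℂ) ((χ : G → ℂ) g)) y := by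
        intro y hy
        have h1 : A y = (((∑ χ : Cfsg.IrrCharacter G, c χ • E S.toRepresentation
            (fun g => (starRingEnd ℂ) ((χ : G → ℂ) g))) ⟨y, hy⟩ : S.toSubmodule) : W) :=
          congrArg Subtype.val (LinearMap.congr_fun hcA ⟨y, hy⟩)
        rw [LinearMap.sum_apply, Submodule.coe_sum] at h1
        rw [h1]
        refine Finset.sum_congr rfl (fun χ _ => ?_)
        rw [LinearMap.smul_apply, Submodule.coe_smul, E_sub σ S _ ⟨y, hy⟩]
        show c χ • E σ (fun g => (starRingEnd ℂ) ((χ : G → ℂ) g)) y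
          = (c χ + c' χ) • E σ (fun g => (starRingEnd ℂ) ((χ : G → ℂ) g)) y
        by_cases hχS : Cfsg.classInner S.toRepresentation.character (χ : G → ℂ) = 0
        · have hz : E σ (fun g => (starRingEnd ℂ) ((χ : G → ℂ) g)) y = 0 := by
            have h2 := E_sub σ S (fun g => (starRingEnd ℂ) ((χ : G → ℂ) g)) ⟨y, hy⟩
            rw [E_zero _ S.toRepresentation χ χ.2 hχS, LinearMap.zero_apply,
              Submodule.coe_zero] at h2
            exact h2.symm
          rw [hz, smul_zero, smul_zero]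
        · have h2 : c' χ = 0 :=
            hc0' χ ((mf_split σ S S' hc h χ χ.2).2.2.1.resolve_left hχS)
          rw [h2, add_zero]
      have ez : ∀ z (hz : z ∈ S'.toSubmodule), A z = ∑ χ : Cfsg.IrrCharacter G,
          (c χ + c' χ) • E σ (fun g => (starRingEnd ℂ) ((χ : G → ℂ) g)) z := by
        intro z hz
        have h1 : A z = (((∑ χ : Cfsg.IrrCharacter G, c' χ • E S'.toRepresentation
            (fun g => (starRingEnd ℂ) ((χ : G → ℂ) g))) ⟨z, hz⟩ : S'.toSubmodule) : W) :=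
          congrArg Subtype.val (LinearMap.congr_fun hcA' ⟨z, hz⟩)
        rw [LinearMap.sum_apply, Submodule.coe_sum] at h1
        rw [h1]
        refine Finset.sum_congr rfl (fun χ _ => ?_)
        rw [LinearMap.smul_apply, Submodule.coe_smul, E_sub σ S' _ ⟨z, hz⟩]
        show c' χ • E σ (fun g => (starRingEnd ℂ) ((χ : G → ℂ) g)) z
          = (c χ + c' χ) • E σ (fun g => (starRingEnd ℂ) ((χ : G → ℂ) g)) z
        by_cases hχS : Cfsg.classInner S'.toRepresentation.character (χ : G → ℂ) = 0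
        · have hz' : E σ (fun g => (starRingEnd ℂ) ((χ : G → ℂ) g)) z = 0 := by
            have h2 := E_sub σ S' (fun g => (starRingEnd ℂ) ((χ : G → ℂ) g)) ⟨z, hz⟩
            rw [E_zero _ S'.toRepresentation χ χ.2 hχS, LinearMap.zero_apply,
              Submodule.coe_zero] at h2
            exact h2.symm
          rw [hz', smul_zero, smul_zero]
        · have h2 : c χ = 0 :=
            hc0 χ ((mf_split σ S S' hc h χ χ.2).2.2.1.resolve_right hχS)
          rw [h2, zero_add]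
      apply LinearMap.ext
      intro x
      have hx : x ∈ S.toSubmodule ⊔ S'.toSubmodule := by
        rw [hc.sup_eq_top]; exact Submodule.mem_top
      obtain ⟨y, hy, z, hz, rfl⟩ := Submodule.mem_sup.mp hx
      rw [map_add, ey y hy, ez z hz, LinearMap.sum_apply, ← Finset.sum_add_distrib]
      refine Finset.sum_congr rfl (fun χ _ => ?_)
      rw [LinearMap.smul_apply, map_add, smul_add]

section perm

variable {Ω : Type v} [Fintype Ω] [MulAction G Ω] [DecidableEq Ω]

theorem perm_single (g : G) (β : Ω) :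
    Cfsg.permRep ℂ G Ω g (Pi.single β 1) = Pi.single (g • β) 1 := by
  funext x
  show (Pi.single β (1:ℂ) : Ω → ℂ) (g⁻¹ • x) = (Pi.single (g • β) (1:ℂ) : Ω → ℂ) x
  rw [Pi.single_apply, Pi.single_apply]
  have h : g⁻¹ • x = β ↔ x = g • β := inv_smul_eq_iff
  simp only [h]

theorem entry_inv (A : (Ω → ℂ) →ₗ[ℂ] (Ω → ℂ))
    (hA : ∀ g x, A (Cfsg.permRep ℂ G Ω g x) = Cfsg.permRep ℂ G Ω g (A x)) (g : G) (α β : Ω) :
    A (Pi.single (g • β) 1) (g • α) = A (Pi.single β 1) α := by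
  rw [← perm_single, hA]
  show A (Pi.single β 1) (g⁻¹ • g • α) = _
  rw [inv_smul_smul]

theorem E_entry (φ : G → ℂ) (α β : Ω) :
    E (Cfsg.permRep ℂ G Ω) φ (Pi.single β 1) α = ∑ g : G, if g • β = α then φ g else 0 := by
  rw [E_apply, Finset.sum_apply]
  refine Finset.sum_congr rfl (fun g _ => ?_)
  rw [Pi.smul_apply, perm_single, Pi.single_apply, smul_eq_mul]
  by_cases h : g • β = α
  · rw [if_pos h, if_pos h.symm, mul_one]
  · rw [if_neg h, if_neg (fun h' => h h'.symm), mul_zero]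

theorem E_symm (φ : G → ℂ) (hφ : ∀ g, φ g⁻¹ = φ g) (α β : Ω) :
    E (Cfsg.permRep ℂ G Ω) φ (Pi.single β 1) α
      = E (Cfsg.permRep ℂ G Ω) φ (Pi.single α 1) β := by
  rw [E_entry, E_entry]
  refine Fintype.sum_equiv (Equiv.inv G) _ _ (fun g => ?_)
  show (if g • β = α then φ g else 0) = if g⁻¹ • α = β then φ g⁻¹ else 0
  rw [hφ]
  have h : g⁻¹ • α = β ↔ g • β = α := by rw [inv_smul_eq_iff]; exact eq_comm
  simp only [h]

theorem gen_of_mf_real
    (h : ∀ χ : G → ℂ, Cfsg.IsIrrCharacter G χ →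
      Cfsg.classInner (fun g : G => (Nat.card (MulAction.fixedBy Ω g) : ℂ)) χ ≠ 0 →
      Cfsg.classInner (fun g : G => (Nat.card (MulAction.fixedBy Ω g) : ℂ)) χ = 1 ∧
        ∀ g : G, (starRingEnd ℂ) (χ g) = χ g) (a b : Ω) :
    ∃ g : G, g • a = b ∧ g • b = a := by
  classical
  haveI : Finite (Cfsg.IrrCharacter G) := finite_irrCharacter G
  haveI : Fintype (Cfsg.IrrCharacter G) := Fintype.ofFinite _
  have hπ : (fun g : G => (Nat.card (MulAction.fixedBy Ω g) : ℂ))
      = (Cfsg.permRep ℂ G Ω).character :=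
    funext fun g => (MultFree.permRep_char G Ω g).symm
  rw [hπ] at h
  let M : Matrix Ω Ω ℂ := fun α β => if ∃ g : G, g • a = α ∧ g • b = β then 1 else 0
  have hAentry : ∀ α β, (Matrix.toLin' M) (Pi.single β 1) α = M α β := by
    intro α β
    rw [Matrix.toLin'_apply, Matrix.mulVec_single_one]
    rfl
  have hMinv : ∀ (g : G) (α β : Ω), M α β = M (g⁻¹ • α) (g⁻¹ • β) := by
    intro g α β
    show (if ∃ k : G, k • a = α ∧ k • b = β then (1:ℂ) else 0)
      = if ∃ k : G, k • a = g⁻¹ • α ∧ k • b = g⁻¹ • β then 1 else 0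
    have hiff : (∃ k : G, k • a = α ∧ k • b = β)
        ↔ ∃ k : G, k • a = g⁻¹ • α ∧ k • b = g⁻¹ • β := by
      constructor
      · rintro ⟨k, rfl, rfl⟩
        exact ⟨g⁻¹ * k, mul_smul _ _ _, mul_smul _ _ _⟩
      · rintro ⟨k, h1, h2⟩
        refine ⟨g * k, ?_, ?_⟩
        · rw [mul_smul, h1, smul_inv_smul]
        · rw [mul_smul, h2, smul_inv_smul]
    simp only [hiff]
  have hAeq : ∀ g x, (Matrix.toLin' M) (Cfsg.permRep ℂ G Ω g x)
      = Cfsg.permRep ℂ G Ω g ((Matrix.toLin' M) x) := by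
    intro g x
    funext α
    show (Matrix.toLin' M) (Cfsg.permRep ℂ G Ω g x) α = (Matrix.toLin' M x) (g⁻¹ • α)
    rw [Matrix.toLin'_apply, Matrix.toLin'_apply]
    show ∑ β, M α β * (Cfsg.permRep ℂ G Ω g x) β = ∑ β, M (g⁻¹ • α) β * x β
    refine Fintype.sum_equiv (MulAction.toPerm g⁻¹) _ _ (fun β => ?_)
    show M α β * x (g⁻¹ • β) = M (g⁻¹ • α) (g⁻¹ • β) * x (g⁻¹ • β)
    rw [← hMinv g α β]
  have hmf : ∀ χ : G → ℂ, Cfsg.IsIrrCharacter G χ →
      Cfsg.classInner (Cfsg.permRep ℂ G Ω).character χ = 0 ∨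
      Cfsg.classInner (Cfsg.permRep ℂ G Ω).character χ = 1 := by
    intro χ hχ
    by_cases h0 : Cfsg.classInner (Cfsg.permRep ℂ G Ω).character χ = 0
    · left; exact h0
    · right; exact (h χ hχ h0).1
  obtain ⟨c, hc0, hcA⟩ := decomp_comm _ (Cfsg.permRep ℂ G Ω) hmf (Matrix.toLin' M) hAeq
  have hsym : (Matrix.toLin' M) (Pi.single a 1) b = (Matrix.toLin' M) (Pi.single b 1) a := by
    rw [hcA, LinearMap.sum_apply, LinearMap.sum_apply, Finset.sum_apply, Finset.sum_apply]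
    refine Finset.sum_congr rfl (fun χ _ => ?_)
    rw [LinearMap.smul_apply, LinearMap.smul_apply, Pi.smul_apply, Pi.smul_apply]
    by_cases hχ0 : Cfsg.classInner (Cfsg.permRep ℂ G Ω).character (χ : G → ℂ) = 0
    · rw [hc0 χ hχ0, zero_smul, zero_smul]
    · congr 1
      apply E_symm
      intro g
      have hreal := (h χ χ.2 hχ0).2
      show (starRingEnd ℂ) ((χ : G → ℂ) g⁻¹) = (starRingEnd ℂ) ((χ : G → ℂ) g)
      rw [isCharacter_inv (isCharacter_of_isIrrCharacter χ.2) g, hreal g, hreal g]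
  rw [hAentry, hAentry] at hsym
  have hab : M a b = 1 := if_pos ⟨1, one_smul _ _, one_smul _ _⟩
  rw [hab] at hsym
  by_contra hne
  have hba : M b a = 0 := if_neg hne
  rw [hba] at hsym
  exact zero_ne_one hsym

theorem mf_real_of_gen (hgen : ∀ a b : Ω, ∃ g : G, g • a = b ∧ g • b = a)
    (χ : G → ℂ) (hχ : Cfsg.IsIrrCharacter G χ)
    (hne : Cfsg.classInner (fun g : G => (Nat.card (MulAction.fixedBy Ω g) : ℂ)) χ ≠ 0) :
    Cfsg.classInner (fun g : G => (Nat.card (MulAction.fixedBy Ω g) : ℂ)) χ = 1 ∧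
      ∀ g : G, (starRingEnd ℂ) (χ g) = χ g := by
  classical
  have hπ : (fun g : G => (Nat.card (MulAction.fixedBy Ω g) : ℂ))
      = (Cfsg.permRep ℂ G Ω).character :=
    funext fun g => (MultFree.permRep_char G Ω g).symm
  rw [hπ] at hne ⊢
  have hG : (Nat.card G : ℂ) ≠ 0 := by exact_mod_cast Nat.card_pos.ne'
  have hsym : ∀ A : (Ω → ℂ) →ₗ[ℂ] (Ω → ℂ),
      (∀ g x, A (Cfsg.permRep ℂ G Ω g x) = Cfsg.permRep ℂ G Ω g (A x)) →
      ∀ α β, A (Pi.single β 1) α = A (Pi.single α 1) β := by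
    intro A hA α β
    obtain ⟨g, h1, h2⟩ := hgen α β
    have h3 := entry_inv A hA g α β
    rw [h1, h2] at h3
    exact h3.symm
  have hT : ∀ A : (Ω → ℂ) →ₗ[ℂ] (Ω → ℂ),
      (∀ g x, A (Cfsg.permRep ℂ G Ω g x) = Cfsg.permRep ℂ G Ω g (A x)) →
      (LinearMap.toMatrix' A)ᵀ = LinearMap.toMatrix' A := by
    intro A hA
    ext α β
    rw [Matrix.transpose_apply, LinearMap.toMatrix'_apply, LinearMap.toMatrix'_apply]
    exact hsym A hA β α
  have hcomm : ∀ A B : (Ω → ℂ) →ₗ[ℂ] (Ω → ℂ),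
      (∀ g x, A (Cfsg.permRep ℂ G Ω g x) = Cfsg.permRep ℂ G Ω g (A x)) →
      (∀ g x, B (Cfsg.permRep ℂ G Ω g x) = Cfsg.permRep ℂ G Ω g (B x)) →
      A ∘ₗ B = B ∘ₗ A := by
    intro A B hA hB
    apply LinearMap.toMatrix'.injective
    have hAB : ∀ g x, (A ∘ₗ B) (Cfsg.permRep ℂ G Ω g x)
        = Cfsg.permRep ℂ G Ω g ((A ∘ₗ B) x) := fun g x => by
      rw [LinearMap.comp_apply, LinearMap.comp_apply, hB, hA]
    rw [← hT (A ∘ₗ B) hAB, LinearMap.toMatrix'_comp, LinearMap.toMatrix'_comp,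
      Matrix.transpose_mul, hT A hA, hT B hB]
  have h1 : Cfsg.classInner (Cfsg.permRep ℂ G Ω).character χ = 1 := by
    by_contra h1
    obtain ⟨A, B, hA, hB, hAB⟩ :=
      MultFree.not_comm_of_mult (Cfsg.permRep ℂ G Ω) χ hχ hne h1
    exact hAB (hcomm A B hA hB)
  refine ⟨h1, ?_⟩
  by_contra hreal
  have hchar := isCharacter_of_isIrrCharacter hχ
  have hcf := isCharacter_isClassFunction hchar
  have hχ' := hχ
  obtain ⟨n, τ, hτ, hτχ⟩ := hχ'
  obtain ⟨i, p, hi, hp, hpi⟩ := RepEq.summand_of_irr τ hτ _ (Cfsg.permRep ℂ G Ω)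
    (by rw [hτχ]; exact hne)
  have hEE : E (Cfsg.permRep ℂ G Ω) (fun g => (starRingEnd ℂ) (χ g))
      = E (Cfsg.permRep ℂ G Ω) χ := by
    apply LinearMap.toMatrix'.injective
    rw [← hT (E (Cfsg.permRep ℂ G Ω) (fun g => (starRingEnd ℂ) (χ g)))
      (fun g x => E_equiv _ _ (conj_cf hχ) g x)]
    ext α β
    rw [Matrix.transpose_apply, LinearMap.toMatrix'_apply, LinearMap.toMatrix'_apply, E_entry,
      E_entry]
    refine Fintype.sum_equiv (Equiv.inv G) _ _ (fun g => ?_)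
    show (if g • α = β then (starRingEnd ℂ) (χ g) else 0) = if g⁻¹ • β = α then χ g⁻¹ else 0
    rw [isCharacter_inv hchar g]
    have hiff : g⁻¹ • β = α ↔ g • α = β := by rw [inv_smul_eq_iff]; exact eq_comm
    simp only [hiff]
  have hiE : ∀ (φ : G → ℂ) (x : Fin n → ℂ),
      E (Cfsg.permRep ℂ G Ω) φ (i x) = i (E τ φ x) := by
    intro φ x
    rw [E_apply, E_apply, map_sum]
    refine Finset.sum_congr rfl (fun g _ => ?_)
    rw [map_smul, hi]
  obtain ⟨c₁, hc₁, hc₁'⟩ := E_irr τ hτ (fun g => (starRingEnd ℂ) (χ g)) (conj_cf hχ)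
  obtain ⟨c₂, hc₂, hc₂'⟩ := E_irr τ hτ χ hcf
  rw [hτχ] at hc₁' hc₂'
  rw [sum_of_inner_one _ _ (classInner_self_of_isIrrCharacter hχ)] at hc₁'
  have horth : Cfsg.classInner χ (fun g => (starRingEnd ℂ) (χ g)) = 0 := by
    have h2 := classInner_irr (⟨χ, hχ⟩ : Cfsg.IrrCharacter G)
      ⟨fun g => (starRingEnd ℂ) (χ g), isIrrCharacter_conj hχ⟩
    rw [if_neg] at h2
    · exact h2
    · intro heq
      apply hreal
      intro g
      exact (congrFun (congrArg Subtype.val heq) g).symm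
  have hsum2 : ∑ g, χ g * χ g = 0 := by
    have h2 := sum_of_inner_zero _ _ horth
    rw [← h2]
    refine Finset.sum_congr rfl (fun g _ => ?_)
    show χ g * χ g = (starRingEnd ℂ) ((starRingEnd ℂ) (χ g)) * χ g
    rw [Complex.conj_conj]
  rw [hsum2] at hc₂'
  have hd : χ 1 ≠ 0 := Cfsg.Agent.Helper2.ClsSep.irr_one_ne_zero hχ
  have hc₂0 : c₂ = 0 := by
    rcases mul_eq_zero.mp hc₂' with h | h
    · exact h
    · exact absurd h hd
  have hc12 : c₁ = c₂ := by
    have hnt : Nontrivial (Fin n → ℂ) := ((isIrreducible_iff τ).mp hτ).1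
    obtain ⟨v, hv⟩ := exists_ne (0 : Fin n → ℂ)
    have e1 := hiE (fun g => (starRingEnd ℂ) (χ g)) v
    have e2 := hiE χ v
    rw [hEE] at e1
    rw [e1] at e2
    have hinj : Function.Injective i := Function.LeftInverse.injective hpi
    have e3 := hinj e2
    rw [hc₁, hc₂] at e3
    simp only [LinearMap.smul_apply, LinearMap.id_apply] at e3
    by_contra hne'
    have h4 : (c₁ - c₂) • v = 0 := by rw [sub_smul, e3, sub_self]
    rcases smul_eq_zero.mp h4 with h | h
    · exact hne' (sub_eq_zero.mp h)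
    · exact hv h
  rw [hc12, hc₂0, zero_mul] at hc₁'
  exact hG hc₁'.symm

end perm

end Cfsg.Agent.Helper2.GenTrans
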