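import Mathlib
import Cfsg.Agent.Helper2.GenTrans2

/-! Orthogonality of the class-function operators. -/

set_option autoImplicit false

namespace Cfsg.Agent.Helper2.GenTrans

open Cfsg Cfsg.Agent.Lead

universe u v w

variable {G : Type u} [Group G] [Fintype G]

theorem inner_irr_ne {χ ψ : G → ℂ} (hχ : Cfsg.IsIrrCharacter G χ) (hψ : Cfsg.IsIrrCharacter G ψ)
    (hne : χ ≠ ψ) : Cfsg.classInner χ ψ = 0 := by
  classical
  have h := classInner_irr (⟨χ, hχ⟩ : Cfsg.IrrCharacter G) ⟨ψ, hψ⟩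
  rw [if_neg (fun heq => hne (congrArg Subtype.val heq))] at h
  exact h

theorem E_mul :
    ∀ (W : Type w) [AddCommGroup W] [Module ℂ W] [FiniteDimensional ℂ W]
      (σ : Representation ℂ G W),
      ∀ χ ψ : G → ℂ, Cfsg.IsIrrCharacter G χ → Cfsg.IsIrrCharacter G ψ →
        (χ ≠ ψ → E σ (fun g => (starRingEnd ℂ) (χ g)) ∘ₗ E σ (fun g => (starRingEnd ℂ) (ψ g))
          = 0) ∧
        E σ (fun g => (starRingEnd ℂ) (χ g)) ∘ₗ E σ (fun g => (starRingEnd ℂ) (χ g))
          = ((Nat.card G : ℂ) / χ 1) • E σ (fun g => (starRingEnd ℂ) (χ g)) := by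
  refine rep_induction (G := G) (fun (W : Type w) [AddCommGroup W] [Module ℂ W]
    [FiniteDimensional ℂ W] (σ : Representation ℂ G W) =>
      ∀ χ ψ : G → ℂ, Cfsg.IsIrrCharacter G χ → Cfsg.IsIrrCharacter G ψ →
        (χ ≠ ψ → E σ (fun g => (starRingEnd ℂ) (χ g)) ∘ₗ E σ (fun g => (starRingEnd ℂ) (ψ g))
          = 0) ∧
        E σ (fun g => (starRingEnd ℂ) (χ g)) ∘ₗ E σ (fun g => (starRingEnd ℂ) (χ g))
          = ((Nat.card G : ℂ) / χ 1) • E σ (fun g => (starRingEnd ℂ) (χ g))) ?_ ?_ ?_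
  · intro W _ _ _ σ hs χ ψ _ _
    exact ⟨fun _ => LinearMap.ext (fun x => Subsingleton.elim _ _),
      LinearMap.ext (fun x => Subsingleton.elim _ _)⟩
  · intro W _ _ _ σ hi χ ψ hχ hψ
    have hθ := isIrrCharacter_of_rep σ hi
    have hz : ∀ φ : G → ℂ, Cfsg.IsIrrCharacter G φ → φ ≠ σ.character →
        E σ (fun g => (starRingEnd ℂ) (φ g)) = 0 := by
      intro φ hφ hne
      exact E_zero W σ φ hφ (inner_irr_ne hθ hφ (fun h => hne h.symm))
    constructor
    · intro hne
      by_cases h1 : χ = σ.character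
      · have h2 : ψ ≠ σ.character := fun h => hne (h1.trans h.symm)
        rw [hz ψ hψ h2, LinearMap.comp_zero]
      · rw [hz χ hχ h1, LinearMap.zero_comp]
    · by_cases h1 : χ = σ.character
      · obtain ⟨c, hc, hc2⟩ := E_irr σ hi (fun g => (starRingEnd ℂ) (χ g)) (conj_cf hχ)
        have h11 : Cfsg.classInner σ.character χ = 1 := by
          rw [h1]; exact classInner_self_of_isIrrCharacter hθ
        rw [sum_of_inner_one _ _ h11] at hc2
        have hd : σ.character 1 ≠ 0 := Cfsg.Agent.Helper2.ClsSep.irr_one_ne_zero hθ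
        have hcval : (Nat.card G : ℂ) / χ 1 = c := by
          rw [h1, ← hc2]
          field_simp
        rw [hcval, hc]
        apply LinearMap.ext
        intro x
        simp only [LinearMap.comp_apply, LinearMap.smul_apply, LinearMap.id_apply]
      · rw [hz χ hχ h1, LinearMap.comp_zero, smul_zero]
  · intro W _ _ _ σ S S' hc ih ih' χ ψ hχ hψ
    have hcomp : ∀ (T : Subrepresentation σ) (φ φ' : G → ℂ) (y : W) (hy : y ∈ T.toSubmodule),
        E σ φ (E σ φ' y) = (((E T.toRepresentation φ ∘ₗ E T.toRepresentation φ') ⟨y, hy⟩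
          : T.toSubmodule) : W) := by
      intro T φ φ' y hy
      rw [LinearMap.comp_apply, E_sub, E_sub]
    constructor
    · intro hne
      apply LinearMap.ext
      intro x
      have hx : x ∈ S.toSubmodule ⊔ S'.toSubmodule := by
        rw [hc.sup_eq_top]; exact Submodule.mem_top
      obtain ⟨y, hy, z, hz, rfl⟩ := Submodule.mem_sup.mp hx
      rw [LinearMap.comp_apply, map_add, map_add, hcomp S _ _ y hy, hcomp S' _ _ z hz,
        (ih χ ψ hχ hψ).1 hne, (ih' χ ψ hχ hψ).1 hne]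
      simp
    · apply LinearMap.ext
      intro x
      have hx : x ∈ S.toSubmodule ⊔ S'.toSubmodule := by
        rw [hc.sup_eq_top]; exact Submodule.mem_top
      obtain ⟨y, hy, z, hz, rfl⟩ := Submodule.mem_sup.mp hx
      rw [LinearMap.comp_apply, map_add, map_add, hcomp S _ _ y hy, hcomp S' _ _ z hz,
        (ih χ ψ hχ hψ).2, (ih' χ ψ hχ hψ).2]
      rw [LinearMap.smul_apply, LinearMap.smul_apply, LinearMap.smul_apply, Submodule.coe_smul,
        Submodule.coe_smul, E_sub, E_sub, map_add, smul_add]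

end Cfsg.Agent.Helper2.GenTrans
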