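import Mathlib
import Cfsg.Prelude.Def_Perm

/-! Permutation modules of prime-power degree in the defining characteristic. -/

set_option autoImplicit false

namespace Cfsg.Agent.Helper2.PConst

open Cfsg

universe u v w

variable {G : Type u} [Group G] [Finite G] {K : Type v} [Field K] {p f : ℕ} [Fact p.Prime]
  [CharP K p] {Ω : Type w} [Fintype Ω] [MulAction G Ω] [MulAction.IsPretransitive G Ω]

omit [CharP K p] in
theorem sylow_trans (hcard : Fintype.card Ω = p ^ f) (P : Sylow p G) (x y : Ω) :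
    ∃ g : G, g ∈ (P : Subgroup G) ∧ g • x = y := by
  classical
  have hp : p.Prime := Fact.out
  have h1 : (MulAction.stabilizer G x ⊓ (P : Subgroup G)).relIndex (P : Subgroup G)
      * (P : Subgroup G).index = (MulAction.stabilizer G x ⊓ (P : Subgroup G)).index :=
    Subgroup.relIndex_mul_index inf_le_right
  have h2 : (MulAction.stabilizer G x ⊓ (P : Subgroup G)).relIndex (MulAction.stabilizer G x)
      * (MulAction.stabilizer G x).index
      = (MulAction.stabilizer G x ⊓ (P : Subgroup G)).index :=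
    Subgroup.relIndex_mul_index inf_le_left
  have h3 : (MulAction.stabilizer G x).index = p ^ f := by
    rw [MulAction.index_stabilizer_of_transitive, Nat.card_eq_fintype_card, hcard]
  have h4 : ¬ p ∣ (P : Subgroup G).index := P.not_dvd_index
  have h5 : (MulAction.stabilizer G x ⊓ (P : Subgroup G)).relIndex (P : Subgroup G)
      = Nat.card (MulAction.orbit (P : Subgroup G) x) := by
    rw [Subgroup.inf_relIndex_right]
    have hst : (MulAction.stabilizer G x).subgroupOf (P : Subgroup G)
        = MulAction.stabilizer (P : Subgroup G) x := by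
      ext g
      rw [Subgroup.mem_subgroupOf, MulAction.mem_stabilizer_iff, MulAction.mem_stabilizer_iff]
      rfl
    rw [Subgroup.relIndex, hst, MulAction.index_stabilizer]
    rfl
  have h6 : p ^ f ∣ Nat.card (MulAction.orbit (P : Subgroup G) x) := by
    have h : p ^ f ∣ (MulAction.stabilizer G x ⊓ (P : Subgroup G)).relIndex (P : Subgroup G)
        * (P : Subgroup G).index := by
      rw [h1, ← h2, h3]; exact dvd_mul_left _ _
    rw [h5] at h
    exact (Nat.Coprime.pow_left f ((Nat.Prime.coprime_iff_not_dvd hp).mpr h4)).dvd_of_dvd_mul_right h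
  have h7 : MulAction.orbit (P : Subgroup G) x = Set.univ := by
    apply Set.eq_of_subset_of_ncard_le (Set.subset_univ _) _ Set.finite_univ
    rw [Set.ncard_univ, Nat.card_eq_fintype_card, hcard]
    haveI : Nonempty (MulAction.orbit (P : Subgroup G) x) :=
      (MulAction.nonempty_orbit x).to_subtype
    exact Nat.le_of_dvd Nat.card_pos h6
  have hy : y ∈ MulAction.orbit (P : Subgroup G) x := by rw [h7]; exact Set.mem_univ _
  obtain ⟨g, hg⟩ := hy
  exact ⟨g.1, g.2, hg⟩

omit [Fintype Ω] [MulAction.IsPretransitive G Ω] in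
theorem fixed_vec (P : Subgroup G) (hP : IsPGroup p P)
    (W : Subrepresentation (Cfsg.permRep K G Ω)) (w : Ω → K) (hw : w ∈ W.toSubmodule)
    (hw0 : w ≠ 0) :
    ∃ v ∈ W.toSubmodule, v ≠ 0 ∧ ∀ g ∈ P, Cfsg.permRep K G Ω g v = v := by
  classical
  obtain ⟨S, hSdef⟩ : ∃ S : Set (Ω → K),
      S = Set.range (fun g : P => Cfsg.permRep K G Ω (g : G) w) := ⟨_, rfl⟩
  obtain ⟨V₀, hV₀⟩ : ∃ V₀ : AddSubgroup (Ω → K), V₀ = AddSubgroup.closure S := ⟨_, rfl⟩
  have hinv : ∀ g : G, g ∈ P → ∀ v, v ∈ V₀ → Cfsg.permRep K G Ω g v ∈ V₀ := by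
    intro g hg v hv
    rw [hV₀] at hv ⊢
    induction hv using AddSubgroup.closure_induction with
    | mem x hx =>
      rw [hSdef] at hx
      obtain ⟨h, rfl⟩ := hx
      apply AddSubgroup.subset_closure
      rw [hSdef]
      refine ⟨⟨g * h, P.mul_mem hg h.2⟩, ?_⟩
      show Cfsg.permRep K G Ω (g * h) w = _
      rw [map_mul]; rfl
    | zero => rw [map_zero]; exact AddSubgroup.zero_mem _
    | add x y _ _ hx hy => rw [map_add]; exact AddSubgroup.add_mem _ hx hy
    | neg x _ hx => rw [map_neg]; exact AddSubgroup.neg_mem _ hx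
  have hle : ∀ v, v ∈ V₀ → v ∈ W.toSubmodule := by
    intro v hv
    have h : V₀ ≤ W.toSubmodule.toAddSubgroup := by
      rw [hV₀, AddSubgroup.closure_le, hSdef]
      rintro _ ⟨h, rfl⟩
      exact W.apply_mem_toSubmodule _ hw
    exact h hv
  have hpK : (p : K) = 0 := CharP.cast_eq_zero K p
  have hpv : ∀ v : Ω → K, p • v = 0 := by
    intro v
    rw [← Nat.cast_smul_eq_nsmul K, hpK, zero_smul]
  haveI : Finite V₀ := by
    haveI : Finite S := by rw [hSdef]; exact Set.finite_range _
    haveI : AddGroup.FG (AddSubgroup.closure S) := AddGroup.closure_finite_fg S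
    rw [hV₀]
    apply AddCommGroup.finite_of_fg_torsion
    intro v
    rw [isOfFinAddOrder_iff_nsmul_eq_zero]
    exact ⟨p, (Fact.out : p.Prime).pos, Subtype.ext (hpv v)⟩
  letI inst : MulAction P V₀ :=
    { smul := fun g v => ⟨Cfsg.permRep K G Ω (g : G) v, hinv g g.2 v v.2⟩
      one_smul := fun v => Subtype.ext (by
        show Cfsg.permRep K G Ω ((1 : P) : G) v = v
        rw [Subgroup.coe_one, map_one]; rfl)
      mul_smul := fun g h v => Subtype.ext (by
        show Cfsg.permRep K G Ω ((g * h : P) : G) v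
          = Cfsg.permRep K G Ω (g : G) (Cfsg.permRep K G Ω (h : G) v)
        rw [Subgroup.coe_mul, map_mul]; rfl) }
  have hwV : w ∈ V₀ := by
    rw [hV₀]
    apply AddSubgroup.subset_closure
    rw [hSdef]
    refine ⟨1, ?_⟩
    show Cfsg.permRep K G Ω ((1 : P) : G) w = w
    rw [Subgroup.coe_one, map_one]; rfl
  have hdvd : p ∣ Nat.card V₀ := by
    have h : addOrderOf (⟨w, hwV⟩ : V₀) = p :=
      addOrderOf_eq_prime (Subtype.ext (hpv w)) (fun h => hw0 (congrArg Subtype.val h))
    rw [← h]; exact addOrderOf_dvd_natCard _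
  have h0 : (0 : V₀) ∈ MulAction.fixedPoints P V₀ := by
    intro g
    apply Subtype.ext
    show Cfsg.permRep K G Ω (g : G) (0 : Ω → K) = 0
    rw [map_zero]
  obtain ⟨b, hb, hb0⟩ := hP.exists_fixed_point_of_prime_dvd_card_of_fixed_point V₀ hdvd h0
  refine ⟨b.1, hle _ b.2, fun h => hb0 (Subtype.ext h.symm), ?_⟩
  intro g hg
  exact congrArg Subtype.val (hb ⟨g, hg⟩)

/-- S0670: every nonzero subrepresentation contains the constants. -/
theorem main (hcard : Fintype.card Ω = p ^ f) (W : Subrepresentation (Cfsg.permRep K G Ω))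
    (hW : W.toSubmodule ≠ ⊥) :
    (Cfsg.permConstants K G Ω).toSubmodule ≤ W.toSubmodule := by
  classical
  obtain ⟨w, hw, hw0⟩ := (Submodule.ne_bot_iff _).mp hW
  obtain ⟨P⟩ : Nonempty (Sylow p G) := inferInstance
  obtain ⟨v, hv, hv0, hfix⟩ := fixed_vec (P : Subgroup G) P.isPGroup' W w hw hw0
  have hx : ∃ x, v x ≠ 0 := by
    by_contra hcon
    exact hv0 (funext (fun x => not_not.mp (fun h => hcon ⟨x, h⟩)))
  obtain ⟨x, hx⟩ := hx
  have hconst : ∀ y, v y = v x := by
    intro y
    obtain ⟨g, hg, hgy⟩ := sylow_trans hcard P y x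
    have h1 := congrFun (hfix g⁻¹ (inv_mem hg)) y
    have h2 : Cfsg.permRep K G Ω g⁻¹ v y = v (g⁻¹⁻¹ • y) := rfl
    rw [h2, inv_inv, hgy] at h1
    exact h1.symm
  show Submodule.span K {fun _ => (1:K)} ≤ W.toSubmodule
  rw [Submodule.span_singleton_le_iff_mem]
  have h3 : (fun _ : Ω => (1:K)) = (v x)⁻¹ • v := by
    funext y
    show 1 = (v x)⁻¹ * v y
    rw [hconst y, inv_mul_cancel₀ hx]
  rw [h3]
  exact W.toSubmodule.smul_mem _ hv

end Cfsg.Agent.Helper2.PConst
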