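import Mathlib
import Cfsg.Agent.Helper2.PConst

/-! Heart of a permutation module without trivial factors: two-transitivity. -/

set_option autoImplicit false

namespace Cfsg.Agent.Helper2.Heart2

open Cfsg

universe u v w

section adj

variable (G : Type u) [Group G] (K : Type v) [Field K] {Ω : Type w} [MulAction G Ω]

/-- the orbital indicator of the pair `(a, b)` -/
noncomputable def adjM (a b x y : Ω) : K := by
  classical
  exact if ∃ g : G, g • a = x ∧ g • b = y then 1 else 0

theorem adjM_pos (a b x y : Ω) (h : ∃ g : G, g • a = x ∧ g • b = y) : adjM G K a b x y = 1 := by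
  unfold adjM
  exact if_pos h

theorem adjM_neg (a b x y : Ω) (h : ¬ ∃ g : G, g • a = x ∧ g • b = y) :
    adjM G K a b x y = 0 := by
  unfold adjM
  exact if_neg h

theorem adjM_inv (a b x y : Ω) (g : G) : adjM G K a b (g • x) (g • y) = adjM G K a b x y := by
  by_cases h : ∃ k : G, k • a = x ∧ k • b = y
  · rw [adjM_pos G K a b x y h]
    obtain ⟨k, rfl, rfl⟩ := h
    exact adjM_pos G K a b _ _ ⟨g * k, mul_smul _ _ _, mul_smul _ _ _⟩
  · rw [adjM_neg G K a b x y h]
    apply adjM_neg
    rintro ⟨k, h1, h2⟩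
    apply h
    refine ⟨g⁻¹ * k, ?_, ?_⟩
    · rw [mul_smul, h1, inv_smul_smul]
    · rw [mul_smul, h2, inv_smul_smul]

variable [Fintype Ω]

/-- orbital operator minus its row sum -/
noncomputable def T (a b : Ω) : (Ω → K) →ₗ[K] (Ω → K) where
  toFun := fun v x => ∑ y, adjM G K a b x y * v y - (∑ y, adjM G K a b a y) * v x
  map_add' := by
    intro v v'
    funext x
    show ∑ y, adjM G K a b x y * (v y + v' y) - (∑ y, adjM G K a b a y) * (v x + v' x)
      = (∑ y, adjM G K a b x y * v y - (∑ y, adjM G K a b a y) * v x)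
        + (∑ y, adjM G K a b x y * v' y - (∑ y, adjM G K a b a y) * v' x)
    simp only [mul_add, Finset.sum_add_distrib]
    ring
  map_smul' := by
    intro c v
    funext x
    show ∑ y, adjM G K a b x y * (c * v y) - (∑ y, adjM G K a b a y) * (c * v x)
      = c * (∑ y, adjM G K a b x y * v y - (∑ y, adjM G K a b a y) * v x)
    rw [mul_sub, Finset.mul_sum]
    congr 1
    · exact Finset.sum_congr rfl (fun y _ => by ring)
    · ring

theorem T_apply (a b : Ω) (v : Ω → K) (x : Ω) :
    T G K a b v x = ∑ y, adjM G K a b x y * v y - (∑ y, adjM G K a b a y) * v x := rfl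

theorem T_equiv (a b : Ω) (g : G) (v : Ω → K) :
    T G K a b (Cfsg.permRep K G Ω g v) = Cfsg.permRep K G Ω g (T G K a b v) := by
  funext x
  show T G K a b (Cfsg.permRep K G Ω g v) x = T G K a b v (g⁻¹ • x)
  rw [T_apply, T_apply]
  show ∑ y, adjM G K a b x y * v (g⁻¹ • y) - (∑ y, adjM G K a b a y) * v (g⁻¹ • x)
    = ∑ y, adjM G K a b (g⁻¹ • x) y * v y - (∑ y, adjM G K a b a y) * v (g⁻¹ • x)
  congr 1
  refine Fintype.sum_equiv (MulAction.toPerm g⁻¹) _ _ (fun y => ?_)
  show adjM G K a b x y * v (g⁻¹ • y) = adjM G K a b (g⁻¹ • x) (g⁻¹ • y) * v (g⁻¹ • y)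
  rw [adjM_inv]

theorem T_one [MulAction.IsPretransitive G Ω] (a b : Ω) :
    T G K a b (fun _ => (1:K)) = 0 := by
  funext x
  rw [T_apply]
  obtain ⟨g, rfl⟩ := MulAction.exists_smul_eq G a x
  have h : ∑ y, adjM G K a b (g • a) y * (1:K) = ∑ y, adjM G K a b a y := by
    symm
    refine Fintype.sum_equiv (MulAction.toPerm g) _ _ (fun y => ?_)
    show adjM G K a b a y = adjM G K a b (g • a) (g • y) * 1
    rw [adjM_inv, mul_one]
  rw [h, mul_one, sub_self]
  rfl

theorem T_entry [DecidableEq Ω] (a b x y : Ω) (hxy : x ≠ y) :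
    T G K a b (Pi.single y 1) x = adjM G K a b x y := by
  rw [T_apply]
  have h1 : ∑ z, adjM G K a b x z * (Pi.single y (1:K) : Ω → K) z = adjM G K a b x y := by
    rw [Finset.sum_eq_single y]
    · rw [Pi.single_eq_same, mul_one]
    · intro z _ hz
      rw [Pi.single_eq_of_ne hz, mul_zero]
    · intro hy
      exact absurd (Finset.mem_univ y) hy
  rw [h1, Pi.single_eq_of_ne hxy, mul_zero, sub_zero]

end adj

section main

variable {G : Type u} [Group G] [Finite G] {K : Type v} [Field K] {p f : ℕ} [Fact p.Prime]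
  [CharP K p] {Ω : Type w} [Fintype Ω] [MulAction G Ω] [MulAction.IsPretransitive G Ω]

/-- the dual of S0670: a subrepresentation not inside the sum-zero functions is everything -/
theorem dual (hcard : Fintype.card Ω = p ^ f) (N : Subrepresentation (Cfsg.permRep K G Ω))
    (hN : ¬ N.toSubmodule ≤ (Cfsg.permSumZero K G Ω).toSubmodule) : N.toSubmodule = ⊤ := by
  classical
  by_contra hne
  obtain ⟨φ, hφ0, hφ⟩ := Submodule.exists_le_ker_of_lt_top N.toSubmodule (lt_top_iff_ne_top.mpr hne)
  have hφsum : ∀ v : Ω → K, φ v = ∑ x, v x * φ (Pi.single x 1) := by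
    intro v
    have h := LinearMap.pi_apply_eq_sum_univ φ v
    rw [h]
    refine Finset.sum_congr rfl (fun x _ => ?_)
    have h2 : (fun j => if x = j then (1:K) else 0) = Pi.single x 1 := by
      funext j
      rw [Pi.single_apply]
      simp only [eq_comm]
    rw [h2]; rfl
  let Nperp : Subrepresentation (Cfsg.permRep K G Ω) :=
    { toSubmodule :=
        { carrier := {u | ∀ n ∈ N.toSubmodule, ∑ x, n x * u x = 0}
          add_mem' := by
            intro u u' hu hu' n hn
            have h1 := hu n hn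
            have h2 := hu' n hn
            show ∑ x, n x * (u x + u' x) = 0
            simp only [mul_add, Finset.sum_add_distrib]
            rw [h1, h2, add_zero]
          zero_mem' := by
            intro n _
            show ∑ x, n x * (0 : K) = 0
            simp
          smul_mem' := by
            intro c u hu n hn
            have h1 := hu n hn
            show ∑ x, n x * (c * u x) = 0
            have h2 : ∑ x, n x * (c * u x) = c * ∑ x, n x * u x := by
              rw [Finset.mul_sum]
              exact Finset.sum_congr rfl (fun x _ => by ring)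
            rw [h2, h1, mul_zero] }
      apply_mem_toSubmodule := by
        intro g u hu n hn
        have h1 := hu (Cfsg.permRep K G Ω g⁻¹ n) (N.apply_mem_toSubmodule g⁻¹ hn)
        show ∑ x, n x * u (g⁻¹ • x) = 0
        rw [← h1]
        refine Fintype.sum_equiv (MulAction.toPerm g⁻¹) _ _ (fun x => ?_)
        show n x * u (g⁻¹ • x) = n (g⁻¹⁻¹ • g⁻¹ • x) * u (g⁻¹ • x)
        rw [inv_inv, smul_inv_smul] }
  have hu : (fun x => φ (Pi.single x 1)) ∈ Nperp.toSubmodule := by
    intro n hn
    show ∑ x, n x * φ (Pi.single x 1) = 0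
    rw [← hφsum]
    exact hφ hn
  have hne' : Nperp.toSubmodule ≠ ⊥ := by
    intro hbot
    rw [hbot, Submodule.mem_bot] at hu
    apply hφ0
    apply LinearMap.ext
    intro v
    rw [hφsum]
    have h2 : ∀ x, φ (Pi.single x 1) = 0 := fun x => congrFun hu x
    simp only [h2, mul_zero, Finset.sum_const_zero, LinearMap.zero_apply]
  have h1 := PConst.main hcard Nperp hne'
  have h2 : (fun _ : Ω => (1:K)) ∈ Nperp.toSubmodule :=
    h1 (Submodule.mem_span_singleton_self _)
  apply hN
  intro n hn
  have h3 := h2 n hn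
  show ∑ x, n x = 0
  rw [← h3]
  exact Finset.sum_congr rfl (fun x _ => (mul_one _).symm)

theorem main (hf : 1 ≤ f) (hcard : Fintype.card Ω = p ^ f)
    (h : ∀ W W' : Subrepresentation (Cfsg.permRep K G Ω),
      (Cfsg.permConstants K G Ω).toSubmodule ≤ W.toSubmodule →
      W.toSubmodule < W'.toSubmodule →
      W'.toSubmodule ≤ (Cfsg.permSumZero K G Ω).toSubmodule →
      ∃ g : G, ∃ v ∈ W'.toSubmodule, Cfsg.permRep K G Ω g v - v ∉ W.toSubmodule) :
    MulAction.IsMultiplyPretransitive G Ω 2 := by
  classical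
  rw [MulAction.is_two_pretransitive_iff]
  intro a b c d hab hcd
  by_contra hno
  have hp : p.Prime := Fact.out
  have hpK : (p : K) = 0 := CharP.cast_eq_zero K p
  have hcardK : (Fintype.card Ω : K) = 0 := by
    rw [hcard, Nat.cast_pow, hpK, zero_pow (by omega)]
  have hCmem : ∀ v : Ω → K, v ∈ (Cfsg.permConstants K G Ω).toSubmodule ↔ ∃ k : K, k • (fun _ : Ω => (1:K)) = v := by
    intro v
    exact Submodule.mem_span_singleton
  have hSmem : ∀ v : Ω → K, v ∈ (Cfsg.permSumZero K G Ω).toSubmodule ↔ ∑ x, v x = 0 :=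
    fun v => Iff.rfl
  have hCS : (Cfsg.permConstants K G Ω).toSubmodule ≤ (Cfsg.permSumZero K G Ω).toSubmodule := by
    intro v hv
    obtain ⟨k, rfl⟩ := (hCmem v).mp hv
    rw [hSmem]
    show ∑ x : Ω, k * (1:K) = 0
    rw [Finset.sum_const, Finset.card_univ, nsmul_eq_mul, hcardK, zero_mul]
  obtain ⟨T, hT⟩ : ∃ T : (Ω → K) →ₗ[K] (Ω → K), T = Heart2.T G K a b := ⟨_, rfl⟩
  have hTeq : ∀ g v, T (Cfsg.permRep K G Ω g v) = Cfsg.permRep K G Ω g (T v) := by
    intro g v; rw [hT]; exact T_equiv G K a b g v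
  have hT1 : T (fun _ => (1:K)) = 0 := by rw [hT]; exact T_one G K a b
  -- the range of T lies in the sum-zero functions
  let R : Subrepresentation (Cfsg.permRep K G Ω) :=
    { toSubmodule := LinearMap.range T
      apply_mem_toSubmodule := by
        rintro g _ ⟨m, rfl⟩
        exact ⟨Cfsg.permRep K G Ω g m, hTeq g m⟩ }
  have hrange : LinearMap.range T ≤ (Cfsg.permSumZero K G Ω).toSubmodule := by
    by_contra hcon
    have h1 : R.toSubmodule = ⊤ := dual hcard R hcon
    have h2 : Function.Surjective T := LinearMap.range_eq_top.mp h1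
    have h3 : Function.Injective T := LinearMap.injective_iff_surjective.mpr h2
    have h4 : (fun _ : Ω => (1:K)) = 0 := h3 (by rw [hT1, map_zero])
    exact one_ne_zero (congrFun h4 a)
  let W : Subrepresentation (Cfsg.permRep K G Ω) :=
    { toSubmodule := Submodule.map T (Cfsg.permSumZero K G Ω).toSubmodule
        ⊔ (Cfsg.permConstants K G Ω).toSubmodule
      apply_mem_toSubmodule := by
        intro g v hv
        obtain ⟨_, ⟨m, hm, rfl⟩, c, hc, rfl⟩ := Submodule.mem_sup.mp hv
        rw [map_add]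
        refine Submodule.add_mem _ (Submodule.mem_sup_left ?_) (Submodule.mem_sup_right ?_)
        · exact ⟨Cfsg.permRep K G Ω g m,
            (Cfsg.permSumZero K G Ω).apply_mem_toSubmodule g hm, hTeq g m⟩
        · exact (Cfsg.permConstants K G Ω).apply_mem_toSubmodule g hc }
  let W' : Subrepresentation (Cfsg.permRep K G Ω) :=
    { toSubmodule := LinearMap.range T ⊔ (Cfsg.permConstants K G Ω).toSubmodule
      apply_mem_toSubmodule := by
        intro g v hv
        obtain ⟨_, ⟨m, rfl⟩, c, hc, rfl⟩ := Submodule.mem_sup.mp hv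
        rw [map_add]
        refine Submodule.add_mem _ (Submodule.mem_sup_left ?_) (Submodule.mem_sup_right ?_)
        · exact ⟨Cfsg.permRep K G Ω g m, hTeq g m⟩
        · exact (Cfsg.permConstants K G Ω).apply_mem_toSubmodule g hc }
  have hWle : W.toSubmodule ≤ W'.toSubmodule :=
    sup_le_sup_right (LinearMap.map_le_range) _
  have hWW' : W.toSubmodule = W'.toSubmodule := by
    by_contra hne
    obtain ⟨g, v, hv, hnot⟩ := h W W' le_sup_right (lt_of_le_of_ne hWle hne)
      (sup_le hrange hCS)
    apply hnot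
    obtain ⟨_, ⟨m, rfl⟩, c, hc, rfl⟩ := Submodule.mem_sup.mp hv
    obtain ⟨k, rfl⟩ := (hCmem c).mp hc
    have h1 : Cfsg.permRep K G Ω g (T m + k • (fun _ : Ω => (1:K))) - (T m + k • (fun _ : Ω => (1:K)))
        = T (Cfsg.permRep K G Ω g m - m) := by
      rw [map_add, map_sub, hTeq]
      have h2 : Cfsg.permRep K G Ω g (k • (fun _ : Ω => (1:K))) = k • (fun _ : Ω => (1:K)) := rfl
      rw [h2]
      abel
    rw [h1]
    refine Submodule.mem_sup_left ⟨_, (hSmem _).mpr ?_, rfl⟩
    show ∑ x, (m (g⁻¹ • x) - m x) = 0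
    rw [Finset.sum_sub_distrib, sub_eq_zero]
    exact Fintype.sum_equiv (MulAction.toPerm g⁻¹) _ _ (fun x => rfl)
  -- a vector outside the sum-zero functions mapped into the constants
  have hmem : T (Pi.single a 1) ∈ W.toSubmodule := by
    rw [hWW']
    exact Submodule.mem_sup_left ⟨_, rfl⟩
  obtain ⟨_, ⟨s, hs, rfl⟩, cv, hc, hsc⟩ := Submodule.mem_sup.mp hmem
  let N : Subrepresentation (Cfsg.permRep K G Ω) :=
    { toSubmodule := Submodule.comap T (Cfsg.permConstants K G Ω).toSubmodule
      apply_mem_toSubmodule := by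
        intro g v hv
        rw [Submodule.mem_comap] at hv ⊢
        rw [hTeq]
        exact (Cfsg.permConstants K G Ω).apply_mem_toSubmodule g hv }
  have hNtop : N.toSubmodule = ⊤ := by
    apply dual hcard N
    intro hle
    have h1 : (Pi.single a 1 - s : Ω → K) ∈ N.toSubmodule := by
      show T (Pi.single a 1 - s) ∈ (Cfsg.permConstants K G Ω).toSubmodule
      rw [map_sub, ← hsc, add_sub_cancel_left]
      exact hc
    have h2 := (hSmem _).mp (hle h1)
    have hs := (hSmem _).mp hs
    have h3 : ∑ x, (Pi.single a 1 - s : Ω → K) x = 1 := by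
      show ∑ x, ((Pi.single a (1:K) : Ω → K) x - s x) = 1
      rw [Finset.sum_sub_distrib, hs, sub_zero, Finset.sum_pi_single']
      simp
    rw [h3] at h2
    exact one_ne_zero h2
  have hd : T (Pi.single d 1) ∈ (Cfsg.permConstants K G Ω).toSubmodule := by
    have h1 : (Pi.single d 1 : Ω → K) ∈ N.toSubmodule := by rw [hNtop]; exact Submodule.mem_top
    exact h1
  obtain ⟨k, hk⟩ := (hCmem _).mp hd
  have hk0 : k = 0 := by
    have h1 := congrFun hk c
    rw [hT, T_entry G K a b c d hcd, adjM_neg G K a b c d hno] at h1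
    have h2 : (k • (fun _ : Ω => (1:K))) c = k := mul_one k
    rw [h2] at h1
    exact h1
  obtain ⟨g, hg⟩ := MulAction.exists_smul_eq G b d
  have hne : g • a ≠ d := by
    rw [← hg]
    intro h1
    exact hab (smul_left_cancel g h1)
  have h1 := congrFun hk (g • a)
  rw [hT, T_entry G K a b (g • a) d hne, adjM_pos G K a b (g • a) d ⟨g, rfl, hg⟩] at h1
  have h2 : (k • (fun _ : Ω => (1:K))) (g • a) = k := mul_one k
  rw [h2, hk0] at h1
  exact zero_ne_one h1

end main

end Cfsg.Agent.Helper2.Heart2
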