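import Mathlib
import Cfsg.Prelude.Def_Perm

/-! Triple transitivity from the vanishing of equivariant maps from the heart to the
permutation module on unordered pairs. -/

set_option autoImplicit false

namespace Cfsg.Agent.Helper2.Heart3

open Cfsg

open scoped Pointwise

universe u v w

variable {G : Type u} [Group G] {K : Type v} [Field K] {Ω : Type w} [Fintype Ω] [DecidableEq Ω]
  [MulAction G Ω]

/-- weighted incidence map from functions on points to functions on pairs -/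
noncomputable def T (wt : Set.powersetCard Ω 2 → Ω → K) :
    (Ω → K) →ₗ[K] (Set.powersetCard Ω 2 → K) where
  toFun f s := ∑ c, wt s c * f c
  map_add' f g := by
    funext s
    simp only [Pi.add_apply, mul_add, Finset.sum_add_distrib]
  map_smul' κ f := by
    funext s
    simp only [Pi.smul_apply, smul_eq_mul, RingHom.id_apply, Finset.mul_sum]
    refine Finset.sum_congr rfl (fun c _ => ?_)
    ring

theorem T_apply (wt : Set.powersetCard Ω 2 → Ω → K) (f : Ω → K) (s : Set.powersetCard Ω 2) :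
    T wt f s = ∑ c, wt s c * f c := rfl

theorem T_equiv (wt : Set.powersetCard Ω 2 → Ω → K)
    (hwt : ∀ (g : G) (s : Set.powersetCard Ω 2) (c : Ω), wt (g • s) (g • c) = wt s c) (g : G)
    (f : Ω → K) :
    T wt (Cfsg.permRep K G Ω g f) = Cfsg.permRep K G (Set.powersetCard Ω 2) g (T wt f) := by
  funext s
  show ∑ c, wt s c * f (g⁻¹ • c) = ∑ c, wt (g⁻¹ • s) c * f c
  refine Fintype.sum_equiv (MulAction.toPerm g⁻¹) _ _ (fun c => ?_)
  show wt s c * f (g⁻¹ • c) = wt (g⁻¹ • s) (g⁻¹ • c) * f (g⁻¹ • c)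
  rw [hwt]

theorem main [Finite G] {p : ℕ} [Fact p.Prime] [CharP K p] [FaithfulSMul G Ω]
    (h2 : MulAction.IsMultiplyPretransitive G Ω 2)
    (heven : ∀ a : Ω, Even (Nat.card (MulAction.stabilizer G a)))
    (h : ∀ f : Representation.IntertwiningMap (Cfsg.permSumZero K G Ω).toRepresentation
        (Cfsg.permRep K G (Set.powersetCard Ω 2)),
      (∀ v : (Cfsg.permSumZero K G Ω).toSubmodule,
        (v : Ω → K) ∈ (Cfsg.permConstants K G Ω).toSubmodule → f v = 0) → f = 0) :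
    MulAction.IsMultiplyPretransitive G Ω 3 := by
  classical
  by_contra h3
  have h3' : ∃ x y : Fin 3 ↪ Ω, ¬ ∃ g : G, g • x = y := by
    by_contra hcon
    push_neg at hcon
    exact h3 ⟨fun x y => hcon x y⟩
  obtain ⟨x, y, hxy⟩ := h3'
  obtain ⟨a₀, ha₀⟩ : ∃ a₀ : Ω, a₀ = x 2 := ⟨_, rfl⟩
  have h2dvd : 2 ∣ Nat.card (MulAction.stabilizer G a₀) := (heven a₀).two_dvd
  haveI : Fact (Nat.Prime 2) := ⟨Nat.prime_two⟩
  obtain ⟨t, ht⟩ := exists_prime_orderOf_dvd_card' 2 h2dvd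
  have htfix : (t : G) • a₀ = a₀ := t.2
  have htne : (t : G) ≠ 1 := by
    intro h1
    have : t = 1 := Subtype.ext h1
    rw [this, orderOf_one] at ht
    omega
  have htsq : (t : G) * (t : G) = 1 := by
    have h1 : t ^ 2 = 1 := by rw [← ht]; exact pow_orderOf_eq_one t
    have h2' : ((t ^ 2 : MulAction.stabilizer G a₀) : G) = 1 := by rw [h1]; rfl
    rw [← h2', pow_two]
    rfl
  obtain ⟨b₀, hb₀⟩ : ∃ b₀ : Ω, (t : G) • b₀ ≠ b₀ := by
    by_contra hcon
    push_neg at hcon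
    exact htne (FaithfulSMul.eq_of_smul_eq_smul (α := Ω) (fun b => by rw [hcon b, one_smul]))
  obtain ⟨b₁, hb₁⟩ : ∃ b₁ : Ω, b₁ = (t : G) • b₀ := ⟨_, rfl⟩
  have hb₁₀ : b₁ ≠ b₀ := by rw [hb₁]; exact hb₀
  have htb₁ : (t : G) • b₁ = b₀ := by rw [hb₁, ← mul_smul, htsq, one_smul]
  have htb₀ : (t : G) • b₀ = b₁ := hb₁.symm
  have ha₀b₀ : a₀ ≠ b₀ := by
    intro h1
    apply hb₀
    rw [← h1]
    exact htfix
  have ha₀b₁ : a₀ ≠ b₁ := by
    intro h1
    apply ha₀b₀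
    rw [← htb₁, ← h1, htfix]
  obtain ⟨s₀, hs₀⟩ : ∃ s₀ : Set.powersetCard Ω 2, (s₀ : Finset Ω) = {b₀, b₁} :=
    ⟨⟨{b₀, b₁}, Finset.card_pair (Ne.symm hb₁₀)⟩, rfl⟩
  have hmem₀ : ∀ c : Ω, c ∈ (s₀ : Finset Ω) ↔ c = b₀ ∨ c = b₁ := by
    intro c
    rw [hs₀, Finset.mem_insert, Finset.mem_singleton]
  have hsmul_mem : ∀ (g : G) (s : Set.powersetCard Ω 2) (c : Ω),
      g • c ∈ ((g • s : Set.powersetCard Ω 2) : Finset Ω) ↔ c ∈ (s : Finset Ω) := by
    intro g s c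
    rw [Set.powersetCard.coe_smul, Finset.smul_mem_smul_finset_iff]
  -- elements stabilizing the pair
  have hF1 : ∀ (g : G) (d : Ω), g • s₀ = s₀ → g • d = a₀ →
      ∃ u : G, u • b₀ = b₀ ∧ u • b₁ = b₁ ∧ u • d = a₀ := by
    intro g d hg hd
    have e0 : g • b₀ ∈ (s₀ : Finset Ω) := by
      have := (hsmul_mem g s₀ b₀).mpr ((hmem₀ b₀).mpr (Or.inl rfl))
      rwa [hg] at this
    have e1 : g • b₁ ∈ (s₀ : Finset Ω) := by
      have := (hsmul_mem g s₀ b₁).mpr ((hmem₀ b₁).mpr (Or.inr rfl))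
      rwa [hg] at this
    rw [hmem₀] at e0 e1
    have hinj : g • b₁ ≠ g • b₀ := fun h1 => hb₁₀ (smul_left_cancel g h1)
    rcases e0 with e0 | e0
    · rcases e1 with e1 | e1
      · exact absurd (e1.trans e0.symm) hinj
      · exact ⟨g, e0, e1, hd⟩
    · rcases e1 with e1 | e1
      · refine ⟨(t : G) * g, ?_, ?_, ?_⟩
        · rw [mul_smul, e0, htb₁]
        · rw [mul_smul, e1, htb₀]
        · rw [mul_smul, hd, htfix]
      · exact absurd (e1.trans e0.symm) hinj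
  -- a second orbit on flags
  obtain ⟨d, hd₀, hd₁, hd⟩ : ∃ d : Ω, d ≠ b₀ ∧ d ≠ b₁ ∧ ¬ ∃ g : G, g • s₀ = s₀ ∧ g • d = a₀ := by
    by_contra hcon
    push_neg at hcon
    apply hxy
    have hU : ∀ d : Ω, d ≠ b₀ → d ≠ b₁ → ∃ u : G, u • b₀ = b₀ ∧ u • b₁ = b₁ ∧ u • d = a₀ := by
      intro d h0 h1
      obtain ⟨g, hg, hgd⟩ := hcon d h0 h1
      exact hF1 g d hg hgd
    have hx01 : x 0 ≠ x 1 := fun h1 => by
      have := x.injective h1
      exact absurd this (by decide)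
    have hy01 : y 0 ≠ y 1 := fun h1 => by
      have := y.injective h1
      exact absurd this (by decide)
    obtain ⟨g₁, hg₁0, hg₁1⟩ := MulAction.is_two_pretransitive_iff.mp h2 hx01 (Ne.symm hb₁₀)
    obtain ⟨g₂, hg₂0, hg₂1⟩ := MulAction.is_two_pretransitive_iff.mp h2 hy01 (Ne.symm hb₁₀)
    have hx2 : g₁ • x 2 ≠ b₀ ∧ g₁ • x 2 ≠ b₁ := by
      constructor
      · intro h1
        have := x.injective (smul_left_cancel g₁ (h1.trans hg₁0.symm))
        exact absurd this (by decide)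
      · intro h1
        have := x.injective (smul_left_cancel g₁ (h1.trans hg₁1.symm))
        exact absurd this (by decide)
    have hy2 : g₂ • y 2 ≠ b₀ ∧ g₂ • y 2 ≠ b₁ := by
      constructor
      · intro h1
        have := y.injective (smul_left_cancel g₂ (h1.trans hg₂0.symm))
        exact absurd this (by decide)
      · intro h1
        have := y.injective (smul_left_cancel g₂ (h1.trans hg₂1.symm))
        exact absurd this (by decide)
    obtain ⟨u₁, hu₁0, hu₁1, hu₁2⟩ := hU _ hx2.1 hx2.2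
    obtain ⟨u₂, hu₂0, hu₂1, hu₂2⟩ := hU _ hy2.1 hy2.2
    refine ⟨g₂⁻¹ * u₂⁻¹ * u₁ * g₁, ?_⟩
    apply DFunLike.ext
    intro i
    rw [Function.Embedding.smul_apply, mul_smul, mul_smul, mul_smul]
    fin_cases i
    · show g₂⁻¹ • u₂⁻¹ • u₁ • g₁ • x 0 = y 0
      rw [hg₁0, hu₁0, inv_smul_eq_iff.mpr hu₂0.symm, inv_smul_eq_iff.mpr hg₂0.symm]
    · show g₂⁻¹ • u₂⁻¹ • u₁ • g₁ • x 1 = y 1
      rw [hg₁1, hu₁1, inv_smul_eq_iff.mpr hu₂1.symm, inv_smul_eq_iff.mpr hg₂1.symm]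
    · show g₂⁻¹ • u₂⁻¹ • u₁ • g₁ • x 2 = y 2
      rw [hu₁2, inv_smul_eq_iff.mpr hu₂2.symm, inv_smul_eq_iff]
  -- the weights
  obtain ⟨m₁, hm₁⟩ : ∃ m₁ : K, m₁
      = ((Finset.univ.filter (fun c : Ω => ∃ g : G, g • s₀ = s₀ ∧ g • c = a₀)).card : K) :=
    ⟨_, rfl⟩
  obtain ⟨xx, yy, hne, hrel⟩ : ∃ xx yy : K, (xx ≠ 0 ∨ yy ≠ 0) ∧ 2 * xx + m₁ * yy = 0 := by
    by_cases hc : m₁ = 0 ∧ (2 : K) = 0
    · exact ⟨1, 0, Or.inl one_ne_zero, by rw [hc.1, hc.2]; ring⟩
    · refine ⟨m₁, -2, ?_, by ring⟩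
      by_contra hcon
      push_neg at hcon
      exact hc ⟨hcon.1, neg_eq_zero.mp hcon.2⟩
  obtain ⟨wt, hwtdef⟩ : ∃ wt : Set.powersetCard Ω 2 → Ω → K, ∀ s c, wt s c
      = xx * (if c ∈ (s : Finset Ω) then 1 else 0)
        + yy * (if ∃ g : G, g • s = s₀ ∧ g • c = a₀ then 1 else 0) :=
    ⟨fun s c => xx * (if c ∈ (s : Finset Ω) then 1 else 0)
        + yy * (if ∃ g : G, g • s = s₀ ∧ g • c = a₀ then 1 else 0), fun s c => rfl⟩
  have hwt : ∀ (g : G) (s : Set.powersetCard Ω 2) (c : Ω), wt (g • s) (g • c) = wt s c := by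
    intro g s c
    rw [hwtdef, hwtdef]
    have hex : (∃ k : G, k • g • s = s₀ ∧ k • g • c = a₀) ↔ (∃ k : G, k • s = s₀ ∧ k • c = a₀) := by
      constructor
      · rintro ⟨k, h1, h2'⟩
        exact ⟨k * g, by rw [mul_smul]; exact h1, by rw [mul_smul]; exact h2'⟩
      · rintro ⟨k, h1, h2'⟩
        exact ⟨k * g⁻¹, by rw [mul_smul, inv_smul_smul]; exact h1,
          by rw [mul_smul, inv_smul_smul]; exact h2'⟩
    simp only [hsmul_mem, hex]
  -- row sums
  have hrow₀ : ∑ c, wt s₀ c = 0 := by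
    have e1 : ∑ c : Ω, (if c ∈ (s₀ : Finset Ω) then (1 : K) else 0) = 2 := by
      rw [Finset.sum_boole, Finset.filter_mem_eq_inter, Finset.univ_inter, hs₀,
        Finset.card_pair (Ne.symm hb₁₀)]
      norm_num
    have e2 : ∑ c : Ω, (if ∃ g : G, g • s₀ = s₀ ∧ g • c = a₀ then (1 : K) else 0) = m₁ := by
      rw [Finset.sum_boole, hm₁]
    rw [Finset.sum_congr rfl (fun c _ => hwtdef s₀ c), Finset.sum_add_distrib, ← Finset.mul_sum,
      ← Finset.mul_sum, e1, e2]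
    linear_combination hrel
  haveI : MulAction.IsPretransitive G (Set.powersetCard Ω 2) :=
    Set.powersetCard.isPretransitive_of_isMultiplyPretransitive (G := G) h2
  have hrow : ∀ s : Set.powersetCard Ω 2, ∑ c, wt s c = 0 := by
    intro s
    obtain ⟨g, hg⟩ := MulAction.exists_smul_eq G s s₀
    rw [← hrow₀]
    refine Fintype.sum_equiv (MulAction.toPerm g) _ _ (fun c => ?_)
    show wt s c = wt s₀ (g • c)
    rw [← hg, hwt]
  -- the intertwining map
  have hFeq : ∀ (g : G) (v : (Cfsg.permSumZero K G Ω).toSubmodule),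
      (T wt ∘ₗ (Cfsg.permSumZero K G Ω).toSubmodule.subtype)
        ((Cfsg.permSumZero K G Ω).toRepresentation g v)
      = Cfsg.permRep K G (Set.powersetCard Ω 2) g
        ((T wt ∘ₗ (Cfsg.permSumZero K G Ω).toSubmodule.subtype) v) := by
    intro g v
    exact T_equiv wt hwt g (v : Ω → K)
  have hψ0 := h ⟨T wt ∘ₗ (Cfsg.permSumZero K G Ω).toSubmodule.subtype,
    fun g => LinearMap.ext (fun v => hFeq g v)⟩ (by
      intro v hv
      obtain ⟨κ, hκ⟩ := Submodule.mem_span_singleton.mp hv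
      show T wt (v : Ω → K) = 0
      funext s
      rw [T_apply, ← hκ]
      show ∑ c, wt s c * (κ * 1) = 0
      rw [← Finset.sum_mul, hrow, zero_mul])
  have heval : ∀ v : (Cfsg.permSumZero K G Ω).toSubmodule, T wt (v : Ω → K) s₀ = 0 := by
    intro v
    exact congrArg (fun f : Representation.IntertwiningMap
      (Cfsg.permSumZero K G Ω).toRepresentation (Cfsg.permRep K G (Set.powersetCard Ω 2)) =>
        f v s₀) hψ0
  have hsz : ∀ c₁ c₂ : Ω, (Pi.single c₁ (1 : K) - Pi.single c₂ 1 : Ω → K)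
      ∈ (Cfsg.permSumZero K G Ω).toSubmodule := by
    intro c₁ c₂
    show ∑ x, (Pi.single c₁ (1 : K) - Pi.single c₂ 1 : Ω → K) x = 0
    simp [Finset.sum_sub_distrib]
  have hTdiff : ∀ c₁ c₂ : Ω, T wt (Pi.single c₁ (1 : K) - Pi.single c₂ 1 : Ω → K) s₀
      = wt s₀ c₁ - wt s₀ c₂ := by
    intro c₁ c₂
    rw [T_apply]
    simp [mul_sub, Finset.sum_sub_distrib, Pi.single_apply]
  have hw_a : wt s₀ a₀ = yy := by
    rw [hwtdef, if_neg, if_pos ⟨1, one_smul _ _, one_smul _ _⟩]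
    · ring
    · rw [hmem₀]
      push_neg
      exact ⟨ha₀b₀, ha₀b₁⟩
  have hw_d : wt s₀ d = 0 := by
    rw [hwtdef, if_neg, if_neg hd]
    · ring
    · rw [hmem₀]
      push_neg
      exact ⟨hd₀, hd₁⟩
  have hw_b : wt s₀ b₀ = xx := by
    rw [hwtdef, if_pos ((hmem₀ b₀).mpr (Or.inl rfl)), if_neg]
    · ring
    · rintro ⟨g, hg, hgb⟩
      have e0 : g • b₀ ∈ (s₀ : Finset Ω) := by
        have := (hsmul_mem g s₀ b₀).mpr ((hmem₀ b₀).mpr (Or.inl rfl))
        rwa [hg] at this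
      rw [hgb, hmem₀] at e0
      rcases e0 with e0 | e0
      · exact ha₀b₀ e0
      · exact ha₀b₁ e0
  have e1 := heval ⟨_, hsz a₀ d⟩
  have e2 := heval ⟨_, hsz b₀ a₀⟩
  rw [hTdiff] at e1 e2
  rw [hw_a, hw_d, sub_zero] at e1
  rw [hw_b, hw_a, e1, sub_zero] at e2
  rcases hne with h1 | h1
  · exact h1 e2
  · exact h1 e1

end Cfsg.Agent.Helper2.Heart3
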