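import Mathlib
import Cfsg.Prelude.Def_Characters

set_option autoImplicit false

namespace Cfsg.Agent.Helper2

universe u

variable {G : Type u} [Group G]

lemma extendByZero_mem (H : Subgroup G) (θ : H → ℂ) {y : G} (h : y ∈ H) :
    Cfsg.extendByZero H θ y = θ ⟨y, h⟩ := by
  unfold Cfsg.extendByZero
  exact (Subtype.val_injective).extend_apply θ 0 ⟨y, h⟩

lemma extendByZero_not_mem (H : Subgroup G) (θ : H → ℂ) {y : G} (h : y ∉ H) :
    Cfsg.extendByZero H θ y = 0 := by
  unfold Cfsg.extendByZero
  exact Function.extend_apply' _ _ _ (by rintro ⟨z, rfl⟩; exact h z.2)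

lemma extendByZero_coe (H : Subgroup G) (θ : H → ℂ) (y : H) :
    Cfsg.extendByZero H θ (y : G) = θ y := by
  unfold Cfsg.extendByZero
  exact (Subtype.val_injective).extend_apply θ 0 y

end Cfsg.Agent.Helper2
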