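import Mathlib

/-! Transfer into an abelian quotient `H/K`. -/

namespace Cfsg.Agent.Helper2.Transfer

open scoped IsMulCommutative

variable {G : Type*} [Group G]

/-- transfer into an abelian quotient `H/K`, evaluated at `g ∈ H` whose conjugates in `H` are
controlled mod `K` -/
theorem transfer_eq_pow_mod [Finite G] (H : Subgroup G) (K : Subgroup H) [K.Normal]
    [IsMulCommutative (H ⧸ K)] (g : G) (hgH : g ∈ H)
    (hctrl : ∀ (n : ℕ) (a : G) (ha : a⁻¹ * g ^ n * a ∈ H),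
      (⟨a⁻¹ * g ^ n * a, ha⟩ : H)⁻¹ * ⟨g, hgH⟩ ^ n ∈ K) :
    MonoidHom.transfer (QuotientGroup.mk' K) g = (QuotientGroup.mk' K ⟨g, hgH⟩) ^ H.index := by
  have : Fintype (Quotient (MulAction.orbitRel (Subgroup.zpowers g) (G ⧸ H))) :=
    Fintype.ofFinite _
  rw [Subgroup.index_eq_sum_minimalPeriod H g, ← Finset.prod_pow_eq_pow_sum,
    MonoidHom.transfer_eq_prod_quotient_orbitRel_zpowers_quot]
  apply Finset.prod_congr rfl
  intro q _
  rw [← map_pow]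
  exact QuotientGroup.eq.mpr (hctrl _ _ _)

theorem not_mem_commutator [Finite G] {p : ℕ} [Fact p.Prime] (H K : Subgroup G)
    (hKn : (K.subgroupOf H).Normal) (hab : ∀ x ∈ H, ∀ y ∈ H, x * y * x⁻¹ * y⁻¹ ∈ K)
    (hidx : Nat.Coprime p H.index) (g : G) (hgH : g ∈ H) (hgK : g ∉ K)
    (hgp : ∃ k : ℕ, orderOf g = p ^ k)
    (hctrl : ∀ (m : ℤ) (a : G), a * g ^ m * a⁻¹ ∈ H → (a * g ^ m * a⁻¹) * (g ^ m)⁻¹ ∈ K) :
    g ∉ commutator G := by
  haveI := hKn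
  haveI hcomm : IsMulCommutative (↥H ⧸ K.subgroupOf H) := by
    refine ⟨⟨fun a b => ?_⟩⟩
    induction a using QuotientGroup.induction_on with
    | H x =>
    induction b using QuotientGroup.induction_on with
    | H y =>
    rw [← QuotientGroup.mk_mul, ← QuotientGroup.mk_mul, QuotientGroup.eq, Subgroup.mem_subgroupOf]
    have := hab _ (inv_mem y.2) _ (inv_mem x.2)
    simpa [mul_assoc] using this
  intro hgc
  have hc : ∀ (n : ℕ) (a : G) (ha : a⁻¹ * g ^ n * a ∈ H),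
      (⟨a⁻¹ * g ^ n * a, ha⟩ : H)⁻¹ * ⟨g, hgH⟩ ^ n ∈ K.subgroupOf H := by
    intro n a ha
    have h1 := hctrl (n : ℤ) a⁻¹ (by rw [zpow_natCast, inv_inv]; exact ha)
    rw [zpow_natCast, inv_inv] at h1
    -- x y⁻¹ ∈ K, want x⁻¹ y ∈ K
    have hy : g ^ n ∈ H := pow_mem hgH n
    have h2 : (⟨(a⁻¹ * g ^ n * a) * (g ^ n)⁻¹, mul_mem ha (inv_mem hy)⟩ : H) ∈ K.subgroupOf H := by
      rw [Subgroup.mem_subgroupOf]; exact h1
    have h3 := hKn.conj_mem _ (inv_mem h2) (⟨a⁻¹ * g ^ n * a, ha⟩ : H)⁻¹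
    rw [Subgroup.mem_subgroupOf] at h3 ⊢
    have h4 : (a⁻¹ * g ^ n * a)⁻¹ * ((a⁻¹ * g ^ n * a) * (g ^ n)⁻¹)⁻¹ * (a⁻¹ * g ^ n * a)⁻¹⁻¹ =
        (a⁻¹ * g ^ n * a)⁻¹ * g ^ n := by group
    have h5 : ((⟨a⁻¹ * g ^ n * a, ha⟩ : H)⁻¹ *
        (⟨(a⁻¹ * g ^ n * a) * (g ^ n)⁻¹, mul_mem ha (inv_mem hy)⟩ : H)⁻¹ *
        (⟨a⁻¹ * g ^ n * a, ha⟩ : H)⁻¹⁻¹ : H) = (⟨a⁻¹ * g ^ n * a, ha⟩ : H)⁻¹ * ⟨g, hgH⟩ ^ n := by
      apply Subtype.ext
      simp only [Subgroup.coe_mul, Subgroup.coe_inv, Subgroup.coe_pow]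
      exact h4
    rw [← h5]
    exact h3
  have h1 := transfer_eq_pow_mod H (K.subgroupOf H) g hgH hc
  have h2 : MonoidHom.transfer (QuotientGroup.mk' (K.subgroupOf H)) g = 1 :=
    MonoidHom.mem_ker.mp (Abelianization.commutator_subset_ker _ hgc)
  rw [h2] at h1
  have h3 : g ^ H.index ∈ K := by
    have h4 : (QuotientGroup.mk' (K.subgroupOf H)) ((⟨g, hgH⟩ : H) ^ H.index) = 1 := by
      rw [map_pow]; exact h1.symm
    rw [QuotientGroup.mk'_apply, QuotientGroup.eq_one_iff, Subgroup.mem_subgroupOf] at h4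
    simpa using h4
  obtain ⟨k, hk⟩ := hgp
  have hcop : Nat.Coprime H.index (orderOf g) := by
    rw [hk]; exact (Nat.Coprime.pow_left k hidx).symm
  obtain ⟨m, hm⟩ := exists_pow_eq_self_of_coprime hcop
  apply hgK
  rw [← hm]
  exact pow_mem h3 m

end Cfsg.Agent.Helper2.Transfer
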