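import Mathlib
import Cfsg.Prelude.Def_Transfer
import Cfsg.Agent.Helper2.Transfer

/-! Control of fusion and the residual `O^p(G) G'`. -/

namespace Cfsg.Agent.Helper2.Transfer

open scoped IsMulCommutative
open scoped commutatorElement

variable {G : Type*} [Group G]

lemma normal_of_commutator_le {N : Subgroup G} (h : commutator G ≤ N) : N.Normal := by
  constructor
  intro n hn g
  have h1 : g * n * g⁻¹ * n⁻¹ ∈ commutator G := by
    rw [commutator_def]
    exact Subgroup.commutator_mem_commutator (Subgroup.mem_top g) (Subgroup.mem_top n)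
  have h2 : g * n * g⁻¹ = (g * n * g⁻¹ * n⁻¹) * n := by group
  rw [h2]
  exact mul_mem (h h1) hn

/-- the quotient by a normal subgroup containing `O^p(G)` is a `p`-group -/
lemma isPGroup_quot [Finite G] {p : ℕ} [Fact p.Prime] (N : Subgroup G) [N.Normal]
    (hN : Cfsg.pResidual p G ≤ N) : IsPGroup p (G ⧸ N) := by
  have hp := (Fact.out : p.Prime)
  intro x
  induction x using QuotientGroup.induction_on with
  | H g =>
  obtain ⟨k, m, hm, hkm⟩ := Nat.exists_eq_pow_mul_and_not_dvd (orderOf_pos g).ne' p hp.ne_one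
  refine ⟨k, ?_⟩
  rw [← QuotientGroup.mk_pow, QuotientGroup.eq_one_iff]
  apply hN
  apply Subgroup.subset_closure
  show Nat.Coprime (orderOf (g ^ p ^ k)) p
  have : orderOf (g ^ p ^ k) = m := by
    rw [orderOf_pow_of_dvd (pow_ne_zero k hp.ne_zero) (by rw [hkm]; exact dvd_mul_right _ _), hkm,
      Nat.mul_div_cancel_left _ (pow_pos hp.pos k)]
  rw [this]
  exact (hp.coprime_iff_not_dvd.mpr hm).symm

theorem ker_transfer_inter [Finite G] {p : ℕ} [Fact p.Prime] (H : Subgroup G)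
    (hidx : Nat.Coprime p H.index)
    (hfus : ∀ g ∈ H, (∃ k : ℕ, orderOf g = p ^ k) → ∀ a : G, a * g * a⁻¹ ∈ H →
      ∃ h ∈ H, h * g * h⁻¹ = a * g * a⁻¹)
    (K : Subgroup H) [K.Normal] [IsMulCommutative (H ⧸ K)] (hPG : IsPGroup p (H ⧸ K))
    (x : G) (hxH : x ∈ H) (hx : MonoidHom.transfer (QuotientGroup.mk' K) x = 1) :
    (⟨x, hxH⟩ : H) ∈ K := by
  have hp := (Fact.out : p.Prime)
  obtain ⟨k, m, hm, hkm⟩ := Nat.exists_eq_pow_mul_and_not_dvd (orderOf_pos x).ne' p hp.ne_one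
  have hm0 : m ≠ 0 := by rintro rfl; exact hm (dvd_zero p)
  have hyord : orderOf (x ^ m) = p ^ k := by
    rw [orderOf_pow_of_dvd hm0 (by rw [hkm]; exact dvd_mul_left _ _), hkm,
      Nat.mul_div_cancel _ (Nat.pos_of_ne_zero hm0)]
  have hyH : x ^ m ∈ H := pow_mem hxH m
  have hyV : MonoidHom.transfer (QuotientGroup.mk' K) (x ^ m) = 1 := by
    rw [map_pow, hx, one_pow]
  have hle : commutator H ≤ K :=
    Subgroup.Normal.quotient_commutative_iff_commutator_le.mp inferInstance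
  have hc : ∀ (n : ℕ) (a : G) (ha : a⁻¹ * (x ^ m) ^ n * a ∈ H),
      (⟨a⁻¹ * (x ^ m) ^ n * a, ha⟩ : H)⁻¹ * ⟨x ^ m, hyH⟩ ^ n ∈ K := by
    intro n a ha
    have hord : ∃ j, orderOf ((x ^ m) ^ n) = p ^ j := by
      have : orderOf ((x ^ m) ^ n) ∣ p ^ k := by rw [← hyord]; exact orderOf_pow_dvd n
      obtain ⟨j, -, hj⟩ := (Nat.dvd_prime_pow hp).mp this
      exact ⟨j, hj⟩
    obtain ⟨h, hh, hconj⟩ := hfus _ (pow_mem hyH n) hord a⁻¹ (by rw [inv_inv]; exact ha)
    rw [inv_inv] at hconj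
    have hcm : ⁅(⟨h, hh⟩ : H), ((⟨x ^ m, hyH⟩ : H) ^ n)⁻¹⁆ ∈ commutator H := by
      rw [commutator_def]
      exact Subgroup.commutator_mem_commutator (Subgroup.mem_top _) (Subgroup.mem_top _)
    have heq : (⟨a⁻¹ * (x ^ m) ^ n * a, ha⟩ : H)⁻¹ * ⟨x ^ m, hyH⟩ ^ n =
        ⁅(⟨h, hh⟩ : H), ((⟨x ^ m, hyH⟩ : H) ^ n)⁻¹⁆ := by
      apply Subtype.ext
      simp only [commutatorElement_def, Subgroup.coe_mul, Subgroup.coe_inv, Subgroup.coe_pow,
        inv_inv]
      rw [← hconj]; group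
    rw [heq]; exact hle hcm
  have h1 := transfer_eq_pow_mod H K (x ^ m) hyH hc
  rw [hyV] at h1
  obtain ⟨j, hj⟩ := hPG (QuotientGroup.mk' K ⟨x ^ m, hyH⟩)
  have hy1 : QuotientGroup.mk' K ⟨x ^ m, hyH⟩ = 1 := by
    have h2 := pow_gcd_eq_one.mpr ⟨h1.symm, hj⟩
    have h3 : Nat.gcd H.index (p ^ j) = 1 := (Nat.Coprime.pow_left j hidx).symm
    rw [h3, pow_one] at h2; exact h2
  obtain ⟨i, hi⟩ := hPG (QuotientGroup.mk' K ⟨x, hxH⟩)
  have hx1 : QuotientGroup.mk' K ⟨x, hxH⟩ = 1 := by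
    have h4 : (QuotientGroup.mk' K ⟨x, hxH⟩) ^ m = 1 := by
      rw [← map_pow]; exact hy1
    have h2 := pow_gcd_eq_one.mpr ⟨h4, hi⟩
    have h3 : Nat.gcd m (p ^ i) = 1 :=
      Nat.Coprime.pow_right i ((hp.coprime_iff_not_dvd.mpr hm).symm)
    rw [h3, pow_one] at h2; exact h2
  exact (QuotientGroup.eq_one_iff _).mp hx1

theorem residual_inter [Finite G] {p : ℕ} [Fact p.Prime] (H : Subgroup G)
    (hidx : Nat.Coprime p H.index)
    (hfus : ∀ g ∈ H, (∃ k : ℕ, orderOf g = p ^ k) → ∀ a : G, a * g * a⁻¹ ∈ H →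
      ∃ h ∈ H, h * g * h⁻¹ = a * g * a⁻¹) :
    (Cfsg.pResidual p G ⊔ commutator G) ⊓ H =
      (Cfsg.pResidual p ↥H ⊔ commutator ↥H).map H.subtype := by
  have hp := (Fact.out : p.Prime)
  haveI hKn : (Cfsg.pResidual p ↥H ⊔ commutator ↥H).Normal :=
    normal_of_commutator_le le_sup_right
  haveI hcomm : IsMulCommutative (↥H ⧸ (Cfsg.pResidual p ↥H ⊔ commutator ↥H)) :=
    Subgroup.Normal.quotient_commutative_iff_commutator_le.mpr le_sup_right
  have hPG : IsPGroup p (↥H ⧸ (Cfsg.pResidual p ↥H ⊔ commutator ↥H)) :=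
    isPGroup_quot _ le_sup_left
  apply le_antisymm
  · intro x hx
    obtain ⟨hx1, hxH⟩ := Subgroup.mem_inf.mp hx
    -- x lies in the kernel of the transfer
    have hker : Cfsg.pResidual p G ⊔ commutator G ≤
        (MonoidHom.transfer (QuotientGroup.mk' (Cfsg.pResidual p ↥H ⊔ commutator ↥H))).ker := by
      apply sup_le
      · have hdef : Cfsg.pResidual p G = Subgroup.closure {g : G | Nat.Coprime (orderOf g) p} :=
          rfl
        rw [hdef, Subgroup.closure_le]
        intro g hg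
        have hg' : Nat.Coprime (orderOf g) p := hg
        rw [SetLike.mem_coe, MonoidHom.mem_ker]
        obtain ⟨j, hj⟩ := hPG (MonoidHom.transfer
          (QuotientGroup.mk' (Cfsg.pResidual p ↥H ⊔ commutator ↥H)) g)
        have h1 : (MonoidHom.transfer
          (QuotientGroup.mk' (Cfsg.pResidual p ↥H ⊔ commutator ↥H)) g) ^ orderOf g = 1 := by
          rw [← map_pow, pow_orderOf_eq_one, map_one]
        have h2 := pow_gcd_eq_one.mpr ⟨h1, hj⟩
        have h3 : Nat.gcd (orderOf g) (p ^ j) = 1 := Nat.Coprime.pow_right j hg'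
        rw [h3, pow_one] at h2; exact h2
      · exact Abelianization.commutator_subset_ker _
    have h2 := ker_transfer_inter H hidx hfus (Cfsg.pResidual p ↥H ⊔ commutator ↥H) hPG x hxH
      (MonoidHom.mem_ker.mp (hker hx1))
    exact ⟨⟨x, hxH⟩, h2, rfl⟩
  · apply le_inf
    · rw [Subgroup.map_sup]
      apply sup_le_sup
      · have hdef : Cfsg.pResidual p G = Subgroup.closure {g : G | Nat.Coprime (orderOf g) p} :=
          rfl
        have hdef' : Cfsg.pResidual p ↥H =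
          Subgroup.closure {g : ↥H | Nat.Coprime (orderOf g) p} := rfl
        rw [hdef, hdef', MonoidHom.map_closure]
        apply Subgroup.closure_mono
        rintro _ ⟨h, hh, rfl⟩
        show Nat.Coprime (orderOf (h : G)) p
        rw [Subgroup.orderOf_coe]
        exact hh
      · rw [Subgroup.map_le_iff_le_comap, commutator_eq_closure, Subgroup.closure_le]
        rintro _ ⟨a, b, rfl⟩
        show H.subtype ⁅a, b⁆ ∈ commutator G
        rw [map_commutatorElement, commutator_def]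
        exact Subgroup.commutator_mem_commutator (Subgroup.mem_top _) (Subgroup.mem_top _)
    · exact Subgroup.map_subtype_le _

end Cfsg.Agent.Helper2.Transfer
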