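import Mathlib
import Cfsg.Prelude.Def_TwoFusion
import Cfsg.Prelude.Def_Transfer
import Cfsg.Agent.Helper2.Isolated
import Cfsg.Agent.Helper2.Transfer2
import Cfsg.Agent.S1182
import Cfsg.Agent.S1185

/-! Isolated involutions: Sylow 2-subgroups and `O^2`. -/

namespace Cfsg.Agent.Helper2.Iso

open Cfsg.Agent.Helper2

lemma pResidual_normal' (p : ℕ) (X : Type*) [Group X] : (Cfsg.pResidual p X).Normal := by
  constructor
  intro n hn g
  unfold Cfsg.pResidual at hn ⊢
  induction hn using Subgroup.closure_induction with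
  | mem x hx =>
    apply Subgroup.subset_closure
    show Nat.Coprime (orderOf (g * x * g⁻¹)) p
    have h1 : orderOf (g * x * g⁻¹) = orderOf x :=
      orderOf_injective (MulAut.conj g).toMonoidHom (MulAut.conj g).injective x
    rw [h1]; exact hx
  | one => simp
  | mul x y _ _ hx hy =>
    have : g * (x * y) * g⁻¹ = (g * x * g⁻¹) * (g * y * g⁻¹) := by group
    rw [this]; exact Subgroup.mul_mem _ hx hy
  | inv x _ hx =>
    have : g * x⁻¹ * g⁻¹ = (g * x * g⁻¹)⁻¹ := by group
    rw [this]; exact Subgroup.inv_mem _ hx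

lemma pResidual_map_le {G : Type*} [Group G] (p : ℕ) (H : Subgroup G) :
    (Cfsg.pResidual p ↥H).map H.subtype ≤ Cfsg.pResidual p G := by
  have hdef : Cfsg.pResidual p G = Subgroup.closure {g : G | Nat.Coprime (orderOf g) p} := rfl
  have hdef' : Cfsg.pResidual p ↥H =
    Subgroup.closure {g : ↥H | Nat.Coprime (orderOf g) p} := rfl
  rw [hdef, hdef', MonoidHom.map_closure]
  apply Subgroup.closure_mono
  rintro _ ⟨h, hh, rfl⟩
  show Nat.Coprime (orderOf (h : G)) p
  rw [Subgroup.orderOf_coe]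
  exact hh

lemma residual_top_of_sup_commutator {X : Type*} [Group X] [Finite X] {p : ℕ} [Fact p.Prime]
    (h : Cfsg.pResidual p X ⊔ commutator X = ⊤) : Cfsg.pResidual p X = ⊤ := by
  haveI := pResidual_normal' p X
  have hPG : IsPGroup p (X ⧸ Cfsg.pResidual p X) :=
    Cfsg.Agent.Helper2.Transfer.isPGroup_quot _ le_rfl
  haveI : Group.IsNilpotent (X ⧸ Cfsg.pResidual p X) := hPG.isNilpotent
  by_contra hne
  haveI : Nontrivial (X ⧸ Cfsg.pResidual p X) := by
    by_contra hnt
    rw [not_nontrivial_iff_subsingleton] at hnt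
    exact hne (QuotientGroup.subgroup_eq_top_of_subsingleton _ hnt)
  have hlt := IsSolvable.commutator_lt_top_of_nontrivial (X ⧸ Cfsg.pResidual p X)
  have h1 : Subgroup.map (QuotientGroup.mk' (Cfsg.pResidual p X))
      (Cfsg.pResidual p X ⊔ commutator X) = ⊤ := by
    rw [h]; exact Subgroup.map_top_of_surjective _ (QuotientGroup.mk'_surjective _)
  rw [Subgroup.map_sup, QuotientGroup.map_mk'_self, bot_sup_eq, commutator_def,
    Subgroup.map_commutator, Subgroup.map_top_of_surjective _ (QuotientGroup.mk'_surjective _),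
    ← commutator_def] at h1
  exact (lt_top_iff_ne_top.mp hlt) h1

variable {G : Type*} [Group G] [Finite G]

/-- an isolated involution is central in every Sylow 2-subgroup containing it -/
lemma sylow_le_centralizer {z : G} (hz : Cfsg.IsIsolatedInvolution z) (S : Sylow 2 G)
    (hzS : z ∈ S) : (S : Subgroup G) ≤ Subgroup.centralizer ({z} : Set G) := by
  haveI : Fact (Nat.Prime 2) := ⟨Nat.prime_two⟩
  intro s hs
  rw [Subgroup.mem_centralizer_iff]
  intro y hy
  rw [Set.mem_singleton_iff] at hy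
  rw [hy]
  have hodd := isolated_mul_conj_odd hz s
  have hmem : z * (s * z * s⁻¹) ∈ (S : Subgroup G) :=
    mul_mem hzS (mul_mem (mul_mem hs hzS) (inv_mem hs))
  obtain ⟨k, hk⟩ := (IsPGroup.iff_orderOf.mp S.isPGroup') ⟨_, hmem⟩
  rw [Subgroup.orderOf_mk] at hk
  have h1 : orderOf (z * (s * z * s⁻¹)) = 1 := by
    rcases Nat.eq_zero_or_pos k with h0 | h0
    · rw [hk, h0, pow_zero]
    · exfalso
      rw [hk] at hodd
      exact (Nat.not_even_iff_odd.mpr hodd) (Nat.even_pow.mpr ⟨even_two, h0.ne'⟩)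
  rw [orderOf_eq_one_iff] at h1
  have hzz := isolated_mul_self hz
  have h2 : s * z * s⁻¹ = z := by
    have : s * z * s⁻¹ = z⁻¹ := eq_inv_of_mul_eq_one_right h1
    rw [this, inv_eq_self_of_mul_self hzz]
  calc z * s = (s * z * s⁻¹) * s := by rw [h2]
    _ = s * z := by group

lemma odd_index_centralizer {z : G} (hz : Cfsg.IsIsolatedInvolution z) :
    Nat.Coprime 2 (Subgroup.centralizer ({z} : Set G)).index := by
  haveI : Fact (Nat.Prime 2) := ⟨Nat.prime_two⟩
  have hzp : IsPGroup 2 (Subgroup.zpowers z) :=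
    IsPGroup.of_card (n := 1) (by rw [Nat.card_zpowers, hz.1, pow_one])
  obtain ⟨S, hS⟩ := hzp.exists_le_sylow
  have hzS : z ∈ S := hS (Subgroup.mem_zpowers z)
  have h1 := Subgroup.index_dvd_of_le (sylow_le_centralizer hz S hzS)
  have h2 : ¬ 2 ∣ (S : Subgroup G).index := S.not_dvd_index
  exact (Nat.Prime.coprime_iff_not_dvd Nat.prime_two).mpr (fun h => h2 (h.trans h1))

theorem residual_iff {z : G} (hz : Cfsg.IsIsolatedInvolution z) :
    Cfsg.pResidual 2 G = ⊤ ↔ Cfsg.pResidual 2 ↥(Subgroup.centralizer ({z} : Set G)) = ⊤ := by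
  haveI : Fact (Nat.Prime 2) := ⟨Nat.prime_two⟩
  have hfus : ∀ g ∈ Subgroup.centralizer ({z} : Set G), (∃ k : ℕ, orderOf g = 2 ^ k) →
      ∀ a : G, a * g * a⁻¹ ∈ Subgroup.centralizer ({z} : Set G) →
      ∃ h ∈ Subgroup.centralizer ({z} : Set G), h * g * h⁻¹ = a * g * a⁻¹ := by
    intro g hg _ a ha
    have hgz : Commute g z := (Subgroup.mem_centralizer_iff.mp hg z rfl).symm
    have haz : Commute (a * g * a⁻¹) z := (Subgroup.mem_centralizer_iff.mp ha z rfl).symm
    obtain ⟨c, -, hcz, hc⟩ := Cfsg.Agent.S1182.result z hz ⊤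
      (Subgroup.le_normalizer (Subgroup.mem_top z)) g (a * g * a⁻¹)
      (Subgroup.mem_top _) (Subgroup.mem_top _) hgz haz a (Subgroup.mem_top _) rfl
    refine ⟨c, ?_, hc⟩
    rw [Subgroup.mem_centralizer_iff]
    intro y hy
    rw [Set.mem_singleton_iff] at hy
    rw [hy]; exact hcz.symm
  have key := Cfsg.Agent.Helper2.Transfer.residual_inter (p := 2)
    (Subgroup.centralizer ({z} : Set G)) (odd_index_centralizer hz) hfus
  constructor
  · intro hG
    rw [hG, top_sup_eq, top_inf_eq] at key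
    have htop : Cfsg.pResidual 2 ↥(Subgroup.centralizer ({z} : Set G)) ⊔
        commutator ↥(Subgroup.centralizer ({z} : Set G)) = ⊤ := by
      rw [eq_top_iff]
      intro x _
      have hx : (x : G) ∈ (Cfsg.pResidual 2 ↥(Subgroup.centralizer ({z} : Set G)) ⊔
          commutator ↥(Subgroup.centralizer ({z} : Set G))).map (Subgroup.subtype _) := by
        rw [← key]; exact x.2
      obtain ⟨y, hy, hyx⟩ := hx
      have : y = x := Subtype.ext hyx
      rw [← this]; exact hy
    exact residual_top_of_sup_commutator htop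
  · intro hC
    rw [eq_top_iff]
    intro g _
    obtain ⟨k, ⟨⟨hkodd, -⟩, hkC⟩, -⟩ := Cfsg.Agent.S1185.result z hz g
    have hk : k ∈ Cfsg.pResidual 2 G :=
      Subgroup.subset_closure (Nat.coprime_two_right.mpr hkodd)
    have hCle : Subgroup.centralizer ({z} : Set G) ≤ Cfsg.pResidual 2 G := by
      intro c hc
      have h1 : (⟨c, hc⟩ : ↥(Subgroup.centralizer ({z} : Set G))) ∈
          Cfsg.pResidual 2 ↥(Subgroup.centralizer ({z} : Set G)) := by
        rw [hC]; exact Subgroup.mem_top _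
      exact pResidual_map_le 2 _ ⟨_, h1, rfl⟩
    have h2 : g = k * (g⁻¹ * k)⁻¹ := by group
    rw [h2]
    exact mul_mem hk (inv_mem (hCle hkC))

end Cfsg.Agent.Helper2.Iso
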