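import Mathlib

/-! Jordan's theorem on normal subgroups of multiply transitive groups. -/

set_option autoImplicit false

namespace Cfsg.Agent.Helper2.JordanNormal

open MulAction

universe u v

section concrete

variable {G : Type u} {Ω : Type v} [Group G] [MulAction G Ω]

theorem three_trans (h : IsMultiplyPretransitive G Ω 3) {a y₁ y₂ z₁ z₂ : Ω}
    (h1 : y₁ ≠ a) (h2 : y₂ ≠ a) (h3 : y₁ ≠ y₂) (h4 : z₁ ≠ a) (h5 : z₂ ≠ a) (h6 : z₁ ≠ z₂) :
    ∃ g : G, g • a = a ∧ g • y₁ = z₁ ∧ g • y₂ = z₂ := by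
  let x : Fin 3 ↪ Ω := ⟨![a, y₁, y₂], by
    intro i j hij
    fin_cases i <;> fin_cases j <;> simp_all⟩
  let y : Fin 3 ↪ Ω := ⟨![a, z₁, z₂], by
    intro i j hij
    fin_cases i <;> fin_cases j <;> simp_all⟩
  obtain ⟨g, hg⟩ := h.exists_smul_eq x y
  refine ⟨g, ?_, ?_, ?_⟩
  · exact (Function.Embedding.smul_apply g x 0).symm.trans
      (congrArg (fun f : Fin 3 ↪ Ω => f 0) hg)
  · exact (Function.Embedding.smul_apply g x 1).symm.trans
      (congrArg (fun f : Fin 3 ↪ Ω => f 1) hg)
  · exact (Function.Embedding.smul_apply g x 2).symm.trans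
      (congrArg (fun f : Fin 3 ↪ Ω => f 2) hg)

theorem four_trans (h : IsMultiplyPretransitive G Ω 4) {a y₁ y₂ y₃ z₁ z₂ z₃ : Ω}
    (h1 : y₁ ≠ a) (h2 : y₂ ≠ a) (h3 : y₃ ≠ a) (h12 : y₁ ≠ y₂) (h13 : y₁ ≠ y₃) (h23 : y₂ ≠ y₃)
    (k1 : z₁ ≠ a) (k2 : z₂ ≠ a) (k3 : z₃ ≠ a) (k12 : z₁ ≠ z₂) (k13 : z₁ ≠ z₃) (k23 : z₂ ≠ z₃) :
    ∃ g : G, g • a = a ∧ g • y₁ = z₁ ∧ g • y₂ = z₂ ∧ g • y₃ = z₃ := by
  let x : Fin 4 ↪ Ω := ⟨![a, y₁, y₂, y₃], by
    intro i j hij
    fin_cases i <;> fin_cases j <;> simp_all⟩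
  let y : Fin 4 ↪ Ω := ⟨![a, z₁, z₂, z₃], by
    intro i j hij
    fin_cases i <;> fin_cases j <;> simp_all⟩
  obtain ⟨g, hg⟩ := h.exists_smul_eq x y
  refine ⟨g, ?_, ?_, ?_, ?_⟩
  · exact (Function.Embedding.smul_apply g x 0).symm.trans
      (congrArg (fun f : Fin 4 ↪ Ω => f 0) hg)
  · exact (Function.Embedding.smul_apply g x 1).symm.trans
      (congrArg (fun f : Fin 4 ↪ Ω => f 1) hg)
  · exact (Function.Embedding.smul_apply g x 2).symm.trans
      (congrArg (fun f : Fin 4 ↪ Ω => f 2) hg)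
  · exact (Function.Embedding.smul_apply g x 3).symm.trans
      (congrArg (fun f : Fin 4 ↪ Ω => f 3) hg)

theorem normal_trans (hfaith : ∀ g : G, (∀ x : Ω, g • x = x) → g = 1)
    (h2 : IsMultiplyPretransitive G Ω 2) (N : Subgroup G) (hN : N.Normal) (hN1 : N ≠ ⊥) :
    IsPretransitive N Ω := by
  haveI := hN
  haveI : IsPreprimitive G Ω := isPreprimitive_of_is_two_pretransitive h2
  apply IsQuasiPreprimitive.isPretransitive_of_normal
  intro h
  apply hN1
  rw [Subgroup.eq_bot_iff_forall]
  intro n hn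
  apply hfaith
  intro x
  have hx : x ∈ fixedPoints N Ω := by
    rw [h]
    exact Set.mem_univ x
  exact hx ⟨n, hn⟩

theorem bridge (N : Subgroup G) (a : Ω) (j : ℕ)
    (h : IsMultiplyPretransitive (N.subgroupOf (stabilizer G a))
      (SubMulAction.ofStabilizer G a) j) :
    IsMultiplyPretransitive (stabilizer N a) (SubMulAction.ofStabilizer N a) j := by
  refine ⟨fun x y => ?_⟩
  have he : ∀ z : SubMulAction.ofStabilizer N a, (z : Ω) ∈ SubMulAction.ofStabilizer G a := by
    intro z
    rw [SubMulAction.mem_ofStabilizer_iff]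
    exact (SubMulAction.mem_ofStabilizer_iff N a).mp z.2
  let e : SubMulAction.ofStabilizer N a ↪ SubMulAction.ofStabilizer G a :=
    ⟨fun z => ⟨(z : Ω), he z⟩, fun z w hzw => Subtype.ext (congrArg Subtype.val hzw)⟩
  obtain ⟨m, hm⟩ := h.exists_smul_eq (x.trans e) (y.trans e)
  have hmN : ((m : stabilizer G a) : G) ∈ N := Subgroup.mem_subgroupOf.mp m.2
  have hma : (⟨((m : stabilizer G a) : G), hmN⟩ : N) ∈ stabilizer N a := by
    rw [mem_stabilizer_iff]
    exact (m : stabilizer G a).2
  refine ⟨⟨⟨((m : stabilizer G a) : G), hmN⟩, hma⟩, ?_⟩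
  apply DFunLike.ext
  intro i
  apply Subtype.ext
  have h1 := congrArg
    (fun f : Fin j ↪ SubMulAction.ofStabilizer G a =>
      ((f i : SubMulAction.ofStabilizer G a) : Ω)) hm
  exact h1

theorem exists_notMem [Finite Ω] (s : Finset Ω) (h : s.card < Nat.card Ω) : ∃ q, q ∉ s := by
  classical
  by_contra hall
  push_neg at hall
  haveI := Fintype.ofFinite Ω
  have h1 : (Finset.univ : Finset Ω).card ≤ s.card :=
    Finset.card_le_card (fun q _ => hall q)
  rw [Finset.card_univ, ← Nat.card_eq_fintype_card] at h1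
  omega

theorem comm_of_sq {x y : G} (hx : x ^ 2 = 1) (hy : y ^ 2 = 1) (hxy : (x * y) ^ 2 = 1) :
    x * y = y * x := by
  have h1 : x * x = 1 := by rw [← pow_two]; exact hx
  have h2 : y * y = 1 := by rw [← pow_two]; exact hy
  have h3 : x * y * (x * y) = 1 := by rw [← pow_two]; exact hxy
  have e1 : y * x * y = x := by
    calc y * x * y = (x * x) * (y * x * y) := by rw [h1, one_mul]
      _ = x * (x * y * (x * y)) := by simp only [mul_assoc]
      _ = x := by rw [h3, mul_one]
  calc x * y = (y * y) * (x * y) := by rw [h2, one_mul]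
    _ = y * (y * x * y) := by simp only [mul_assoc]
    _ = y * x := by rw [e1]

/-- the sharp case: contradiction -/
theorem sharp_false (N : Subgroup G)
    (P1 : ∀ n ∈ N, ∀ x : Ω, n • x = x → n ^ 2 = 1)
    (P2 : ∀ n ∈ N, ∀ x y : Ω, x ≠ y → n • x = x → n • y = y → n = 1)
    (P3 : ∀ x y z : Ω, y ≠ x → z ≠ x → ∃ n ∈ N, n • x = x ∧ n • y = z)
    (a b c d : Ω) (hab : a ≠ b) (hac : a ≠ c) (had : a ≠ d) (hbc : b ≠ c) (hbd : b ≠ d)
    (hcd : c ≠ d) : False := by
  obtain ⟨t, htN, hta, htb⟩ := P3 a b c hab.symm hac.symm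
  obtain ⟨s, hsN, hsa, hsb⟩ := P3 a b d hab.symm had.symm
  obtain ⟨u, huN, hub, hua⟩ := P3 b a c hab hbc.symm
  obtain ⟨w, hwN, hwb, hwa⟩ := P3 b a d hab hbd.symm
  have ht2 : t • t • b = b := by
    rw [← mul_smul, ← pow_two, P1 t htN a hta, one_smul]
  have hs2 : s • s • b = b := by
    rw [← mul_smul, ← pow_two, P1 s hsN a hsa, one_smul]
  have hu2 : u • u • a = a := by
    rw [← mul_smul, ← pow_two, P1 u huN b hub, one_smul]
  have hw2 : w • w • a = a := by
    rw [← mul_smul, ← pow_two, P1 w hwN b hwb, one_smul]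
  -- ρ = t * u, σ = s * w
  have hρa : (t * u) • a = b := by rw [mul_smul, hua, ← htb, ht2]
  have hρb : (t * u) • b = c := by rw [mul_smul, hub, htb]
  have hρc : (t * u) • c = a := by rw [mul_smul, ← hua, hu2, hta]
  have hσa : (s * w) • a = b := by rw [mul_smul, hwa, ← hsb, hs2]
  have hσb : (s * w) • b = d := by rw [mul_smul, hwb, hsb]
  have hσd : (s * w) • d = a := by rw [mul_smul, ← hwa, hw2, hsa]
  have hρN : t * u ∈ N := N.mul_mem htN huN
  have hσN : s * w ∈ N := N.mul_mem hsN hwN
  obtain ⟨ρ, hρ⟩ : ∃ ρ : G, ρ = t * u := ⟨_, rfl⟩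
  obtain ⟨σ, hσ⟩ : ∃ σ : G, σ = s * w := ⟨_, rfl⟩
  rw [← hρ] at hρa hρb hρc hρN
  rw [← hσ] at hσa hσb hσd hσN
  obtain ⟨g, hg⟩ : ∃ g : G, g = ρ⁻¹ * σ := ⟨_, rfl⟩
  have hgN : g ∈ N := by rw [hg]; exact N.mul_mem (N.inv_mem hρN) hσN
  have hσg : σ = ρ * g := by rw [hg, mul_inv_cancel_left]
  have hga : g • a = a := by
    rw [hg, mul_smul, hσa, inv_smul_eq_iff, hρa]
  have hg2 : g ^ 2 = 1 := P1 g hgN a hga
  have hgg : ∀ x : Ω, g • g • x = x := by
    intro x
    rw [← mul_smul, ← pow_two, hg2, one_smul]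
  have hgd : g • d = c := by
    have h1 : ρ • (g • d) = ρ • c := by rw [← mul_smul, ← hσg, hσd, hρc]
    exact MulAction.injective ρ h1
  have hgc : g • c = d := by rw [← hgd, hgg]
  have hρgb : ρ • (g • b) = d := by rw [← mul_smul, ← hσg, hσb]
  -- g' = ρ * g * ρ⁻¹
  have hg'N : ρ * g * ρ⁻¹ ∈ N := N.mul_mem (N.mul_mem hρN hgN) (N.inv_mem hρN)
  have hg'c : (ρ * g * ρ⁻¹) • c = d := by
    rw [mul_smul, mul_smul, inv_smul_eq_iff.mpr hρb.symm, hρgb]
  have hg'd : (ρ * g * ρ⁻¹) • d = c := by
    rw [mul_smul, mul_smul, inv_smul_eq_iff.mpr hρgb.symm, hgg, hρb]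
  have hg'b : (ρ * g * ρ⁻¹) • b = b := by
    rw [mul_smul, mul_smul, inv_smul_eq_iff.mpr hρa.symm, hga, hρa]
  have hprod : g * (ρ * g * ρ⁻¹) = 1 := by
    apply P2 _ (N.mul_mem hgN hg'N) c d hcd
    · rw [mul_smul, hg'c, hgd]
    · rw [mul_smul, hg'd, hgc]
  have hgb : g • b = b := by
    have h1 : (g * (ρ * g * ρ⁻¹)) • b = b := by rw [hprod, one_smul]
    rw [mul_smul, hg'b] at h1
    exact h1
  have hg1 : g = 1 := P2 g hgN a b hab hga hgb
  have hσρ : σ = ρ := by rw [hσg, hg1, mul_one]
  apply hcd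
  rw [← hρb, ← hσb, hσρ]

end concrete

theorem main : ∀ k : ℕ, 2 ≤ k → ∀ (G : Type u) (Ω : Type v) [Group G] [MulAction G Ω] [Finite Ω],
    (∀ g : G, (∀ x : Ω, g • x = x) → g = 1) → IsMultiplyPretransitive G Ω k →
    k < Nat.card Ω → ∀ N : Subgroup G, N.Normal → N ≠ ⊥ →
      IsMultiplyPretransitive N Ω (k - 1) ∨
        (k = 3 ∧ (∀ x ∈ N, x ^ 2 = 1) ∧ IsPretransitive N Ω ∧
          ∀ a : Ω, ∀ n ∈ N, n • a = a → n = 1) := by
  intro k hk
  induction k, hk using Nat.le_induction with
  | base =>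
    intro G Ω _ _ _ hfaith hG hcard N hN hN1
    left
    have h1 : IsPretransitive N Ω := normal_trans hfaith hG N hN hN1
    exact is_one_pretransitive_iff.mpr h1
  | succ k hk ih =>
    intro G Ω _ _ _ hfaith hG hcard N hN hN1
    classical
    haveI := hN
    have h2 : IsMultiplyPretransitive G Ω 2 := by
      haveI := hG
      exact isMultiplyPretransitive_of_le (n := k + 1) (by omega) (by omega)
    have h3 : IsMultiplyPretransitive G Ω 3 := by
      haveI := hG
      exact isMultiplyPretransitive_of_le (n := k + 1) (by omega) (by omega)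
    haveI hGt : IsPretransitive G Ω := isPretransitive_of_is_two_pretransitive (h2 := h2)
    haveI hNt : IsPretransitive N Ω := normal_trans hfaith h2 N hN hN1
    obtain ⟨a⟩ : Nonempty Ω := (Nat.card_pos_iff.mp (by omega)).1
    have hNsm : ∀ (x y : Ω), ∃ h ∈ N, h • x = y := by
      intro x y
      obtain ⟨h, hh⟩ := exists_smul_eq N x y
      exact ⟨(h : G), h.2, hh⟩
    by_cases hreg : ∃ n ∈ N, n ≠ 1 ∧ n • a = a
    · obtain ⟨n₀, hn₀N, hn₀1, hn₀a⟩ := hreg
      have hNa1 : N.subgroupOf (stabilizer G a) ≠ ⊥ := by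
        intro h
        have h1 : (⟨n₀, hn₀a⟩ : stabilizer G a) ∈ N.subgroupOf (stabilizer G a) :=
          Subgroup.mem_subgroupOf.mpr hn₀N
        rw [h, Subgroup.mem_bot] at h1
        exact hn₀1 (congrArg Subtype.val h1)
      have hfaith' : ∀ g : stabilizer G a,
          (∀ x : SubMulAction.ofStabilizer G a, g • x = x) → g = 1 := by
        intro g hg
        apply Subtype.ext
        apply hfaith
        intro x
        by_cases hx : x = a
        · rw [hx]
          exact g.2
        · have h1 := hg ⟨x, (SubMulAction.mem_ofStabilizer_iff G a).mpr hx⟩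
          exact congrArg Subtype.val h1
      have hGa : IsMultiplyPretransitive (stabilizer G a) (SubMulAction.ofStabilizer G a) k :=
        (SubMulAction.ofStabilizer.isMultiplyPretransitive (G := G) (α := Ω) (n := k)
          (a := a)).mp hG
      have hcard' : k < Nat.card (SubMulAction.ofStabilizer G a) := by
        rw [SubMulAction.nat_card_ofStabilizer_eq]
        omega
      rcases ih (stabilizer G a) (SubMulAction.ofStabilizer G a) hfaith' hGa hcard'
        (N.subgroupOf (stabilizer G a)) inferInstance hNa1 with hA | ⟨hk3, hexp, htr, hfr⟩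
      · left
        have hb := bridge N a (k - 1) hA
        have h4 := (SubMulAction.ofStabilizer.isMultiplyPretransitive (G := N) (α := Ω)
          (n := k - 1) (a := a)).mpr hb
        have e : k + 1 - 1 = (k - 1).succ := by omega
        rw [e]
        exact h4
      · exfalso
        have Q1 : ∀ n ∈ N, n • a = a → n ^ 2 = 1 := by
          intro n hn ha
          have h1 := hexp ⟨n, ha⟩ (Subgroup.mem_subgroupOf.mpr hn)
          exact congrArg Subtype.val h1
        have Q2 : ∀ n ∈ N, n • a = a → ∀ y : Ω, y ≠ a → n • y = y → n = 1 := by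
          intro n hn ha y hy hny
          have h1 := hfr ⟨y, (SubMulAction.mem_ofStabilizer_iff G a).mpr hy⟩ ⟨n, ha⟩
            (Subgroup.mem_subgroupOf.mpr hn) (Subtype.ext hny)
          exact congrArg Subtype.val h1
        have Q3 : ∀ y z : Ω, y ≠ a → z ≠ a → ∃ n ∈ N, n • a = a ∧ n • y = z := by
          intro y z hy hz
          obtain ⟨m, hm⟩ := htr.exists_smul_eq
            (⟨y, (SubMulAction.mem_ofStabilizer_iff G a).mpr hy⟩ : SubMulAction.ofStabilizer G a)
            ⟨z, (SubMulAction.mem_ofStabilizer_iff G a).mpr hz⟩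
          exact ⟨((m : stabilizer G a) : G), Subgroup.mem_subgroupOf.mp m.2,
            (m : stabilizer G a).2, congrArg Subtype.val hm⟩
        have P1 : ∀ n ∈ N, ∀ x : Ω, n • x = x → n ^ 2 = 1 := by
          intro n hn x hx
          obtain ⟨h, hhN, hh⟩ := hNsm a x
          have h1 : (h⁻¹ * n * h) • a = a := by
            rw [mul_smul, mul_smul, hh, hx, inv_smul_eq_iff, hh]
          have h2' := Q1 (h⁻¹ * n * h) (N.mul_mem (N.mul_mem (N.inv_mem hhN) hn) hhN) h1
          have e : n ^ 2 = h * (h⁻¹ * n * h) ^ 2 * h⁻¹ := by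
            rw [pow_two, pow_two]; group
          rw [e, h2', mul_one, mul_inv_cancel]
        have P2 : ∀ n ∈ N, ∀ x y : Ω, x ≠ y → n • x = x → n • y = y → n = 1 := by
          intro n hn x y hxy hx hy
          obtain ⟨h, hhN, hh⟩ := hNsm a x
          have h1 : (h⁻¹ * n * h) • a = a := by
            rw [mul_smul, mul_smul, hh, hx, inv_smul_eq_iff, hh]
          have h5 : h⁻¹ • y ≠ a := by
            intro h6
            rw [inv_smul_eq_iff, hh] at h6
            exact hxy h6.symm
          have h6 : (h⁻¹ * n * h) • (h⁻¹ • y) = h⁻¹ • y := by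
            rw [mul_smul, mul_smul, smul_inv_smul, hy]
          have h7 := Q2 (h⁻¹ * n * h) (N.mul_mem (N.mul_mem (N.inv_mem hhN) hn) hhN) h1 _ h5 h6
          have e : n = h * (h⁻¹ * n * h) * h⁻¹ := by group
          rw [e, h7, mul_one, mul_inv_cancel]
        have P3 : ∀ x y z : Ω, y ≠ x → z ≠ x → ∃ n ∈ N, n • x = x ∧ n • y = z := by
          intro x y z hy hz
          obtain ⟨h, hhN, hh⟩ := hNsm a x
          have h5 : h⁻¹ • y ≠ a := by
            intro h6
            rw [inv_smul_eq_iff, hh] at h6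
            exact hy h6
          have h6 : h⁻¹ • z ≠ a := by
            intro h7
            rw [inv_smul_eq_iff, hh] at h7
            exact hz h7
          obtain ⟨n, hnN, hna, hny⟩ := Q3 _ _ h5 h6
          refine ⟨h * n * h⁻¹, N.mul_mem (N.mul_mem hhN hnN) (N.inv_mem hhN), ?_, ?_⟩
          · rw [mul_smul, mul_smul, inv_smul_eq_iff.mpr hh.symm, hna, hh]
          · rw [mul_smul, mul_smul, hny, smul_inv_smul]
        -- four distinct points
        obtain ⟨b, hb⟩ := exists_notMem ({a} : Finset Ω) (by rw [Finset.card_singleton]; omega)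
        obtain ⟨c, hc⟩ := exists_notMem ({a, b} : Finset Ω)
          (lt_of_le_of_lt (Finset.card_le_two) (by omega))
        obtain ⟨d, hd⟩ := exists_notMem ({a, b, c} : Finset Ω)
          (lt_of_le_of_lt (Finset.card_le_three) (by omega))
        simp only [Finset.mem_insert, Finset.mem_singleton, not_or] at hb hc hd
        exact sharp_false N P1 P2 P3 a b c d (Ne.symm hb) (Ne.symm hc.1) (Ne.symm hd.1)
          (Ne.symm hc.2) (Ne.symm hd.2.1) (Ne.symm hd.2.2)
    · push_neg at hreg
      have hfree_a : ∀ n ∈ N, n • a = a → n = 1 := by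
        intro n hn ha
        by_contra h1
        exact hreg n hn h1 ha
      have hfree : ∀ x : Ω, ∀ n ∈ N, n • x = x → n = 1 := by
        intro x n hn hx
        obtain ⟨h, hhN, hh⟩ := hNsm a x
        have h1 : (h⁻¹ * n * h) • a = a := by
          rw [mul_smul, mul_smul, hh, hx, inv_smul_eq_iff, hh]
        have h7 := hfree_a (h⁻¹ * n * h) (N.mul_mem (N.mul_mem (N.inv_mem hhN) hn) hhN) h1
        have e : n = h * (h⁻¹ * n * h) * h⁻¹ := by group
        rw [e, h7, mul_one, mul_inv_cancel]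
      -- conjugation lemma
      have hconj : ∀ g : G, g • a = a → ∀ n ∈ N, g • (n • a) = n • a → g * n * g⁻¹ = n := by
        intro g hg n hn h
        have h1 : (n⁻¹ * (g * n * g⁻¹)) • a = a := by
          rw [mul_smul, mul_smul, mul_smul, inv_smul_eq_iff.mpr hg.symm, h, inv_smul_smul]
        have h2' := hfree_a _ (N.mul_mem (N.inv_mem hn) (hN.conj_mem n hn g)) h1
        exact (inv_mul_eq_one.mp h2').symm
      have hconj_smul : ∀ g : G, g • a = a → ∀ n : G, (g * n * g⁻¹) • a = g • (n • a) := by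
        intro g hg n
        rw [mul_smul, mul_smul, inv_smul_eq_iff.mpr hg.symm]
      have hexp : ∀ x ∈ N, x ^ 2 = 1 := by
        intro x hx
        by_contra hx2
        have hx1 : x ≠ 1 := by
          rintro rfl
          exact hx2 (one_pow 2)
        have hp1 : x • a ≠ a := fun h => hx1 (hfree_a x hx h)
        have hp2 : x⁻¹ • a ≠ a := by
          intro h
          rw [inv_smul_eq_iff] at h
          exact hp1 h.symm
        have hp12 : x • a ≠ x⁻¹ • a := by
          intro h
          apply hx2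
          apply hfree_a _ (N.pow_mem hx 2)
          rw [pow_two, mul_smul, h, smul_inv_smul]
        obtain ⟨q, hq⟩ := exists_notMem ({a, x • a, x⁻¹ • a} : Finset Ω)
          (lt_of_le_of_lt (Finset.card_le_three) (by omega))
        simp only [Finset.mem_insert, Finset.mem_singleton, not_or] at hq
        obtain ⟨g, hga, hg1, hg2⟩ := three_trans h3 hp1 hp2 hp12 hp1 hq.1 (Ne.symm hq.2.1)
        have h5 := hconj g hga x hx hg1
        have h6 : g • (x⁻¹ • a) = x⁻¹ • a := by
          rw [← hconj_smul g hga x⁻¹]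
          have e : g * x⁻¹ * g⁻¹ = (g * x * g⁻¹)⁻¹ := by group
          rw [e, h5]
        rw [hg2] at h6
        exact hq.2.2 h6
      have hk3 : k + 1 = 3 := by
        by_contra hne
        have hk4 : 4 ≤ k + 1 := by omega
        have h4 : IsMultiplyPretransitive G Ω 4 := by
          haveI := hG
          exact isMultiplyPretransitive_of_le (n := k + 1) hk4 (by omega)
        obtain ⟨p₁, hp₁⟩ := exists_notMem ({a} : Finset Ω)
          (by rw [Finset.card_singleton]; omega)
        obtain ⟨p₂, hp₂⟩ := exists_notMem ({a, p₁} : Finset Ω)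
          (lt_of_le_of_lt (Finset.card_le_two) (by omega))
        simp only [Finset.mem_insert, Finset.mem_singleton, not_or] at hp₁ hp₂
        obtain ⟨x, hxN, hx⟩ := hNsm a p₁
        obtain ⟨y, hyN, hy⟩ := hNsm a p₂
        have hxyN : x * y ∈ N := N.mul_mem hxN hyN
        have hp3a : (x * y) • a ≠ a := by
          intro h
          have h1 := hfree_a _ hxyN h
          have h2' : y = x⁻¹ := (eq_inv_of_mul_eq_one_right h1)
          have h3' : x⁻¹ = x := by
            have := hexp x hxN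
            rw [pow_two] at this
            exact inv_eq_of_mul_eq_one_right this
          apply hp₂.2
          rw [← hy, ← hx, h2', h3']
        have hp31 : (x * y) • a ≠ p₁ := by
          intro h
          rw [mul_smul, ← hx] at h
          have h1 := MulAction.injective x h
          apply hp₂.1
          rw [← hy, h1]
        have hp32 : (x * y) • a ≠ p₂ := by
          intro h
          have h1 : (y⁻¹ * x * y) • a = a := by
            rw [mul_assoc, mul_smul, h, ← hy, inv_smul_smul]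
          have h2' := hfree_a _ (N.mul_mem (N.mul_mem (N.inv_mem hyN) hxN) hyN) h1
          have e : x = y * (y⁻¹ * x * y) * y⁻¹ := by group
          apply hp₁
          rw [← hx, e, h2', mul_one, mul_inv_cancel, one_smul]
        obtain ⟨q, hq⟩ := exists_notMem ({a, p₁, p₂, (x * y) • a} : Finset Ω)
          (lt_of_le_of_lt (Finset.card_le_four) (by omega))
        simp only [Finset.mem_insert, Finset.mem_singleton, not_or] at hq
        obtain ⟨g, hga, hg1, hg2, hg3⟩ := four_trans h4 hp₁ hp₂.1 hp3a (Ne.symm hp₂.2)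
          (Ne.symm hp31) (Ne.symm hp32) hp₁ hp₂.1 hq.1 (Ne.symm hp₂.2) (Ne.symm hq.2.1)
          (Ne.symm hq.2.2.1)
        have h5 := hconj g hga x hxN (by rw [hx]; exact hg1)
        have h6 := hconj g hga y hyN (by rw [hy]; exact hg2)
        have h7 : g * (x * y) * g⁻¹ = x * y := by
          have e : g * (x * y) * g⁻¹ = (g * x * g⁻¹) * (g * y * g⁻¹) := by group
          rw [e, h5, h6]
        have h8 : g • ((x * y) • a) = (x * y) • a := by
          rw [← hconj_smul g hga (x * y), h7]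
        rw [hg3] at h8
        exact hq.2.2.2 h8
      right
      exact ⟨hk3, hexp, hNt, hfree⟩

end Cfsg.Agent.Helper2.JordanNormal
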