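import Mathlib

/-! Simple groups of even order not divisible by 8. -/

namespace Cfsg.Agent.Helper2.Klein

variable {G : Type*} [Group G] [Finite G]

lemma comm_of_isCyclic {X : Type*} [Group X] [IsCyclic X] (x y : X) : x * y = y * x := by
  obtain ⟨g, hg⟩ := IsCyclic.exists_generator (α := X)
  obtain ⟨i, rfl⟩ := Subgroup.mem_zpowers_iff.mp (hg x)
  obtain ⟨j, rfl⟩ := Subgroup.mem_zpowers_iff.mp (hg y)
  rw [← zpow_add, ← zpow_add, add_comm]

lemma card_sylow_two (h2 : Even (Nat.card G)) (h8 : ¬ 8 ∣ Nat.card G) (T : Sylow 2 G) :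
    Nat.card T = 2 ∨ Nat.card T = 4 := by
  haveI : Fact (Nat.Prime 2) := ⟨Nat.prime_two⟩
  obtain ⟨k, hk⟩ := T.isPGroup'.exists_card_eq
  have h1 : 2 ∣ Nat.card T := T.dvd_card_of_dvd_card (even_iff_two_dvd.mp h2)
  have h3 : 2 ^ k ∣ Nat.card G := hk ▸ Subgroup.card_subgroup_dvd_card _
  have hk2 : k ≤ 2 := by
    by_contra hlt
    push_neg at hlt
    have h4 : 2 ^ 3 ∣ Nat.card G := (pow_dvd_pow 2 hlt).trans h3
    exact h8 (by norm_num at h4; exact h4)
  have hk0 : k ≠ 0 := by
    rintro rfl
    rw [hk, pow_zero] at h1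
    omega
  rw [hk]
  interval_cases k
  · exact absurd rfl hk0
  · left; norm_num
  · right; norm_num

theorem burnside_contra [IsSimpleGroup G] (hG : ¬ IsMulCommutative G) (h2 : Even (Nat.card G))
    (h8 : ¬ 8 ∣ Nat.card G) (T : Sylow 2 G)
    (hNC : Subgroup.normalizer ((T : Subgroup G) : Set G) ≤
      Subgroup.centralizer ((T : Subgroup G) : Set G)) : False := by
  haveI : Fact (Nat.Prime 2) := ⟨Nat.prime_two⟩
  have hcompl := MonoidHom.ker_transferSylow_isComplement' T hNC
  have hcard := card_sylow_two h2 h8 T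
  rcases (MonoidHom.normal_ker (MonoidHom.transferSylow T hNC)).eq_bot_or_eq_top with hK | hK
  · rw [hK, Subgroup.isComplement'_bot_left] at hcompl
    apply hG
    have hcG : Nat.card G = Nat.card T := by rw [hcompl, Subgroup.card_top]
    rcases hcard with h | h
    · haveI : IsCyclic G := isCyclic_of_prime_card (p := 2) (by rw [hcG, h])
      exact ⟨⟨comm_of_isCyclic⟩⟩
    · exact ⟨⟨IsPGroup.commutative_of_card_eq_prime_sq (p := 2) (by rw [hcG, h]; norm_num)⟩⟩
  · rw [hK, Subgroup.isComplement'_top_left] at hcompl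
    rw [hcompl, Subgroup.card_bot] at hcard
    omega

lemma mulAut_card_dvd {X : Type*} [Group X] [Finite X] (hX : Nat.card X = 4) :
    Nat.card (MulAut X) ∣ 6 := by
  classical
  let ρ : MulAut X →* Equiv.Perm {x : X // x ≠ 1} :=
    { toFun := fun f => f.toEquiv.subtypeEquiv (fun x => by
        show x ≠ 1 ↔ f x ≠ 1
        rw [Ne, Ne, EmbeddingLike.map_eq_one_iff])
      map_one' := by ext x; rfl
      map_mul' := by intro f g; ext x; rfl }
  have hρ : Function.Injective ρ := by
    intro f g hfg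
    ext x
    by_cases hx : x = 1
    · rw [hx, map_one, map_one]
    · have := congrArg (fun σ => (σ ⟨x, hx⟩ : X)) hfg
      exact this
  have h1 := Subgroup.card_dvd_of_injective ρ hρ
  have hcX : Nat.card {x : X // x ≠ 1} = 3 := by
    have h2 := Nat.card_congr (Equiv.optionSubtypeNe (1 : X))
    rw [Finite.card_option, hX] at h2
    omega
  haveI : Fintype {x : X // x ≠ 1} := Fintype.ofFinite _
  rw [Nat.card_eq_fintype_card (α := Equiv.Perm {x : X // x ≠ 1}), Fintype.card_perm,
    ← Nat.card_eq_fintype_card, hcX] at h1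
  simpa [Nat.factorial] using h1

theorem klein_four [IsSimpleGroup G] (hG : ¬ IsMulCommutative G) (h2 : Even (Nat.card G))
    (h8 : ¬ 8 ∣ Nat.card G) (T : Sylow 2 G) :
    IsKleinFour ↥(T : Subgroup G) ∧
      (Subgroup.centralizer ((T : Subgroup G) : Set G)).relIndex
        (Subgroup.normalizer ((T : Subgroup G) : Set G)) = 3 := by
  haveI : Fact (Nat.Prime 2) := ⟨Nat.prime_two⟩
  have hmin : (Nat.card G).minFac = 2 :=
    (Nat.minFac_eq_two_iff _).mpr (even_iff_two_dvd.mp h2)
  have hncyc : ¬ IsCyclic (T : Subgroup G) :=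
    fun hc => burnside_contra hG h2 h8 T (hc.normalizer_le_centralizer hmin)
  have hcard : Nat.card T = 4 := by
    rcases card_sylow_two h2 h8 T with h | h
    · exact absurd (isCyclic_of_prime_card (p := 2) h) hncyc
    · exact h
  have hexp : Monoid.exponent ↥(T : Subgroup G) = 2 :=
    (not_isCyclic_iff_exponent_eq_prime Nat.prime_two (by rw [hcard]; norm_num)).mp hncyc
  refine ⟨⟨hcard, hexp⟩, ?_⟩
  have key := Subgroup.card_dvd_of_injective _
    (QuotientGroup.kerLift_injective (T : Subgroup G).normalizerMonoidHom)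
  rw [Subgroup.normalizerMonoidHom_ker, ← Subgroup.index, ← Subgroup.relIndex] at key
  have h6 : Nat.card (MulAut ↥(T : Subgroup G)) ∣ 6 := mulAut_card_dvd hcard
  have hTC : (T : Subgroup G) ≤ Subgroup.centralizer ((T : Subgroup G) : Set G) := by
    intro x hx
    rw [Subgroup.mem_centralizer_iff]
    intro y hy
    have := IsPGroup.commutative_of_card_eq_prime_sq (p := 2) (G := ↥(T : Subgroup G))
      (by rw [hcard]; norm_num) ⟨y, hy⟩ ⟨x, hx⟩
    exact congrArg Subtype.val this
  have hodd : ¬ 2 ∣ (Subgroup.centralizer ((T : Subgroup G) : Set G)).relIndex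
      (Subgroup.normalizer ((T : Subgroup G) : Set G)) := by
    intro h
    have h1 := Subgroup.relIndex_dvd_of_le_left
      (Subgroup.normalizer ((T : Subgroup G) : Set G)) hTC
    have h2' := Subgroup.relIndex_dvd_index_of_le
      (Subgroup.le_normalizer : (T : Subgroup G) ≤ _)
    exact T.not_dvd_index (h.trans (h1.trans h2'))
  have hd := key.trans h6
  have hle := Nat.le_of_dvd (by norm_num) hd
  have hne1 : (Subgroup.centralizer ((T : Subgroup G) : Set G)).relIndex
      (Subgroup.normalizer ((T : Subgroup G) : Set G)) ≠ 1 := by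
    intro h1
    rw [Subgroup.relIndex_eq_one] at h1
    exact burnside_contra hG h2 h8 T h1
  generalize (Subgroup.centralizer ((T : Subgroup G) : Set G)).relIndex
      (Subgroup.normalizer ((T : Subgroup G) : Set G)) = r at hd hle hne1 hodd ⊢
  interval_cases r <;> first | rfl | omega | (exfalso; revert hd; decide)

end Cfsg.Agent.Helper2.Klein
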