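import Mathlib
import Cfsg.Agent.Helper3.Component
import Cfsg.Agent.Helper3.Layer2
import Cfsg.Agent.Helper3.Layer

/-! Components with trivial centre and minimal normal subgroups. -/

set_option autoImplicit false

namespace Cfsg.Agent.Helper2.MinNormComp

universe u

/-- A product of finitely many pairwise commuting centreless subgroups is centreless. -/
theorem fin_center {G : Type u} [Group G] [DecidableEq (Subgroup G)] (s : Finset (Subgroup G)) :
    (∀ L ∈ s, ∀ z ∈ L, (∀ x ∈ L, x * z = z * x) → z = 1) →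
    (∀ L ∈ s, ∀ L' ∈ s, L ≠ L' → ∀ x ∈ L, ∀ y ∈ L', x * y = y * x) →
    ∀ z ∈ (s.sup id : Subgroup G), (∀ L ∈ s, ∀ x ∈ L, x * z = z * x) → z = 1 := by
  induction s using Finset.induction_on with
  | empty =>
    intro _ _ z hz _
    rw [Finset.sup_empty] at hz
    exact Subgroup.mem_bot.mp hz
  | insert L s hL ih =>
    intro h1 h2 z hz hc
    rw [Finset.sup_insert] at hz
    have hz' : z ∈ L ⊔ (s.sup id : Subgroup G) := hz
    have hcent : (s.sup id : Subgroup G) ≤ Subgroup.centralizer (L : Set G) := by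
      apply Finset.sup_le
      intro L' hL' y hy
      rw [Subgroup.mem_centralizer_iff]
      intro x hx
      exact h2 L (Finset.mem_insert_self L s) L' (Finset.mem_insert_of_mem hL')
        (by rintro rfl; exact hL hL') x hx y hy
    have hnorm : (s.sup id : Subgroup G) ≤ Subgroup.normalizer (L : Set G) :=
      hcent.trans (Subgroup.centralizer_le_normalizer _)
    obtain ⟨l, hl, m, hm, hlm⟩ :=
      Cfsg.Agent.Helper3.mem_sup_of_le_normalizer_right L (s.sup id) hnorm hz'
    have hl1 : l = 1 := by
      apply h1 L (Finset.mem_insert_self L s) l hl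
      intro x hx
      have e1 := hc L (Finset.mem_insert_self L s) x hx
      rw [← hlm] at e1
      have e2 : x * m = m * x := Subgroup.mem_centralizer_iff.mp (hcent hm) x hx
      have e3 : x * l * m = l * x * m := by
        calc x * l * m = x * (l * m) := mul_assoc _ _ _
          _ = l * m * x := e1
          _ = l * (m * x) := mul_assoc _ _ _
          _ = l * (x * m) := by rw [e2]
          _ = l * x * m := (mul_assoc _ _ _).symm
      exact mul_right_cancel e3
    have hzm : z = m := by rw [← hlm, hl1, one_mul]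
    rw [hzm]
    apply ih (fun L' hL' => h1 L' (Finset.mem_insert_of_mem hL'))
      (fun L' hL' L'' hL'' => h2 L' (Finset.mem_insert_of_mem hL') L''
        (Finset.mem_insert_of_mem hL'')) m hm
    intro L' hL' x hx
    rw [← hzm]
    exact hc L' (Finset.mem_insert_of_mem hL') x hx

theorem part_a {G : Type u} [Group G] [Finite G] (K : Subgroup G) (hK : Cfsg.IsComponent K)
    (hZ : Subgroup.center ↥K = ⊥) :
    Subgroup.normalClosure (K : Set G) ≠ ⊥ ∧ ∀ N : Subgroup G, N.Normal →
      N ≤ Subgroup.normalClosure (K : Set G) →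
        N = ⊥ ∨ N = Subgroup.normalClosure (K : Set G) := by
  classical
  haveI : Fintype G := Fintype.ofFinite G
  have hKle : K ≤ Subgroup.normalClosure (K : Set G) := Subgroup.le_normalClosure
  have hKne : K ≠ ⊥ := by
    intro h
    apply Cfsg.Agent.Helper3.component_not_commutative K hK
    intro a ha b hb
    rw [h, Subgroup.mem_bot] at ha hb
    rw [ha, hb]
  constructor
  · intro h
    apply hKne
    rw [eq_bot_iff, ← h]
    exact hKle
  intro N hN hNM
  by_cases hKN : K ≤ N
  · right
    haveI := hN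
    exact le_antisymm hNM (Subgroup.normalClosure_le_normal hKN)
  left
  have hcomm : ⁅K, N⁆ = ⊥ :=
    (Cfsg.Agent.Helper3.component_le_or_commute K N hK hN.isSubnormal).resolve_left hKN
  have hKc : ∀ z ∈ K, (∀ x ∈ K, x * z = z * x) → z = 1 := by
    intro z hz hx
    have h1 : (⟨z, hz⟩ : K) ∈ Subgroup.center ↥K := by
      rw [Subgroup.mem_center_iff]
      intro g
      exact Subtype.ext (hx g g.2)
    rw [hZ, Subgroup.mem_bot] at h1
    exact congrArg Subtype.val h1
  have hNK : ∀ z ∈ N, ∀ x ∈ K, x * z = z * x := by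
    intro z hz x hx
    have h1 := Subgroup.commutator_eq_bot_iff_le_centralizer.mp hcomm
    exact (Subgroup.mem_centralizer_iff.mp (h1 hx) z hz).symm
  obtain ⟨cj, hcj⟩ : ∃ cj : G → Subgroup G,
      ∀ g, cj g = K.map (MulAut.conj g).toMonoidHom := ⟨_, fun _ => rfl⟩
  have hcomp : ∀ g, Cfsg.IsComponent (cj g) := by
    intro g
    rw [hcj]
    exact Cfsg.Agent.Helper3.component_map_equiv (MulAut.conj g) K hK
  have hmem : ∀ g x, x ∈ cj g ↔ ∃ k ∈ K, g * k * g⁻¹ = x := by
    intro g x
    rw [hcj, Subgroup.mem_map]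
    rfl
  obtain ⟨s, hs⟩ : ∃ s : Finset (Subgroup G), s = (Finset.univ : Finset G).image cj :=
    ⟨_, rfl⟩
  have hsmem : ∀ L ∈ s, ∃ g, L = cj g := by
    intro L hL
    rw [hs, Finset.mem_image] at hL
    obtain ⟨g, -, hg⟩ := hL
    exact ⟨g, hg.symm⟩
  have hle : Subgroup.normalClosure (K : Set G) ≤ (s.sup id : Subgroup G) := by
    unfold Subgroup.normalClosure
    rw [Subgroup.closure_le]
    intro y hy
    rw [Group.mem_conjugatesOfSet_iff] at hy
    obtain ⟨k, hk, hky⟩ := hy
    rw [isConj_iff] at hky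
    obtain ⟨c, hc⟩ := hky
    have h1 : cj c ≤ (s.sup id : Subgroup G) := by
      have h2 : cj c ∈ s := by
        rw [hs]
        exact Finset.mem_image_of_mem cj (Finset.mem_univ c)
      exact Finset.le_sup (f := id) h2
    exact h1 ((hmem c y).mpr ⟨k, hk, hc⟩)
  rw [Subgroup.eq_bot_iff_forall]
  intro z hz
  refine fin_center s ?_ ?_ z (hle (hNM hz)) ?_
  · intro L hL w hw hcw
    obtain ⟨g, rfl⟩ := hsmem L hL
    obtain ⟨k, hk, rfl⟩ := (hmem g w).mp hw
    have hk1 : k = 1 := by
      apply hKc k hk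
      intro x hx
      have h1 := hcw (g * x * g⁻¹) ((hmem g _).mpr ⟨x, hx, rfl⟩)
      have h2 : g * (x * k) * g⁻¹ = g * (k * x) * g⁻¹ := by
        calc g * (x * k) * g⁻¹ = g * x * g⁻¹ * (g * k * g⁻¹) := by group
          _ = g * k * g⁻¹ * (g * x * g⁻¹) := h1
          _ = g * (k * x) * g⁻¹ := by group
      exact mul_left_cancel (mul_right_cancel h2)
    rw [hk1]
    group
  · intro L hL L' hL' hne x hx y hy
    obtain ⟨g, rfl⟩ := hsmem L hL
    obtain ⟨g', rfl⟩ := hsmem L' hL'
    have h1 := Cfsg.Agent.Helper3.components_commute (cj g) (cj g') (hcomp g) (hcomp g') hne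
    have h2 := Subgroup.commutator_eq_bot_iff_le_centralizer.mp h1
    exact (Subgroup.mem_centralizer_iff.mp (h2 hx) y hy).symm
  · intro L hL x hx
    obtain ⟨g, rfl⟩ := hsmem L hL
    obtain ⟨k, hk, rfl⟩ := (hmem g x).mp hx
    have h1 : g⁻¹ * z * g ∈ N := by
      have := hN.conj_mem z hz g⁻¹
      rwa [inv_inv] at this
    have h2 := hNK _ h1 k hk
    calc g * k * g⁻¹ * z = g * (k * (g⁻¹ * z * g)) * g⁻¹ := by group
      _ = g * (g⁻¹ * z * g * k) * g⁻¹ := by rw [h2]
      _ = z * (g * k * g⁻¹) := by group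

theorem part_b {G : Type u} [Group G] [Finite G] (hF : Cfsg.fittingSubgroup G = ⊥) :
    sSup {N : Subgroup G | N ≠ ⊥ ∧ N.Normal ∧
      ∀ N' : Subgroup G, N'.Normal → N' ≤ N → N' = ⊥ ∨ N' = N} = Cfsg.layer G := by
  apply le_antisymm
  · apply sSup_le
    rintro N ⟨hN1, hNn, hNmin⟩
    haveI := hNn
    haveI hLn : (Cfsg.layer G).Normal := Cfsg.Agent.Helper3.layer_normal
    have hFstar : Cfsg.generalizedFittingSubgroup G = Cfsg.layer G := by
      unfold Cfsg.generalizedFittingSubgroup
      rw [hF, sup_bot_eq]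
    rcases hNmin (N ⊓ Cfsg.layer G) inferInstance inf_le_left with h | h
    · exfalso
      apply hN1
      have hcomm : ⁅N, Cfsg.layer G⁆ = ⊥ := by
        rw [eq_bot_iff, ← h]
        exact Subgroup.commutator_le_inf N (Cfsg.layer G)
      have h1 : N ≤ Subgroup.centralizer (Cfsg.layer G : Set G) :=
        Subgroup.commutator_eq_bot_iff_le_centralizer.mp hcomm
      have h2 : N ≤ Cfsg.layer G := by
        have h3 := Cfsg.Agent.Helper3.centralizer_fstar_le G
        rw [hFstar] at h3
        exact h1.trans h3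
      rw [eq_bot_iff, ← h]
      exact le_inf le_rfl h2
    · exact inf_eq_left.mp h
  · show sSup {K : Subgroup G | Cfsg.IsComponent K} ≤ _
    apply sSup_le
    intro K hK
    have hKK : Cfsg.IsComponent K := hK
    have hZ : Subgroup.center ↥K = ⊥ := by
      rw [Subgroup.eq_bot_iff_forall]
      intro z hz
      have hzE : (z : G) ∈ Cfsg.layer G := Cfsg.Agent.Helper3.component_le_layer K hKK z.2
      have hcE : Cfsg.layer G ≤ Subgroup.centralizer ({(z : G)} : Set G) := by
        show sSup {K : Subgroup G | Cfsg.IsComponent K} ≤ _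
        apply sSup_le
        intro L hL x hx
        have hLL : Cfsg.IsComponent L := hL
        rw [Subgroup.mem_centralizer_iff]
        intro y hy
        rw [Set.mem_singleton_iff] at hy
        rw [hy]
        by_cases hLK : L = K
        · have h1 := Subgroup.mem_center_iff.mp hz ⟨x, hLK ▸ hx⟩
          exact (congrArg Subtype.val h1).symm
        · have h1 := Cfsg.Agent.Helper3.components_commute L K hLL hKK hLK
          have h2 := Subgroup.commutator_eq_bot_iff_le_centralizer.mp h1
          exact Subgroup.mem_centralizer_iff.mp (h2 hx) (z : G) z.2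
      have hmem : (z : G) ∈ (Subgroup.center ↥(Cfsg.layer G)).map (Cfsg.layer G).subtype := by
        refine ⟨⟨(z : G), hzE⟩, ?_, rfl⟩
        rw [SetLike.mem_coe, Subgroup.mem_center_iff]
        intro y
        have h1 := Subgroup.mem_centralizer_iff.mp (hcE y.2) (z : G) (Set.mem_singleton _)
        exact Subtype.ext h1.symm
      rw [Cfsg.Agent.Helper3.center_layer_eq, hF, bot_inf_eq, Subgroup.mem_bot] at hmem
      exact Subtype.ext hmem
    obtain ⟨hne, hmin⟩ := part_a K hKK hZ
    exact Subgroup.le_normalClosure.trans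
      (le_sSup ⟨hne, Subgroup.normalClosure_normal, hmin⟩)

end Cfsg.Agent.Helper2.MinNormComp
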