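import Mathlib
import Cfsg.Prelude.Def_Characters
import Cfsg.Prelude.Def_Blocks
import Cfsg.Prelude.Def_Transfer
import Cfsg.Prelude.Def_CharExt
import Cfsg.Agent.Helper2.NPC3

namespace Cfsg.Agent.Helper2.NPC

open Cfsg.Agent.Lead

universe u

theorem exists_ext_coprime_order {G : Type u} [Group G] [Finite G] (p : ℕ) [hp : Fact p.Prime]
    (N : Subgroup G) [hN : N.Normal] (hpg : IsPGroup p (G ⧸ N))
    (hcomm : ¬ p ∣ (commutator N).index) (θ : Cfsg.IrrCharacter N)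
    (hinv : ∀ (g : G) (n : N),
      (θ : N → ℂ) ⟨g * n * g⁻¹, hN.conj_mem (n : G) n.2 g⟩ = (θ : N → ℂ) n)
    (hd : ¬ p ∣ Cfsg.charDegree (θ : N → ℂ)) :
    ∃ χ : Cfsg.IrrCharacter G, (∀ n : N, (χ : G → ℂ) n = (θ : N → ℂ) n) ∧
      ¬ p ∣ Cfsg.detOrder (χ : G → ℂ) := by
  classical
  obtain ⟨k, hk⟩ := IsPGroup.iff_card.mp hpg
  have hidx : N.index = p ^ k := by rw [Subgroup.index_eq_card]; exact hk
  obtain ⟨χ₀, hχ₀, hχ₀N⟩ := extends_of_invariant p N hpg hcomm θ hinv hd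
  obtain ⟨hμc, hμ1⟩ := Cfsg.Agent.Helper2.DetExt.detChar_linear χ₀ hχ₀
  set μ₀ := Cfsg.detChar χ₀ with hμ₀
  have hμ₀N : ∀ n : N, μ₀ n = Cfsg.detChar (θ : N → ℂ) n :=
    fun n => Cfsg.Agent.Helper2.DetExt.detChar_res N χ₀ hχ₀ _ θ.2 hχ₀N n
  obtain ⟨hlc, hl1⟩ := Cfsg.Agent.Helper2.DetExt.detChar_linear (θ : N → ℂ) θ.2
  have ho₀ : orderOf μ₀ ∣ (commutator G).index := orderOf_linear_dvd _ hμc hμ1
  have ho₀ne : orderOf μ₀ ≠ 0 := by
    intro h
    rw [h] at ho₀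
    exact Subgroup.index_ne_zero_of_finite (zero_dvd_iff.mp ho₀)
  set j := (orderOf μ₀).factorization p with hj
  set m := orderOf μ₀ / p ^ j with hm
  have hpm : ¬ p ∣ m := Nat.not_dvd_ordCompl hp.out ho₀ne
  have hom : orderOf μ₀ = p ^ j * m := (Nat.ordProj_mul_ordCompl_eq_self _ p).symm
  have hmpos : 0 < m := Nat.pos_of_ne_zero (fun h => hpm (by rw [h]; exact dvd_zero p))
  set t := (p ^ j) ^ Nat.totient m with ht
  have htmod : t % m = 1 % m :=
    Nat.ModEq.pow_totient (Nat.Coprime.pow_left j ((Nat.Prime.coprime_iff_not_dvd hp.out).mpr hpm))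
  let μ : G → ℂ := fun g => μ₀ g ^ t
  have hμmul := isCharacter_linear_mul hμc hμ1
  have hμ'1 : μ 1 = 1 := by show μ₀ 1 ^ t = 1; rw [hμ1, one_pow]
  have hμ'c : Cfsg.IsCharacter G μ := isCharacter_of_mul μ hμ'1 (fun a b => by
    show μ₀ (a * b) ^ t = μ₀ a ^ t * μ₀ b ^ t
    rw [hμmul, mul_pow])
  have hμ₀pow : ∀ g, μ₀ g ^ orderOf μ₀ = 1 := fun g => congrFun (pow_orderOf_eq_one μ₀) g
  have hμ'N : ∀ n : N, μ n = Cfsg.detChar (θ : N → ℂ) n := by
    intro n
    show μ₀ n ^ t = _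
    rw [hμ₀N n]
    set a := Cfsg.detChar (θ : N → ℂ) n with ha
    have h1 : a ^ orderOf μ₀ = 1 := by rw [ha, ← hμ₀N n]; exact hμ₀pow n
    have h2 : a ^ (commutator N).index = 1 := by
      obtain ⟨c, hc⟩ := orderOf_linear_dvd _ hlc hl1
      have h3 : Cfsg.detChar (θ : N → ℂ) n ^ orderOf (Cfsg.detChar (θ : N → ℂ)) = 1 :=
        congrFun (pow_orderOf_eq_one (Cfsg.detChar (θ : N → ℂ))) n
      rw [ha, hc, pow_mul, h3, one_pow]
    have h3 : orderOf a ∣ m := by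
      have hd1 : orderOf a ∣ m * p ^ j := by
        rw [mul_comm, ← hom]; exact orderOf_dvd_of_pow_eq_one h1
      have hd2 : orderOf a ∣ (commutator N).index := orderOf_dvd_of_pow_eq_one h2
      have hcop : Nat.Coprime (orderOf a) (p ^ j) := by
        apply Nat.Coprime.pow_right
        apply Nat.Coprime.symm
        rw [Nat.Prime.coprime_iff_not_dvd hp.out]
        intro h
        exact hcomm (h.trans hd2)
      exact hcop.dvd_of_dvd_mul_right hd1
    have h4 : a ^ m = 1 := orderOf_dvd_iff_pow_eq_one.mp h3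
    rw [pow_eq_pow_mod t h4, htmod, ← pow_eq_pow_mod 1 h4, pow_one]
  have hμord : orderOf μ ∣ m := by
    apply orderOf_dvd_of_pow_eq_one
    funext g
    show (μ₀ g ^ t) ^ m = 1
    rw [← pow_mul]
    have htm : t * m = orderOf μ₀ * (p ^ j) ^ (Nat.totient m - 1) := by
      rw [ht, hom]
      have h5 : Nat.totient m = (Nat.totient m - 1) + 1 := by
        have := Nat.totient_pos.mpr hmpos
        omega
      conv_lhs => rw [h5, pow_succ]
      ring
    rw [htm, pow_mul, hμ₀pow, one_pow]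
  obtain ⟨K, -, -, -, -, hd1, -⟩ := Cfsg.Agent.Helper2.CharKer.exists_ker θ
  have hcop : Nat.Coprime N.index (Cfsg.charDegree (θ : N → ℂ)) := by
    rw [hidx]
    exact Nat.Coprime.pow_left k ((Nat.Prime.coprime_iff_not_dvd hp.out).mpr hd)
  obtain ⟨χ, ⟨hχ, hχN, hχdet⟩, -⟩ := Cfsg.Agent.S0862.result N (θ : N → ℂ) θ.2 _ hd1 hcop
    ⟨χ₀, hχ₀, hχ₀N⟩ μ ⟨hμ'c, hμ'1⟩ hμ'N
  refine ⟨⟨χ, hχ⟩, hχN, ?_⟩
  show ¬ p ∣ orderOf (Cfsg.detChar χ)
  rw [hχdet]
  exact fun h => hpm (h.trans hμord)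

theorem card_modEq_sum_inv {G : Type u} [Group G] [Finite G] (p : ℕ) [hp : Fact p.Prime]
    (N : Subgroup G) [hN : N.Normal] (hpg : IsPGroup p (G ⧸ N))
    [Fintype (Cfsg.IrrCharacter N)]
    (Inv : Cfsg.IrrCharacter N → Prop) [DecidablePred Inv]
    (hInv : ∀ θ, Inv θ ↔ ∀ (g : G) (n : N),
      (θ : N → ℂ) ⟨g * n * g⁻¹, hN.conj_mem (n : G) n.2 g⟩ = (θ : N → ℂ) n) :
    Nat.card N ≡ ∑ θ ∈ Finset.univ.filter Inv, Cfsg.charDegree (θ : N → ℂ) ^ 2 [MOD p] := by
  classical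
  obtain ⟨P⟩ : Nonempty (Sylow p G) := inferInstance
  letI : MulAction G (Cfsg.IrrCharacter N) := irrAction N
  have hsmul : ∀ (g : G) (θ : Cfsg.IrrCharacter N) (n : N),
      ((g • θ : Cfsg.IrrCharacter N) : N → ℂ) n = (conjIrr N g θ : N → ℂ) n :=
    fun g θ n => rfl
  have hPp : IsPGroup p (P : Subgroup G) := P.isPGroup'
  have hdeg_inv : ∀ (g : G) (θ : Cfsg.IrrCharacter N),
      Cfsg.charDegree ((g • θ : Cfsg.IrrCharacter N) : N → ℂ)
        = Cfsg.charDegree (θ : N → ℂ) := by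
    intro g θ
    have h1 : ((g • θ : Cfsg.IrrCharacter N) : N → ℂ) 1 = (θ : N → ℂ) 1 := by
      rw [hsmul, conjIrr_apply]
      exact congrArg (θ : N → ℂ) (Subtype.ext (by simp))
    unfold Cfsg.charDegree
    rw [h1]
  obtain ⟨k, hk⟩ := IsPGroup.iff_card.mp hpg
  have hidx : N.index = p ^ k := by rw [Subgroup.index_eq_card]; exact hk
  have hPN : (P : Subgroup G) ⊔ N = ⊤ := by
    rw [← Subgroup.index_eq_one]
    have h1 : ((P : Subgroup G) ⊔ N).index ∣ (P : Subgroup G).index :=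
      Subgroup.index_dvd_of_le le_sup_left
    have h2 : ((P : Subgroup G) ⊔ N).index ∣ N.index := Subgroup.index_dvd_of_le le_sup_right
    have h3 : Nat.Coprime (P : Subgroup G).index N.index := by
      rw [hidx]
      exact Nat.Coprime.pow_right k
        (Nat.Coprime.symm ((Nat.Prime.coprime_iff_not_dvd hp.out).mpr P.not_dvd_index))
    exact Nat.eq_one_of_dvd_coprimes h3 h1 h2
  have hfixG : ∀ θ : Cfsg.IrrCharacter N,
      θ ∈ MulAction.fixedPoints (P : Subgroup G) (Cfsg.IrrCharacter N) → ∀ g : G, g • θ = θ := by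
    intro θ hθ g
    have hle : (P : Subgroup G) ⊔ N ≤ MulAction.stabilizer G θ := by
      apply sup_le
      · intro x hx
        rw [MulAction.mem_stabilizer_iff]
        exact hθ ⟨x, hx⟩
      · intro m hm
        rw [MulAction.mem_stabilizer_iff]
        apply Subtype.ext
        funext n
        rw [hsmul, conjIrr_apply]
        have hcf := isClassFunction_irr θ
        have := hcf n ⟨m⁻¹, N.inv_mem hm⟩
        rw [← this]
        exact congrArg (θ : N → ℂ) (Subtype.ext (by simp))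
    have : g ∈ MulAction.stabilizer G θ := hle (by rw [hPN]; trivial)
    exact MulAction.mem_stabilizer_iff.mp this
  have hmem : ∀ θ : Cfsg.IrrCharacter N, θ ∈ Finset.univ.filter Inv ↔
      θ ∈ MulAction.fixedPoints (P : Subgroup G) (Cfsg.IrrCharacter N) := by
    intro θ
    rw [Finset.mem_filter, hInv]
    simp only [Finset.mem_univ, true_and]
    constructor
    · intro h x
      apply Subtype.ext
      funext n
      show ((((x : G) • θ : Cfsg.IrrCharacter N)) : N → ℂ) n = _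
      rw [hsmul, conjIrr_apply]
      have := h (x : G)⁻¹ n
      rw [← this]
      exact congrArg (θ : N → ℂ) (Subtype.ext (by simp))
    · intro hθ g n
      have h1 : (((g⁻¹ : G) • θ : Cfsg.IrrCharacter N) : N → ℂ) n = (θ : N → ℂ) n := by
        rw [hfixG θ hθ g⁻¹]
      rw [hsmul, conjIrr_apply] at h1
      rw [← h1]
      exact congrArg (θ : N → ℂ) (Subtype.ext (by simp))
  letI instF : Fintype (MulAction.fixedPoints (P : Subgroup G) (Cfsg.IrrCharacter N)) :=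
    Fintype.ofFinite _
  have hC1 := sum_modEq_sum_fixed p hPp
    (fun θ : Cfsg.IrrCharacter N => Cfsg.charDegree (θ : N → ℂ) ^ 2)
    (fun g θ => by
      show Cfsg.charDegree ((((g : G) • θ : Cfsg.IrrCharacter N)) : N → ℂ) ^ 2 = _
      rw [hdeg_inv])
  rw [Cfsg.Agent.Helper2.CharKer.sum_degree_sq] at hC1
  rw [Finset.sum_subtype (F := instF) (Finset.univ.filter Inv) hmem
    (fun θ => Cfsg.charDegree (θ : N → ℂ) ^ 2)]
  exact hC1

theorem charDegree_res {G : Type u} [Group G] (N : Subgroup G) (χ : G → ℂ) :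
    Cfsg.charDegree (fun n : N => χ n) = Cfsg.charDegree χ := by
  unfold Cfsg.charDegree
  simp

theorem card_modEq_general {G : Type u} [Group G] [Finite G] (p : ℕ) [hp : Fact p.Prime]
    (N : Subgroup G) [hN : N.Normal] (hpg : IsPGroup p (G ⧸ N))
    (hcomm : ¬ p ∣ (commutator N).index)
    [Fintype (Cfsg.IrrCharacter G)] [Fintype (Cfsg.IrrCharacter N)] :
    Nat.card N ≡ ∑ χ ∈ Finset.univ.filter (fun χ : Cfsg.IrrCharacter G =>
          ¬ p ∣ Cfsg.charDegree (χ : G → ℂ) ∧ ¬ p ∣ Cfsg.detOrder (χ : G → ℂ)),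
        Cfsg.charDegree (χ : G → ℂ) ^ 2 [MOD p] := by
  classical
  let Inv : Cfsg.IrrCharacter N → Prop := fun θ =>
    ∀ (g : G) (n : N),
      (θ : N → ℂ) ⟨g * n * g⁻¹, hN.conj_mem (n : G) n.2 g⟩ = (θ : N → ℂ) n
  have h1 := card_modEq_sum_inv p N hpg Inv (fun θ => Iff.rfl)
  have h2 : ∑ θ ∈ Finset.univ.filter Inv, Cfsg.charDegree (θ : N → ℂ) ^ 2
      ≡ ∑ θ ∈ (Finset.univ.filter Inv).filter
        (fun θ : Cfsg.IrrCharacter N => ¬ p ∣ Cfsg.charDegree (θ : N → ℂ)),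
        Cfsg.charDegree (θ : N → ℂ) ^ 2 [MOD p] := by
    rw [← Finset.sum_filter_add_sum_filter_not (Finset.univ.filter Inv)
      (fun θ : Cfsg.IrrCharacter N => ¬ p ∣ Cfsg.charDegree (θ : N → ℂ))]
    have hB : p ∣ ∑ θ ∈ (Finset.univ.filter Inv).filter
        (fun θ : Cfsg.IrrCharacter N => ¬ ¬ p ∣ Cfsg.charDegree (θ : N → ℂ)),
        Cfsg.charDegree (θ : N → ℂ) ^ 2 := by
      apply Finset.dvd_sum
      intro θ hθ
      have := (Finset.mem_filter.mp hθ).2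
      exact dvd_pow (not_not.mp this) two_ne_zero
    obtain ⟨c, hc⟩ := hB
    rw [hc]
    exact Nat.add_mul_mod_self_left _ _ _
  have h3 : ∑ θ ∈ (Finset.univ.filter Inv).filter
        (fun θ : Cfsg.IrrCharacter N => ¬ p ∣ Cfsg.charDegree (θ : N → ℂ)),
        Cfsg.charDegree (θ : N → ℂ) ^ 2
      = ∑ χ ∈ Finset.univ.filter (fun χ : Cfsg.IrrCharacter G =>
          ¬ p ∣ Cfsg.charDegree (χ : G → ℂ) ∧ ¬ p ∣ Cfsg.detOrder (χ : G → ℂ)),
        Cfsg.charDegree (χ : G → ℂ) ^ 2 := by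
    symm
    refine Finset.sum_bij (fun χ hχ => (⟨fun n : N => (χ : G → ℂ) n,
      res_irr_of_coprime p N hpg χ (Finset.mem_filter.mp hχ).2.1⟩ :
        Cfsg.IrrCharacter N)) ?_ ?_ ?_ ?_
    · intro χ hχ
      refine Finset.mem_filter.mpr ⟨Finset.mem_filter.mpr ⟨Finset.mem_univ _, ?_⟩, ?_⟩
      · intro g n
        show (χ : G → ℂ) (g * n * g⁻¹) = (χ : G → ℂ) n
        exact isClassFunction_irr χ n g
      · show ¬ p ∣ Cfsg.charDegree (fun n : N => (χ : G → ℂ) n)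
        rw [charDegree_res]
        exact (Finset.mem_filter.mp hχ).2.1
    · intro χ hχ χ' hχ' heq
      have hres : ∀ n : N, (χ : G → ℂ) n = (χ' : G → ℂ) n := by
        intro n
        have := congrArg (fun ψ : Cfsg.IrrCharacter N => (ψ : N → ℂ) n) heq
        exact this
      exact ext_unique p N hpg χ χ' hres (Finset.mem_filter.mp hχ).2.1
        (Finset.mem_filter.mp hχ).2.2 (Finset.mem_filter.mp hχ').2.2
    · intro θ hθ
      have hθ1 := Finset.mem_filter.mp hθ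
      have hθ2 := Finset.mem_filter.mp hθ1.1
      obtain ⟨χ, hχN, hχo⟩ :=
        exists_ext_coprime_order p N hpg hcomm θ hθ2.2 hθ1.2
      have hdeq : Cfsg.charDegree (χ : G → ℂ) = Cfsg.charDegree (θ : N → ℂ) := by
        rw [← charDegree_res N (χ : G → ℂ)]
        congr 1
        funext n
        exact hχN n
      refine ⟨χ, ?_, ?_⟩
      · refine Finset.mem_filter.mpr ⟨Finset.mem_univ _, ?_, hχo⟩
        rw [hdeq]
        exact hθ1.2
      · apply Subtype.ext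
        funext n
        exact hχN n
    · intro χ hχ
      show Cfsg.charDegree (χ : G → ℂ) ^ 2
        = Cfsg.charDegree (fun n : N => (χ : G → ℂ) n) ^ 2
      rw [charDegree_res]
  have h4 := h1.trans h2
  rw [h3] at h4
  exact h4

theorem pResidual_card_modEq {G : Type u} [Group G] [Finite G] (p : ℕ) (hp : p.Prime) :
    (Nat.card (Cfsg.pResidual p G) : ℤ) ≡ (∑ᶠ χ ∈ {χ : Cfsg.IrrCharacter G |
      ¬ p ∣ Cfsg.charDegree (χ : G → ℂ) ∧ ¬ p ∣ Cfsg.detOrder (χ : G → ℂ)},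
      (Cfsg.charDegree (χ : G → ℂ) : ℤ) ^ 2) [ZMOD p] := by
  classical
  haveI : Fact p.Prime := ⟨hp⟩
  haveI hNn : (Cfsg.pResidual p G).Normal := pResidual_normal p
  have hpg : IsPGroup p (G ⧸ Cfsg.pResidual p G) := pResidual_quotient_isPGroup p
  have hcomm : ¬ p ∣ (commutator (Cfsg.pResidual p G)).index := pResidual_commutator_index p
  haveI : Finite (Cfsg.IrrCharacter (Cfsg.pResidual p G)) := finite_irrCharacter _
  haveI : Fintype (Cfsg.IrrCharacter (Cfsg.pResidual p G)) := Fintype.ofFinite _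
  haveI : Finite (Cfsg.IrrCharacter G) := finite_irrCharacter G
  haveI : Fintype (Cfsg.IrrCharacter G) := Fintype.ofFinite _
  have h4 := card_modEq_general p (Cfsg.pResidual p G) hpg hcomm
  have h5 : ∑ᶠ χ ∈ {χ : Cfsg.IrrCharacter G |
      ¬ p ∣ Cfsg.charDegree (χ : G → ℂ) ∧ ¬ p ∣ Cfsg.detOrder (χ : G → ℂ)},
      (Cfsg.charDegree (χ : G → ℂ) : ℤ) ^ 2
      = ((∑ χ ∈ Finset.univ.filter (fun χ : Cfsg.IrrCharacter G =>
          ¬ p ∣ Cfsg.charDegree (χ : G → ℂ) ∧ ¬ p ∣ Cfsg.detOrder (χ : G → ℂ)),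
        Cfsg.charDegree (χ : G → ℂ) ^ 2 : ℕ) : ℤ) := by
    rw [finsum_mem_eq_toFinset_sum]
    push_cast
    apply Finset.sum_congr
    · ext χ
      simp
    · intros
      rfl
  rw [h5]
  exact Int.natCast_modEq_iff.mpr h4

end Cfsg.Agent.Helper2.NPC
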