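import Mathlib
import Cfsg.Agent.Lead.CharCore6
import Cfsg.Agent.Lead.IndFun2
import Cfsg.Agent.S0146
import Cfsg.Agent.S0154
import Cfsg.Agent.Helper2.CharKer

/-! Existence of an irreducible character over a given one; abelian criterion. -/

namespace Cfsg.Agent.Helper2.Over

open Cfsg.Agent.Lead

universe u

/-- every irreducible character of a subgroup lies under an irreducible character of the group -/
theorem exists_irr_over {G : Type u} [Group G] [Fintype G] (H : Subgroup G) [Fintype H]
    (θ : H → ℂ) (hθ : Cfsg.IsIrrCharacter H θ) :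
    ∃ χ : Cfsg.IrrCharacter G, Cfsg.classInner (fun h : H => (χ : G → ℂ) h) θ ≠ 0 := by
  classical
  by_contra hno
  push_neg at hno
  have hcf := indFun_isClassFunction H θ
  have h1 := classFunction_eq_finsum (Cfsg.indFun H θ) hcf
  have h2 : ∀ χ : Cfsg.IrrCharacter G, Cfsg.classInner (Cfsg.indFun H θ) (χ : G → ℂ) = 0 := by
    intro χ
    rw [Cfsg.Agent.S0146.result H θ (χ : G → ℂ) (isClassFunction_irr χ), ← classInner_conj_symm,
      hno χ, map_zero]
  simp only [h2, zero_smul, finsum_zero] at h1
  have h3 := indFun_one H θ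
  rw [h1] at h3
  obtain ⟨k, hk0, hk⟩ := isIrrCharacter_one_eq_nat hθ
  have hidx : (H.index : ℂ) ≠ 0 := by
    exact_mod_cast (Subgroup.index_ne_zero_of_finite (H := H))
  have hθ1 : θ 1 ≠ 0 := by rw [hk]; exact_mod_cast hk0.ne'
  exact mul_ne_zero hidx hθ1 h3.symm

/-- a finite group all of whose irreducible characters are linear is abelian -/
theorem comm_of_all_linear {G : Type u} [Group G] [Finite G]
    (h : ∀ χ : Cfsg.IrrCharacter G, (χ : G → ℂ) 1 = 1) : ∀ a b : G, a * b = b * a := by
  classical
  haveI : Finite (Cfsg.IrrCharacter G) := finite_irrCharacter G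
  haveI : Fintype (Cfsg.IrrCharacter G) := Fintype.ofFinite _
  have h1 := Cfsg.Agent.Helper2.CharKer.sum_degree_sq (G := G)
  have hdeg : ∀ χ : Cfsg.IrrCharacter G, Cfsg.charDegree (χ : G → ℂ) = 1 := by
    intro χ
    obtain ⟨K, -, -, -, -, hd1, -⟩ := Cfsg.Agent.Helper2.CharKer.exists_ker χ
    rw [h χ] at hd1
    exact_mod_cast hd1.symm
  simp only [hdeg, one_pow, Finset.sum_const, Finset.card_univ, smul_eq_mul, mul_one] at h1
  have h2 := Cfsg.Agent.S0154.result (G := G)
  have h3 : Nat.card {χ : Cfsg.IrrCharacter G // (χ : G → ℂ) 1 = 1}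
      = Nat.card (Cfsg.IrrCharacter G) :=
    Nat.card_congr (Equiv.subtypeUnivEquiv h)
  rw [h3, Nat.card_eq_fintype_card, h1] at h2
  have h4 : (commutator G).index * Nat.card (commutator G) = Nat.card G :=
    Subgroup.index_mul_card _
  rw [← h2] at h4
  have h5 : Nat.card (commutator G) = 1 := by
    have hpos : 0 < Nat.card G := Nat.card_pos
    nlinarith
  have h6 : commutator G = ⊥ := Subgroup.card_eq_one.mp h5
  intro a b
  have h7 : a * b * a⁻¹ * b⁻¹ ∈ commutator G := by
    rw [commutator_def]
    have := Subgroup.commutator_mem_commutator (Subgroup.mem_top a) (Subgroup.mem_top b)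
    rwa [commutatorElement_def] at this
  rw [h6, Subgroup.mem_bot] at h7
  calc a * b = (a * b * a⁻¹ * b⁻¹) * b * a := by group
    _ = b * a := by rw [h7, one_mul]

end Cfsg.Agent.Helper2.Over
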