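import Mathlib
import Cfsg.Agent.Helper2.Twist2
import Cfsg.Agent.Helper2.Over
import Cfsg.Agent.Helper2.Ito
import Cfsg.Agent.Helper2.Proj3
import Cfsg.Agent.Helper2.Conj
import Cfsg.Agent.Lead.CharClifford
import Cfsg.Agent.Lead.CharOdd
import Cfsg.Agent.Lead.CharInt
import Cfsg.Prelude.Def_Blocks

set_option autoImplicit false

namespace Cfsg.Agent.Helper2.NormSyl

open Cfsg Cfsg.Agent.Lead

universe u

/-- a finite group is not the union of the conjugates of a proper subgroup -/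
theorem eq_top_of_conj_cover {G : Type u} [Group G] [Finite G] (H : Subgroup G)
    (h : ∀ g : G, ∃ x : G, x * g * x⁻¹ ∈ H) : H = ⊤ := by
  classical
  haveI : Fintype G := Fintype.ofFinite G
  haveI : Fintype (G ⧸ H) := Fintype.ofFinite _
  haveI : Fintype (MulAction.orbitRel.Quotient G (G ⧸ H)) := Fintype.ofFinite _
  have hB := MulAction.sum_card_fixedBy_eq_card_orbits_mul_card_group G (G ⧸ H)
  have horb : Fintype.card (MulAction.orbitRel.Quotient G (G ⧸ H)) = 1 := by
    haveI : Subsingleton (MulAction.orbitRel.Quotient G (G ⧸ H)) :=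
      (MulAction.pretransitive_iff_subsingleton_quotient G (G ⧸ H)).mp inferInstance
    exact Fintype.card_eq_one_iff.mpr
      ⟨Quotient.mk'' (QuotientGroup.mk 1), fun y => Subsingleton.elim _ _⟩
  rw [horb, one_mul] at hB
  have hne : ∀ g : G, 1 ≤ Fintype.card (MulAction.fixedBy (G ⧸ H) g) := by
    intro g
    obtain ⟨x, hx⟩ := h g
    refine Fintype.card_pos_iff.mpr ⟨⟨QuotientGroup.mk x⁻¹, ?_⟩⟩
    rw [MulAction.mem_fixedBy, MulAction.Quotient.smul_mk, QuotientGroup.eq]
    have h2 : (g • x⁻¹)⁻¹ * x⁻¹ = (x * g * x⁻¹)⁻¹ := by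
      rw [smul_eq_mul]
      group
    rw [h2]
    exact H.inv_mem hx
  by_contra hHtop
  have hidx : 2 ≤ Fintype.card (G ⧸ H) := by
    have h1 : H.index ≠ 1 := fun h1 => hHtop (Subgroup.index_eq_one.mp h1)
    have h0 : H.index ≠ 0 := Subgroup.index_ne_zero_of_finite
    have h2 : H.index = Fintype.card (G ⧸ H) := by
      rw [Subgroup.index, Nat.card_eq_fintype_card]
    omega
  have hfix1 : Fintype.card (MulAction.fixedBy (G ⧸ H) (1 : G)) = Fintype.card (G ⧸ H) := by
    apply Fintype.card_of_subtype Finset.univ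
    intro q
    simp [MulAction.mem_fixedBy]
  have hlt : ∑ _g : G, 1 < ∑ g : G, Fintype.card (MulAction.fixedBy (G ⧸ H) g) :=
    Finset.sum_lt_sum (fun g _ => hne g) ⟨1, Finset.mem_univ _, by rw [hfix1]; omega⟩
  rw [hB] at hlt
  simp at hlt

/-- Clifford degree formula: `χ(1) = e * |G : I_G(ψ)| * ψ(1)` -/
theorem degree_eq {G : Type u} [Group G] [Fintype G] (K : Subgroup G) [Fintype K]
    [hK : K.Normal] {χ : G → ℂ} (hχ : Cfsg.IsIrrCharacter G χ) {ψ : K → ℂ}
    (hψ : Cfsg.IsIrrCharacter K ψ) (hcon : Cfsg.classInner (fun n : K => χ n) ψ ≠ 0) :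
    ∃ e : ℕ, χ 1 = (e : ℂ) * ((Cfsg.Agent.Helper2.Mono.stab K ψ).index : ℂ) * ψ 1 := by
  classical
  obtain ⟨e, he⟩ := classInner_isCharacter_nat
    (isCharacter_res K (isCharacter_of_isIrrCharacter hχ)) (isCharacter_of_isIrrCharacter hψ)
  refine ⟨e, ?_⟩
  have h := clifford K hχ hψ hcon
  have h1 := congrFun h 1
  rw [he] at h1
  simp only [Pi.smul_apply, smul_eq_mul] at h1
  have hfin : (Set.range (conjFun K ψ)).Finite := Set.finite_range _
  have h2 : (∑ᶠ ψ' ∈ Set.range (conjFun K ψ), ψ') 1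
      = ((Cfsg.Agent.Helper2.Mono.stab K ψ).index : ℂ) * ψ 1 := by
    rw [finsum_mem_eq_finite_toFinset_sum _ hfin, Finset.sum_apply]
    have h3 : ∀ ψ' ∈ hfin.toFinset, ψ' 1 = ψ 1 := by
      intro ψ' hψ'
      rw [Set.Finite.mem_toFinset] at hψ'
      obtain ⟨g, rfl⟩ := hψ'
      unfold conjFun
      congr 1
      apply Subtype.ext
      simp
    rw [Finset.sum_congr rfl h3, Finset.sum_const, nsmul_eq_mul]
    congr 2
    rw [← Cfsg.Agent.Helper2.Twist.card_range_conjFun K ψ, Nat.card_coe_set_eq,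
      Set.ncard_eq_toFinset_card _ hfin]
  rw [h2] at h1
  rw [← mul_assoc] at h1
  exact h1

/-- in `K = N ⋊ P` with all degrees prime to `p`, the Sylow `p`-subgroup is normal -/
theorem normal_sylow_of_pprime_degrees {K : Type u} [Group K] [Finite K] (p : ℕ)
    [hp : Fact p.Prime] (N : Subgroup K) [hN : N.Normal] (hNc : (Nat.card N).Coprime p)
    (hidx : ∃ m : ℕ, N.index = p ^ m)
    (hdeg : ∀ ψ : Cfsg.IrrCharacter K, ∀ d : ℕ, (ψ : K → ℂ) 1 = (d : ℂ) → ¬ p ∣ d)
    (P : Sylow p K) : (P : Subgroup K).Normal := by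
  classical
  haveI : Fintype K := Fintype.ofFinite K
  haveI : Fintype N := Fintype.ofFinite N
  obtain ⟨m, hm⟩ := hidx
  have hinv : ∀ θ : Cfsg.IrrCharacter N, ∀ k : K,
      conjFun N (θ : N → ℂ) k = (θ : N → ℂ) := by
    intro θ k
    obtain ⟨ψ, hψ⟩ := Cfsg.Agent.Helper2.Over.exists_irr_over N (θ : N → ℂ) θ.2
    obtain ⟨e, he⟩ := degree_eq N ψ.2 θ.2 hψ
    obtain ⟨d, hdpos, hd1⟩ := isIrrCharacter_one_eq_nat ψ.2
    obtain ⟨c, hcpos, hc1⟩ := isIrrCharacter_one_eq_nat θ.2
    have hnat : d = e * (Cfsg.Agent.Helper2.Mono.stab N (θ : N → ℂ)).index * c := by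
      rw [hd1, hc1] at he
      exact_mod_cast he
    have hnd : ¬ p ∣ (Cfsg.Agent.Helper2.Mono.stab N (θ : N → ℂ)).index := by
      intro hdvd
      apply hdeg ψ d hd1
      rw [hnat]
      exact dvd_mul_of_dvd_left (dvd_mul_of_dvd_right hdvd e) c
    have hdvd2 : (Cfsg.Agent.Helper2.Mono.stab N (θ : N → ℂ)).index ∣ p ^ m := by
      rw [← hm]
      exact Subgroup.index_dvd_of_le (Cfsg.Agent.Helper2.Mono.le_stab N _
        (isCharacter_isClassFunction (isCharacter_of_isIrrCharacter θ.2)))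
    have hone : (Cfsg.Agent.Helper2.Mono.stab N (θ : N → ℂ)).index = 1 := by
      obtain ⟨j, -, hj⟩ := (Nat.dvd_prime_pow hp.out).mp hdvd2
      rw [hj] at hnd ⊢
      cases j with
      | zero => rfl
      | succ j => exact absurd (dvd_pow_self p (Nat.succ_ne_zero j)) hnd
    have htop : Cfsg.Agent.Helper2.Mono.stab N (θ : N → ℂ) = ⊤ := Subgroup.index_eq_one.mp hone
    funext n
    exact (Cfsg.Agent.Helper2.Mono.mem_stab N _ k).mp (htop ▸ Subgroup.mem_top k) n
  have hcls : ∀ (k : K) (n : N), IsConj n (⟨k * n * k⁻¹, hN.conj_mem n n.2 k⟩ : N) := by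
    intro k n
    by_contra hnc
    have h0 := column_orth_of_not_isConj hnc
    haveI : Finite (Cfsg.IrrCharacter N) := finite_irrCharacter N
    haveI : Fintype (Cfsg.IrrCharacter N) := Fintype.ofFinite _
    rw [finsum_eq_sum_of_fintype] at h0
    have h1 : ∀ θ : Cfsg.IrrCharacter N, (θ : N → ℂ) n * (starRingEnd ℂ)
        ((θ : N → ℂ) ⟨k * n * k⁻¹, hN.conj_mem n n.2 k⟩)
        = ((Complex.normSq ((θ : N → ℂ) n) : ℝ) : ℂ) := by
      intro θ
      have h3 : (θ : N → ℂ) ⟨k * n * k⁻¹, hN.conj_mem n n.2 k⟩ = (θ : N → ℂ) n :=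
        congrFun (hinv θ k) n
      rw [h3, Complex.mul_conj]
    rw [Finset.sum_congr rfl (fun θ _ => h1 θ), ← Complex.ofReal_sum] at h0
    have h4 : (∑ θ : Cfsg.IrrCharacter N, Complex.normSq ((θ : N → ℂ) n)) = 0 := by
      exact_mod_cast h0
    have h5 := (Finset.sum_eq_zero_iff_of_nonneg (fun θ _ => Complex.normSq_nonneg _)).mp h4
      ⟨fun _ => 1, isIrrCharacter_one⟩ (Finset.mem_univ _)
    simp at h5
  -- fixed points in each class
  have hfix : ∀ n : N, ∃ n' : N, IsConj n n' ∧ ∀ x ∈ (P : Subgroup K), x * (n' : K) * x⁻¹ = n' := by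
    intro n
    letI act : MulAction (P : Subgroup K) {y : N // IsConj n y} :=
      { smul := fun x y => ⟨⟨(x : K) * (y.1 : K) * (x : K)⁻¹, hN.conj_mem _ y.1.2 _⟩,
          y.2.trans (hcls (x : K) y.1)⟩
        one_smul := fun y => Subtype.ext (Subtype.ext (by
          show ((1 : (P : Subgroup K)) : K) * (y.1 : K) * ((1 : (P : Subgroup K)) : K)⁻¹ = _
          simp))
        mul_smul := fun x x' y => Subtype.ext (Subtype.ext (by
          show ((x * x' : (P : Subgroup K)) : K) * (y.1 : K) * ((x * x' : (P : Subgroup K)) : K)⁻¹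
            = (x : K) * ((x' : K) * (y.1 : K) * (x' : K)⁻¹) * (x : K)⁻¹
          simp [mul_assoc])) }
    have hcard : ¬ p ∣ Nat.card {y : N // IsConj n y} := by
      intro hdvd
      have h1 : Nat.card {y : N // IsConj n y} = (Subgroup.centralizer ({n} : Set N)).index := by
        rw [Nat.card_eq_fintype_card, Fintype.card_subtype]
        exact card_filter_isConj_eq_index n
      rw [h1] at hdvd
      have h2 : p ∣ Nat.card N := dvd_trans hdvd (Subgroup.index_dvd_card _)
      exact (Nat.Prime.coprime_iff_not_dvd hp.out).mp hNc.symm h2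
    obtain ⟨y, hy⟩ := IsPGroup.nonempty_fixed_point_of_prime_not_dvd_card P.isPGroup'
      {y : N // IsConj n y} hcard
    refine ⟨y.1, y.2, ?_⟩
    intro x hx
    have h1 := MulAction.mem_fixedPoints.mp hy ⟨x, hx⟩
    exact congrArg (fun z : {y : N // IsConj n y} => ((z.1 : N) : K)) h1
  -- N centralizes P
  have hcent : ∀ n ∈ N, ∀ x ∈ (P : Subgroup K), x * n = n * x := by
    have htop := eq_top_of_conj_cover
      ((Subgroup.centralizer ((P : Subgroup K) : Set K)).subgroupOf N) (by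
        intro n
        obtain ⟨n', hconj, hn'⟩ := hfix n
        obtain ⟨c, hc⟩ := isConj_iff.mp hconj
        refine ⟨c, ?_⟩
        rw [hc, Subgroup.mem_subgroupOf, Subgroup.mem_centralizer_iff]
        intro x hx
        have h1 := hn' x hx
        calc x * (n' : K) = x * (n' : K) * x⁻¹ * x := by group
          _ = (n' : K) * x := by rw [h1])
    intro n hn x hx
    have h1 : (⟨n, hn⟩ : N) ∈ (Subgroup.centralizer ((P : Subgroup K) : Set K)).subgroupOf N := by
      rw [htop]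
      exact Subgroup.mem_top _
    rw [Subgroup.mem_subgroupOf, Subgroup.mem_centralizer_iff] at h1
    exact h1 x hx
  -- N ⊔ P = ⊤
  have hsup : N ⊔ (P : Subgroup K) = ⊤ := by
    rw [← Subgroup.index_eq_one]
    have h1 : (N ⊔ (P : Subgroup K)).index ∣ p ^ m := by
      rw [← hm]
      exact Subgroup.index_dvd_of_le le_sup_left
    have h2 : (N ⊔ (P : Subgroup K)).index ∣ (P : Subgroup K).index :=
      Subgroup.index_dvd_of_le le_sup_right
    obtain ⟨j, -, hj⟩ := (Nat.dvd_prime_pow hp.out).mp h1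
    rw [hj] at h2 ⊢
    cases j with
    | zero => rfl
    | succ j =>
      exact absurd (dvd_trans (dvd_pow_self p (Nat.succ_ne_zero j)) h2) P.not_dvd_index
  -- the normalizer is everything
  have hnorm : ∀ k ∈ N ⊔ (P : Subgroup K), ∀ x ∈ (P : Subgroup K),
      k * x * k⁻¹ ∈ (P : Subgroup K) := by
    intro k hk x hx
    obtain ⟨n, hn, y, hy, rfl⟩ := Subgroup.mem_sup_of_normal_left.mp hk
    have hyx : y * x * y⁻¹ ∈ (P : Subgroup K) :=
      Subgroup.mul_mem _ (Subgroup.mul_mem _ hy hx) (Subgroup.inv_mem _ hy)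
    have h1 : n * y * x * (n * y)⁻¹ = y * x * y⁻¹ := by
      calc n * y * x * (n * y)⁻¹ = n * (y * x * y⁻¹) * n⁻¹ := by group
        _ = (y * x * y⁻¹) * n * n⁻¹ := by rw [← hcent n hn _ hyx]
        _ = y * x * y⁻¹ := by group
    rw [h1]
    exact hyx
  exact ⟨fun x hx k => hnorm k (hsup ▸ Subgroup.mem_top k) x hx⟩

/-- key step for a normal `p'`-subgroup below a normal subgroup of `p`-power index over it -/
theorem key {G : Type u} [Group G] [Finite G] (p : ℕ) [hp : Fact p.Prime] (N K : Subgroup G)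
    [hNn : N.Normal] [hKn : K.Normal] (hNK : N ≤ K) (hNc : (Nat.card N).Coprime p)
    (hidx : ∃ m : ℕ, N.relIndex K = p ^ m)
    (hdeg : ∀ χ : Cfsg.IrrCharacter G, ∀ d : ℕ, (χ : G → ℂ) 1 = (d : ℂ) → ¬ p ∣ d) :
    ∃ P : Subgroup G, P.Normal ∧ P ≤ K ∧ IsPGroup p P ∧ ¬ p ∣ P.relIndex K := by
  classical
  haveI : Fintype G := Fintype.ofFinite G
  haveI : Fintype K := Fintype.ofFinite K
  have hdegK : ∀ ψ : Cfsg.IrrCharacter K, ∀ d : ℕ, (ψ : K → ℂ) 1 = (d : ℂ) → ¬ p ∣ d := by
    intro ψ d hd hpd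
    obtain ⟨χ, hχ⟩ := Cfsg.Agent.Helper2.Over.exists_irr_over K (ψ : K → ℂ) ψ.2
    obtain ⟨e, he⟩ := degree_eq K χ.2 ψ.2 hχ
    obtain ⟨c, hcpos, hc1⟩ := isIrrCharacter_one_eq_nat χ.2
    have hnat : c = e * (Cfsg.Agent.Helper2.Mono.stab K (ψ : K → ℂ)).index * d := by
      rw [hc1, hd] at he
      exact_mod_cast he
    apply hdeg χ c hc1
    rw [hnat]
    exact dvd_mul_of_dvd_right hpd _
  have hNc' : (Nat.card (N.subgroupOf K)).Coprime p := by
    rw [Nat.card_congr (Subgroup.subgroupOfEquivOfLe hNK).toEquiv]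
    exact hNc
  obtain ⟨P₀⟩ : Nonempty (Sylow p K) := inferInstance
  have hP₀n := normal_sylow_of_pprime_degrees p (N.subgroupOf K) hNc' hidx hdegK P₀
  haveI := Sylow.characteristic_of_normal P₀ hP₀n
  refine ⟨(P₀ : Subgroup K).map K.subtype, ConjAct.normal_of_characteristic_of_normal,
    Subgroup.map_subtype_le _, P₀.isPGroup'.map _, ?_⟩
  have h1 : ((P₀ : Subgroup K).map K.subtype).relIndex K = (P₀ : Subgroup K).index := by
    unfold Subgroup.relIndex Subgroup.subgroupOf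
    rw [Subgroup.comap_map_eq_self_of_injective K.subtype_injective]
  rw [h1]
  exact P₀.not_dvd_index

/-- main induction: a normal Sylow `p`-subgroup exists when all degrees are prime to `p` -/
theorem exists_normal_sylow (p : ℕ) [hp : Fact p.Prime] (Q : ∀ (G : Type u) [Group G], Prop)
    (hQ : ∀ (G : Type u) [Group G] [Finite G] [Nontrivial G], Q G →
      ∃ N : Subgroup G, ∃ _ : N.Normal, N ≠ ⊥ ∧
        ((∃ m : ℕ, Nat.card N = p ^ m) ∨ (Nat.card N).Coprime p) ∧ Q (G ⧸ N)) :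
    ∀ (n : ℕ) (G : Type u) [Group G] [Finite G], Nat.card G ≤ n → Q G →
      (∀ χ : Cfsg.IrrCharacter G, ∀ d : ℕ, (χ : G → ℂ) 1 = (d : ℂ) → ¬ p ∣ d) →
      ∃ P : Subgroup G, P.Normal ∧ IsPGroup p P ∧ ¬ p ∣ P.index := by
  intro n
  induction n with
  | zero =>
    intro G _ _ hcard
    have := Nat.card_pos (α := G)
    omega
  | succ n ih =>
    intro G _ _ hcard hQG hdeg
    rcases subsingleton_or_nontrivial G with hsub | hnt
    · refine ⟨⊥, inferInstance, IsPGroup.of_bot, ?_⟩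
      rw [Subgroup.index_bot, Nat.card_eq_one_iff_unique.mpr ⟨hsub, ⟨1⟩⟩]
      exact hp.out.not_dvd_one
    · obtain ⟨N, hNn, hNbot, hNtype, hQq⟩ := hQ G hQG
      haveI := hNn
      have hlt : Nat.card (G ⧸ N) ≤ n := by
        have h1 := Subgroup.card_eq_card_quotient_mul_card_subgroup N
        have h2 : 1 < Nat.card N := N.one_lt_card_iff_ne_bot.mpr hNbot
        have h3 : 0 < Nat.card (G ⧸ N) := Nat.card_pos
        nlinarith
      have hdegq : ∀ χ : Cfsg.IrrCharacter (G ⧸ N), ∀ d : ℕ,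
          (χ : G ⧸ N → ℂ) 1 = (d : ℂ) → ¬ p ∣ d := by
        intro χ d hd
        have hirr := Cfsg.Agent.Helper2.Proj.isIrrCharacter_comp_surjective
          (QuotientGroup.mk' N) (QuotientGroup.mk'_surjective N) χ.2
        refine hdeg ⟨_, hirr⟩ d ?_
        show (χ : G ⧸ N → ℂ) ((QuotientGroup.mk' N) 1) = _
        rw [map_one]
        exact hd
      obtain ⟨Qb, hQn, hQp, hQidx⟩ := ih (G ⧸ N) hlt hQq hdegq
      haveI := hQn
      obtain ⟨K, hKdef⟩ : ∃ K : Subgroup G, K = Qb.comap (QuotientGroup.mk' N) := ⟨_, rfl⟩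
      have hKn : K.Normal := by
        rw [hKdef]
        exact hQn.comap _
      have hNK : N ≤ K := by
        intro x hx
        rw [hKdef, Subgroup.mem_comap]
        have h1 : (QuotientGroup.mk' N) x = 1 := (QuotientGroup.eq_one_iff x).mpr hx
        rw [h1]
        exact Qb.one_mem
      have hKidx : K.index = Qb.index := by
        rw [hKdef]
        exact Subgroup.index_comap_of_surjective Qb (QuotientGroup.mk'_surjective N)
      have hrel : N.relIndex K = Nat.card Qb := by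
        have h2 := Subgroup.relIndex_comap (H := (⊥ : Subgroup (G ⧸ N))) (QuotientGroup.mk' N) K
        rw [MonoidHom.comap_bot, QuotientGroup.ker_mk', hKdef,
          Subgroup.map_comap_eq_self_of_surjective (QuotientGroup.mk'_surjective N),
          Subgroup.relIndex_bot_left] at h2
        rw [hKdef]
        exact h2
      obtain ⟨j, hj⟩ := IsPGroup.iff_card.mp hQp
      have hcardK : Nat.card N * N.relIndex K = Nat.card K := by
        have h1 := Subgroup.relIndex_mul_relIndex (H := (⊥ : Subgroup G)) (K := N) (L := K)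
          bot_le hNK
        rw [Subgroup.relIndex_bot_left, Subgroup.relIndex_bot_left] at h1
        exact h1
      rcases hNtype with ⟨m, hm⟩ | hcop
      · refine ⟨K, hKn, ?_, ?_⟩
        · apply IsPGroup.of_card (n := m + j)
          rw [← hcardK, hm, hrel, hj, pow_add]
        · rw [hKidx]
          exact hQidx
      · haveI := hKn
        obtain ⟨P, hPn, hPK, hPp, hPrel⟩ := key p N K hNK hcop ⟨j, hrel.trans hj⟩ hdeg
        refine ⟨P, hPn, hPp, ?_⟩
        rw [← Subgroup.relIndex_mul_index hPK, hKidx]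
        intro hdvd
        rcases (Nat.Prime.dvd_mul hp.out).mp hdvd with h | h
        · exact hPrel h
        · exact hQidx h

/-- a normal `p`-subgroup is abelian when all degrees are prime to `p` -/
theorem abelian_of_normal {G : Type u} [Group G] [Finite G] (p : ℕ) [hp : Fact p.Prime]
    (P : Subgroup G) [hPn : P.Normal] (hP : IsPGroup p P)
    (hdeg : ∀ χ : Cfsg.IrrCharacter G, ∀ d : ℕ, (χ : G → ℂ) 1 = (d : ℂ) → ¬ p ∣ d) :
    ∀ a b : P, a * b = b * a := by
  classical
  haveI : Fintype G := Fintype.ofFinite G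
  haveI : Fintype P := Fintype.ofFinite P
  apply Cfsg.Agent.Helper2.Over.comm_of_all_linear
  intro θ
  obtain ⟨χ, hχ⟩ := Cfsg.Agent.Helper2.Over.exists_irr_over P (θ : P → ℂ) θ.2
  obtain ⟨e, he⟩ := degree_eq P χ.2 θ.2 hχ
  obtain ⟨c, hcpos, hc1⟩ := isIrrCharacter_one_eq_nat χ.2
  obtain ⟨d, hdpos, hd1, hddvd⟩ := irrCharacter_degree_dvd_card θ
  have hnat : c = e * (Cfsg.Agent.Helper2.Mono.stab P (θ : P → ℂ)).index * d := by
    rw [hc1, hd1] at he
    exact_mod_cast he
  have hpd : ¬ p ∣ d := by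
    intro h
    apply hdeg χ c hc1
    rw [hnat]
    exact dvd_mul_of_dvd_right h _
  obtain ⟨j, hj⟩ := IsPGroup.iff_card.mp hP
  rw [hj] at hddvd
  obtain ⟨i, -, hi⟩ := (Nat.dvd_prime_pow hp.out).mp hddvd
  have hd_one : d = 1 := by
    cases i with
    | zero => simpa using hi
    | succ i => exact absurd (hi ▸ dvd_pow_self p (Nat.succ_ne_zero i)) hpd
  rw [hd1, hd_one]
  simp

/-- Ito: degrees are prime to `p` when there is a normal abelian Sylow `p`-subgroup -/
theorem forward {G : Type u} [Group G] [Finite G] (p : ℕ) (P : Subgroup G) [P.Normal]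
    (hab : ∀ a ∈ P, ∀ b ∈ P, a * b = b * a) (hidx : ¬ p ∣ P.index)
    (χ : Cfsg.IrrCharacter G) : ¬ p ∣ Cfsg.charDegree (χ : G → ℂ) := by
  obtain ⟨k, hk1, hkdvd⟩ := Cfsg.Agent.Helper2.Ito.ito_char (Nat.card G) G le_rfl
    (χ : G → ℂ) χ.2 P hab
  have h1 : Cfsg.charDegree (χ : G → ℂ) = k := by
    unfold Cfsg.charDegree
    rw [hk1]
    simp
  rw [h1]
  exact fun h => hidx (dvd_trans h hkdvd)

theorem deg_conv {G : Type u} [Group G] (p : ℕ)
    (h : ∀ χ : Cfsg.IrrCharacter G, ¬ p ∣ Cfsg.charDegree (χ : G → ℂ)) :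
    ∀ χ : Cfsg.IrrCharacter G, ∀ d : ℕ, (χ : G → ℂ) 1 = (d : ℂ) → ¬ p ∣ d := by
  intro χ d hd
  have h1 : Cfsg.charDegree (χ : G → ℂ) = d := by
    unfold Cfsg.charDegree
    rw [hd]
    simp
  rw [← h1]
  exact h χ

end Cfsg.Agent.Helper2.NormSyl
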