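import Mathlib

set_option autoImplicit false

namespace Cfsg.Agent.Helper2

/-- If a group acts on a finite type fixing `a₀` and `n` divides the size of every other orbit,
then the type has cardinality `≡ 1 [MOD n]`. -/
lemma card_modEq_one_of_orbits {P α : Type*} [Group P] [MulAction P α] [Finite α] (n : ℕ) (a₀ : α)
    (h0 : ∀ g : P, g • a₀ = a₀)
    (h : ∀ a : α, a ≠ a₀ → n ∣ Nat.card (MulAction.orbit P a)) : Nat.card α ≡ 1 [MOD n] := by
  classical
  have := Fintype.ofFinite (MulAction.orbitRel.Quotient P α)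
  rw [Nat.card_congr (MulAction.selfEquivSigmaOrbits P α), Nat.card_sigma]
  obtain ⟨ω₀, hω₀⟩ : ∃ ω₀ : MulAction.orbitRel.Quotient P α, ω₀ = Quotient.mk'' a₀ := ⟨_, rfl⟩
  rw [← Finset.add_sum_erase Finset.univ _ (Finset.mem_univ ω₀)]
  have horb : MulAction.orbit P a₀ = {a₀} := by
    ext b; constructor
    · rintro ⟨g, rfl⟩; exact h0 g
    · rintro rfl; exact MulAction.mem_orbit_self _
  have hout : ω₀.out = a₀ := by
    have h1 : (Quotient.mk'' ω₀.out : MulAction.orbitRel.Quotient P α) = Quotient.mk'' a₀ := by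
      rw [Quotient.out_eq', hω₀]
    have h2 : ω₀.out ∈ MulAction.orbit P a₀ := MulAction.orbitRel_apply.mp (Quotient.exact' h1)
    rw [horb] at h2
    exact h2
  have h1 : Nat.card (MulAction.orbit P ω₀.out) = 1 := by
    rw [hout, horb]; simp
  rw [h1]
  have h2 : n ∣ ∑ ω ∈ Finset.univ.erase ω₀, Nat.card (MulAction.orbit P ω.out) := by
    apply Finset.dvd_sum
    intro ω hω
    apply h
    intro hout'
    apply (Finset.mem_erase.mp hω).1
    rw [hω₀, ← hout']; exact (Quotient.out_eq' ω).symm
  obtain ⟨c, hc⟩ := h2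
  rw [hc]
  show (1 + n * c) % n = 1 % n
  exact Nat.add_mul_mod_self_left 1 n c

/-- The stabiliser in a Sylow subgroup `P` of another Sylow subgroup `R` (conjugation action)
is `P ⊓ R`. -/
lemma sylow_stabilizer_eq {G : Type*} [Group G] {p : ℕ} [Fact p.Prime] (P R : Sylow p G) :
    MulAction.stabilizer (↥(P : Subgroup G)) R = (R : Subgroup G).subgroupOf (P : Subgroup G) := by
  ext g
  rw [MulAction.mem_stabilizer_iff, Subgroup.mem_subgroupOf]
  have h1 : g • R = R ↔ (g : G) • R = R := Iff.rfl
  rw [h1, Sylow.smul_eq_iff_mem_normalizer]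
  have h2 := (P.isPGroup').inf_normalizer_sylow R
  constructor
  · intro hg
    have : (g : G) ∈ (P : Subgroup G) ⊓ Subgroup.normalizer (R : Set G) :=
      Subgroup.mem_inf.mpr ⟨g.2, hg⟩
    rw [h2] at this
    exact (Subgroup.mem_inf.mp this).2
  · intro hg
    exact Subgroup.le_normalizer hg

/-- Orbit size of a Sylow subgroup `R` under conjugation by a Sylow subgroup `P`. -/
lemma sylow_card_orbit_eq {G : Type*} [Group G] {p : ℕ} [Fact p.Prime] (P R : Sylow p G) :
    Nat.card (MulAction.orbit (↥(P : Subgroup G)) R) =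
      ((R : Subgroup G).subgroupOf (P : Subgroup G)).index := by
  rw [← sylow_stabilizer_eq, MulAction.index_stabilizer, Nat.card_coe_set_eq]

end Cfsg.Agent.Helper2
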