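import Mathlib

namespace Cfsg.Agent.Helper2

/-- If every orbit has size divisible by `n`, so does the whole set. -/
lemma dvd_card_of_forall_dvd_orbit {P α : Type*} [Group P] [MulAction P α] [Finite α] (n : ℕ)
    (h : ∀ a : α, n ∣ Nat.card (MulAction.orbit P a)) : n ∣ Nat.card α := by
  classical
  have := Fintype.ofFinite (MulAction.orbitRel.Quotient P α)
  rw [Nat.card_congr (MulAction.selfEquivSigmaOrbits P α), Nat.card_sigma]
  exact Finset.dvd_sum (fun ω _ => h _)

/-- The order of a `p`-subgroup divides the order of a Sylow `p`-subgroup. -/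
lemma isPGroup_card_dvd_sylow {G : Type*} [Group G] [Finite G] {p : ℕ} [Fact p.Prime]
    {H : Subgroup G} (hH : IsPGroup p H) (S : Sylow p G) :
    Nat.card H ∣ Nat.card (S : Subgroup G) := by
  obtain ⟨Q, hQ⟩ := hH.exists_le_sylow
  exact (Subgroup.card_dvd_of_le hQ).trans (Q.card_eq_multiplicity.trans S.card_eq_multiplicity.symm).dvd

end Cfsg.Agent.Helper2
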