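import Mathlib
import Cfsg.Agent.Helper2.Proj3
import Cfsg.Agent.Helper2.ClsSep
import Cfsg.Agent.Lead.CharLin2

/-! Linear characters of a quotient detect the commutator subgroup. -/

namespace Cfsg.Agent.Helper2.Over

open Cfsg.Agent.Lead

universe u

/-- if every irreducible character with `P` in its kernel is linear then `G' ≤ P` -/
theorem commutator_le_of_linear {G : Type u} [Group G] [Finite G] (P : Subgroup G) [P.Normal]
    (h : ∀ χ : Cfsg.IrrCharacter G, (∀ x ∈ P, (χ : G → ℂ) x = (χ : G → ℂ) 1) →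
      (χ : G → ℂ) 1 = 1) : commutator G ≤ P := by
  intro x hx
  by_contra hxP
  have hne : ¬ IsConj (QuotientGroup.mk x : G ⧸ P) 1 := by
    intro hc
    have h1 : (QuotientGroup.mk x : G ⧸ P) = 1 := isConj_one_left.mp hc
    exact hxP ((QuotientGroup.eq_one_iff x).mp h1)
  have hex : ∃ β : Cfsg.IrrCharacter (G ⧸ P),
      (β : G ⧸ P → ℂ) (QuotientGroup.mk x) ≠ (β : G ⧸ P → ℂ) 1 := by
    by_contra hall
    push_neg at hall
    exact hne (Cfsg.Agent.Helper2.ClsSep.isConj_of_irr_eq hall)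
  obtain ⟨β, hβ⟩ := hex
  have hχ : Cfsg.IsIrrCharacter G ((β : G ⧸ P → ℂ) ∘ QuotientGroup.mk' P) :=
    Cfsg.Agent.Helper2.Proj.isIrrCharacter_comp_surjective (QuotientGroup.mk' P)
      (QuotientGroup.mk'_surjective P) β.2
  have h1 := h ⟨_, hχ⟩ (fun y hy => by
    show (β : G ⧸ P → ℂ) (QuotientGroup.mk y) = (β : G ⧸ P → ℂ) (QuotientGroup.mk 1)
    rw [(QuotientGroup.eq_one_iff y).mpr hy]
    rfl)
  have h2 := linear_eq_of_commutator (isCharacter_of_isIrrCharacter hχ) h1 1 x (by simpa using hx)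
  exact hβ h2.symm

end Cfsg.Agent.Helper2.Over
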