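import Mathlib
import Cfsg.Agent.Helper2.Brauer8

set_option autoImplicit false

namespace Cfsg.Agent.Helper2.PReg

open Cfsg Cfsg.Agent.Lead Cfsg.Agent.Helper2.Brauer

universe u v

/-- `Σ_x χ(x) f(x) / χ(1)` is an algebraic integer for integral class functions `f` -/
theorem sum_char_mul_integral {G : Type u} [Group G] [Fintype G] {V : Type v}
    [AddCommGroup V] [Module ℂ V] [FiniteDimensional ℂ V] (ρ : Representation ℂ G V)
    (hi : ρ.IsIrreducible) (f : G → ℂ) (hf : Cfsg.IsClassFunction G f)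
    (hint : ∀ x, IsIntegral ℤ (f x)) :
    IsIntegral ℤ ((∑ x : G, ρ.character x * f x) / (Module.finrank ℂ V : ℂ)) := by
  classical
  rw [← Finset.sum_fiberwise (Finset.univ) (ConjClasses.mk : G → ConjClasses G), Finset.sum_div]
  refine IsIntegral.sum _ (fun c _ => ?_)
  obtain ⟨y, rfl⟩ := ConjClasses.mk_surjective c
  have hfib : ∀ x ∈ Finset.univ.filter (fun x : G => ConjClasses.mk x = ConjClasses.mk y),
      ρ.character x * f x = ρ.character y * f y := by
    intro x hx
    rw [Finset.mem_filter] at hx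
    have hc : IsConj x y := ConjClasses.mk_eq_mk_iff_isConj.mp hx.2
    obtain ⟨k, hk⟩ := isConj_iff.mp hc
    rw [← hk, Representation.char_conj, hf]
  rw [Finset.sum_congr rfl hfib, Finset.sum_const, nsmul_eq_mul]
  have hcard : (Finset.univ.filter (fun x : G => ConjClasses.mk x = ConjClasses.mk y)).card
      = (Subgroup.centralizer ({y} : Set G)).index := by
    rw [← card_filter_isConj_eq_index y]
    congr 1
    ext x
    simp only [Finset.mem_filter, Finset.mem_univ, true_and]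
    rw [ConjClasses.mk_eq_mk_iff_isConj]
    exact ⟨fun h => h.symm, fun h => h.symm⟩
  rw [hcard]
  have h1 := isIntegral_classSize_mul_char_div_degree ρ hi y
  have h2 : ((Subgroup.centralizer ({y} : Set G)).index : ℂ) * (ρ.character y * f y)
      / (Module.finrank ℂ V : ℂ)
     = ((Subgroup.centralizer ({y} : Set G)).index : ℂ) * ρ.character y
      / (Module.finrank ℂ V : ℂ) * f y := by ring
  rw [h2]
  exact h1.mul (hint y)

/-- an integer over a natural that is an algebraic integer: divisibility -/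
theorem int_dvd_of_isIntegral_div {a : ℤ} {b : ℕ} (hb : b ≠ 0)
    (h : IsIntegral ℤ ((a : ℂ) / (b : ℂ))) : (b : ℤ) ∣ a := by
  have h1 : ((a : ℂ) / (b : ℂ)) = algebraMap ℚ ℂ ((a : ℚ) / (b : ℚ)) := by
    simp
  rw [h1, isIntegral_algebraMap_iff (algebraMap ℚ ℂ).injective] at h
  obtain ⟨y, hy⟩ := IsIntegrallyClosed.isIntegral_iff.mp h
  have hb' : (b : ℚ) ≠ 0 := by exact_mod_cast hb
  refine ⟨y, ?_⟩
  have h2 : (a : ℚ) = (b : ℚ) * (y : ℚ) := by
    have h3 : ((algebraMap ℤ ℚ) y : ℚ) = (y : ℚ) := rfl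
    rw [h3] at hy
    rw [hy]
    field_simp
  exact_mod_cast h2

theorem charDegree_rep {G : Type u} [Group G] {n : ℕ} (ρ : Representation ℂ G (Fin n → ℂ)) :
    Cfsg.charDegree ρ.character = n := by
  unfold Cfsg.charDegree
  rw [Representation.char_one]
  simp

theorem part1 {G : Type u} [Group G] [Fintype G] (p : ℕ) (hp : p.Prime)
    (χ : Cfsg.IrrCharacter G) :
    Cfsg.IsGeneralizedCharacter G (fun x : G => if p ∣ orderOf x then (0 : ℂ) else
      ((p ^ ((Nat.card G).factorization p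
        - (Cfsg.charDegree (χ : G → ℂ)).factorization p) : ℕ) : ℂ) * (χ : G → ℂ) x) := by
  classical
  obtain ⟨χf, hχirr⟩ := χ
  have hχch : Cfsg.IsCharacter G χf := isCharacter_of_isIrrCharacter hχirr
  obtain ⟨n', hn'pos, hn'1, hn'dvd⟩ := irrCharacter_degree_dvd_card (⟨χf, hχirr⟩ : Cfsg.IrrCharacter G)
  obtain ⟨n, ρ, hi, hρ⟩ := hχirr
  have hdeg : Cfsg.charDegree χf = n := by rw [← hρ]; exact charDegree_rep ρ
  have hnn' : n' = n := by
    have h1 : χf 1 = (n : ℂ) := by
      rw [← hρ, Representation.char_one]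
      simp
    have h2 : (n' : ℂ) = (n : ℂ) := by rw [← hn'1]; exact h1
    exact_mod_cast h2
  subst hnn'
  show Cfsg.IsGeneralizedCharacter G (fun x : G => if p ∣ orderOf x then (0 : ℂ) else
      ((p ^ ((Nat.card G).factorization p
        - (Cfsg.charDegree χf).factorization p) : ℕ) : ℂ) * χf x)
  rw [hdeg]
  obtain ⟨a, ha⟩ : ∃ a : ℕ, a = (Nat.card G).factorization p := ⟨_, rfl⟩
  obtain ⟨b, hb⟩ : ∃ b : ℕ, b = n'.factorization p := ⟨_, rfl⟩
  rw [← ha, ← hb]
  have hGpos : 0 < Nat.card G := Nat.card_pos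
  have hba : b ≤ a := by
    rw [ha, hb]
    exact (Nat.factorization_le_iff_dvd hn'pos.ne' hGpos.ne').mpr hn'dvd p
  obtain ⟨m, hm⟩ : p ^ a ∣ Nat.card G := by rw [ha]; exact Nat.ordProj_dvd _ _
  have hpm : ¬ p ∣ m := by
    rintro ⟨m', hm'⟩
    have h1 : p ^ (a + 1) ∣ Nat.card G := ⟨m', by rw [hm, hm', pow_succ]; ring⟩
    rw [ha] at h1
    exact Nat.pow_succ_factorization_not_dvd hGpos.ne' hp h1
  have hpbn : p ^ b ∣ n' := by rw [hb]; exact Nat.ordProj_dvd _ _
  have hθ₀ := preg_char p hp χf hχch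
  rw [← ha] at hθ₀
  obtain ⟨α, γ, hα, hγ, hθeq⟩ := hθ₀
  have hpb1 : 1 ≤ p ^ b := Nat.one_le_pow _ _ hp.pos
  have hfch : Cfsg.IsCharacter G (α + ((p ^ b - 1 : ℕ) : ℂ) • γ) :=
    isCharacter_add hα (isCharacter_nsmul _ hγ)
  have hdiv : ∀ (β : Cfsg.IrrCharacter G) (k : ℕ),
      Cfsg.classInner (α + ((p ^ b - 1 : ℕ) : ℂ) • γ) (β : G → ℂ) = (k : ℂ) → p ^ b ∣ k := by
    intro β k hk
    have hβch := isCharacter_of_isIrrCharacter β.2
    obtain ⟨s, hs⟩ := classInner_isCharacter_nat hα hβch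
    obtain ⟨t, ht⟩ := classInner_isCharacter_nat hγ hβch
    have hk2 : k = s + (p ^ b - 1) * t := by
      rw [classInner_add_left, classInner_smul_left, hs, ht] at hk
      exact_mod_cast hk.symm
    -- the key divisibility
    have hkey : (p ^ b : ℤ) ∣ (s : ℤ) - (t : ℤ) := by
      have hinner : Cfsg.classInner (fun x : G => if p ∣ orderOf x then (0 : ℂ) else
          ((p ^ a : ℕ) : ℂ) * χf x) (β : G → ℂ) = (s : ℂ) - (t : ℂ) := by
        have hneg : (-γ) = (-1 : ℂ) • γ := by simp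
        rw [hθeq, sub_eq_add_neg, classInner_add_left, hneg, classInner_smul_left, hs, ht]
        ring
      -- the class function f
      have hfcl : Cfsg.IsClassFunction G (fun x : G => if p ∣ orderOf x then (0 : ℂ) else
          (starRingEnd ℂ) ((β : G → ℂ) x)) := by
        intro g h
        have ho : orderOf (h * g * h⁻¹) = orderOf g := by
          have := (MulAut.conj h).orderOf_eq g
          rwa [MulAut.conj_apply] at this
        have hc := isCharacter_isClassFunction hβch g h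
        show (if p ∣ orderOf (h * g * h⁻¹) then (0:ℂ)
          else (starRingEnd ℂ) ((β : G → ℂ) (h * g * h⁻¹))) = _
        rw [ho, hc]
      have hfint : ∀ x : G, IsIntegral ℤ ((fun x : G => if p ∣ orderOf x then (0 : ℂ) else
          (starRingEnd ℂ) ((β : G → ℂ) x)) x) := by
        intro x
        show IsIntegral ℤ (if p ∣ orderOf x then (0 : ℂ) else (starRingEnd ℂ) ((β : G → ℂ) x))
        split_ifs
        · exact isIntegral_zero
        · have h1 := isCharacter_isIntegral hβch x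
          exact h1.map (Complex.conjAe.toAlgHom.restrictScalars ℤ)
      have hA := sum_char_mul_integral ρ hi _ hfcl hfint
      have hsum : (∑ x : G, ρ.character x * (fun x : G => if p ∣ orderOf x then (0 : ℂ) else
          (starRingEnd ℂ) ((β : G → ℂ) x)) x) = (m : ℂ) * ((s : ℂ) - (t : ℂ)) := by
        rw [← hinner]
        unfold Cfsg.classInner
        rw [hm]
        have hpa : ((p ^ a : ℕ) : ℂ) ≠ 0 := by exact_mod_cast (pow_pos hp.pos a).ne'
        have hm0 : (m : ℂ) ≠ 0 := by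
          have : m ≠ 0 := by
            rintro rfl
            exact hpm (dvd_zero p)
          exact_mod_cast this
        have h3 : ∑ g : G, (if p ∣ orderOf g then (0 : ℂ) else ((p ^ a : ℕ) : ℂ) * χf g)
            * (starRingEnd ℂ) ((β : G → ℂ) g)
            = ((p ^ a : ℕ) : ℂ) * ∑ x : G, ρ.character x * (if p ∣ orderOf x then (0 : ℂ) else
              (starRingEnd ℂ) ((β : G → ℂ) x)) := by
          rw [Finset.mul_sum]
          refine Finset.sum_congr rfl (fun g _ => ?_)
          rw [hρ]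
          split_ifs <;> ring
        rw [h3, Nat.cast_mul]
        field_simp
      rw [hsum] at hA
      have hA' : IsIntegral ℤ ((((m : ℤ) * ((s : ℤ) - (t : ℤ)) : ℤ) : ℂ) / ((n' : ℕ) : ℂ)) := by
        have hfr : Module.finrank ℂ (Fin n' → ℂ) = n' := by simp
        rw [hfr] at hA
        push_cast
        exact hA
      have h4 := int_dvd_of_isIntegral_div hn'pos.ne' hA'
      have h5 : (p ^ b : ℤ) ∣ (m : ℤ) * ((s : ℤ) - (t : ℤ)) := by
        refine dvd_trans ?_ h4
        exact_mod_cast hpbn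
      have hcop : IsCoprime (p ^ b : ℤ) (m : ℤ) := by
        have : Nat.Coprime (p ^ b) m :=
          Nat.Coprime.pow_left b ((Nat.Prime.coprime_iff_not_dvd hp).mpr hpm)
        exact_mod_cast Nat.isCoprime_iff_coprime.mpr this
      exact hcop.dvd_of_dvd_mul_left h5
    rw [hk2]
    have h6 : ((s + (p ^ b - 1) * t : ℕ) : ℤ) = ((s : ℤ) - (t : ℤ)) + (p ^ b : ℤ) * (t : ℤ) := by
      push_cast [Nat.cast_sub hpb1]
      ring
    have h7 : (p ^ b : ℤ) ∣ ((s + (p ^ b - 1) * t : ℕ) : ℤ) := by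
      rw [h6]
      exact dvd_add hkey (dvd_mul_right _ _)
    exact_mod_cast h7
  obtain ⟨ξ, hξ, hfξ⟩ := exists_div_char hfch hdiv
  refine ⟨ξ, γ, hξ, hγ, ?_⟩
  funext x
  have h1 := congrFun hθeq x
  have h2 := congrFun hfξ x
  simp only [Pi.add_apply, Pi.smul_apply, Pi.sub_apply, smul_eq_mul] at h1 h2
  have hpb : ((p ^ b : ℕ) : ℂ) ≠ 0 := by exact_mod_cast (pow_pos hp.pos b).ne'
  have hpab : ((p ^ a : ℕ) : ℂ) = ((p ^ b : ℕ) : ℂ) * ((p ^ (a - b) : ℕ) : ℂ) := by
    rw [← Nat.cast_mul, ← pow_add, Nat.add_sub_cancel' hba]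
  have hcast : (((p ^ b - 1 : ℕ)) : ℂ) = ((p ^ b : ℕ) : ℂ) - 1 := by
    rw [Nat.cast_sub hpb1]
    simp
  rw [hcast] at h2
  show (if p ∣ orderOf x then (0 : ℂ) else ((p ^ (a - b) : ℕ) : ℂ) * χf x) = ξ x - γ x
  apply mul_left_cancel₀ hpb
  have h3 : ((p ^ b : ℕ) : ℂ) * (ξ x - γ x) = α x - γ x := by
    have : ((p ^ b : ℕ) : ℂ) * ξ x = α x + (((p ^ b : ℕ) : ℂ) - 1) * γ x := h2.symm
    rw [mul_sub, this]
    ring
  rw [h3, ← h1]
  split_ifs
  · simp
  · rw [hpab]
    ring

theorem part2 {G : Type u} [Group G] [Fintype G] (p : ℕ) [hpf : Fact p.Prime]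
    (χ : Cfsg.IrrCharacter G) :
    ¬ Cfsg.IsGeneralizedCharacter G (fun x : G => if p ∣ orderOf x then (0 : ℂ) else
      ((p ^ (Nat.card G).factorization p : ℕ) : ℂ)
        / ((p ^ ((Cfsg.charDegree (χ : G → ℂ)).factorization p + 1) : ℕ) : ℂ)
        * (χ : G → ℂ) x) := by
  classical
  have hp := hpf.out
  obtain ⟨χf, hχirr⟩ := χ
  obtain ⟨n, ρ, hi, hρ⟩ := hχirr
  have hnt : Nontrivial (Fin n → ℂ) := ((isIrreducible_iff ρ).mp hi).1
  have hnpos : 0 < n := by
    have := Module.finrank_pos (R := ℂ) (M := Fin n → ℂ)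
    simpa using this
  have hdeg : Cfsg.charDegree χf = n := by rw [← hρ]; exact charDegree_rep ρ
  show ¬ Cfsg.IsGeneralizedCharacter G (fun x : G => if p ∣ orderOf x then (0 : ℂ) else
      ((p ^ (Nat.card G).factorization p : ℕ) : ℂ)
        / ((p ^ ((Cfsg.charDegree χf).factorization p + 1) : ℕ) : ℂ) * χf x)
  rw [hdeg]
  rintro ⟨α, γ, hα, hγ, hθeq⟩
  obtain ⟨P⟩ : Nonempty (Sylow p G) := inferInstance
  haveI : Fintype (P : Subgroup G) := Fintype.ofFinite _
  have hPcard : Nat.card (P : Subgroup G) = p ^ (Nat.card G).factorization p :=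
    Sylow.card_eq_multiplicity P
  have hαP := isCharacter_res (P : Subgroup G) hα
  have hγP := isCharacter_res (P : Subgroup G) hγ
  have h1P : Cfsg.IsCharacter (P : Subgroup G) (fun _ => (1 : ℂ)) := isCharacter_one
  obtain ⟨s, hs⟩ := classInner_isCharacter_nat hαP h1P
  obtain ⟨t, ht⟩ := classInner_isCharacter_nat hγP h1P
  have hχ1 : χf 1 = (n : ℂ) := by
    rw [← hρ, Representation.char_one]
    simp
  have hsum : ∑ x : (P : Subgroup G), (α (x : G) - γ (x : G))
      = ((p ^ (Nat.card G).factorization p : ℕ) : ℂ)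
        / ((p ^ (n.factorization p + 1) : ℕ) : ℂ) * (n : ℂ) := by
    rw [Finset.sum_eq_single (1 : (P : Subgroup G))]
    · have h1 := congrFun hθeq 1
      simp only [Pi.sub_apply] at h1
      rw [Subgroup.coe_one, ← h1, orderOf_one, if_neg (Nat.Prime.not_dvd_one hp), hχ1]
    · intro x _ hx1
      have h1 := congrFun hθeq (x : G)
      simp only [Pi.sub_apply] at h1
      rw [← h1]
      have hdvd : p ∣ orderOf (x : G) := by
        obtain ⟨k, hk⟩ := (IsPGroup.iff_orderOf.mp P.isPGroup') x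
        rw [Subgroup.orderOf_coe, hk]
        cases k with
        | zero =>
          exfalso
          rw [pow_zero, orderOf_eq_one_iff] at hk
          exact hx1 hk
        | succ k => exact dvd_pow_self p (Nat.succ_ne_zero k)
      rw [if_pos hdvd]
    · intro h
      exact absurd (Finset.mem_univ _) h
  have hst : (s : ℂ) - (t : ℂ) = (n : ℂ) / ((p ^ (n.factorization p + 1) : ℕ) : ℂ) := by
    have h1 : (s : ℂ) - (t : ℂ) = (Nat.card (P : Subgroup G) : ℂ)⁻¹
        * ∑ x : (P : Subgroup G), (α (x : G) - γ (x : G)) := by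
      rw [← hs, ← ht]
      unfold Cfsg.classInner
      rw [← mul_sub, ← Finset.sum_sub_distrib]
      congr 1
      refine Finset.sum_congr rfl (fun x _ => ?_)
      simp
    rw [h1, hsum, hPcard]
    have hpa : ((p ^ (Nat.card G).factorization p : ℕ) : ℂ) ≠ 0 := by
      exact_mod_cast (pow_pos hp.pos _).ne'
    have hpb : ((p ^ (n.factorization p + 1) : ℕ) : ℂ) ≠ 0 := by
      exact_mod_cast (pow_pos hp.pos _).ne'
    field_simp
  have hdvd : ((p ^ (n.factorization p + 1) : ℕ) : ℤ) ∣ (n : ℤ) := by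
    refine ⟨(s : ℤ) - (t : ℤ), ?_⟩
    have hpb : ((p ^ (n.factorization p + 1) : ℕ) : ℂ) ≠ 0 := by
      exact_mod_cast (pow_pos hp.pos _).ne'
    have h2 : (n : ℂ) = ((p ^ (n.factorization p + 1) : ℕ) : ℂ) * ((s : ℂ) - (t : ℂ)) := by
      rw [hst]
      field_simp
    exact_mod_cast h2
  have hdvd' : p ^ (n.factorization p + 1) ∣ n := by exact_mod_cast hdvd
  exact Nat.pow_succ_factorization_not_dvd hnpos.ne' hp hdvd'

end Cfsg.Agent.Helper2.PReg
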