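import Mathlib
import Cfsg.Prelude.Def_Perm

/-! Equivariant maps between permutation modules. -/

set_option autoImplicit false

namespace Cfsg.Agent.Helper2.PermHom

open Cfsg

universe u v w₁ w₂

variable {G : Type u} [Group G] {K : Type v} [Field K] {Ω₁ : Type w₁} {Ω₂ : Type w₂}
  [MulAction G Ω₁] [MulAction G Ω₂]

theorem single_smul [DecidableEq Ω₁] (g : G) (α : Ω₁) :
    Cfsg.permRep K G Ω₁ g (Pi.single α 1) = Pi.single (g • α) 1 := by
  funext x
  show (Pi.single α (1:K) : Ω₁ → K) (g⁻¹ • x) = (Pi.single (g • α) (1:K) : Ω₁ → K) x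
  rw [Pi.single_apply, Pi.single_apply]
  have h : g⁻¹ • x = α ↔ x = g • α := inv_smul_eq_iff
  simp only [h]

theorem entry_inv [DecidableEq Ω₁] (S : (Ω₁ → K) →ₗ[K] (Ω₂ → K))
    (hS : ∀ g x, S (Cfsg.permRep K G Ω₁ g x) = Cfsg.permRep K G Ω₂ g (S x)) (g : G)
    (α : Ω₁) (β : Ω₂) : S (Pi.single (g • α) 1) (g • β) = S (Pi.single α 1) β := by
  rw [← single_smul, hS]
  show S (Pi.single α 1) (g⁻¹ • g • β) = _
  rw [inv_smul_smul]

theorem main [Fintype Ω₁] [Fintype Ω₂] :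
    Module.finrank K ((Cfsg.permRep K G Ω₁).linHom (Cfsg.permRep K G Ω₂)).invariants
      = Nat.card (MulAction.orbitRel.Quotient G (Ω₁ × Ω₂)) := by
  classical
  haveI : Fintype (MulAction.orbitRel.Quotient G (Ω₁ × Ω₂)) := Fintype.ofFinite _
  have hint : ∀ S : (Ω₁ → K) →ₗ[K] (Ω₂ → K),
      S ∈ ((Cfsg.permRep K G Ω₁).linHom (Cfsg.permRep K G Ω₂)).invariants →
      ∀ g x, S (Cfsg.permRep K G Ω₁ g x) = Cfsg.permRep K G Ω₂ g (S x) := by
    intro S hS g x
    exact ((Representation.mem_linHom_invariants_iff_isIntertwining S).mp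
      (fun g => hS g)).isIntertwining g x
  let Φ : ((Cfsg.permRep K G Ω₁).linHom (Cfsg.permRep K G Ω₂)).invariants →ₗ[K]
      (MulAction.orbitRel.Quotient G (Ω₁ × Ω₂) → K) :=
    { toFun := fun S q => (S : (Ω₁ → K) →ₗ[K] (Ω₂ → K)) (Pi.single q.out.1 1) q.out.2
      map_add' := fun S T => rfl
      map_smul' := fun c S => rfl }
  have hΦ : ∀ S q, Φ S q = (S : (Ω₁ → K) →ₗ[K] (Ω₂ → K)) (Pi.single q.out.1 1) q.out.2 :=
    fun S q => rfl
  have hrep : ∀ (α : Ω₁) (β : Ω₂), ∃ g : G,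
      g • α = (Quotient.mk'' (α, β) : MulAction.orbitRel.Quotient G (Ω₁ × Ω₂)).out.1 ∧
      g • β = (Quotient.mk'' (α, β) : MulAction.orbitRel.Quotient G (Ω₁ × Ω₂)).out.2 := by
    intro α β
    have h0 : (Quotient.mk'' (Quotient.mk'' (α, β) :
        MulAction.orbitRel.Quotient G (Ω₁ × Ω₂)).out :
        MulAction.orbitRel.Quotient G (Ω₁ × Ω₂)) = Quotient.mk'' (α, β) := Quotient.out_eq' _
    have h1 : (Quotient.mk'' (α, β) : MulAction.orbitRel.Quotient G (Ω₁ × Ω₂)).out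
        ∈ MulAction.orbit G (α, β) := Quotient.exact' h0
    obtain ⟨g, hg⟩ := h1
    exact ⟨g, congrArg Prod.fst hg, congrArg Prod.snd hg⟩
  have hinj : Function.Injective Φ := by
    rw [injective_iff_map_eq_zero]
    intro S hS
    apply Subtype.ext
    apply LinearMap.toMatrix'.injective
    ext β α
    rw [LinearMap.toMatrix'_apply, LinearMap.toMatrix'_apply]
    obtain ⟨g, h1, h2⟩ := hrep α β
    have h3 := entry_inv (S : (Ω₁ → K) →ₗ[K] (Ω₂ → K)) (hint S S.2) g α β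
    rw [← h3, h1, h2, ← hΦ, hS]
    rfl
  have hsurj : Function.Surjective Φ := by
    intro φ
    let M : Matrix Ω₂ Ω₁ K := fun β α => φ (Quotient.mk'' (α, β))
    have hMinv : ∀ (g : G) (α : Ω₁) (β : Ω₂), M (g • β) (g • α) = M β α := by
      intro g α β
      show φ (Quotient.mk'' (g • α, g • β)) = φ (Quotient.mk'' (α, β))
      congr 1
      apply Quotient.sound'
      exact ⟨g, rfl⟩
    have hmem : Matrix.toLin' M
        ∈ ((Cfsg.permRep K G Ω₁).linHom (Cfsg.permRep K G Ω₂)).invariants := by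
      refine fun g => (Representation.mem_linHom_invariants_iff_isIntertwining
        (Matrix.toLin' M)).mpr ⟨?_⟩ g
      intro g x
      funext β
      show (Matrix.toLin' M) (Cfsg.permRep K G Ω₁ g x) β = (Matrix.toLin' M x) (g⁻¹ • β)
      rw [Matrix.toLin'_apply, Matrix.toLin'_apply]
      show ∑ α, M β α * (Cfsg.permRep K G Ω₁ g x) α = ∑ α, M (g⁻¹ • β) α * x α
      refine Fintype.sum_equiv (MulAction.toPerm g⁻¹) _ _ (fun α => ?_)
      show M β α * x (g⁻¹ • α) = M (g⁻¹ • β) (g⁻¹ • α) * x (g⁻¹ • α)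
      rw [hMinv]
    refine ⟨⟨Matrix.toLin' M, hmem⟩, ?_⟩
    funext q
    rw [hΦ]
    show (Matrix.toLin' M) (Pi.single q.out.1 1) q.out.2 = φ q
    rw [Matrix.toLin'_apply, Matrix.mulVec_single_one]
    show φ (Quotient.mk'' (q.out.1, q.out.2)) = φ q
    congr 1
    exact Quotient.out_eq' q
  have e := LinearEquiv.ofBijective Φ ⟨hinj, hsurj⟩
  rw [e.finrank_eq, Module.finrank_fintype_fun_eq_card, Nat.card_eq_fintype_card]

end Cfsg.Agent.Helper2.PermHom
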