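import Mathlib
import Cfsg.Prelude.Def_Characters
import Cfsg.Agent.Helper2.Brauer5
import Cfsg.Agent.Lead.CharCore3

namespace Cfsg.Agent.Helper2.PiSec

open scoped ComplexConjugate

universe u

section pow

variable {G : Type u} [Group G] [Finite G] {m n b : ℕ}

theorem pow_of_dvd_m (hb0 : b ≡ 0 [MOD m]) {z : G} (hz : orderOf z ∣ m) : z ^ b = 1 := by
  have h1 : m ∣ b := (Nat.modEq_zero_iff_dvd).mp hb0
  exact orderOf_dvd_iff_pow_eq_one.mp (dvd_trans hz h1)

theorem pow_of_dvd_n (hb1 : b ≡ 1 [MOD n]) {z : G} (hz : orderOf z ∣ n) : z ^ b = z := by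
  have h1 : b ≡ 1 [MOD orderOf z] := Nat.ModEq.of_dvd hz hb1
  have h2 := pow_eq_pow_iff_modEq.mpr h1
  rw [h2, pow_one]

theorem order_dvd (hmn : Nat.card G = m * n) (z : G) : orderOf z ∣ m * n := by
  rw [← hmn]; exact orderOf_dvd_natCard z

/-- the description of the `π`-part condition through a power map -/
theorem part_iff (hmn : Nat.card G = m * n) (hcop : Nat.Coprime m n) (hb0 : b ≡ 0 [MOD m])
    (hb1 : b ≡ 1 [MOD n]) (g x : G) :
    (∃ v : G, IsConj v g ∧ (∃ u : G, x = u * v ∧ Commute u v ∧ Nat.Coprime (orderOf u) n ∧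
      Nat.Coprime (orderOf v) m)) ↔ IsConj (x ^ b) g := by
  constructor
  · rintro ⟨v, hv, u, rfl, hcomm, hu, hv'⟩
    have h1 : orderOf u ∣ m := Nat.Coprime.dvd_of_dvd_mul_right hu (order_dvd hmn u)
    have h2 : orderOf v ∣ n := by
      have := order_dvd hmn v
      exact Nat.Coprime.dvd_of_dvd_mul_left hv' this
    rw [hcomm.mul_pow, pow_of_dvd_m hb0 h1, pow_of_dvd_n hb1 h2, one_mul]
    exact hv
  · intro h
    obtain ⟨c, hc1, hc0⟩ := Nat.chineseRemainder hcop 1 0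
    refine ⟨x ^ b, h, x ^ c, ?_, (Commute.refl x).pow_pow c b, ?_, ?_⟩
    · have h1 : c + b ≡ 1 [MOD m * n] := by
        rw [← Nat.modEq_and_modEq_iff_modEq_mul hcop]
        constructor
        · have := Nat.ModEq.add hc1 hb0
          simpa using this
        · have := Nat.ModEq.add hc0 hb1
          simpa using this
      have h2 : c + b ≡ 1 [MOD orderOf x] := Nat.ModEq.of_dvd (order_dvd hmn x) h1
      have h3 := pow_eq_pow_iff_modEq.mpr h2
      rw [← pow_add, h3, pow_one]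
    · have h1 : (x ^ c) ^ m = 1 := by
        rw [← pow_mul]
        apply orderOf_dvd_iff_pow_eq_one.mp
        have h2 : n ∣ c := (Nat.modEq_zero_iff_dvd).mp hc0
        exact dvd_trans (order_dvd hmn x) (by rw [mul_comm c m]; exact Nat.mul_dvd_mul_left m h2)
      exact Nat.Coprime.coprime_dvd_left (orderOf_dvd_of_pow_eq_one h1) hcop
    · have h1 : (x ^ b) ^ n = 1 := by
        rw [← pow_mul]
        apply orderOf_dvd_iff_pow_eq_one.mp
        have h2 : m ∣ b := (Nat.modEq_zero_iff_dvd).mp hb0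
        exact dvd_trans (order_dvd hmn x) (Nat.mul_dvd_mul_right h2 n)
      exact Nat.Coprime.coprime_dvd_left (orderOf_dvd_of_pow_eq_one h1) hcop.symm

end pow

/-- structure of an elementary group: a central subgroup times a `p`-subgroup -/
theorem elem_struct {E : Type u} [Group E] [Finite E] {p : ℕ} (hp : p.Prime)
    (hE : Cfsg.IsElementary p E) :
    ∃ (C Q : Subgroup E) (j : ℕ), C ≤ Subgroup.center E ∧ Nat.card Q = p ^ j ∧
      ∀ y : E, ∃ q ∈ Q, ∃ c ∈ C, y = q * c := by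
  classical
  haveI : Fact p.Prime := ⟨hp⟩
  obtain ⟨x, hxc, hxcop, j, hj⟩ := hE
  set C : Subgroup E := Subgroup.zpowers x with hC
  have hCcent : C ≤ Subgroup.center E :=
    (Cfsg.Agent.Helper2.Brauer.zpowers_normal_of_center hxc).1
  obtain ⟨Q⟩ := (inferInstance : Nonempty (Sylow p E))
  have hcardE : Nat.card E = Nat.card C * p ^ j := by
    rw [← hj]; exact (Subgroup.card_mul_index C).symm
  have hcardC : Nat.card C = orderOf x := Nat.card_zpowers x
  have hcopC : Nat.Coprime (Nat.card C) p := by rw [hcardC]; exact hxcop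
  have hcardQ : Nat.card (Q : Subgroup E) = p ^ j := by
    rw [Sylow.card_eq_multiplicity, hcardE]
    congr 1
    rw [Nat.factorization_mul Nat.card_pos.ne' (pow_ne_zero _ hp.ne_zero)]
    have h1 : (Nat.card C).factorization p = 0 :=
      Nat.factorization_eq_zero_of_not_dvd ((Nat.Prime.coprime_iff_not_dvd hp).mp hcopC.symm)
    rw [Finsupp.add_apply, h1, hp.factorization_pow, Finsupp.single_eq_same, zero_add]
  have hcompl : Subgroup.IsComplement' (Q : Subgroup E) C := by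
    apply Subgroup.isComplement'_of_coprime
    · rw [hcardQ, hcardE, mul_comm]
    · rw [hcardQ]; exact Nat.Coprime.pow_left j hcopC.symm
  refine ⟨C, Q, j, hCcent, hcardQ, fun y => ?_⟩
  obtain ⟨⟨q, c⟩, hqc⟩ := hcompl.2 y
  exact ⟨q, q.2, c, c.2, hqc.symm⟩

/-- on an elementary subgroup the power map giving the `π`-part is multiplicative -/
theorem pow_hom {G : Type u} [Group G] [Finite G] {m n b : ℕ} (hmn : Nat.card G = m * n)
    (hcop : Nat.Coprime m n) (hb0 : b ≡ 0 [MOD m]) (hb1 : b ≡ 1 [MOD n]) {p : ℕ} (hp : p.Prime)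
    (E : Subgroup G) (hE : Cfsg.IsElementary p E) (y₁ y₂ : E) :
    (y₁ * y₂) ^ b = y₁ ^ b * y₂ ^ b := by
  obtain ⟨C, Q, j, hCcent, hcardQ, hdec⟩ := elem_struct hp hE
  have hordE : ∀ z : E, orderOf z ∣ m * n := by
    intro z
    rw [← Subgroup.orderOf_coe]
    exact order_dvd hmn (z : G)
  have hQ : (∀ q ∈ Q, q ^ b = 1) ∨ (∀ q ∈ Q, q ^ b = q) := by
    by_cases hpm : p ∣ m
    · left
      intro q hq
      have h1 : orderOf q ∣ p ^ j := by
        rw [← hcardQ]; exact Subgroup.orderOf_dvd_natCard Q hq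
      obtain ⟨i, -, hi⟩ := (Nat.dvd_prime_pow hp).mp h1
      have hpn : ¬ p ∣ n := by
        intro hpn
        have := Nat.dvd_gcd hpm hpn
        rw [hcop] at this
        exact hp.one_lt.ne' (Nat.dvd_one.mp this)
      have h2 : Nat.Coprime (orderOf q) n := by
        rw [hi]; exact Nat.Coprime.pow_left i ((Nat.Prime.coprime_iff_not_dvd hp).mpr hpn)
      exact pow_of_dvd_m hb0 (Nat.Coprime.dvd_of_dvd_mul_right h2 (hordE q))
    · right
      intro q hq
      have h1 : orderOf q ∣ p ^ j := by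
        rw [← hcardQ]; exact Subgroup.orderOf_dvd_natCard Q hq
      obtain ⟨i, -, hi⟩ := (Nat.dvd_prime_pow hp).mp h1
      have h2 : Nat.Coprime (orderOf q) m := by
        rw [hi]; exact Nat.Coprime.pow_left i ((Nat.Prime.coprime_iff_not_dvd hp).mpr hpm)
      exact pow_of_dvd_n hb1 (Nat.Coprime.dvd_of_dvd_mul_left h2 (hordE q))
  obtain ⟨q₁, hq₁, c₁, hc₁, rfl⟩ := hdec y₁
  obtain ⟨q₂, hq₂, c₂, hc₂, rfl⟩ := hdec y₂
  have hz₁ : ∀ y : E, Commute c₁ y := fun y => (Subgroup.mem_center_iff.mp (hCcent hc₁) y).symm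
  have hz₂ : ∀ y : E, Commute c₂ y := fun y => (Subgroup.mem_center_iff.mp (hCcent hc₂) y).symm
  have hqq : (q₁ * q₂) ^ b = q₁ ^ b * q₂ ^ b := by
    rcases hQ with h | h
    · rw [h _ (Q.mul_mem hq₁ hq₂), h _ hq₁, h _ hq₂, one_mul]
    · rw [h _ (Q.mul_mem hq₁ hq₂), h _ hq₁, h _ hq₂]
  have h1 : q₁ * c₁ * (q₂ * c₂) = (q₁ * q₂) * (c₁ * c₂) := by
    rw [mul_assoc, ← mul_assoc c₁, (hz₁ q₂).eq, mul_assoc, ← mul_assoc]
  rw [h1, (Commute.mul_right (hz₁ _).symm (hz₂ _).symm).mul_pow, hqq, (hz₁ c₂).mul_pow,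
    (hz₁ q₁).symm.mul_pow, (hz₂ q₂).symm.mul_pow]
  have h3 : Commute (c₁ ^ b) (q₂ ^ b) := ((hz₁ q₂).pow_pow b b)
  calc q₁ ^ b * q₂ ^ b * (c₁ ^ b * c₂ ^ b) = q₁ ^ b * ((q₂ ^ b * c₁ ^ b) * c₂ ^ b) := by
        simp only [mul_assoc]
    _ = q₁ ^ b * ((c₁ ^ b * q₂ ^ b) * c₂ ^ b) := by rw [h3.eq]
    _ = q₁ ^ b * c₁ ^ b * (q₂ ^ b * c₂ ^ b) := by simp only [mul_assoc]

end Cfsg.Agent.Helper2.PiSec
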