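import Mathlib
import Cfsg.Prelude.Def_Characters
import Cfsg.Agent.Helper2.PiSec

namespace Cfsg.Agent.Helper2.PiSec

open scoped ComplexConjugate

universe u

/-- a sum over a group split along the left cosets of a subgroup -/
theorem sum_quot {E : Type u} [Group E] [Fintype E] (K : Subgroup E) [Fintype K]
    [Fintype (E ⧸ K)] (Φ : E → ℂ) :
    ∑ y : E, Φ y = ∑ q : E ⧸ K, ∑ k : K, Φ (q.out * k) := by
  classical
  have h1 : ∑ y, Φ y
      = ∑ s : (Σ q : E ⧸ K, {y : E // (QuotientGroup.mk y : E ⧸ K) = q}), Φ s.2.1 :=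
    (Fintype.sum_equiv (Equiv.sigmaFiberEquiv (QuotientGroup.mk : E → E ⧸ K)) _ _
      (fun s => rfl)).symm
  rw [h1, Fintype.sum_sigma]
  refine Finset.sum_congr rfl (fun q _ => ?_)
  let e : K ≃ {y : E // (QuotientGroup.mk y : E ⧸ K) = q} :=
    { toFun := fun k => ⟨q.out * k, by
        rw [QuotientGroup.mk_mul_of_mem _ k.2]; exact QuotientGroup.out_eq' q⟩
      invFun := fun y => ⟨q.out⁻¹ * y.1,
        QuotientGroup.eq.mp ((QuotientGroup.out_eq' q).trans y.2.symm)⟩
      left_inv := fun k => Subtype.ext (by simp)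
      right_inv := fun y => Subtype.ext (by simp) }
  exact (Fintype.sum_equiv e _ _ (fun k => rfl)).symm

theorem lam_integral {E : Type u} [Group E] [Finite E] (lam : E →* ℂˣ) (y : E) :
    IsIntegral ℤ ((lam y : ℂˣ) : ℂ) := by
  apply IsIntegral.of_pow (Nat.card_pos (α := E))
  have h1 : ((lam y : ℂˣ) : ℂ) ^ Nat.card E = 1 := by
    rw [← Units.val_pow_eq_pow_val, ← map_pow, pow_card_eq_one', map_one, Units.val_one]
  rw [h1]
  exact isIntegral_one

open Classical in
/-- the inner product of a linear character of an elementary subgroup with the `π`-section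
indicator is an algebraic integer -/
theorem key_int {G : Type u} [Group G] [Fintype G] {m n b : ℕ} (hmn : Nat.card G = m * n)
    (hcop : Nat.Coprime m n) (hb0 : b ≡ 0 [MOD m]) (hb1 : b ≡ 1 [MOD n]) (g : G) {p : ℕ}
    (hp : p.Prime) (E : Subgroup G) (hE : Cfsg.IsElementary p E) (lam : E →* ℂˣ) :
    IsIntegral ℤ ((Nat.card E : ℂ)⁻¹ * ∑ y : E, ((lam y : ℂˣ) : ℂ)
      * (if IsConj ((y : G) ^ b) g then (n : ℂ) else 0)) := by
  let f : E →* E :=
    { toFun := fun y => y ^ b
      map_one' := one_pow b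
      map_mul' := pow_hom hmn hcop hb0 hb1 hp E hE }
  set K : Subgroup E := f.ker with hK
  have hKmem : ∀ k : K, (k : E) ^ b = 1 := fun k => MonoidHom.mem_ker.mp k.2
  let ind : E → ℂ := fun y => if IsConj ((y : G) ^ b) g then (n : ℂ) else 0
  have hind : ∀ (y : E) (k : K), ind (y * k) = ind y := by
    intro y k
    have h1 : ((y * (k : E) : E) : G) ^ b = (y : G) ^ b := by
      have h2 : (y * (k : E)) ^ b = y ^ b := by
        rw [pow_hom hmn hcop hb0 hb1 hp E hE, hKmem k, mul_one]
      have h3 := congrArg (fun e : E => (e : G)) h2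
      simpa using h3
    change (if IsConj (((y * (k : E) : E) : G) ^ b) g then (n : ℂ) else 0)
      = if IsConj ((y : G) ^ b) g then (n : ℂ) else 0
    rw [h1]
  set s : ℂ := ∑ k : K, ((lam (k : E) : ℂˣ) : ℂ) with hs
  have hsum : ∑ y : E, ((lam y : ℂˣ) : ℂ) * ind y
      = (∑ q : E ⧸ K, ((lam q.out : ℂˣ) : ℂ) * ind q.out) * s := by
    rw [sum_quot K, Finset.sum_mul]
    refine Finset.sum_congr rfl (fun q _ => ?_)
    rw [hs, Finset.mul_sum]
    refine Finset.sum_congr rfl (fun k _ => ?_)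
    rw [hind, map_mul, Units.val_mul]; ring
  have hs01 : s = 0 ∨ s = (Nat.card K : ℂ) := by
    by_cases h : ∀ k : K, lam (k : E) = 1
    · right
      rw [hs, Finset.sum_congr rfl (fun k _ => by rw [h k]), Finset.sum_const,
        Finset.card_univ, nsmul_eq_mul, Units.val_one, mul_one, Nat.card_eq_fintype_card]
    · left
      push_neg at h
      obtain ⟨k₀, hk₀⟩ := h
      have h1 : s = ((lam (k₀ : E) : ℂˣ) : ℂ) * s := by
        rw [hs, Finset.mul_sum, ← Equiv.sum_comp (Equiv.mulLeft k₀)]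
        refine Finset.sum_congr rfl (fun k _ => ?_)
        simp [map_mul]
      have h2 : ((lam (k₀ : E) : ℂˣ) : ℂ) ≠ 1 := fun h => hk₀ (Units.ext h)
      have h3 : (1 - ((lam (k₀ : E) : ℂˣ) : ℂ)) * s = 0 := by linear_combination h1
      rcases mul_eq_zero.mp h3 with h4 | h4
      · exact absurd (sub_eq_zero.mp h4).symm h2
      · exact h4
  have hidx : K.index ∣ n := by
    have h1 : K.index ∣ m * n := by
      rw [← hmn]
      exact dvd_trans (Subgroup.index_dvd_card K) (Subgroup.card_subgroup_dvd_card E)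
    have h2 : Nat.Coprime K.index m := by
      apply Nat.coprime_of_dvd
      intro r hr hrK hrm
      haveI : Fact r.Prime := ⟨hr⟩
      have hrK' : r ∣ Nat.card (E ⧸ K) := hrK
      obtain ⟨qb, hqb⟩ := exists_prime_orderOf_dvd_card' r hrK'
      obtain ⟨y, rfl⟩ := QuotientGroup.mk_surjective qb
      have hyn : y ^ n ∈ K := by
        rw [hK, MonoidHom.mem_ker]
        change (y ^ n) ^ b = 1
        rw [← pow_mul]
        apply orderOf_dvd_iff_pow_eq_one.mp
        have h3 : orderOf y ∣ m * n := by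
          rw [← Subgroup.orderOf_coe]; exact order_dvd hmn (y : G)
        have h4 : m ∣ b := (Nat.modEq_zero_iff_dvd).mp hb0
        exact dvd_trans h3 (by rw [mul_comm m n]; exact Nat.mul_dvd_mul_left n h4)
      have h5 : (QuotientGroup.mk y : E ⧸ K) ^ n = 1 := by
        rw [← QuotientGroup.mk_pow]; exact (QuotientGroup.eq_one_iff _).mpr hyn
      have h6 : r ∣ n := by rw [← hqb]; exact orderOf_dvd_of_pow_eq_one h5
      have := Nat.dvd_gcd hrm h6
      rw [hcop] at this
      exact hr.one_lt.ne' (Nat.dvd_one.mp this)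
    exact Nat.Coprime.dvd_of_dvd_mul_left h2 h1
  change IsIntegral ℤ ((Nat.card E : ℂ)⁻¹ * ∑ y : E, ((lam y : ℂˣ) : ℂ) * ind y)
  rw [hsum]
  rcases hs01 with h0 | h1
  · rw [h0, mul_zero, mul_zero]; exact isIntegral_zero
  · rw [h1]
    obtain ⟨r, hr⟩ := hidx
    have hcard : (Nat.card E : ℂ) = (Nat.card K : ℂ) * (K.index : ℂ) := by
      exact_mod_cast (Subgroup.card_mul_index K).symm
    have hKc : (Nat.card K : ℂ) ≠ 0 := by exact_mod_cast Nat.card_pos.ne'
    have hIc : (K.index : ℂ) ≠ 0 := by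
      exact_mod_cast Subgroup.index_ne_zero_of_finite
    have hA : ∑ q : E ⧸ K, ((lam q.out : ℂˣ) : ℂ) * ind q.out
        = (n : ℂ) * ∑ q : E ⧸ K, ((lam q.out : ℂˣ) : ℂ)
          * (if IsConj (((q.out : E) : G) ^ b) g then (1 : ℂ) else 0) := by
      rw [Finset.mul_sum]
      refine Finset.sum_congr rfl (fun q _ => ?_)
      change ((lam q.out : ℂˣ) : ℂ) * (if IsConj (((q.out : E) : G) ^ b) g then (n : ℂ) else 0) = _
      split_ifs <;> ring
    rw [hA, hcard, hr]
    have h5 : ((Nat.card K : ℂ) * (K.index : ℂ))⁻¹ * (((K.index * r : ℕ) : ℂ)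
        * (∑ q : E ⧸ K, ((lam q.out : ℂˣ) : ℂ)
          * (if IsConj (((q.out : E) : G) ^ b) g then (1 : ℂ) else 0)) * (Nat.card K : ℂ))
        = (r : ℂ) * ∑ q : E ⧸ K, ((lam q.out : ℂˣ) : ℂ)
          * (if IsConj (((q.out : E) : G) ^ b) g then (1 : ℂ) else 0) := by
      push_cast
      field_simp
    rw [h5]
    refine IsIntegral.mul ?_ (IsIntegral.sum _ (fun q _ => IsIntegral.mul (lam_integral lam _) ?_))
    · have := isIntegral_algebraMap (R := ℤ) (A := ℂ) (x := (r : ℤ))
      simpa using this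
    · split_ifs
      · exact isIntegral_one
      · exact isIntegral_zero

end Cfsg.Agent.Helper2.PiSec
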