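import Mathlib

/-! Translation-invariant subspaces of functions on `ZMod p` in characteristic `p`. -/

set_option autoImplicit false

namespace Cfsg.Agent.Helper2.ShiftInv

open Polynomial

universe v

variable {p : ℕ} [Fact p.Prime] {K : Type v} [Field K] [CharP K p]

/-- evaluation of polynomials on the prime field -/
noncomputable def Φ (p : ℕ) (K : Type v) [Field K] : K[X] →ₗ[K] (ZMod p → K) where
  toFun := fun P j => P.eval (ZMod.cast j : K)
  map_add' := fun _ _ => funext (fun _ => Polynomial.eval_add)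
  map_smul' := fun c P => funext (fun j => by
    show (c • P).eval (ZMod.cast j : K) = c * P.eval (ZMod.cast j : K)
    rw [Polynomial.eval_smul, smul_eq_mul])

theorem Φ_apply (P : K[X]) (j : ZMod p) : Φ p K P j = P.eval (ZMod.cast j : K) := rfl

/-- the difference operator -/
noncomputable def D (p : ℕ) (K : Type v) [Field K] : (ZMod p → K) →ₗ[K] (ZMod p → K) where
  toFun := fun f j => f j - f (j - 1)
  map_add' := fun f g => funext (fun j => by
    show (f j + g j) - (f (j - 1) + g (j - 1)) = (f j - f (j - 1)) + (g j - g (j - 1))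
    ring)
  map_smul' := fun c f => funext (fun j => by
    show c * f j - c * f (j - 1) = c * (f j - f (j - 1))
    ring)

theorem D_apply (f : ZMod p → K) (j : ZMod p) : D p K f j = f j - f (j - 1) := rfl

theorem cast_inj : Function.Injective (fun j : ZMod p => (ZMod.cast j : K)) := by
  have h := (ZMod.castHom (dvd_refl p) K).injective
  intro a b hab
  apply h
  rw [ZMod.castHom_apply, ZMod.castHom_apply]
  exact hab

theorem D_Φ (P : K[X]) : D p K (Φ p K P) = Φ p K (P - P.comp (X - C 1)) := by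
  funext j
  rw [D_apply, Φ_apply, Φ_apply, Φ_apply, Polynomial.eval_sub, Polynomial.eval_comp]
  congr 2
  rw [Polynomial.eval_sub, Polynomial.eval_X, Polynomial.eval_C, ZMod.cast_sub (dvd_refl p),
    ZMod.cast_one (dvd_refl p)]

theorem deg_lt (P : K[X]) (hP : P ≠ 0) : (P - P.comp (X - C 1)).degree < P.degree := by
  have hlc : (P.comp (X - C 1)).leadingCoeff = P.leadingCoeff := by
    rw [Polynomial.leadingCoeff_comp (by rw [Polynomial.natDegree_X_sub_C]; exact one_ne_zero),
      Polynomial.leadingCoeff_X_sub_C, one_pow, mul_one]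
  have hne : P.comp (X - C 1) ≠ 0 := by
    intro h0
    rw [h0, Polynomial.leadingCoeff_zero] at hlc
    exact hP (Polynomial.leadingCoeff_eq_zero.mp hlc.symm)
  have hdeg : P.degree = (P.comp (X - C 1)).degree := by
    rw [Polynomial.degree_eq_natDegree hP, Polynomial.degree_eq_natDegree hne,
      Polynomial.natDegree_comp, Polynomial.natDegree_X_sub_C, mul_one]
  exact Polynomial.degree_sub_lt_left hdeg hP hlc.symm

theorem mem_V (r : ℕ) (f : ZMod p → K) :
    f ∈ Submodule.map (Φ p K) (Polynomial.degreeLT K r) ↔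
      ∃ P : K[X], P.degree < r ∧ ∀ j : ZMod p, f j = P.eval (ZMod.cast j : K) := by
  constructor
  · rintro ⟨P, hP, rfl⟩
    exact ⟨P, Polynomial.mem_degreeLT.mp hP, fun j => rfl⟩
  · rintro ⟨P, hP, hf⟩
    exact ⟨P, Polynomial.mem_degreeLT.mpr hP, funext (fun j => (hf j).symm)⟩

theorem Φ_inj (r : ℕ) (hr : r ≤ p) (P : K[X]) (hP : P.degree < r) (h0 : Φ p K P = 0) :
    P = 0 := by
  haveI : NeZero p := ⟨(Fact.out : p.Prime).ne_zero⟩
  by_contra hne
  apply hne
  apply Polynomial.eq_zero_of_natDegree_lt_card_of_eval_eq_zero P (cast_inj (p := p) (K := K))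
    (fun j => congrFun h0 j)
  rw [ZMod.card]
  have h1 := (Polynomial.natDegree_lt_iff_degree_lt hne).mpr hP
  omega

theorem finrank_V (r : ℕ) (hr : r ≤ p) :
    Module.finrank K (Submodule.map (Φ p K) (Polynomial.degreeLT K r)) = r := by
  have hinj : Function.Injective ((Φ p K).comp (Polynomial.degreeLT K r).subtype) := by
    rw [injective_iff_map_eq_zero]
    intro P hP
    exact Subtype.ext (Φ_inj r hr P.1 (Polynomial.mem_degreeLT.mp P.2) hP)
  have h1 := LinearMap.finrank_range_of_inj hinj
  rw [LinearMap.range_comp, Submodule.range_subtype] at h1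
  rw [h1, (Polynomial.degreeLTEquiv K r).finrank_eq, Module.finrank_fintype_fun_eq_card,
    Fintype.card_fin]

theorem V_le_ker (r : ℕ) :
    Submodule.map (Φ p K) (Polynomial.degreeLT K r) ≤ LinearMap.ker ((D p K) ^ r) := by
  induction r with
  | zero =>
    rintro _ ⟨P, hP, rfl⟩
    have h0 : P = 0 := by
      by_contra hne
      have h1 := (Polynomial.natDegree_lt_iff_degree_lt hne).mpr (Polynomial.mem_degreeLT.mp hP)
      omega
    rw [h0, map_zero]
    exact Submodule.zero_mem _
  | succ r ih =>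
    rintro _ ⟨P, hP, rfl⟩
    rw [LinearMap.mem_ker, pow_succ, Module.End.mul_apply, D_Φ]
    by_cases h0 : P = 0
    · rw [h0]
      simp
    · apply LinearMap.mem_ker.mp
      apply ih
      refine ⟨_, Polynomial.mem_degreeLT.mpr ?_, rfl⟩
      have h1 := deg_lt P h0
      have h2 := Polynomial.mem_degreeLT.mp hP
      have h3 : P.natDegree < r + 1 := (Polynomial.natDegree_lt_iff_degree_lt h0).mpr h2
      rw [Polynomial.degree_eq_natDegree h0] at h1
      exact lt_of_lt_of_le h1 (by exact_mod_cast Nat.lt_succ_iff.mp h3)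

theorem ker_D_le :
    LinearMap.ker (D p K) ≤ Submodule.map (Φ p K) (Polynomial.degreeLT K 1) := by
  haveI : NeZero p := ⟨(Fact.out : p.Prime).ne_zero⟩
  intro f hf
  rw [LinearMap.mem_ker] at hf
  have h1 : ∀ j, f j = f (j - 1) := fun j => sub_eq_zero.mp (congrFun hf j)
  have h2 : ∀ n : ℕ, f (n : ZMod p) = f 0 := by
    intro n
    induction n with
    | zero => rw [Nat.cast_zero]
    | succ n ih => rw [h1, Nat.cast_succ, add_sub_cancel_right, ih]
  have h3 : ∀ j, f j = f 0 := by
    intro j
    have h := h2 j.val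
    rwa [ZMod.natCast_zmod_val] at h
  refine ⟨C (f 0), Polynomial.mem_degreeLT.mpr ?_, funext (fun j => ?_)⟩
  · exact lt_of_le_of_lt Polynomial.degree_C_le (by norm_num)
  · rw [Φ_apply, Polynomial.eval_C, h3 j]

theorem finrank_ker_succ (r : ℕ) :
    Module.finrank K (LinearMap.ker ((D p K) ^ (r + 1)))
      ≤ Module.finrank K (LinearMap.ker ((D p K) ^ r)) + 1 := by
  haveI : NeZero p := ⟨(Fact.out : p.Prime).ne_zero⟩
  obtain ⟨f, hf⟩ : ∃ f : LinearMap.ker ((D p K) ^ (r + 1)) →ₗ[K] (ZMod p → K),
      f = (D p K).domRestrict (LinearMap.ker ((D p K) ^ (r + 1))) := ⟨_, rfl⟩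
  have hfx : ∀ x, f x = D p K x.1 := fun x => by rw [hf]; rfl
  have h1 := LinearMap.finrank_range_add_finrank_ker f
  have h2 : LinearMap.range f ≤ LinearMap.ker ((D p K) ^ r) := by
    rintro _ ⟨⟨y, hy⟩, rfl⟩
    rw [LinearMap.mem_ker, hfx]
    show ((D p K) ^ r) (D p K y) = 0
    have h : ((D p K) ^ (r + 1)) y = 0 := LinearMap.mem_ker.mp hy
    rw [pow_succ, Module.End.mul_apply] at h
    exact h
  have h3 : Module.finrank K (LinearMap.ker f) ≤ 1 := by
    obtain ⟨g, hg⟩ : ∃ g : LinearMap.ker f →ₗ[K] (ZMod p → K),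
        g = (LinearMap.ker ((D p K) ^ (r + 1))).subtype.comp (LinearMap.ker f).subtype := ⟨_, rfl⟩
    have hgx : ∀ x, g x = x.1.1 := fun x => by rw [hg]; rfl
    have hginj : Function.Injective g := by
      intro x y hxy
      rw [hgx, hgx] at hxy
      exact Subtype.ext (Subtype.ext hxy)
    have h5 := LinearMap.finrank_range_of_inj hginj
    have h6 : LinearMap.range g ≤ Submodule.map (Φ p K) (Polynomial.degreeLT K 1) := by
      rintro _ ⟨x, rfl⟩
      apply ker_D_le
      rw [LinearMap.mem_ker, hgx, ← hfx]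
      exact LinearMap.mem_ker.mp x.2
    have h7 := Submodule.finrank_mono h6
    rw [finrank_V 1 (Fact.out : p.Prime).one_le] at h7
    omega
  have h4 := Submodule.finrank_mono h2
  omega

theorem finrank_ker_le (r : ℕ) : Module.finrank K (LinearMap.ker ((D p K) ^ r)) ≤ r := by
  induction r with
  | zero =>
    rw [pow_zero, Module.End.one_eq_id, LinearMap.ker_id, finrank_bot]
  | succ r ih =>
    have h := finrank_ker_succ (p := p) (K := K) r
    omega

theorem ker_eq_V (r : ℕ) (hr : r ≤ p) :
    Submodule.map (Φ p K) (Polynomial.degreeLT K r) = LinearMap.ker ((D p K) ^ r) := by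
  haveI : NeZero p := ⟨(Fact.out : p.Prime).ne_zero⟩
  apply Submodule.eq_of_le_of_finrank_le (V_le_ker r)
  rw [finrank_V r hr]
  exact finrank_ker_le r

/-- S0673 -/
theorem main (W : Submodule K (ZMod p → K)) (hW : ∀ f ∈ W, (fun j => f (j - 1)) ∈ W) :
    ∃ r : ℕ, r ≤ p ∧ Module.finrank K W = r ∧ ∀ f : ZMod p → K, f ∈ W ↔
      ∃ P : Polynomial K, P.degree < r ∧ ∀ j : ZMod p, f j = P.eval (ZMod.cast j : K) := by
  haveI : NeZero p := ⟨(Fact.out : p.Prime).ne_zero⟩
  obtain ⟨r, hrdef⟩ : ∃ r, r = Module.finrank K W := ⟨_, rfl⟩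
  have hr : r ≤ p := by
    have h := Submodule.finrank_le W
    rw [Module.finrank_fintype_fun_eq_card, ZMod.card] at h
    rw [hrdef]; exact h
  refine ⟨r, hr, hrdef.symm, ?_⟩
  have hDW : ∀ x ∈ W, D p K x ∈ W := fun x hx => W.sub_mem hx (hW x hx)
  have hVp : Submodule.map (Φ p K) (Polynomial.degreeLT K p) = ⊤ := by
    apply Submodule.eq_top_of_finrank_eq
    rw [finrank_V p le_rfl, Module.finrank_fintype_fun_eq_card, ZMod.card]
  have hDp : ∀ x, ((D p K) ^ p) x = 0 := by
    intro x
    have h : x ∈ Submodule.map (Φ p K) (Polynomial.degreeLT K p) := by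
      rw [hVp]; exact Submodule.mem_top
    exact LinearMap.mem_ker.mp (V_le_ker p h)
  have hker : ∀ w ∈ W, ((D p K) ^ r) w = 0 := by
    intro w hw
    have h1 : ((D p K).restrict hDW) ^ p = 0 := by
      rw [Module.End.pow_restrict]
      apply LinearMap.ext
      intro x
      apply Subtype.ext
      rw [LinearMap.restrict_apply]
      exact hDp x.1
    have hr' : Module.finrank K W ≤ p := by rw [← hrdef]; exact hr
    have h2 := Module.End.ker_pow_eq_ker_pow_finrank_of_le (f := (D p K).restrict hDW) hr'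
    rw [h1, LinearMap.ker_zero, ← hrdef] at h2
    have h3 : (⟨w, hw⟩ : W) ∈ LinearMap.ker (((D p K).restrict hDW) ^ r) := by
      rw [← h2]; exact Submodule.mem_top
    rw [LinearMap.mem_ker, Module.End.pow_restrict] at h3
    exact congrArg Subtype.val h3
  have hWV : W = Submodule.map (Φ p K) (Polynomial.degreeLT K r) := by
    apply Submodule.eq_of_le_of_finrank_eq
    · intro w hw
      rw [ker_eq_V r hr]
      exact LinearMap.mem_ker.mpr (hker w hw)
    · rw [finrank_V r hr, hrdef]
  intro f
  rw [← mem_V, ← hWV]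

end Cfsg.Agent.Helper2.ShiftInv
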