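import Mathlib
import Cfsg.Agent.Helper2.ShiftInv
import Cfsg.Agent.Helper2.Conj

/-! Transitive groups of prime degree. -/

namespace Cfsg.Agent.Helper2.PrimeDeg

theorem simple_of_prime_degree {Γ α : Type*} [Group Γ] [Finite Γ] [MulAction Γ α] [Finite α]
    [MulAction.IsPretransitive Γ α] (hfaith : ∀ g : Γ, (∀ a : α, g • a = a) → g = 1)
    {p : ℕ} [Fact p.Prime] (hα : Nat.card α = p) (hP1 : ∀ Q : Sylow p Γ, Nat.card Q = p)
    (P : Sylow p Γ) (hn : 1 < Nat.card (Sylow p Γ))
    (ht : ((P : Subgroup Γ).relIndex (Subgroup.normalizer ((P : Subgroup Γ) : Set Γ))).Prime) :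
    IsSimpleGroup Γ := by
  classical
  have hp := (Fact.out : p.Prime)
  haveI : Nontrivial Γ := by
    by_contra h
    rw [not_nontrivial_iff_subsingleton] at h
    haveI : Subsingleton (Sylow p Γ) := ⟨fun A B => Sylow.ext (Subsingleton.elim _ _)⟩
    have h1 := Finite.one_lt_card_iff_nontrivial.mp hn
    exact not_subsingleton (Sylow p Γ) inferInstance
  obtain ⟨a⟩ : Nonempty α := by
    have h1 : 0 < Nat.card α := by rw [hα]; exact hp.pos
    exact (Nat.card_pos_iff.mp h1).1
  haveI : MulAction.IsPreprimitive Γ α :=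
    MulAction.IsPreprimitive.of_prime_card (by rw [hα]; exact hp)
  refine ⟨fun H hH => ?_⟩
  by_contra hcon
  push_neg at hcon
  obtain ⟨hbot, htop⟩ := hcon
  haveI := hH
  have hfix : MulAction.fixedPoints H α ≠ Set.univ := by
    intro h
    apply hbot
    rw [Subgroup.eq_bot_iff_forall]
    intro x hx
    apply hfaith
    intro b
    have hb : b ∈ MulAction.fixedPoints H α := by rw [h]; exact Set.mem_univ b
    exact hb ⟨x, hx⟩
  haveI hHt : MulAction.IsPretransitive H α :=
    MulAction.IsQuasiPreprimitive.isPretransitive_of_normal hfix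
  have hpH : p ∣ Nat.card H := by
    have h1 := MulAction.index_stabilizer_of_transitive H a
    rw [hα] at h1
    rw [← h1]
    exact Subgroup.index_dvd_card _
  obtain ⟨h, hh⟩ := exists_prime_orderOf_dvd_card' p hpH
  have hzp : IsPGroup p (Subgroup.zpowers (h : Γ)) :=
    IsPGroup.of_card (n := 1) (by rw [Nat.card_zpowers, Subgroup.orderOf_coe, hh, pow_one])
  obtain ⟨P', hP'⟩ := hzp.exists_le_sylow
  have hP'eq : Subgroup.zpowers (h : Γ) = P' :=
    Subgroup.eq_of_le_of_card_ge hP' (by rw [hP1 P', Nat.card_zpowers, Subgroup.orderOf_coe, hh])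
  have hP'H : (P' : Subgroup Γ) ≤ H := by
    rw [← hP'eq, Subgroup.zpowers_le]; exact h.2
  obtain ⟨g, hg⟩ := Cfsg.Agent.Helper2.sylow_exists_conj P' P
  have hPH : (P : Subgroup Γ) ≤ H := by
    intro x hx
    have h1 := hP'H ((hg x).mp hx)
    have h2 := hH.conj_mem _ h1 g
    have h3 : g * (g⁻¹ * x * g) * g⁻¹ = x := by group
    rw [h3] at h2; exact h2
  have hfr : Subgroup.normalizer ((P : Subgroup Γ) : Set Γ) ⊔ H = ⊤ :=
    Sylow.normalizer_sup_eq_top' P hPH
  have hPN : (P : Subgroup Γ) ≤ Subgroup.normalizer ((P : Subgroup Γ) : Set Γ) :=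
    Subgroup.le_normalizer
  have hPM : (P : Subgroup Γ) ≤ Subgroup.normalizer ((P : Subgroup Γ) : Set Γ) ⊓ H :=
    le_inf hPN hPH
  have hmul := Subgroup.relIndex_mul_relIndex _ _ _ hPM
    (inf_le_left : Subgroup.normalizer ((P : Subgroup Γ) : Set Γ) ⊓ H ≤ _)
  rcases (Nat.Prime.eq_one_or_self_of_dvd ht _ (Dvd.intro_left _ hmul)) with h1 | h1
  · rw [Subgroup.relIndex_eq_one] at h1
    apply htop
    rw [← hfr]
    exact (sup_eq_right.mpr (h1.trans inf_le_right)).symm
  · have h2 : (P : Subgroup Γ).relIndex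
        (Subgroup.normalizer ((P : Subgroup Γ) : Set Γ) ⊓ H) = 1 := by
      rw [h1] at hmul
      exact Nat.eq_of_mul_eq_mul_right ht.pos (by rw [hmul, one_mul])
    rw [Subgroup.relIndex_eq_one] at h2
    -- P is commutative
    haveI : IsCyclic (P : Subgroup Γ) := isCyclic_of_prime_card (hP1 P)
    obtain ⟨g0, hg0⟩ := IsCyclic.exists_generator (α := ↥(P : Subgroup Γ))
    have hcomm : ∀ x y : ↥(P : Subgroup Γ), x * y = y * x := by
      intro x y
      obtain ⟨i, rfl⟩ := Subgroup.mem_zpowers_iff.mp (hg0 x)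
      obtain ⟨j, rfl⟩ := Subgroup.mem_zpowers_iff.mp (hg0 y)
      rw [← zpow_add, ← zpow_add, add_comm]
    have hcoe : ((P.subtype hPH : Sylow p ↥H) : Subgroup ↥H) = (P : Subgroup Γ).subgroupOf H :=
      Sylow.coe_subtype P hPH
    have hNC : Subgroup.normalizer (((P.subtype hPH : Sylow p ↥H) : Subgroup ↥H) : Set ↥H) ≤
        Subgroup.centralizer (((P.subtype hPH : Sylow p ↥H) : Subgroup ↥H) : Set ↥H) := by
      rw [hcoe]
      intro x hx
      have hxN : (x : Γ) ∈ Subgroup.normalizer ((P : Subgroup Γ) : Set Γ) := by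
        rw [Subgroup.mem_normalizer_iff]
        intro y
        constructor
        · intro hy
          have h3 := (Subgroup.mem_normalizer_iff.mp hx ⟨y, hPH hy⟩).mp
            (by rw [Subgroup.mem_subgroupOf]; exact hy)
          rw [Subgroup.mem_subgroupOf] at h3
          simpa using h3
        · intro hy
          have hyH : y ∈ H := by
            have h5 : y = (x : Γ)⁻¹ * ((x : Γ) * y * (x : Γ)⁻¹) * (x : Γ) := by group
            rw [h5]; exact mul_mem (mul_mem (inv_mem x.2) (hPH hy)) x.2
          have h3 := (Subgroup.mem_normalizer_iff.mp hx ⟨y, hyH⟩).mpr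
            (by rw [Subgroup.mem_subgroupOf]; simpa using hy)
          rw [Subgroup.mem_subgroupOf] at h3
          exact h3
      have hxP : (x : Γ) ∈ (P : Subgroup Γ) := h2 (Subgroup.mem_inf.mpr ⟨hxN, x.2⟩)
      rw [Subgroup.mem_centralizer_iff]
      intro y hy
      have hy' : (y : Γ) ∈ (P : Subgroup Γ) := Subgroup.mem_subgroupOf.mp hy
      apply Subtype.ext
      have h6 := hcomm ⟨(y : Γ), hy'⟩ ⟨(x : Γ), hxP⟩
      have h7 : (y : Γ) * (x : Γ) = (x : Γ) * (y : Γ) := congrArg Subtype.val h6
      exact h7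
    have hcompl := MonoidHom.ker_transferSylow_isComplement' (P.subtype hPH) hNC
    have hndvd := MonoidHom.not_dvd_card_ker_transferSylow (P.subtype hPH) hNC
    haveI : MulAction.IsPreprimitive H α :=
      MulAction.IsPreprimitive.of_prime_card (by rw [hα]; exact hp)
    have hK : (MonoidHom.transferSylow (P.subtype hPH) hNC).ker = ⊥ := by
      by_contra hKne
      have hfixK : MulAction.fixedPoints (MonoidHom.transferSylow (P.subtype hPH) hNC).ker α ≠
          Set.univ := by
        intro hu
        apply hKne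
        rw [Subgroup.eq_bot_iff_forall]
        intro x hx
        apply Subtype.ext
        apply hfaith
        intro b
        have hb : b ∈ MulAction.fixedPoints (MonoidHom.transferSylow (P.subtype hPH) hNC).ker α := by
          rw [hu]; exact Set.mem_univ b
        exact hb ⟨x, hx⟩
      haveI : MulAction.IsPretransitive (MonoidHom.transferSylow (P.subtype hPH) hNC).ker α :=
        MulAction.IsQuasiPreprimitive.isPretransitive_of_normal hfixK
      apply hndvd
      have h3 := MulAction.index_stabilizer_of_transitive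
        (MonoidHom.transferSylow (P.subtype hPH) hNC).ker a
      have h4 := Subgroup.index_dvd_card
        (MulAction.stabilizer (↥(MonoidHom.transferSylow (P.subtype hPH) hNC).ker) a)
      rw [h3, hα] at h4
      exact h4
    rw [hK, Subgroup.isComplement'_bot_left, hcoe, Subgroup.subgroupOf_eq_top] at hcompl
    have hPeq : (P : Subgroup Γ) = H := le_antisymm hPH hcompl
    have hPn : (P : Subgroup Γ).Normal := by rw [hPeq]; exact hH
    haveI := Sylow.unique_of_normal P hPn
    rw [Nat.card_unique] at hn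
    exact absurd hn (lt_irrefl 1)

theorem perm_simple {α : Type*} [Fintype α] [DecidableEq α] {p : ℕ} [Fact p.Prime]
    (hα : Fintype.card α = p) (G : Subgroup (Equiv.Perm α)) [MulAction.IsPretransitive ↥G α]
    (P : Sylow p ↥G) (hn : 1 < Nat.card (Sylow p ↥G))
    (ht : (((P : Subgroup ↥G).subgroupOf
      (Subgroup.normalizer ((P : Subgroup ↥G) : Set ↥G))).index).Prime) : IsSimpleGroup ↥G := by
  have hp := (Fact.out : p.Prime)
  have hα' : Nat.card α = p := by rw [Nat.card_eq_fintype_card, hα]
  obtain ⟨a⟩ : Nonempty α := by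
    have h1 : 0 < Nat.card α := by rw [hα']; exact hp.pos
    exact (Nat.card_pos_iff.mp h1).1
  have hdvd : Nat.card ↥G ∣ p.factorial := by
    have := Subgroup.card_subgroup_dvd_card G
    rwa [Nat.card_eq_fintype_card (α := Equiv.Perm α), Fintype.card_perm, hα] at this
  have hpG : p ∣ Nat.card ↥G := by
    have h1 := MulAction.index_stabilizer_of_transitive ↥G a
    rw [hα'] at h1
    rw [← h1]; exact Subgroup.index_dvd_card _
  have hP1 : ∀ Q : Sylow p ↥G, Nat.card Q = p := by
    intro Q
    obtain ⟨k, hk⟩ := Q.isPGroup'.exists_card_eq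
    have h1 : p ∣ Nat.card Q := Q.dvd_card_of_dvd_card hpG
    have h2 : p ^ k ∣ p.factorial := by
      rw [← hk]; exact (Subgroup.card_subgroup_dvd_card _).trans hdvd
    have hk1 : k ≤ 1 := by
      by_contra hlt
      push_neg at hlt
      have h3 : p ^ 2 ∣ p.factorial := (pow_dvd_pow p hlt).trans h2
      have h4 : p * p ∣ p * (p - 1).factorial := by
        rw [Nat.mul_factorial_pred hp.ne_zero, ← pow_two]; exact h3
      have h5 : p ∣ (p - 1).factorial := (Nat.mul_dvd_mul_iff_left hp.pos).mp h4
      have h6 := hp.dvd_factorial.mp h5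
      have := hp.pos
      omega
    have hk0 : k ≠ 0 := by
      rintro rfl
      rw [hk, pow_zero] at h1
      exact hp.one_lt.ne' (Nat.dvd_one.mp h1)
    have : k = 1 := by omega
    rw [hk, this, pow_one]
  apply simple_of_prime_degree (α := α) _ hα' hP1 P hn ht
  intro g hg
  apply Subtype.ext
  apply Equiv.ext
  intro b
  exact hg b

end Cfsg.Agent.Helper2.PrimeDeg

/-! Permutations of `ZMod p` preserving a space of polynomial functions are affine. -/

set_option autoImplicit false

namespace Cfsg.Agent.Helper2.PrimeDeg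

open Polynomial Cfsg.Agent.Helper2.ShiftInv

universe v

variable {p : ℕ} [Fact p.Prime] {K : Type v} [Field K] [CharP K p]

/-- polynomial functions of degree `< r` -/
noncomputable def V (p : ℕ) (K : Type v) [Field K] (r : ℕ) : Submodule K (ZMod p → K) :=
  Submodule.map (Φ p K) (Polynomial.degreeLT K r)

theorem mem_V' (r : ℕ) (f : ZMod p → K) :
    f ∈ V p K r ↔ ∃ P : K[X], P.degree < r ∧ ∀ j : ZMod p, f j = P.eval (ZMod.cast j : K) :=
  mem_V r f

theorem natDeg_lt (Q : K[X]) (r : ℕ) (hr : 0 < r) (h : Q.degree < r) : Q.natDegree < r := by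
  by_cases h0 : Q = 0
  · rw [h0, Polynomial.natDegree_zero]; exact hr
  · exact (Polynomial.natDegree_lt_iff_degree_lt h0).mpr h

theorem deg_lt_of_natDeg (Q : K[X]) (r : ℕ) (h : Q.natDegree < r) : Q.degree < r :=
  lt_of_le_of_lt Polynomial.degree_le_natDegree (by exact_mod_cast h)

theorem cast_eq (x : ZMod p) : (ZMod.cast x : K) = ZMod.castHom (dvd_refl p) K x :=
  (ZMod.castHom_apply x).symm

/-- invariance under affine substitutions -/
theorem V_affine (r : ℕ) (a b : ZMod p) (f : ZMod p → K) (hf : f ∈ V p K r) :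
    (fun x => f (a * x + b)) ∈ V p K r := by
  by_cases hr : r = 0
  · subst hr
    obtain ⟨P, hP, hfP⟩ := (mem_V' 0 f).mp hf
    have hP0 : P = 0 := by
      by_contra hne
      have h1 := (Polynomial.natDegree_lt_iff_degree_lt hne).mpr hP
      omega
    refine (mem_V' 0 _).mpr ⟨0, by rw [Polynomial.degree_zero]; exact WithBot.bot_lt_coe _,
      fun j => ?_⟩
    rw [hfP, hP0, Polynomial.eval_zero, Polynomial.eval_zero]
  · obtain ⟨P, hP, hfP⟩ := (mem_V' r f).mp hf
    refine (mem_V' r _).mpr
      ⟨P.comp (C (ZMod.cast a : K) * X + C (ZMod.cast b : K)), ?_, fun j => ?_⟩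
    · apply deg_lt_of_natDeg
      have h1 := natDeg_lt P r (Nat.pos_of_ne_zero hr) hP
      have h2 : (P.comp (C (ZMod.cast a : K) * X + C (ZMod.cast b : K))).natDegree
          ≤ P.natDegree * 1 :=
        le_trans Polynomial.natDegree_comp_le
          (Nat.mul_le_mul_left _ Polynomial.natDegree_linear_le)
      omega
    · rw [hfP, Polynomial.eval_comp]
      congr 1
      rw [Polynomial.eval_add, Polynomial.eval_mul, Polynomial.eval_C, Polynomial.eval_X,
        Polynomial.eval_C]
      simp only [cast_eq, map_add, map_mul]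

theorem aff_small (r : ℕ) (hr2 : 2 ≤ r) (hrp : 2 * r ≤ p + 1) (π : ZMod p → ZMod p)
    (hinv : ∀ f ∈ V p K r, (fun x => f (π x)) ∈ V p K r) :
    ∀ x, π x = (π 1 - π 0) * x + π 0 := by
  have hp : p.Prime := Fact.out
  have hp2 := hp.two_le
  have hr_le : r ≤ p := by omega
  have hX : Φ p K X ∈ V p K r :=
    ⟨X, Polynomial.mem_degreeLT.mpr (by rw [Polynomial.degree_X]; exact_mod_cast hr2), rfl⟩
  obtain ⟨P, hP, hPeq⟩ := (mem_V' r _).mp (hinv _ hX)
  have hval : ∀ x, (ZMod.cast (π x) : K) = P.eval (ZMod.cast x : K) := by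
    intro x
    have h := hPeq x
    rw [Φ_apply, Polynomial.eval_X] at h
    exact h
  have hk1 : P.natDegree ≤ 1 := by
    by_contra hk
    obtain ⟨k, hk_def⟩ : ∃ k, k = P.natDegree := ⟨_, rfl⟩
    have hk2 : 2 ≤ k := by omega
    have hkr : k < r := by rw [hk_def]; exact natDeg_lt P r (by omega) hP
    obtain ⟨m, hm_def⟩ : ∃ m, m = (r + k - 1) / k := ⟨_, rfl⟩
    have hkpos : 0 < k := by omega
    have hm1 : m < r := by
      rw [hm_def, Nat.div_lt_iff_lt_mul hkpos]
      have h1 := Nat.mul_le_mul_left r hk2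
      omega
    have hm2 : r ≤ m * k := by
      have h1 := Nat.div_add_mod (r + k - 1) k
      have h2 := Nat.mod_lt (r + k - 1) hkpos
      rw [← hm_def] at h1
      have h3 : m * k = k * m := Nat.mul_comm m k
      omega
    have hm3 : m * k < p := by
      have h1 := Nat.div_mul_le_self (r + k - 1) k
      rw [← hm_def] at h1
      omega
    have hXm : Φ p K (X ^ m) ∈ V p K r :=
      ⟨X ^ m, Polynomial.mem_degreeLT.mpr
        (by rw [Polynomial.degree_X_pow]; exact_mod_cast hm1), rfl⟩
    obtain ⟨Q, hQ, hQeq⟩ := (mem_V' r _).mp (hinv _ hXm)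
    have h0 : Φ p K (P ^ m - Q) = 0 := by
      funext x
      have h := hQeq x
      rw [Φ_apply, Polynomial.eval_pow, Polynomial.eval_X] at h
      rw [Φ_apply, Polynomial.eval_sub, Polynomial.eval_pow, ← hval, h, sub_self]
      rfl
    have hnd : (P ^ m).natDegree = m * k := by rw [Polynomial.natDegree_pow, hk_def]
    have hQnd : Q.natDegree < r := natDeg_lt Q r (by omega) hQ
    have hdeg : (P ^ m - Q).degree < p := by
      apply deg_lt_of_natDeg
      have h1 := Polynomial.natDegree_sub_le (P ^ m) Q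
      rw [hnd] at h1
      omega
    have hPQ : P ^ m - Q = 0 := Φ_inj p le_rfl _ hdeg h0
    have hPQ' : P ^ m = Q := sub_eq_zero.mp hPQ
    rw [hPQ'] at hnd
    omega
  have hPform := Polynomial.eq_X_add_C_of_natDegree_le_one hk1
  obtain ⟨a, ha⟩ : ∃ a, a = P.coeff 1 := ⟨_, rfl⟩
  obtain ⟨b, hb⟩ : ∃ b, b = P.coeff 0 := ⟨_, rfl⟩
  rw [← ha, ← hb] at hPform
  have hval' : ∀ x, (ZMod.cast (π x) : K) = a * (ZMod.cast x : K) + b := by
    intro x
    rw [hval, hPform, Polynomial.eval_add, Polynomial.eval_mul, Polynomial.eval_C,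
      Polynomial.eval_X, Polynomial.eval_C]
  intro x
  apply cast_inj (p := p) (K := K)
  show (ZMod.cast (π x) : K) = (ZMod.cast ((π 1 - π 0) * x + π 0) : K)
  have h0 := hval' 0
  have h1 := hval' 1
  rw [ZMod.cast_zero, mul_zero, zero_add] at h0
  rw [ZMod.cast_one (dvd_refl p), mul_one] at h1
  have hc : (ZMod.cast ((π 1 - π 0) * x + π 0) : K)
      = ((ZMod.cast (π 1) : K) - ZMod.cast (π 0)) * ZMod.cast x + ZMod.cast (π 0) := by
    simp only [cast_eq, map_add, map_mul, map_sub]
  rw [hc, hval' x, h0, h1]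
  ring

theorem aff (r : ℕ) (hr2 : 2 ≤ r) (hrp : r + 2 ≤ p) (π : Equiv.Perm (ZMod p))
    (hinv : ∀ f ∈ V p K r, (fun x => f (π x)) ∈ V p K r)
    (hinv' : ∀ f ∈ V p K r, (fun x => f (π.symm x)) ∈ V p K r) :
    ∀ x, π x = (π 1 - π 0) * x + π 0 := by
  classical
  haveI : NeZero p := ⟨(Fact.out : p.Prime).ne_zero⟩
  by_cases h : 2 * r ≤ p + 1
  · exact aff_small r hr2 h π hinv
  · obtain ⟨ι, hι⟩ : ∃ ι : (ZMod p → K) →ₗ[K] Module.Dual K (ZMod p → K),
        ∀ h u, ι h u = ∑ x, h x * u x := by
      refine ⟨{ toFun := fun h => { toFun := fun u => ∑ x, h x * u x, map_add' := ?_,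
                                    map_smul' := ?_ },
                map_add' := ?_, map_smul' := ?_ }, fun h u => rfl⟩
      · intro u u'
        simp only [Pi.add_apply, mul_add, Finset.sum_add_distrib]
      · intro c u
        simp only [Pi.smul_apply, smul_eq_mul, RingHom.id_apply, Finset.mul_sum]
        exact Finset.sum_congr rfl (fun x _ => by ring)
      · intro h h'
        apply LinearMap.ext
        intro u
        show ∑ x, (h + h') x * u x = ∑ x, h x * u x + ∑ x, h' x * u x
        simp only [Pi.add_apply, add_mul, Finset.sum_add_distrib]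
      · intro c h
        apply LinearMap.ext
        intro u
        show ∑ x, (c • h) x * u x = c * ∑ x, h x * u x
        simp only [Pi.smul_apply, smul_eq_mul, Finset.mul_sum, mul_assoc]
    have hιinj : Function.Injective ι := by
      rw [injective_iff_map_eq_zero]
      intro h hh
      funext x
      have h1 : ι h (Pi.single x 1) = 0 := by rw [hh]; rfl
      rw [hι, Finset.sum_eq_single x] at h1
      · rw [Pi.single_eq_same, mul_one] at h1
        exact h1
      · intro y _ hy
        rw [Pi.single_eq_of_ne hy, mul_zero]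
      · intro hx
        exact absurd (Finset.mem_univ x) hx
    obtain ⟨U, hUdef⟩ : ∃ U : Submodule K (ZMod p → K),
        U = (Submodule.map ι (V p K r)).dualCoannihilator := ⟨_, rfl⟩
    have hUmem : ∀ u, u ∈ U ↔ ∀ h ∈ V p K r, ∑ x, h x * u x = 0 := by
      intro u
      rw [hUdef, Submodule.mem_dualCoannihilator]
      constructor
      · intro hu h hh
        rw [← hι]; exact hu _ ⟨h, hh, rfl⟩
      · rintro hu _ ⟨h, hh, rfl⟩
        rw [hι]; exact hu h hh
    have hUfin : Module.finrank K U = p - r := by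
      have h1 := Subspace.finrank_add_finrank_dualCoannihilator_eq (Submodule.map ι (V p K r))
      rw [← (Submodule.equivMapOfInjective ι hιinj (V p K r)).finrank_eq,
        Module.finrank_fintype_fun_eq_card, ZMod.card, ← hUdef] at h1
      have h2 : Module.finrank K (V p K r) = r := finrank_V r (by omega)
      omega
    have hUshift : ∀ u ∈ U, (fun j => u (j - 1)) ∈ U := by
      intro u hu
      rw [hUmem] at hu ⊢
      intro h hh
      have h1 := hu (fun x => h (1 * x + 1)) (V_affine r 1 1 h hh)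
      rw [← h1]
      refine Fintype.sum_equiv (Equiv.subRight 1) _ _ (fun x => ?_)
      show h x * u (x - 1) = h (1 * (x - 1) + 1) * u (x - 1)
      rw [one_mul, sub_add_cancel]
    have hUπ : ∀ u ∈ U, (fun x => u (π x)) ∈ U := by
      intro u hu
      rw [hUmem] at hu ⊢
      intro h hh
      have h1 := hu (fun x => h (π.symm x)) (hinv' h hh)
      rw [← h1]
      refine Fintype.sum_equiv π _ _ (fun x => ?_)
      show h x * u (π x) = h (π.symm (π x)) * u (π x)
      rw [Equiv.symm_apply_apply]
    obtain ⟨r', hr', hfr', hmem'⟩ := ShiftInv.main U hUshift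
    have hr'eq : r' = p - r := by rw [← hfr', hUfin]
    have hUV : U = V p K r' := Submodule.ext (fun f => (hmem' f).trans (mem_V' r' f).symm)
    apply aff_small (K := K) r' (by omega) (by omega) π
    intro f hf
    rw [← hUV] at hf ⊢
    exact hUπ f hf

end Cfsg.Agent.Helper2.PrimeDeg
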