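import Mathlib
import Cfsg.Agent.Helper2.PrimeDeg
import Cfsg.Prelude.Def_Perm

/-! Transitive groups of prime degree: a proper invariant subspace of the heart forces
solvability. -/

set_option autoImplicit false

namespace Cfsg.Agent.Helper2.PrimeDeg

open Polynomial Cfsg Cfsg.Agent.Helper2.ShiftInv

universe v w

variable {p : ℕ} [Fact p.Prime] {K : Type v} [Field K] [CharP K p]
  {α : Type w} [Fintype α] [DecidableEq α]

/-- identification of `ZMod p` with a set of prime size `p` carrying a `p`-cycle -/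
theorem exists_equiv (hα : Fintype.card α = p) (τ : Equiv.Perm α) (hτ : orderOf τ = p) :
    ∃ e : ZMod p ≃ α, ∀ j, e (j + 1) = τ (e j) := by
  haveI : NeZero p := ⟨(Fact.out : p.Prime).ne_zero⟩
  have hp : p.Prime := Fact.out
  have hcyc : τ.IsCycle :=
    Equiv.Perm.isCycle_of_prime_order'' (by rw [hα]; exact hp) (by rw [hτ, hα])
  have hsupp : τ.support = Finset.univ := by
    apply Finset.eq_univ_of_card
    rw [← hcyc.orderOf, hτ, hα]
  have hmove : ∀ x, τ x ≠ x := fun x =>
    Equiv.Perm.mem_support.mp (by rw [hsupp]; exact Finset.mem_univ x)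
  haveI : Nonempty α := by
    rw [← Fintype.card_pos_iff, hα]; exact hp.pos
  obtain ⟨a₀⟩ := ‹Nonempty α›
  obtain ⟨e₀, he₀⟩ : ∃ e₀ : ZMod p → α, ∀ j, e₀ j = (τ ^ j.val) a₀ := ⟨_, fun _ => rfl⟩
  have hsurj : Function.Surjective e₀ := by
    intro y
    obtain ⟨i, hi⟩ := hcyc.exists_pow_eq (hmove a₀) (hmove y)
    refine ⟨(i : ZMod p), ?_⟩
    rw [he₀, ZMod.val_natCast, ← hτ, pow_mod_orderOf, hi]
  have hbij : Function.Bijective e₀ :=
    (Fintype.bijective_iff_surjective_and_card e₀).mpr ⟨hsurj, by rw [ZMod.card, hα]⟩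
  refine ⟨Equiv.ofBijective e₀ hbij, fun j => ?_⟩
  show e₀ (j + 1) = τ (e₀ j)
  rw [he₀, he₀]
  have h1 : (j + 1).val ≡ j.val + 1 [MOD p] := by
    rw [← ZMod.natCast_eq_natCast_iff]
    push_cast
    rw [ZMod.natCast_zmod_val, ZMod.natCast_zmod_val]
  have h2 : τ ^ (j + 1).val = τ ^ (j.val + 1) := by
    rw [pow_eq_pow_iff_modEq, hτ]; exact h1
  rw [h2, pow_succ', Equiv.Perm.mul_apply]

theorem core (hα : Fintype.card α = p) (G : Subgroup (Equiv.Perm α))
    [MulAction.IsPretransitive G α] (W : Subrepresentation (Cfsg.permRep K G α))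
    (h₁ : (Cfsg.permConstants K G α).toSubmodule < W.toSubmodule)
    (h₂ : W.toSubmodule < (Cfsg.permSumZero K G α).toSubmodule) : Group.IsSolvable G := by
  classical
  haveI : NeZero p := ⟨(Fact.out : p.Prime).ne_zero⟩
  have hp : p.Prime := Fact.out
  haveI : Nonempty α := by rw [← Fintype.card_pos_iff, hα]; exact hp.pos
  obtain ⟨a₀⟩ := ‹Nonempty α›
  -- an element of order p
  have hdvd : p ∣ Nat.card G := by
    have h1 := MulAction.index_stabilizer_of_transitive G a₀
    rw [Nat.card_eq_fintype_card, hα] at h1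
    rw [← h1]
    exact Subgroup.index_dvd_card _
  obtain ⟨t, ht⟩ := exists_prime_orderOf_dvd_card' p hdvd
  have hτ : orderOf (t : Equiv.Perm α) = p := by rw [Subgroup.orderOf_coe, ht]
  obtain ⟨e, he⟩ := exists_equiv hα (t : Equiv.Perm α) hτ
  have he' : ∀ j, e (j - 1) = (t⁻¹ : G) • e j := by
    intro j
    have h := he (j - 1)
    rw [sub_add_cancel] at h
    show e (j - 1) = ((t⁻¹ : G) : Equiv.Perm α) (e j)
    rw [Subgroup.coe_inv, h]
    exact (Equiv.symm_apply_apply (t : Equiv.Perm α) _).symm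
  -- transport of W
  obtain ⟨Wt, hWt⟩ : ∃ Wt : Submodule K (ZMod p → K),
      ∀ f, f ∈ Wt ↔ (fun y => f (e.symm y)) ∈ W.toSubmodule :=
    ⟨Submodule.comap (LinearMap.funLeft K K e.symm) W.toSubmodule, fun f => Iff.rfl⟩
  have hWt' : ∀ f : α → K, f ∈ W.toSubmodule ↔ (fun j => f (e j)) ∈ Wt := by
    intro f
    rw [hWt]
    have h : (fun y => (fun j => f (e j)) (e.symm y)) = f := by
      funext y
      show f (e (e.symm y)) = f y
      rw [Equiv.apply_symm_apply]
    rw [h]
  have hWshift : ∀ f ∈ Wt, (fun j => f (j - 1)) ∈ Wt := by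
    intro f hf
    rw [hWt] at hf ⊢
    have h1 := W.apply_mem_toSubmodule t hf
    have h2 : Cfsg.permRep K G α t (fun y => f (e.symm y)) = fun y => f (e.symm y - 1) := by
      funext y
      show f (e.symm (t⁻¹ • y)) = f (e.symm y - 1)
      congr 1
      rw [Equiv.symm_apply_eq, he', Equiv.apply_symm_apply]
    rw [h2] at h1
    exact h1
  obtain ⟨r, hr, hfr, hmem⟩ := ShiftInv.main Wt hWshift
  have hWV : Wt = V p K r := Submodule.ext (fun f => (hmem f).trans (mem_V' r f).symm)
  -- transport of the sum-zero functions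
  obtain ⟨St, hSt⟩ : ∃ St : Submodule K (ZMod p → K), ∀ f, f ∈ St ↔ ∑ j, f j = 0 := by
    refine ⟨Submodule.comap (LinearMap.funLeft K K e.symm)
      (Cfsg.permSumZero K G α).toSubmodule, fun f => ?_⟩
    rw [Submodule.mem_comap]
    show (∑ y, f (e.symm y)) = 0 ↔ _
    rw [Equiv.sum_comp e.symm f]
  have hSshift : ∀ f ∈ St, (fun j => f (j - 1)) ∈ St := by
    intro f hf
    rw [hSt] at hf ⊢
    rw [← hf]
    exact Equiv.sum_comp (Equiv.subRight 1) f
  obtain ⟨s, hs, hfs, hmemS⟩ := ShiftInv.main St hSshift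
  have hs' : s < p := by
    by_contra hcon
    have hsp : s = p := by omega
    have h1 : St = ⊤ := by
      apply Submodule.eq_top_of_finrank_eq
      rw [hfs, hsp, Module.finrank_fintype_fun_eq_card, ZMod.card]
    have h2 : (Pi.single 0 1 : ZMod p → K) ∈ St := by rw [h1]; exact Submodule.mem_top
    rw [hSt, Finset.sum_pi_single'] at h2
    simp at h2
  -- bounds on r
  have hr2 : 2 ≤ r := by
    by_contra hlt
    obtain ⟨f, hfW, hfC⟩ := SetLike.exists_of_lt h₁
    have h1 := (hWt' f).mp hfW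
    rw [hmem] at h1
    obtain ⟨P, hP, hPf⟩ := h1
    have h2 : P.natDegree < 1 :=
      natDeg_lt P 1 Nat.one_pos (lt_of_lt_of_le hP (by exact_mod_cast (by omega : r ≤ 1)))
    have h3 := Polynomial.eq_C_of_natDegree_eq_zero (by omega : P.natDegree = 0)
    apply hfC
    show f ∈ Submodule.span K {fun _ => (1:K)}
    rw [Submodule.mem_span_singleton]
    refine ⟨P.coeff 0, funext (fun y => ?_)⟩
    have h4 := hPf (e.symm y)
    rw [Equiv.apply_symm_apply, h3, Polynomial.eval_C] at h4
    rw [h4]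
    show P.coeff 0 * 1 = _
    rw [mul_one]
  have hrp : r + 2 ≤ p := by
    by_contra hge
    apply not_le_of_gt h₂
    intro f hf
    rw [hWt', hmem]
    have h1 : (fun j => f (e j)) ∈ St := by
      rw [hSt, Equiv.sum_comp e f]
      exact hf
    rw [hmemS] at h1
    obtain ⟨P, hP, hPf⟩ := h1
    exact ⟨P, lt_of_lt_of_le hP (by exact_mod_cast (by omega : s ≤ r)), hPf⟩
  -- every element acts as an affine map
  obtain ⟨π, hπ⟩ : ∃ π : G → ZMod p → ZMod p, ∀ g x, π g x = e.symm (g • e x) :=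
    ⟨_, fun _ _ => rfl⟩
  have haff : ∀ (g : G) (x : ZMod p), π g x = (π g 1 - π g 0) * x + π g 0 := by
    intro g
    obtain ⟨πg, hπg⟩ : ∃ πg : Equiv.Perm (ZMod p), ∀ x, πg x = π g x :=
      ⟨e.trans ((g : Equiv.Perm α).trans e.symm), fun x => (hπ g x).symm⟩
    have hπg' : ∀ x, πg.symm x = π g⁻¹ x := by
      intro x
      rw [Equiv.symm_apply_eq, hπg, hπ, hπ, Equiv.apply_symm_apply, smul_inv_smul,
        Equiv.symm_apply_apply]
    have h1 : ∀ f ∈ V p K r, (fun x => f (πg x)) ∈ V p K r := by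
      intro f hf
      rw [← hWV] at hf ⊢
      rw [hWt] at hf ⊢
      have h3 := W.apply_mem_toSubmodule g⁻¹ hf
      have h4 : Cfsg.permRep K G α g⁻¹ (fun y => f (e.symm y))
          = fun y => f (πg (e.symm y)) := by
        funext y
        show f (e.symm ((g⁻¹)⁻¹ • y)) = f (πg (e.symm y))
        rw [hπg, hπ, inv_inv, Equiv.apply_symm_apply]
      rw [h4] at h3
      exact h3
    have h2 : ∀ f ∈ V p K r, (fun x => f (πg.symm x)) ∈ V p K r := by
      intro f hf
      rw [← hWV] at hf ⊢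
      rw [hWt] at hf ⊢
      have h3 := W.apply_mem_toSubmodule g hf
      have h4 : Cfsg.permRep K G α g (fun y => f (e.symm y))
          = fun y => f (πg.symm (e.symm y)) := by
        funext y
        show f (e.symm (g⁻¹ • y)) = f (πg.symm (e.symm y))
        rw [hπg', hπ, Equiv.apply_symm_apply]
      rw [h4] at h3
      exact h3
    have h5 := aff (K := K) r hr2 hrp πg h1 h2
    intro x
    rw [← hπg, ← hπg, ← hπg]
    exact h5 x
  have hπmul : ∀ g h x, π (g * h) x = π g (π h x) := by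
    intro g h x
    rw [hπ, hπ, hπ, Equiv.apply_symm_apply, mul_smul]
  have hπone : ∀ x, π 1 x = x := by
    intro x
    rw [hπ, one_smul, Equiv.symm_apply_apply]
  -- the slope homomorphism
  obtain ⟨s, hs⟩ : ∃ s : G →* ZMod p, ∀ g, s g = π g 1 - π g 0 := by
    refine ⟨{ toFun := fun g => π g 1 - π g 0, map_one' := ?_, map_mul' := ?_ }, fun g => rfl⟩
    · show π 1 1 - π 1 0 = 1
      rw [hπone, hπone, sub_zero]
    · intro g h
      show π (g * h) 1 - π (g * h) 0 = (π g 1 - π g 0) * (π h 1 - π h 0)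
      rw [hπmul, hπmul, haff g (π h 1), haff g (π h 0)]
      ring
  have hcomm : ∀ a b : s.toHomUnits.ker, a * b = b * a := by
    have hk : ∀ a : s.toHomUnits.ker, π a.1 1 - π a.1 0 = 1 := by
      intro a
      have h1 := a.2
      rw [MonoidHom.mem_ker] at h1
      have h2 := congrArg Units.val h1
      rw [MonoidHom.coe_toHomUnits, Units.val_one, hs] at h2
      exact h2
    intro a b
    have hab : ∀ x, π (a.1 * b.1) x = π (b.1 * a.1) x := by
      intro x
      rw [hπmul, hπmul, haff a.1 (π b.1 x), haff b.1 (π a.1 x), hk a, hk b, haff a.1 x,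
        haff b.1 x, hk a, hk b]
      ring
    apply Subtype.ext
    show a.1 * b.1 = b.1 * a.1
    apply Subtype.ext
    apply Equiv.ext
    intro y
    have h3 := hab (e.symm y)
    rw [hπ, hπ, Equiv.apply_symm_apply] at h3
    exact e.symm.injective h3
  haveI : Group.IsSolvable s.toHomUnits.ker := Group.isSolvable_of_comm hcomm
  exact Group.isSolvable_of_ker_le_range s.toHomUnits.ker.subtype s.toHomUnits
    (le_of_eq (Subgroup.range_subtype _).symm)

end Cfsg.Agent.Helper2.PrimeDeg
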