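import Mathlib
import Cfsg.Agent.Helper2.PrimeDeg2
import Cfsg.Agent.Helper2.Heart2
import Cfsg.Agent.Helper2.PermHom

/-! Burnside's theorem on transitive groups of prime degree. -/

set_option autoImplicit false

namespace Cfsg.Agent.Helper2.PrimeDeg

open Cfsg

universe w

theorem perm_solvable_small {α : Type w} [Fintype α] [DecidableEq α]
    (h : Fintype.card α = 2 ∨ Fintype.card α = 3) : Group.IsSolvable (Equiv.Perm α) := by
  rcases h with h | h
  · haveI : Fact (Nat.Prime 2) := ⟨Nat.prime_two⟩
    have hc : Nat.card (Equiv.Perm α) = 2 := by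
      rw [Nat.card_eq_fintype_card, Fintype.card_perm, h]; rfl
    haveI : IsCyclic (Equiv.Perm α) := isCyclic_of_prime_card hc
    exact Group.isSolvable_of_comm
      (fun a b => (IsCyclic.commGroup (α := Equiv.Perm α)).mul_comm a b)
  · haveI : Fact (Nat.Prime 3) := ⟨Nat.prime_three⟩
    haveI : Nontrivial α := by
      rw [← Fintype.one_lt_card_iff_nontrivial, h]; norm_num
    have hc : Nat.card (alternatingGroup α) = 3 := by
      have h1 := two_mul_nat_card_alternatingGroup (α := α)
      rw [Nat.card_eq_fintype_card (α := Equiv.Perm α), Fintype.card_perm, h] at h1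
      have h2 : Nat.factorial 3 = 6 := rfl
      omega
    haveI : IsCyclic (alternatingGroup α) := isCyclic_of_prime_card hc
    haveI : Group.IsSolvable (alternatingGroup α) := Group.isSolvable_of_comm
      (fun a b => (IsCyclic.commGroup (α := alternatingGroup α)).mul_comm a b)
    exact Group.isSolvable_of_ker_le_range (alternatingGroup α).subtype
      (Equiv.Perm.sign (α := α)) (le_of_eq (Subgroup.range_subtype _).symm)

theorem burnside {α : Type w} [Fintype α] [DecidableEq α] (hα : (Fintype.card α).Prime)
    (G : Subgroup (Equiv.Perm α)) [MulAction.IsPretransitive G α] :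
    Group.IsSolvable G ∨ MulAction.IsMultiplyPretransitive G α 2 := by
  classical
  by_cases hsolv : Group.IsSolvable G
  · exact Or.inl hsolv
  right
  obtain ⟨p, hpdef⟩ : ∃ p, p = Fintype.card α := ⟨_, rfl⟩
  haveI : Fact p.Prime := ⟨by rw [hpdef]; exact hα⟩
  have hp : p.Prime := Fact.out
  have hp5 : 5 ≤ p := by
    by_contra hlt
    have h23 : p = 2 ∨ p = 3 := by
      have h2 := hp.two_le
      have h4 : p ≠ 4 := by
        rintro rfl
        exact absurd hp (by norm_num)
      omega
    haveI : Group.IsSolvable (Equiv.Perm α) :=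
      perm_solvable_small (by rw [← hpdef]; exact h23)
    exact hsolv inferInstance
  have hdich : ∀ W : Subrepresentation (Cfsg.permRep (ZMod p) G α),
      (Cfsg.permConstants (ZMod p) G α).toSubmodule ≤ W.toSubmodule →
      W.toSubmodule ≤ (Cfsg.permSumZero (ZMod p) G α).toSubmodule →
      W.toSubmodule = (Cfsg.permConstants (ZMod p) G α).toSubmodule ∨
      W.toSubmodule = (Cfsg.permSumZero (ZMod p) G α).toSubmodule := by
    intro W h1 h2
    by_contra hcon
    apply hsolv
    exact core hpdef.symm G W (lt_of_le_of_ne h1 (fun h => hcon (Or.inl h.symm)))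
      (lt_of_le_of_ne h2 (fun h => hcon (Or.inr h)))
  apply Heart2.main (K := ZMod p) (p := p) (f := 1) le_rfl (by rw [pow_one]; exact hpdef.symm)
  intro W W' hCW hWW' hW'S
  rcases hdich W hCW (le_trans hWW'.le hW'S) with hW | hW
  · rcases hdich W' (le_trans hCW hWW'.le) hW'S with hW' | hW'
    · exfalso
      rw [hW, hW'] at hWW'
      exact lt_irrefl _ hWW'
    · rw [hW, hW']
      obtain ⟨a⟩ : Nonempty α := by
        rw [← Fintype.card_pos_iff, ← hpdef]; exact hp.pos
      obtain ⟨b, hba⟩ : ∃ b, b ≠ a := by
        haveI : Nontrivial α := by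
          rw [← Fintype.one_lt_card_iff_nontrivial, ← hpdef]; omega
        exact exists_ne a
      obtain ⟨g, hg⟩ := MulAction.exists_smul_eq G a b
      have hbc : b ≠ g • b := by
        intro h
        apply hba
        have h1 : g • a = g • b := by rw [hg]; exact h
        exact (smul_left_cancel g h1).symm
      obtain ⟨z, hza, hzb, hzc⟩ : ∃ z, z ≠ a ∧ z ≠ b ∧ z ≠ g • b := by
        by_contra hcon
        have hsub : (Finset.univ : Finset α) ⊆ {a, b, g • b} := by
          intro z _
          by_contra hz
          simp only [Finset.mem_insert, Finset.mem_singleton, not_or] at hz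
          exact hcon ⟨z, hz.1, hz.2.1, hz.2.2⟩
        have h1 := Finset.card_le_card hsub
        have h2 := Finset.card_le_three (a := a) (b := b) (c := g • b)
        rw [Finset.card_univ, ← hpdef] at h1
        omega
      refine ⟨g, Pi.single a 1 - Pi.single b 1, ?_, ?_⟩
      · show ∑ x, (Pi.single a (1 : ZMod p) - Pi.single b 1 : α → ZMod p) x = 0
        simp only [Pi.sub_apply, Finset.sum_sub_distrib, Finset.sum_pi_single', Finset.mem_univ,
          if_true, sub_self]
      · intro hmem
        rw [map_sub, PermHom.single_smul, PermHom.single_smul, hg] at hmem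
        obtain ⟨k, hk⟩ := Submodule.mem_span_singleton.mp hmem
        have hz := congrFun hk z
        have hb := congrFun hk b
        simp only [Pi.smul_apply, Pi.sub_apply, smul_eq_mul, mul_one, Pi.single_apply] at hz hb
        rw [if_neg hzb, if_neg hzc, if_neg hza] at hz
        rw [if_pos trivial, if_neg hbc, if_neg hba] at hb
        have h2 : ((2 : ℕ) : ZMod p) = 0 := by
          push_cast
          linear_combination hz - hb
        rw [ZMod.natCast_eq_zero_iff] at h2
        have h3 := Nat.le_of_dvd (by norm_num) h2
        omega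
  · exfalso
    rw [hW] at hWW'
    exact not_le_of_gt hWW' hW'S

end Cfsg.Agent.Helper2.PrimeDeg
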