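import Mathlib
import Cfsg.Agent.Helper2.PrimeDeg3
import Cfsg.Agent.Helper2.Heart3

/-! Prime degree, Sylow normaliser of even order: triple transitivity. -/

set_option autoImplicit false

namespace Cfsg.Agent.Helper2.PrimeDeg

open Cfsg

open scoped Pointwise

universe w

variable {p : ℕ} [Fact p.Prime] {α : Type w} [Fintype α] [DecidableEq α]

theorem five_le (hα : Fintype.card α = p) (G : Subgroup (Equiv.Perm α))
    (hsolv : ¬ Group.IsSolvable G) : 5 ≤ p := by
  classical
  have hp : p.Prime := Fact.out
  by_contra hlt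
  have h23 : p = 2 ∨ p = 3 := by
    have h2 := hp.two_le
    have h4 : p ≠ 4 := by
      intro h
      rw [h] at hp
      exact absurd hp (by norm_num)
    omega
  haveI : Group.IsSolvable (Equiv.Perm α) := perm_solvable_small (by rw [hα]; exact h23)
  exact hsolv inferInstance

theorem two_ne (hp5 : 5 ≤ p) : (2 : ZMod p) ≠ 0 := by
  intro h
  have h' : ((2 : ℕ) : ZMod p) = 0 := by exact_mod_cast h
  rw [ZMod.natCast_eq_zero_iff] at h'
  have h3 := Nat.le_of_dvd (by norm_num) h'
  omega

theorem pow_coords (G : Subgroup (Equiv.Perm α)) (e : ZMod p ≃ α) (t : G)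
    (het : ∀ j, e (j + 1) = t • e j) (m : ℕ) :
    ∀ y : α, e.symm ((t ^ m) • y) = e.symm y + m := by
  have he1 : ∀ y : α, e.symm (t • y) = e.symm y + 1 := by
    intro y
    rw [Equiv.symm_apply_eq, het, Equiv.apply_symm_apply]
  induction m with
  | zero => intro y; rw [pow_zero, one_smul, Nat.cast_zero, add_zero]
  | succ m ih => intro y; rw [pow_succ', mul_smul, he1, ih, Nat.cast_succ, add_assoc]

/-- coordinates adapted to a Sylow `p`-subgroup and an involution in its normaliser -/
theorem invol_coords (hα : Fintype.card α = p) (hp5 : 5 ≤ p) (G : Subgroup (Equiv.Perm α))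
    [MulAction.IsPretransitive G α] (P : Sylow p G)
    (heven : Even (Nat.card (Subgroup.normalizer ((P : Subgroup G) : Set G)))) :
    ∃ (e : ZMod p ≃ α) (t u : G) (c : ZMod p), (∀ j, e (j + 1) = t • e j) ∧
      (∀ j, u • e j = e (-j + c)) ∧ u * u = 1 := by
  classical
  have hp : p.Prime := Fact.out
  haveI : NeZero p := ⟨hp.ne_zero⟩
  haveI : Nonempty α := by rw [← Fintype.card_pos_iff, hα]; exact hp.pos
  obtain ⟨a₀⟩ := ‹Nonempty α›
  have hdvd : p ∣ Nat.card G := by
    have h1 := MulAction.index_stabilizer_of_transitive G a₀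
    rw [Nat.card_eq_fintype_card, hα] at h1
    rw [← h1]
    exact Subgroup.index_dvd_card _
  have hdvdP : p ∣ Nat.card (P : Subgroup G) := P.dvd_card_of_dvd_card hdvd
  obtain ⟨t₀, ht₀⟩ := exists_prime_orderOf_dvd_card' p hdvdP
  obtain ⟨t, htdef⟩ : ∃ t : G, t = (t₀ : G) := ⟨_, rfl⟩
  have ht : orderOf t = p := by rw [htdef, Subgroup.orderOf_coe]; exact ht₀
  have htP : t ∈ (P : Subgroup G) := by rw [htdef]; exact t₀.2
  have hτ : orderOf (t : Equiv.Perm α) = p := by rw [Subgroup.orderOf_coe, ht]
  obtain ⟨e, he⟩ := exists_equiv hα (t : Equiv.Perm α) hτ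
  have het : ∀ j, e (j + 1) = t • e j := fun j => he j
  -- the Sylow subgroup has order p
  have hPcard : Nat.card (P : Subgroup G) = p := by
    obtain ⟨n, hn⟩ := IsPGroup.iff_card.mp P.isPGroup'
    have h1 : Nat.card (P : Subgroup G) ∣ Nat.factorial p := by
      have h2 := Subgroup.card_subgroup_dvd_card (P : Subgroup G)
      have h3 := Subgroup.card_subgroup_dvd_card G
      rw [Nat.card_eq_fintype_card (α := Equiv.Perm α), Fintype.card_perm, hα] at h3
      exact dvd_trans h2 h3
    rw [hn] at h1 hdvdP ⊢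
    have hn1 : n ≠ 0 := by
      intro h0
      rw [h0, pow_zero] at hdvdP
      exact hp.one_lt.ne' (Nat.dvd_one.mp hdvdP)
    have hn2 : n < 2 := by
      by_contra hge
      have h4 : p ^ 2 ∣ Nat.factorial p := dvd_trans (pow_dvd_pow p (by omega)) h1
      rw [← Nat.mul_factorial_pred hp.ne_zero, pow_two] at h4
      have h6 := (Nat.mul_dvd_mul_iff_left hp.pos).mp h4
      have h7 := (hp.dvd_factorial).mp h6
      omega
    have hn3 : n = 1 := by omega
    rw [hn3, pow_one]
  have hzp : Subgroup.zpowers t = (P : Subgroup G) := by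
    apply Subgroup.eq_of_le_of_card_ge
    · rw [Subgroup.zpowers_le]; exact htP
    · rw [hPcard, Nat.card_zpowers, ht]
  -- the involution
  obtain ⟨u₀, hu₀⟩ := exists_prime_orderOf_dvd_card' 2 (even_iff_two_dvd.mp heven)
  obtain ⟨u, hudef⟩ : ∃ u : G, u = (u₀ : G) := ⟨_, rfl⟩
  have hu : orderOf u = 2 := by rw [hudef, Subgroup.orderOf_coe]; exact hu₀
  have huN : u ∈ Subgroup.normalizer ((P : Subgroup G) : Set G) := by rw [hudef]; exact u₀.2
  obtain ⟨n, hn⟩ : ∃ n : ℕ, t ^ n = u * t * u⁻¹ := by
    have h1 : u * t * u⁻¹ ∈ (P : Subgroup G) := (Subgroup.mem_normalizer_iff.mp huN t).mp htP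
    rw [← hzp, ← mem_powers_iff_mem_zpowers] at h1
    exact h1
  have hen := pow_coords G e t het
  obtain ⟨π, hπ⟩ : ∃ π : ZMod p → ZMod p, ∀ x, π x = e.symm (u • e x) := ⟨_, fun _ => rfl⟩
  have hstep : ∀ x, π (x + 1) = π x + n := by
    intro x
    rw [hπ, hπ, het]
    have h1 : u • (t • e x) = (t ^ n) • (u • e x) := by
      rw [hn, mul_smul, mul_smul, inv_smul_smul]
    rw [h1, hen]
  have hlin : ∀ x, π x = n * x + π 0 := by
    have h1 : ∀ m : ℕ, π (m : ZMod p) = n * m + π 0 := by
      intro m
      induction m with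
      | zero => rw [Nat.cast_zero, mul_zero, zero_add]
      | succ m ih => rw [Nat.cast_succ, hstep, ih]; ring
    intro x
    have h2 := h1 x.val
    rwa [ZMod.natCast_zmod_val] at h2
  have huu : u * u = 1 := by rw [← pow_two, ← hu]; exact pow_orderOf_eq_one u
  have hu1 : u ≠ 1 := by
    intro h
    rw [h, orderOf_one] at hu
    omega
  have hππ : ∀ x, π (π x) = x := by
    intro x
    rw [hπ (π x), hπ x, Equiv.apply_symm_apply, ← mul_smul, huu, one_smul,
      Equiv.symm_apply_apply]
  obtain ⟨κ, hκ⟩ : ∃ κ : ZMod p, κ = (n : ZMod p) := ⟨_, rfl⟩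
  obtain ⟨c, hc⟩ : ∃ c : ZMod p, c = π 0 := ⟨_, rfl⟩
  have hlin' : ∀ x, π x = κ * x + c := by
    intro x
    rw [hκ, hc]
    exact hlin x
  have h0 := hππ 0
  have h1 := hππ 1
  rw [hlin' 0, hlin'] at h0
  rw [hlin' 1, hlin'] at h1
  have hκ2 : (κ - 1) * (κ + 1) = 0 := by linear_combination h1 - h0
  have h2ne := two_ne hp5
  have hκm : κ = -1 := by
    rcases mul_eq_zero.mp hκ2 with h | h
    · exfalso
      have hκ1 : κ = 1 := sub_eq_zero.mp h
      rw [hκ1] at h0
      have hc0 : c = 0 := by
        have h3 : (2 : ZMod p) * c = 0 := by linear_combination h0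
        rcases mul_eq_zero.mp h3 with h' | h'
        · exact absurd h' h2ne
        · exact h'
      apply hu1
      apply Subtype.ext
      apply Equiv.ext
      intro y
      have h3 := hlin' (e.symm y)
      rw [hκ1, hc0, one_mul, add_zero, hπ, Equiv.apply_symm_apply] at h3
      exact e.symm.injective h3
    · exact eq_neg_of_add_eq_zero_left h
  refine ⟨e, t, u, c, het, fun j => ?_, huu⟩
  have h3 := hlin' j
  rw [hκm, hπ, Equiv.symm_apply_eq] at h3
  rw [h3]
  congr 1
  ring

theorem three_trans (hα : Fintype.card α = p) (G : Subgroup (Equiv.Perm α))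
    [MulAction.IsPretransitive G α] (hG : ¬ Group.IsSolvable G) (P : Sylow p G)
    (heven : Even (Nat.card (Subgroup.normalizer ((P : Subgroup G) : Set G)))) :
    MulAction.IsMultiplyPretransitive G α 3 := by
  classical
  have hp : p.Prime := Fact.out
  haveI : NeZero p := ⟨hp.ne_zero⟩
  have hp5 := five_le hα G hG
  have h2 : MulAction.IsMultiplyPretransitive G α 2 := by
    rcases burnside (by rw [hα]; exact hp) G with h | h
    · exact absurd h hG
    · exact h
  obtain ⟨e, t, u, c, het, heu, huu⟩ := invol_coords hα hp5 G P heven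
  have hen := pow_coords G e t het
  have h2ne := two_ne hp5
  have hu1 : u ≠ 1 := by
    intro h
    have h1 := heu 0
    have h2' := heu 1
    rw [h, one_smul] at h1 h2'
    have h3 := e.injective h1
    have h4 := e.injective h2'
    apply h2ne
    linear_combination h4 - h3
  apply Heart3.main (K := ZMod p) (p := p) h2
  · intro a
    obtain ⟨i2, hi2⟩ : ∃ i2 : ZMod p, 2 * i2 = 1 := ⟨2⁻¹, mul_inv_cancel₀ h2ne⟩
    have hfix : u • e (c * i2) = e (c * i2) := by
      rw [heu]
      congr 1
      linear_combination (-c) * hi2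
    obtain ⟨g, hg⟩ := MulAction.exists_smul_eq G (e (c * i2)) a
    have hmem : g * u * g⁻¹ ∈ MulAction.stabilizer G a := by
      rw [MulAction.mem_stabilizer_iff, mul_smul, mul_smul, ← hg, inv_smul_smul, hfix]
    have hord : orderOf (⟨g * u * g⁻¹, hmem⟩ : MulAction.stabilizer G a) = 2 := by
      rw [Subgroup.orderOf_mk]
      apply orderOf_eq_prime
      · rw [pow_two]
        have h1 : g * u * g⁻¹ * (g * u * g⁻¹) = g * (u * u) * g⁻¹ := by group
        rw [h1, huu]
        group
      · intro h
        apply hu1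
        have h1 : u = g⁻¹ * (g * u * g⁻¹) * g := by group
        rw [h1, h]
        group
    rw [even_iff_two_dvd, ← hord]
    exact orderOf_dvd_natCard _
  · intro f hf
    obtain ⟨ξ, hξ⟩ : ∃ ξ : α → ZMod p, ∀ y, ξ y = e.symm y := ⟨_, fun _ => rfl⟩
    have hsum : ∑ j : ZMod p, j = 0 := by
      have h1 : ∑ j : ZMod p, -j = ∑ j : ZMod p, j :=
        Equiv.sum_comp (Equiv.neg (ZMod p)) (fun j => j)
      rw [Finset.sum_neg_distrib] at h1
      have h3 : (2 : ZMod p) * ∑ j : ZMod p, j = 0 := by linear_combination -h1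
      rcases mul_eq_zero.mp h3 with h | h
      · exact absurd h h2ne
      · exact h
    have hξS : ξ ∈ (Cfsg.permSumZero (ZMod p) G α).toSubmodule := by
      show ∑ y, ξ y = 0
      rw [← hsum]
      simp only [hξ]
      exact Equiv.sum_comp e.symm (fun j => j)
    have hconstS : ∀ k : ZMod p,
        (fun _ : α => k) ∈ (Cfsg.permSumZero (ZMod p) G α).toSubmodule := by
      intro k
      show ∑ _y : α, k = 0
      rw [Finset.sum_const, Finset.card_univ, hα, nsmul_eq_mul, ZMod.natCast_self, zero_mul]
    have hconstC : ∀ k : ZMod p,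
        (fun _ : α => k) ∈ (Cfsg.permConstants (ZMod p) G α).toSubmodule := by
      intro k
      show (fun _ : α => k) ∈ Submodule.span (ZMod p) {fun _ => (1 : ZMod p)}
      rw [Submodule.mem_span_singleton]
      exact ⟨k, funext (fun _ => mul_one k)⟩
    have hf0 : ∀ k : ZMod p, f ⟨fun _ => k, hconstS k⟩ = 0 := fun k => hf _ (hconstC k)
    obtain ⟨w, hw⟩ : ∃ w, w = f ⟨ξ, hξS⟩ := ⟨_, rfl⟩
    have htw : Cfsg.permRep (ZMod p) G (Set.powersetCard α 2) t w = w := by
      have hint := f.isIntertwining _ _ t ⟨ξ, hξS⟩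
      rw [hw]
      refine hint.symm.trans ?_
      have h1 : (Cfsg.permSumZero (ZMod p) G α).toRepresentation t ⟨ξ, hξS⟩
          = ⟨ξ, hξS⟩ + ⟨fun _ => -1, hconstS (-1)⟩ := by
        apply Subtype.ext
        funext y
        show ξ (t⁻¹ • y) = ξ y + -1
        rw [hξ, hξ, Equiv.symm_apply_eq, ← sub_eq_add_neg]
        have h2 := het (e.symm y - 1)
        rw [sub_add_cancel, Equiv.apply_symm_apply] at h2
        rw [inv_smul_eq_iff]
        exact h2
      rw [h1, map_add, hf0, add_zero]
    have huw : Cfsg.permRep (ZMod p) G (Set.powersetCard α 2) u w = -w := by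
      have hint := f.isIntertwining _ _ u ⟨ξ, hξS⟩
      rw [hw]
      refine hint.symm.trans ?_
      have hu_inv : u⁻¹ = u := inv_eq_of_mul_eq_one_left huu
      have h1 : (Cfsg.permSumZero (ZMod p) G α).toRepresentation u ⟨ξ, hξS⟩
          = -⟨ξ, hξS⟩ + ⟨fun _ => c, hconstS c⟩ := by
        apply Subtype.ext
        funext y
        show ξ (u⁻¹ • y) = -ξ y + c
        rw [hξ, hξ, hu_inv, Equiv.symm_apply_eq, ← heu, Equiv.apply_symm_apply]
      rw [h1, map_add, map_neg, hf0, add_zero]
    have hw0 : w = 0 := by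
      funext s
      have ht1 : ∀ s, w (t • s) = w s := by
        intro s
        have h1 := congrFun htw (t • s)
        have h2' : Cfsg.permRep (ZMod p) G (Set.powersetCard α 2) t w (t • s)
            = w (t⁻¹ • t • s) := rfl
        rw [h2', inv_smul_smul] at h1
        exact h1.symm
      have htn : ∀ (m : ℕ) s, w ((t ^ m) • s) = w s := by
        intro m
        induction m with
        | zero => intro s; rw [pow_zero, one_smul]
        | succ m ih => intro s; rw [pow_succ', mul_smul, ht1, ih]
      obtain ⟨m, hm⟩ : ∃ m : ℕ, u • s = (t ^ m) • s := by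
        have hcard : (s : Finset α).card = 2 := s.2
        obtain ⟨a, b, hab, hs⟩ := Finset.card_eq_two.mp hcard
        refine ⟨(c - e.symm a - e.symm b).val, ?_⟩
        have hcoe : ∀ (g : G) (s' : Set.powersetCard α 2),
            ((g • s' : Set.powersetCard α 2) : Finset α) = g • (s' : Finset α) :=
          fun g s' => Set.powersetCard.coe_smul
        apply Subtype.ext
        rw [hcoe, hcoe, hs, Finset.smul_finset_insert,
          Finset.smul_finset_singleton, Finset.smul_finset_insert, Finset.smul_finset_singleton]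
        have h1 : (t ^ (c - e.symm a - e.symm b).val) • a = u • b := by
          apply e.symm.injective
          rw [hen, ZMod.natCast_zmod_val]
          have h2' := heu (e.symm b)
          rw [Equiv.apply_symm_apply] at h2'
          rw [h2', Equiv.symm_apply_apply]
          ring
        have h2' : (t ^ (c - e.symm a - e.symm b).val) • b = u • a := by
          apply e.symm.injective
          rw [hen, ZMod.natCast_zmod_val]
          have h3 := heu (e.symm a)
          rw [Equiv.apply_symm_apply] at h3
          rw [h3, Equiv.symm_apply_apply]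
          ring
        rw [h1, h2', Finset.pair_comm]
      have h3 := congrFun huw (u • s)
      have h4 : Cfsg.permRep (ZMod p) G (Set.powersetCard α 2) u w (u • s)
          = w (u⁻¹ • u • s) := rfl
      rw [h4, inv_smul_smul] at h3
      have h5 : (-w) (u • s) = - w (u • s) := rfl
      rw [h5, hm, htn] at h3
      have h6 : (2 : ZMod p) * w s = 0 := by linear_combination h3
      rcases mul_eq_zero.mp h6 with h | h
      · exact absurd h h2ne
      · exact h
    have hfξ : f ⟨ξ, hξS⟩ = 0 := by rw [← hw]; exact hw0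
    let Wk : Subrepresentation (Cfsg.permRep (ZMod p) G α) :=
      { toSubmodule := Submodule.map (Cfsg.permSumZero (ZMod p) G α).toSubmodule.subtype
          (LinearMap.ker f.toLinearMap)
        apply_mem_toSubmodule := by
          rintro g _ ⟨v, hv, rfl⟩
          refine ⟨(Cfsg.permSumZero (ZMod p) G α).toRepresentation g v, ?_, rfl⟩
          have hv' : f v = 0 := hv
          show f ((Cfsg.permSumZero (ZMod p) G α).toRepresentation g v) = 0
          rw [f.isIntertwining, hv', map_zero] }
    have hWk_mem : ∀ v : (Cfsg.permSumZero (ZMod p) G α).toSubmodule,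
        (v : α → ZMod p) ∈ Wk.toSubmodule ↔ f v = 0 := by
      intro v
      constructor
      · rintro ⟨v', hv', hvv⟩
        have h1 : v' = v := Subtype.ext hvv
        rw [← h1]
        exact hv'
      · intro hv
        exact ⟨v, hv, rfl⟩
    have hCW : (Cfsg.permConstants (ZMod p) G α).toSubmodule ≤ Wk.toSubmodule := by
      intro v hv
      obtain ⟨k, rfl⟩ := Submodule.mem_span_singleton.mp hv
      have h1 : (k • fun _ : α => (1 : ZMod p)) = fun _ => k := funext (fun _ => mul_one k)
      rw [h1]
      exact (hWk_mem ⟨fun _ => k, hconstS k⟩).mpr (hf0 k)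
    have hWS : Wk.toSubmodule ≤ (Cfsg.permSumZero (ZMod p) G α).toSubmodule := by
      rintro _ ⟨v, _, rfl⟩
      exact v.2
    have hWtop : Wk.toSubmodule = (Cfsg.permSumZero (ZMod p) G α).toSubmodule := by
      by_contra hne
      have hlt2 : Wk.toSubmodule < (Cfsg.permSumZero (ZMod p) G α).toSubmodule :=
        lt_of_le_of_ne hWS hne
      have hlt1 : (Cfsg.permConstants (ZMod p) G α).toSubmodule < Wk.toSubmodule := by
        refine lt_of_le_of_ne hCW (fun heq => ?_)
        have h1 : ξ ∈ Wk.toSubmodule := (hWk_mem ⟨ξ, hξS⟩).mpr hfξ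
        rw [← heq] at h1
        obtain ⟨k, hk⟩ := Submodule.mem_span_singleton.mp h1
        have h0 := congrFun hk (e 0)
        have h1' := congrFun hk (e 1)
        rw [hξ, Equiv.symm_apply_apply] at h0 h1'
        have h0' : k = 0 := by rw [← h0]; exact (mul_one k).symm
        have h1'' : k = 1 := by rw [← h1']; exact (mul_one k).symm
        exact zero_ne_one (h0'.symm.trans h1'')
      exact hG (core hα G Wk hlt1 hlt2)
    apply DFunLike.ext
    intro v
    have h1 : (v : α → ZMod p) ∈ Wk.toSubmodule := by rw [hWtop]; exact v.2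
    exact (hWk_mem v).mp h1

end Cfsg.Agent.Helper2.PrimeDeg
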