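import Mathlib
import Cfsg.Agent.Helper2.PrimeDeg4

/-! Prime degree: subgroups of index `p`, preliminaries and the affine case. -/

set_option autoImplicit false

namespace Cfsg.Agent.Helper2.PrimeDeg

open Polynomial Cfsg Cfsg.Agent.Helper2.ShiftInv

universe v w

section coreaff

variable {p : ℕ} [Fact p.Prime] {K : Type v} [Field K] [CharP K p]
  {α : Type w} [Fintype α] [DecidableEq α]

theorem core_affine (hα : Fintype.card α = p) (G : Subgroup (Equiv.Perm α))
    [MulAction.IsPretransitive G α] (W : Subrepresentation (Cfsg.permRep K G α))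
    (h₁ : (Cfsg.permConstants K G α).toSubmodule < W.toSubmodule)
    (h₂ : W.toSubmodule < (Cfsg.permSumZero K G α).toSubmodule) :
    ∃ e : ZMod p ≃ α, ∀ (g : G) (x : ZMod p), e.symm (g • e x)
      = (e.symm (g • e 1) - e.symm (g • e 0)) * x + e.symm (g • e 0) := by
  classical
  haveI : NeZero p := ⟨(Fact.out : p.Prime).ne_zero⟩
  have hp : p.Prime := Fact.out
  haveI : Nonempty α := by rw [← Fintype.card_pos_iff, hα]; exact hp.pos
  obtain ⟨a₀⟩ := ‹Nonempty α›
  -- an element of order p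
  have hdvd : p ∣ Nat.card G := by
    have h1 := MulAction.index_stabilizer_of_transitive G a₀
    rw [Nat.card_eq_fintype_card, hα] at h1
    rw [← h1]
    exact Subgroup.index_dvd_card _
  obtain ⟨t, ht⟩ := exists_prime_orderOf_dvd_card' p hdvd
  have hτ : orderOf (t : Equiv.Perm α) = p := by rw [Subgroup.orderOf_coe, ht]
  obtain ⟨e, he⟩ := exists_equiv hα (t : Equiv.Perm α) hτ
  have he' : ∀ j, e (j - 1) = (t⁻¹ : G) • e j := by
    intro j
    have h := he (j - 1)
    rw [sub_add_cancel] at h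
    show e (j - 1) = ((t⁻¹ : G) : Equiv.Perm α) (e j)
    rw [Subgroup.coe_inv, h]
    exact (Equiv.symm_apply_apply (t : Equiv.Perm α) _).symm
  -- transport of W
  obtain ⟨Wt, hWt⟩ : ∃ Wt : Submodule K (ZMod p → K),
      ∀ f, f ∈ Wt ↔ (fun y => f (e.symm y)) ∈ W.toSubmodule :=
    ⟨Submodule.comap (LinearMap.funLeft K K e.symm) W.toSubmodule, fun f => Iff.rfl⟩
  have hWt' : ∀ f : α → K, f ∈ W.toSubmodule ↔ (fun j => f (e j)) ∈ Wt := by
    intro f
    rw [hWt]
    have h : (fun y => (fun j => f (e j)) (e.symm y)) = f := by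
      funext y
      show f (e (e.symm y)) = f y
      rw [Equiv.apply_symm_apply]
    rw [h]
  have hWshift : ∀ f ∈ Wt, (fun j => f (j - 1)) ∈ Wt := by
    intro f hf
    rw [hWt] at hf ⊢
    have h1 := W.apply_mem_toSubmodule t hf
    have h2 : Cfsg.permRep K G α t (fun y => f (e.symm y)) = fun y => f (e.symm y - 1) := by
      funext y
      show f (e.symm (t⁻¹ • y)) = f (e.symm y - 1)
      congr 1
      rw [Equiv.symm_apply_eq, he', Equiv.apply_symm_apply]
    rw [h2] at h1
    exact h1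
  obtain ⟨r, hr, hfr, hmem⟩ := ShiftInv.main Wt hWshift
  have hWV : Wt = V p K r := Submodule.ext (fun f => (hmem f).trans (mem_V' r f).symm)
  -- transport of the sum-zero functions
  obtain ⟨St, hSt⟩ : ∃ St : Submodule K (ZMod p → K), ∀ f, f ∈ St ↔ ∑ j, f j = 0 := by
    refine ⟨Submodule.comap (LinearMap.funLeft K K e.symm)
      (Cfsg.permSumZero K G α).toSubmodule, fun f => ?_⟩
    rw [Submodule.mem_comap]
    show (∑ y, f (e.symm y)) = 0 ↔ _
    rw [Equiv.sum_comp e.symm f]
  have hSshift : ∀ f ∈ St, (fun j => f (j - 1)) ∈ St := by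
    intro f hf
    rw [hSt] at hf ⊢
    rw [← hf]
    exact Equiv.sum_comp (Equiv.subRight 1) f
  obtain ⟨s, hs, hfs, hmemS⟩ := ShiftInv.main St hSshift
  have hs' : s < p := by
    by_contra hcon
    have hsp : s = p := by omega
    have h1 : St = ⊤ := by
      apply Submodule.eq_top_of_finrank_eq
      rw [hfs, hsp, Module.finrank_fintype_fun_eq_card, ZMod.card]
    have h2 : (Pi.single 0 1 : ZMod p → K) ∈ St := by rw [h1]; exact Submodule.mem_top
    rw [hSt, Finset.sum_pi_single'] at h2
    simp at h2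
  -- bounds on r
  have hr2 : 2 ≤ r := by
    by_contra hlt
    obtain ⟨f, hfW, hfC⟩ := SetLike.exists_of_lt h₁
    have h1 := (hWt' f).mp hfW
    rw [hmem] at h1
    obtain ⟨P, hP, hPf⟩ := h1
    have h2 : P.natDegree < 1 :=
      natDeg_lt P 1 Nat.one_pos (lt_of_lt_of_le hP (by exact_mod_cast (by omega : r ≤ 1)))
    have h3 := Polynomial.eq_C_of_natDegree_eq_zero (by omega : P.natDegree = 0)
    apply hfC
    show f ∈ Submodule.span K {fun _ => (1:K)}
    rw [Submodule.mem_span_singleton]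
    refine ⟨P.coeff 0, funext (fun y => ?_)⟩
    have h4 := hPf (e.symm y)
    rw [Equiv.apply_symm_apply, h3, Polynomial.eval_C] at h4
    rw [h4]
    show P.coeff 0 * 1 = _
    rw [mul_one]
  have hrp : r + 2 ≤ p := by
    by_contra hge
    apply not_le_of_gt h₂
    intro f hf
    rw [hWt', hmem]
    have h1 : (fun j => f (e j)) ∈ St := by
      rw [hSt, Equiv.sum_comp e f]
      exact hf
    rw [hmemS] at h1
    obtain ⟨P, hP, hPf⟩ := h1
    exact ⟨P, lt_of_lt_of_le hP (by exact_mod_cast (by omega : s ≤ r)), hPf⟩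
  -- every element acts as an affine map
  obtain ⟨π, hπ⟩ : ∃ π : G → ZMod p → ZMod p, ∀ g x, π g x = e.symm (g • e x) :=
    ⟨_, fun _ _ => rfl⟩
  have haff : ∀ (g : G) (x : ZMod p), π g x = (π g 1 - π g 0) * x + π g 0 := by
    intro g
    obtain ⟨πg, hπg⟩ : ∃ πg : Equiv.Perm (ZMod p), ∀ x, πg x = π g x :=
      ⟨e.trans ((g : Equiv.Perm α).trans e.symm), fun x => (hπ g x).symm⟩
    have hπg' : ∀ x, πg.symm x = π g⁻¹ x := by
      intro x
      rw [Equiv.symm_apply_eq, hπg, hπ, hπ, Equiv.apply_symm_apply, smul_inv_smul,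
        Equiv.symm_apply_apply]
    have h1 : ∀ f ∈ V p K r, (fun x => f (πg x)) ∈ V p K r := by
      intro f hf
      rw [← hWV] at hf ⊢
      rw [hWt] at hf ⊢
      have h3 := W.apply_mem_toSubmodule g⁻¹ hf
      have h4 : Cfsg.permRep K G α g⁻¹ (fun y => f (e.symm y))
          = fun y => f (πg (e.symm y)) := by
        funext y
        show f (e.symm ((g⁻¹)⁻¹ • y)) = f (πg (e.symm y))
        rw [hπg, hπ, inv_inv, Equiv.apply_symm_apply]
      rw [h4] at h3
      exact h3
    have h2 : ∀ f ∈ V p K r, (fun x => f (πg.symm x)) ∈ V p K r := by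
      intro f hf
      rw [← hWV] at hf ⊢
      rw [hWt] at hf ⊢
      have h3 := W.apply_mem_toSubmodule g hf
      have h4 : Cfsg.permRep K G α g (fun y => f (e.symm y))
          = fun y => f (πg.symm (e.symm y)) := by
        funext y
        show f (e.symm (g⁻¹ • y)) = f (πg.symm (e.symm y))
        rw [hπg', hπ, Equiv.apply_symm_apply]
      rw [h4] at h3
      exact h3
    have h5 := aff (K := K) r hr2 hrp πg h1 h2
    intro x
    rw [← hπg, ← hπg, ← hπg]
    exact h5 x
  refine ⟨e, fun g x => ?_⟩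
  have h := haff g x
  rw [hπ, hπ, hπ] at h
  exact h

end coreaff

section idx

variable {p : ℕ} [Fact p.Prime] {α : Type w} [Fintype α] [DecidableEq α]

theorem affine3 : ∀ (π : Equiv.Perm (ZMod 3)) (x : ZMod 3), π x = (π 1 - π 0) * x + π 0 := by
  decide

/-- the order of a permutation group of prime degree is not divisible by `p ^ 2` -/
theorem not_sq_dvd (hα : Fintype.card α = p) (G : Subgroup (Equiv.Perm α)) :
    ¬ p ^ 2 ∣ Nat.card G := by
  have hp : p.Prime := Fact.out
  intro h
  have h3 := Subgroup.card_subgroup_dvd_card G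
  rw [Nat.card_eq_fintype_card (α := Equiv.Perm α), Fintype.card_perm, hα] at h3
  have h4 : p ^ 2 ∣ Nat.factorial p := dvd_trans h h3
  rw [← Nat.mul_factorial_pred hp.ne_zero, pow_two] at h4
  have h6 := (Nat.mul_dvd_mul_iff_left hp.pos).mp h4
  have h7 := (hp.dvd_factorial).mp h6
  have h8 := hp.pos
  omega

/-- a subgroup of index `p` is not transitive -/
theorem not_trans_of_index (hα : Fintype.card α = p) (G : Subgroup (Equiv.Perm α))
    (H : Subgroup G) (hH : H.index = p) (a : α) :
    ¬ (∀ y : α, ∃ h : G, h ∈ H ∧ h • a = y) := by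
  intro htr
  apply not_sq_dvd hα G
  have h1 : p ∣ Nat.card H := by
    have h2 := Subgroup.index_mul_card (MulAction.stabilizer H a)
    have h3 : MulAction.orbit H a = Set.univ := by
      apply Set.eq_univ_of_forall
      intro y
      obtain ⟨h, hh, hy⟩ := htr y
      exact ⟨⟨h, hh⟩, hy⟩
    rw [MulAction.index_stabilizer, h3, Set.ncard_univ, Nat.card_eq_fintype_card, hα] at h2
    rw [← h2]
    exact dvd_mul_right _ _
  have h4 := Subgroup.index_mul_card H
  rw [hH] at h4
  rw [← h4, pow_two]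
  exact Nat.mul_dvd_mul_left p h1

/-- a subgroup of index `p` fixing a point is its stabiliser -/
theorem eq_stab (hα : Fintype.card α = p) (G : Subgroup (Equiv.Perm α))
    [MulAction.IsPretransitive G α] (H : Subgroup G) (hH : H.index = p) (a : α)
    (hfix : ∀ h ∈ H, h • a = a) : H = MulAction.stabilizer G a := by
  have hp : p.Prime := Fact.out
  apply Subgroup.eq_of_le_of_card_ge
  · intro h hh
    exact MulAction.mem_stabilizer_iff.mpr (hfix h hh)
  · have h1 := Subgroup.index_mul_card H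
    have h2 := Subgroup.index_mul_card (MulAction.stabilizer G a)
    rw [MulAction.index_stabilizer_of_transitive, Nat.card_eq_fintype_card, hα] at h2
    rw [hH] at h1
    have h3 : p * Nat.card (MulAction.stabilizer G a) = p * Nat.card H := by rw [h1, h2]
    exact le_of_eq (Nat.eq_of_mul_eq_mul_left hp.pos h3)

/-- a subgroup containing an element acting as a non-trivial translation is transitive -/
theorem trans_of_translation (G : Subgroup (Equiv.Perm α)) (H : Subgroup G) (e : ZMod p ≃ α)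
    (h₀ : G) (hh₀ : h₀ ∈ H) (s : ZMod p) (hs : s ≠ 0) (hact : ∀ w, h₀ • e w = e (w + s))
    (a : α) : ∀ y : α, ∃ h : G, h ∈ H ∧ h • a = y := by
  haveI : NeZero p := ⟨(Fact.out : p.Prime).ne_zero⟩
  have hpow : ∀ (m : ℕ) w, (h₀ ^ m) • e w = e (w + m * s) := by
    intro m
    induction m with
    | zero => intro w; rw [pow_zero, one_smul, Nat.cast_zero, zero_mul, add_zero]
    | succ m ih =>
      intro w
      rw [pow_succ', mul_smul, ih, hact, Nat.cast_succ]
      congr 1
      ring
  intro y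
  refine ⟨h₀ ^ ((e.symm y - e.symm a) * s⁻¹).val, H.pow_mem hh₀ _, ?_⟩
  have h1 := hpow ((e.symm y - e.symm a) * s⁻¹).val (e.symm a)
  rw [Equiv.apply_symm_apply, ZMod.natCast_zmod_val, mul_assoc, inv_mul_cancel₀ hs, mul_one,
    add_sub_cancel, Equiv.apply_symm_apply] at h1
  exact h1

theorem fix_of_affine (hα : Fintype.card α = p) (G : Subgroup (Equiv.Perm α))
    (H : Subgroup G) (hH : H.index = p) (e : ZMod p ≃ α)
    (haff : ∀ (g : G) (x : ZMod p), e.symm (g • e x)
      = (e.symm (g • e 1) - e.symm (g • e 0)) * x + e.symm (g • e 0)) :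
    ∃ a : α, ∀ h ∈ H, h • a = a := by
  classical
  obtain ⟨π, hπ⟩ : ∃ π : G → ZMod p → ZMod p, ∀ g x, π g x = e.symm (g • e x) :=
    ⟨_, fun _ _ => rfl⟩
  have haff' : ∀ g x, π g x = (π g 1 - π g 0) * x + π g 0 := by
    intro g x
    rw [hπ, hπ, hπ]
    exact haff g x
  have hπmul : ∀ g h x, π (g * h) x = π g (π h x) := by
    intro g h x
    rw [hπ, hπ, hπ, Equiv.apply_symm_apply, mul_smul]
  have hπone : ∀ x, π 1 x = x := by
    intro x
    rw [hπ, one_smul, Equiv.symm_apply_apply]
  have hπact : ∀ g w, g • e w = e (π g w) := by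
    intro g w
    rw [hπ, Equiv.apply_symm_apply]
  obtain ⟨sl, hsl⟩ : ∃ sl : G → ZMod p, ∀ g, sl g = π g 1 - π g 0 := ⟨_, fun _ => rfl⟩
  have hslmul : ∀ g h, sl (g * h) = sl g * sl h := by
    intro g h
    rw [hsl, hsl, hsl, hπmul, hπmul, haff' g (π h 1), haff' g (π h 0)]
    ring
  have hsl1 : sl 1 = 1 := by rw [hsl, hπone, hπone, sub_zero]
  have htriv : ∀ h ∈ H, sl h = 1 → h = 1 := by
    intro h hh hs1
    by_contra hne
    have hb : π h 0 ≠ 0 := by
      intro hb0
      apply hne
      apply Subtype.ext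
      apply Equiv.ext
      intro y
      have h3 := haff' h (e.symm y)
      rw [← hsl, hs1, hb0, one_mul, add_zero, hπ, Equiv.apply_symm_apply] at h3
      exact e.symm.injective h3
    apply not_trans_of_index hα G H hH (e 0)
    apply trans_of_translation G H e h hh (π h 0) hb
    intro w
    rw [hπact, haff' h w, ← hsl, hs1, one_mul]
  have hcomm : ∀ h ∈ H, ∀ h' ∈ H, h * h' = h' * h := by
    intro h hh h' hh'
    have hq : (h * h') * (h' * h)⁻¹ ∈ H :=
      H.mul_mem (H.mul_mem hh hh') (H.inv_mem (H.mul_mem hh' hh))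
    have hunit : sl (h' * h) * sl ((h' * h)⁻¹) = 1 := by rw [← hslmul, mul_inv_cancel, hsl1]
    have hs1 : sl ((h * h') * (h' * h)⁻¹) = 1 := by
      rw [hslmul, hslmul h h', mul_comm (sl h) (sl h'), ← hslmul h' h, hunit]
    exact mul_inv_eq_one.mp (htriv _ hq hs1)
  by_cases hbot : ∀ h ∈ H, h = 1
  · exact ⟨e 0, fun h hh => by rw [hbot h hh, one_smul]⟩
  · obtain ⟨h, hh, hne⟩ : ∃ h ∈ H, h ≠ 1 := by
      by_contra hcon
      apply hbot
      intro h hh
      by_contra hne
      exact hcon ⟨h, hh, hne⟩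
    have hs : sl h ≠ 1 := fun hs1 => hne (htriv h hh hs1)
    have hs' : 1 - sl h ≠ 0 := sub_ne_zero.mpr (Ne.symm hs)
    obtain ⟨x₀, hx₀⟩ : ∃ x₀ : ZMod p, x₀ = π h 0 * (1 - sl h)⁻¹ := ⟨_, rfl⟩
    have hx₀' : (1 - sl h) * x₀ = π h 0 := by
      rw [hx₀, mul_comm (π h 0), ← mul_assoc, mul_inv_cancel₀ hs', one_mul]
    have hfix : π h x₀ = x₀ := by
      rw [haff' h x₀, ← hsl]
      linear_combination -hx₀'
    have huniq : ∀ x, π h x = x → x = x₀ := by
      intro x hx
      rw [haff' h x, ← hsl] at hx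
      have h1 : (1 - sl h) * x = π h 0 := by linear_combination -hx
      have h2 : (1 - sl h) * x = (1 - sl h) * x₀ := by rw [h1, hx₀']
      exact mul_left_cancel₀ hs' h2
    refine ⟨e x₀, fun h' hh' => ?_⟩
    rw [hπact]
    congr 1
    apply huniq
    rw [← hπmul, hcomm h hh h' hh', hπmul, hfix]

end idx

end Cfsg.Agent.Helper2.PrimeDeg
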