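import Mathlib
import Cfsg.Agent.Helper2.PrimeDeg5

/-! Prime degree, Sylow normaliser of even order: subgroups of index `p` are point
stabilisers. -/

set_option autoImplicit false

namespace Cfsg.Agent.Helper2.PrimeDeg

open Cfsg

open scoped Pointwise

universe w

variable {p : ℕ} [Fact p.Prime] {α : Type w} [Fintype α] [DecidableEq α]

theorem two_ne' (hp2 : p ≠ 2) : (2 : ZMod p) ≠ 0 := by
  have hp : p.Prime := Fact.out
  intro h
  have h' : ((2 : ℕ) : ZMod p) = 0 := by exact_mod_cast h
  rw [ZMod.natCast_eq_zero_iff] at h'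
  have h3 := Nat.le_of_dvd (by norm_num) h'
  have h4 := hp.two_le
  omega

/-- the heart is not a trivial module when `p ≥ 5` -/
theorem nontriv_heart (hα : Fintype.card α = p) (hp5 : 5 ≤ p) (G : Subgroup (Equiv.Perm α))
    [MulAction.IsPretransitive G α] :
    ∃ g : G, ∃ v ∈ (Cfsg.permSumZero (ZMod p) G α).toSubmodule,
      Cfsg.permRep (ZMod p) G α g v - v ∉ (Cfsg.permConstants (ZMod p) G α).toSubmodule := by
  classical
  have hp : p.Prime := Fact.out
  obtain ⟨a⟩ : Nonempty α := by
    rw [← Fintype.card_pos_iff, hα]; exact hp.pos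
  obtain ⟨b, hba⟩ : ∃ b, b ≠ a := by
    haveI : Nontrivial α := by
      rw [← Fintype.one_lt_card_iff_nontrivial, hα]; omega
    exact exists_ne a
  obtain ⟨g, hg⟩ := MulAction.exists_smul_eq G a b
  have hbc : b ≠ g • b := by
    intro h
    apply hba
    have h1 : g • a = g • b := by rw [hg]; exact h
    exact (smul_left_cancel g h1).symm
  obtain ⟨z, hza, hzb, hzc⟩ : ∃ z, z ≠ a ∧ z ≠ b ∧ z ≠ g • b := by
    by_contra hcon
    have hsub : (Finset.univ : Finset α) ⊆ {a, b, g • b} := by
      intro z _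
      by_contra hz
      simp only [Finset.mem_insert, Finset.mem_singleton, not_or] at hz
      exact hcon ⟨z, hz.1, hz.2.1, hz.2.2⟩
    have h1 := Finset.card_le_card hsub
    have h2 := Finset.card_le_three (a := a) (b := b) (c := g • b)
    rw [Finset.card_univ, hα] at h1
    omega
  refine ⟨g, Pi.single a 1 - Pi.single b 1, ?_, ?_⟩
  · show ∑ x, (Pi.single a (1 : ZMod p) - Pi.single b 1 : α → ZMod p) x = 0
    simp only [Pi.sub_apply, Finset.sum_sub_distrib, Finset.sum_pi_single', Finset.mem_univ,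
      if_true, sub_self]
  · intro hmem
    rw [map_sub, PermHom.single_smul, PermHom.single_smul, hg] at hmem
    obtain ⟨k, hk⟩ := Submodule.mem_span_singleton.mp hmem
    have hz := congrFun hk z
    have hb := congrFun hk b
    simp only [Pi.smul_apply, Pi.sub_apply, smul_eq_mul, mul_one, Pi.single_apply] at hz hb
    rw [if_neg hzb, if_neg hzc, if_neg hza] at hz
    rw [if_pos trivial, if_neg hbc, if_neg hba] at hb
    have h2 : ((2 : ℕ) : ZMod p) = 0 := by
      push_cast
      linear_combination hz - hb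
    rw [ZMod.natCast_eq_zero_iff] at h2
    have h3 := Nat.le_of_dvd (by norm_num) h2
    omega

theorem fix_of_not_two_trans (hα : Fintype.card α = p) (hp2 : p ≠ 2)
    (G : Subgroup (Equiv.Perm α)) [MulAction.IsPretransitive G α] (H : Subgroup G)
    (hH : H.index = p) (h2 : ¬ MulAction.IsMultiplyPretransitive G α 2) :
    ∃ a : α, ∀ h ∈ H, h • a = a := by
  classical
  have hp : p.Prime := Fact.out
  have hex : ∃ W W' : Subrepresentation (Cfsg.permRep (ZMod p) G α),
      (Cfsg.permConstants (ZMod p) G α).toSubmodule ≤ W.toSubmodule ∧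
      W.toSubmodule < W'.toSubmodule ∧
      W'.toSubmodule ≤ (Cfsg.permSumZero (ZMod p) G α).toSubmodule ∧
      ∀ g : G, ∀ v ∈ W'.toSubmodule, Cfsg.permRep (ZMod p) G α g v - v ∈ W.toSubmodule := by
    by_contra hcon
    apply h2
    apply Heart2.main (K := ZMod p) (p := p) (f := 1) le_rfl (by rw [pow_one]; exact hα)
    intro W W' h1 h2' h3
    by_contra hcon2
    apply hcon
    refine ⟨W, W', h1, h2', h3, fun g v hv => ?_⟩
    by_contra hnot
    exact hcon2 ⟨g, v, hv, hnot⟩
  obtain ⟨W, W', hCW, hWW', hW'S, htriv⟩ := hex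
  by_cases hc1 : (Cfsg.permConstants (ZMod p) G α).toSubmodule = W.toSubmodule
  · by_cases hc2 : W'.toSubmodule = (Cfsg.permSumZero (ZMod p) G α).toSubmodule
    · have hp3 : p = 3 := by
        by_contra hne3
        have hp5 : 5 ≤ p := by
          have h2' := hp.two_le
          have h4 : p ≠ 4 := by
            intro h
            rw [h] at hp
            exact absurd hp (by norm_num)
          omega
        obtain ⟨g, v, hv, hnot⟩ := nontriv_heart hα hp5 G
        apply hnot
        rw [hc1]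
        apply htriv g v
        rw [hc2]
        exact hv
      subst hp3
      obtain ⟨e⟩ : Nonempty (ZMod 3 ≃ α) := ⟨Fintype.equivOfCardEq (by rw [ZMod.card, hα])⟩
      apply fix_of_affine hα G H hH e
      intro g x
      exact affine3 (e.trans ((g : Equiv.Perm α).trans e.symm)) x
    · obtain ⟨e, he⟩ := core_affine (K := ZMod p) hα G W' (lt_of_le_of_lt hCW hWW')
        (lt_of_le_of_ne hW'S hc2)
      exact fix_of_affine hα G H hH e he
  · obtain ⟨e, he⟩ := core_affine (K := ZMod p) hα G W (lt_of_le_of_ne hCW hc1)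
      (lt_of_lt_of_le hWW' hW'S)
    exact fix_of_affine hα G H hH e he

theorem sylow_data (hα : Fintype.card α = p) (G : Subgroup (Equiv.Perm α))
    [MulAction.IsPretransitive G α] (P : Sylow p G)
    (heven : Even (Nat.card (Subgroup.normalizer ((P : Subgroup G) : Set G)))) :
    ∃ (t u : G) (n : ℕ), orderOf t = p ∧ orderOf u = 2 ∧ t ^ n = u * t * u⁻¹ := by
  classical
  have hp : p.Prime := Fact.out
  haveI : NeZero p := ⟨hp.ne_zero⟩
  haveI : Nonempty α := by rw [← Fintype.card_pos_iff, hα]; exact hp.pos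
  obtain ⟨a₀⟩ := ‹Nonempty α›
  have hdvd : p ∣ Nat.card G := by
    have h1 := MulAction.index_stabilizer_of_transitive G a₀
    rw [Nat.card_eq_fintype_card, hα] at h1
    rw [← h1]
    exact Subgroup.index_dvd_card _
  have hdvdP : p ∣ Nat.card (P : Subgroup G) := P.dvd_card_of_dvd_card hdvd
  obtain ⟨t₀, ht₀⟩ := exists_prime_orderOf_dvd_card' p hdvdP
  obtain ⟨t, htdef⟩ : ∃ t : G, t = (t₀ : G) := ⟨_, rfl⟩
  have ht : orderOf t = p := by rw [htdef, Subgroup.orderOf_coe]; exact ht₀
  have htP : t ∈ (P : Subgroup G) := by rw [htdef]; exact t₀.2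
  -- the Sylow subgroup has order p
  have hPcard : Nat.card (P : Subgroup G) = p := by
    obtain ⟨n, hn⟩ := IsPGroup.iff_card.mp P.isPGroup'
    have h1 : Nat.card (P : Subgroup G) ∣ Nat.factorial p := by
      have h2 := Subgroup.card_subgroup_dvd_card (P : Subgroup G)
      have h3 := Subgroup.card_subgroup_dvd_card G
      rw [Nat.card_eq_fintype_card (α := Equiv.Perm α), Fintype.card_perm, hα] at h3
      exact dvd_trans h2 h3
    rw [hn] at h1 hdvdP ⊢
    have hn1 : n ≠ 0 := by
      intro h0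
      rw [h0, pow_zero] at hdvdP
      exact hp.one_lt.ne' (Nat.dvd_one.mp hdvdP)
    have hn2 : n < 2 := by
      by_contra hge
      have h4 : p ^ 2 ∣ Nat.factorial p := dvd_trans (pow_dvd_pow p (by omega)) h1
      rw [← Nat.mul_factorial_pred hp.ne_zero, pow_two] at h4
      have h6 := (Nat.mul_dvd_mul_iff_left hp.pos).mp h4
      have h7 := (hp.dvd_factorial).mp h6
      have h8 := hp.pos
      omega
    have hn3 : n = 1 := by omega
    rw [hn3, pow_one]
  have hzp : Subgroup.zpowers t = (P : Subgroup G) := by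
    apply Subgroup.eq_of_le_of_card_ge
    · rw [Subgroup.zpowers_le]; exact htP
    · rw [hPcard, Nat.card_zpowers, ht]
  -- the involution
  obtain ⟨u₀, hu₀⟩ := exists_prime_orderOf_dvd_card' 2 (even_iff_two_dvd.mp heven)
  obtain ⟨u, hudef⟩ : ∃ u : G, u = (u₀ : G) := ⟨_, rfl⟩
  have hu : orderOf u = 2 := by rw [hudef, Subgroup.orderOf_coe]; exact hu₀
  have huN : u ∈ Subgroup.normalizer ((P : Subgroup G) : Set G) := by rw [hudef]; exact u₀.2
  obtain ⟨n, hn⟩ : ∃ n : ℕ, t ^ n = u * t * u⁻¹ := by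
    have h1 : u * t * u⁻¹ ∈ (P : Subgroup G) := (Subgroup.mem_normalizer_iff.mp huN t).mp htP
    rw [← hzp, ← mem_powers_iff_mem_zpowers] at h1
    exact h1
  exact ⟨t, u, n, ht, hu, hn⟩

theorem refl_coords (hα : Fintype.card α = p) (hp2 : p ≠ 2) (G : Subgroup (Equiv.Perm α))
    (t u : G) (n : ℕ) (ht : orderOf t = p) (hu : orderOf u = 2) (hn : t ^ n = u * t * u⁻¹) :
    ∃ (e : ZMod p ≃ α) (c : ZMod p), (∀ j, e (j + 1) = t • e j) ∧
      (∀ j, u • e j = e (-j + c)) := by
  classical
  have hp : p.Prime := Fact.out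
  haveI : NeZero p := ⟨hp.ne_zero⟩
  have hτ : orderOf (t : Equiv.Perm α) = p := by rw [Subgroup.orderOf_coe, ht]
  obtain ⟨e, he⟩ := exists_equiv hα (t : Equiv.Perm α) hτ
  have het : ∀ j, e (j + 1) = t • e j := fun j => he j
  have hen := pow_coords G e t het
  obtain ⟨π, hπ⟩ : ∃ π : ZMod p → ZMod p, ∀ x, π x = e.symm (u • e x) := ⟨_, fun _ => rfl⟩
  have hstep : ∀ x, π (x + 1) = π x + n := by
    intro x
    rw [hπ, hπ, het]
    have h1 : u • (t • e x) = (t ^ n) • (u • e x) := by
      rw [hn, mul_smul, mul_smul, inv_smul_smul]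
    rw [h1, hen]
  have hlin : ∀ x, π x = n * x + π 0 := by
    have h1 : ∀ m : ℕ, π (m : ZMod p) = n * m + π 0 := by
      intro m
      induction m with
      | zero => rw [Nat.cast_zero, mul_zero, zero_add]
      | succ m ih => rw [Nat.cast_succ, hstep, ih]; ring
    intro x
    have h2 := h1 x.val
    rwa [ZMod.natCast_zmod_val] at h2
  have huu : u * u = 1 := by rw [← pow_two, ← hu]; exact pow_orderOf_eq_one u
  have hu1 : u ≠ 1 := by
    intro h
    rw [h, orderOf_one] at hu
    omega
  have hππ : ∀ x, π (π x) = x := by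
    intro x
    rw [hπ (π x), hπ x, Equiv.apply_symm_apply, ← mul_smul, huu, one_smul,
      Equiv.symm_apply_apply]
  obtain ⟨κ, hκ⟩ : ∃ κ : ZMod p, κ = (n : ZMod p) := ⟨_, rfl⟩
  obtain ⟨c, hc⟩ : ∃ c : ZMod p, c = π 0 := ⟨_, rfl⟩
  have hlin' : ∀ x, π x = κ * x + c := by
    intro x
    rw [hκ, hc]
    exact hlin x
  have h0 := hππ 0
  have h1 := hππ 1
  rw [hlin' 0, hlin'] at h0
  rw [hlin' 1, hlin'] at h1
  have hκ2 : (κ - 1) * (κ + 1) = 0 := by linear_combination h1 - h0
  have h2ne := two_ne' hp2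
  have hκm : κ = -1 := by
    rcases mul_eq_zero.mp hκ2 with h | h
    · exfalso
      have hκ1 : κ = 1 := sub_eq_zero.mp h
      rw [hκ1] at h0
      have hc0 : c = 0 := by
        have h3 : (2 : ZMod p) * c = 0 := by linear_combination h0
        rcases mul_eq_zero.mp h3 with h' | h'
        · exact absurd h' h2ne
        · exact h'
      apply hu1
      apply Subtype.ext
      apply Equiv.ext
      intro y
      have h3 := hlin' (e.symm y)
      rw [hκ1, hc0, one_mul, add_zero, hπ, Equiv.apply_symm_apply] at h3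
      exact e.symm.injective h3
    · exact eq_neg_of_add_eq_zero_left h
  refine ⟨e, c, het, fun j => ?_⟩
  have h3 := hlin' j
  rw [hκm, hπ, Equiv.symm_apply_eq] at h3
  rw [h3]
  congr 1
  ring

end Cfsg.Agent.Helper2.PrimeDeg
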