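import Mathlib
import Cfsg.Agent.Helper2.PrimeDeg6

/-! Prime degree, Sylow normaliser of even order: the doubly transitive case and the
final statement on subgroups of index `p`. -/

set_option autoImplicit false

namespace Cfsg.Agent.Helper2.PrimeDeg

open Cfsg

open scoped Pointwise

universe w

variable {p : ℕ} [Fact p.Prime] {α : Type w} [Fintype α] [DecidableEq α]

theorem fix_of_two_trans (hα : Fintype.card α = p) (hp2 : p ≠ 2) (G : Subgroup (Equiv.Perm α))
    [MulAction.IsPretransitive G α] (h2 : MulAction.IsMultiplyPretransitive G α 2)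
    (P : Sylow p G)
    (heven : Even (Nat.card (Subgroup.normalizer ((P : Subgroup G) : Set G))))
    (H : Subgroup G) (hH : H.index = p) : ∃ a : α, ∀ h ∈ H, h • a = a := by
  classical
  have hp : p.Prime := Fact.out
  haveI : NeZero p := ⟨hp.ne_zero⟩
  have h2ne := two_ne' hp2
  obtain ⟨t₀, u₀, n, ht₀, hu₀, hn₀⟩ := sylow_data hα G P heven
  -- a conjugate of the involution inside H
  obtain ⟨k, hk⟩ : ∃ k : G, k * u₀ * k⁻¹ ∈ H := by
    have hPG : IsPGroup 2 (Subgroup.zpowers u₀) := by
      apply IsPGroup.of_card (n := 1)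
      rw [Nat.card_zpowers, hu₀, pow_one]
    have hnd : ¬ 2 ∣ Nat.card (G ⧸ H) := by
      rw [← Subgroup.index_eq_card, hH]
      intro hdvd
      have h1 := (Nat.prime_dvd_prime_iff_eq Nat.prime_two hp).mp hdvd
      exact hp2 h1.symm
    obtain ⟨q, hq⟩ := hPG.nonempty_fixed_point_of_prime_not_dvd_card (G ⧸ H) hnd
    obtain ⟨g, rfl⟩ := QuotientGroup.mk_surjective q
    have h1 := MulAction.mem_fixedPoints.mp hq ⟨u₀, Subgroup.mem_zpowers u₀⟩
    have h3 : ((u₀ * g : G) : G ⧸ H) = (g : G ⧸ H) := h1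
    have h4 := QuotientGroup.eq.mp h3
    refine ⟨g⁻¹, ?_⟩
    have h5 : g⁻¹ * u₀ * g⁻¹⁻¹ = ((u₀ * g)⁻¹ * g)⁻¹ := by group
    rw [h5]
    exact H.inv_mem h4
  obtain ⟨t, htdef⟩ : ∃ t : G, t = k * t₀ * k⁻¹ := ⟨_, rfl⟩
  obtain ⟨u, hudef⟩ : ∃ u : G, u = k * u₀ * k⁻¹ := ⟨_, rfl⟩
  have huH : u ∈ H := by rw [hudef]; exact hk
  have ht : orderOf t = p := by
    rw [htdef, ← MulAut.conj_apply, ← ht₀]
    exact orderOf_injective (MulAut.conj k).toMonoidHom (MulAut.conj k).injective t₀
  have hu : orderOf u = 2 := by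
    rw [hudef, ← MulAut.conj_apply, ← hu₀]
    exact orderOf_injective (MulAut.conj k).toMonoidHom (MulAut.conj k).injective u₀
  have hn : t ^ n = u * t * u⁻¹ := by
    rw [htdef, hudef]
    have h1 : (k * t₀ * k⁻¹) ^ n = k * t₀ ^ n * k⁻¹ := by
      rw [← MulAut.conj_apply, ← MulAut.conj_apply, map_pow]
    rw [h1, hn₀]
    group
  obtain ⟨e, c, het, heu⟩ := refl_coords hα hp2 G t u n ht hu hn
  have hen := pow_coords G e t het
  have htm : ∀ (m : ℕ) (w : ZMod p), (t ^ m) • e w = e (w + m) := by
    intro m w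
    rw [← Equiv.symm_apply_eq, hen, Equiv.symm_apply_apply]
  obtain ⟨i2, hi2⟩ : ∃ i2 : ZMod p, 2 * i2 = 1 := ⟨2⁻¹, mul_inv_cancel₀ h2ne⟩
  obtain ⟨x₀, hx₀⟩ : ∃ x₀ : ZMod p, x₀ = c * i2 := ⟨_, rfl⟩
  -- the orbit of `e x₀` under `H`, in coordinates
  obtain ⟨inD, hinD⟩ : ∃ inD : ZMod p → Prop,
      ∀ x, inD x ↔ ∃ h : G, h ∈ H ∧ h • e x₀ = e x := ⟨_, fun _ => Iff.rfl⟩
  have hD0 : inD x₀ := (hinD x₀).mpr ⟨1, H.one_mem, one_smul _ _⟩
  have hDH : ∀ h : G, h ∈ H → ∀ x y, h • e x = e y → (inD x ↔ inD y) := by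
    intro h hh x y hxy
    rw [hinD, hinD]
    constructor
    · rintro ⟨h', hh', hx⟩
      exact ⟨h * h', H.mul_mem hh hh', by rw [mul_smul, hx, hxy]⟩
    · rintro ⟨h', hh', hy⟩
      refine ⟨h⁻¹ * h', H.mul_mem (H.inv_mem hh) hh', ?_⟩
      rw [mul_smul, hy, ← hxy, inv_smul_smul]
  have hDsym : ∀ x, inD x → inD (-x + c) :=
    fun x hx => (hDH u huH x (-x + c) (heu x)).mp hx
  have hDnot : ¬ ∀ x, inD x := by
    intro hall
    apply not_trans_of_index hα G H hH (e x₀)
    intro y
    have h1 := (hinD (e.symm y)).mp (hall _)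
    rw [Equiv.apply_symm_apply] at h1
    exact h1
  have hTr : ∀ s : ZMod p, s ≠ 0 → ¬ (∀ w, inD w → inD (w + s)) := by
    intro s hs htr
    apply hDnot
    have h1 : ∀ m : ℕ, inD (x₀ + m * s) := by
      intro m
      induction m with
      | zero => rw [Nat.cast_zero, zero_mul, add_zero]; exact hD0
      | succ m ih =>
        have h3 := htr _ ih
        have h2' : x₀ + ((m + 1 : ℕ) : ZMod p) * s = x₀ + (m : ZMod p) * s + s := by
          rw [Nat.cast_succ]; ring
        rw [h2']
        exact h3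
    intro x
    have h3 := h1 ((x - x₀) * s⁻¹).val
    rw [ZMod.natCast_zmod_val, mul_assoc, inv_mul_cancel₀ hs, mul_one, add_sub_cancel] at h3
    exact h3
  -- every element is a power of `t` times an element of `H`
  have hdec : ∀ q : G, ∃ j : ZMod p, (t ^ j.val)⁻¹ * q ∈ H := by
    obtain ⟨φ, hφ⟩ : ∃ φ : ZMod p → G ⧸ H, ∀ j, φ j = ((t ^ j.val : G) : G ⧸ H) :=
      ⟨_, fun _ => rfl⟩
    have hinj : Function.Injective φ := by
      intro j₁ j₂ h12
      rw [hφ, hφ] at h12
      have h1 := QuotientGroup.eq.mp h12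
      by_contra hne
      apply hTr (j₂ - j₁) (sub_ne_zero.mpr (Ne.symm hne))
      intro w hw
      refine (hDH _ h1 w (w + (j₂ - j₁)) ?_).mp hw
      rw [mul_smul, htm, ZMod.natCast_zmod_val, inv_smul_eq_iff, htm, ZMod.natCast_zmod_val]
      congr 1
      ring
    have hbij : Function.Bijective φ := by
      rw [Nat.bijective_iff_injective_and_card]
      exact ⟨hinj, by rw [Nat.card_eq_fintype_card, ZMod.card, ← Subgroup.index_eq_card, hH]⟩
    intro q
    obtain ⟨j, hj⟩ := hbij.2 (q : G ⧸ H)
    rw [hφ] at hj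
    exact ⟨j, QuotientGroup.eq.mp hj⟩
  have hstar : ∀ q : G, ∃ σ : ZMod p, ∀ x, (∃ y, q • e y = e x ∧ inD y) ↔ inD (x - σ) := by
    intro q
    obtain ⟨σ, hσ⟩ := hdec q
    refine ⟨σ, fun x => ?_⟩
    have hq : ∀ y, q • e y = (t ^ σ.val) • (((t ^ σ.val)⁻¹ * q) • e y) := by
      intro y
      rw [← mul_smul, mul_inv_cancel_left]
    constructor
    · rintro ⟨y, hy, hyD⟩
      obtain ⟨y', hy'⟩ : ∃ y', ((t ^ σ.val)⁻¹ * q) • e y = e y' :=
        ⟨e.symm _, (Equiv.apply_symm_apply e _).symm⟩
      have h2' := (hDH _ hσ y y' hy').mp hyD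
      rw [hq, hy', htm, ZMod.natCast_zmod_val] at hy
      have h3 := e.injective hy
      have h4 : x - σ = y' := by rw [← h3]; ring
      rw [h4]
      exact h2'
    · intro hx
      refine ⟨e.symm (((t ^ σ.val)⁻¹ * q)⁻¹ • e (x - σ)), ?_, ?_⟩
      · rw [hq, Equiv.apply_symm_apply, smul_inv_smul, htm, ZMod.natCast_zmod_val,
          sub_add_cancel]
      · have h1 : ((t ^ σ.val)⁻¹ * q) • e (e.symm (((t ^ σ.val)⁻¹ * q)⁻¹ • e (x - σ)))
            = e (x - σ) := by
          rw [Equiv.apply_symm_apply, smul_inv_smul]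
        exact (hDH _ hσ _ _ h1).mpr hx
  -- the number of representations of a difference
  obtain ⟨ν, hν⟩ : ∃ ν : ZMod p → ℕ, ∀ g,
      ν g = (Finset.univ.filter (fun d : ZMod p => inD d ∧ inD (d - g))).card :=
    ⟨_, fun _ => rfl⟩
  have hconst : ∀ g g' : ZMod p, g ≠ 0 → g' ≠ 0 → ν g = ν g' := by
    intro g g' hg hg'
    have hne1 : e g ≠ e 0 := fun h => hg (e.injective h)
    have hne2 : e g' ≠ e 0 := fun h => hg' (e.injective h)
    obtain ⟨k', hk1, hk2⟩ := MulAction.is_two_pretransitive_iff.mp h2 hne1 hne2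
    choose F hF using fun j : ZMod p => hstar (k' * t ^ j.val)
    have hkt : ∀ (j y : ZMod p), (k' * t ^ j.val) • e y = k' • e (y + j) := by
      intro j y
      rw [mul_smul, htm, ZMod.natCast_zmod_val]
    have hF1 : ∀ j, inD (g - j) ↔ inD (g' - F j) := by
      intro j
      rw [← hF j g']
      constructor
      · intro h
        exact ⟨g - j, by rw [hkt, sub_add_cancel, hk1], h⟩
      · rintro ⟨y, hy, hyD⟩
        rw [hkt, ← hk1] at hy
        have h3 := e.injective (smul_left_cancel k' hy)
        have h4 : g - j = y := by rw [← h3]; ring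
        rw [h4]
        exact hyD
    have hF2 : ∀ j, inD (0 - j) ↔ inD (0 - F j) := by
      intro j
      rw [← hF j 0]
      constructor
      · intro h
        exact ⟨0 - j, by rw [hkt, sub_add_cancel, hk2], h⟩
      · rintro ⟨y, hy, hyD⟩
        rw [hkt, ← hk2] at hy
        have h3 := e.injective (smul_left_cancel k' hy)
        have h4 : 0 - j = y := by rw [← h3]; ring
        rw [h4]
        exact hyD
    have hFinj : Function.Injective F := by
      intro j₁ j₂ h12
      by_contra hne
      apply hTr (j₁ - j₂) (sub_ne_zero.mpr hne)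
      intro w hw
      have h1 : ∃ y, (k' * t ^ j₁.val) • e y = e (e.symm (k' • e (w + j₁))) ∧ inD y :=
        ⟨w, by rw [hkt, Equiv.apply_symm_apply], hw⟩
      rw [hF j₁, h12, ← hF j₂] at h1
      obtain ⟨y, hy, hyD⟩ := h1
      rw [hkt, Equiv.apply_symm_apply] at hy
      have h3 := e.injective (smul_left_cancel k' hy)
      have h4 : w + (j₁ - j₂) = y := by linear_combination -h3
      rw [h4]
      exact hyD
    have hFbij : Function.Bijective F := Finite.injective_iff_bijective.mp hFinj
    rw [hν, hν]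
    apply Finset.card_bij (fun d _ => g' - F (g - d))
    · intro d hd
      rw [Finset.mem_filter] at hd ⊢
      refine ⟨Finset.mem_univ _, ?_, ?_⟩
      · rw [← hF1, sub_sub_cancel]
        exact hd.2.1
      · have h1 : g' - F (g - d) - g' = 0 - F (g - d) := by ring
        rw [h1, ← hF2]
        have h2' : 0 - (g - d) = d - g := by ring
        rw [h2']
        exact hd.2.2
    · intro d₁ _ d₂ _ h12
      have h1 : F (g - d₁) = F (g - d₂) := by linear_combination -h12
      have h2' := hFinj h1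
      linear_combination -h2'
    · intro d' hd'
      rw [Finset.mem_filter] at hd'
      obtain ⟨j, hj⟩ := hFbij.2 (g' - d')
      refine ⟨g - j, ?_, ?_⟩
      · rw [Finset.mem_filter]
        refine ⟨Finset.mem_univ _, ?_, ?_⟩
        · rw [hF1, hj, sub_sub_cancel]
          exact hd'.2.1
        · have h1 : g - j - g = 0 - j := by ring
          rw [h1, hF2, hj]
          have h2' : 0 - (g' - d') = d' - g' := by ring
          rw [h2']
          exact hd'.2.2
      · show g' - F (g - (g - j)) = d'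
        rw [sub_sub_cancel, hj, sub_sub_cancel]
  -- parity of the number of representations
  have hpar : ∀ g : ZMod p, g ≠ 0 → (Even (ν g) ↔ ¬ inD ((g + c) * i2)) := by
    intro g hg
    obtain ⟨f₀, hf₀⟩ : ∃ f₀ : ZMod p, f₀ = (g + c) * i2 := ⟨_, rfl⟩
    have h2f : 2 * f₀ = g + c := by rw [hf₀]; linear_combination (g + c) * hi2
    rw [← hf₀]
    obtain ⟨R, hR⟩ : ∃ R : Finset (ZMod p),
        R = Finset.univ.filter (fun d : ZMod p => inD d ∧ inD (d - g)) := ⟨_, rfl⟩
    have hRmem : ∀ d, d ∈ R ↔ inD d ∧ inD (d - g) := by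
      intro d
      rw [hR, Finset.mem_filter]
      exact ⟨fun h => h.2, fun h => ⟨Finset.mem_univ _, h⟩⟩
    have hνR : ν g = R.card := by rw [hν, hR]
    have hιmem : ∀ d, d ∈ R → (-d + g + c) ∈ R := by
      intro d hd
      rw [hRmem] at hd ⊢
      constructor
      · have h3 := hDsym _ hd.2
        have h1 : -(d - g) + c = -d + g + c := by ring
        rw [← h1]
        exact h3
      · have h3 := hDsym _ hd.1
        have h1 : -d + g + c - g = -d + c := by ring
        rw [h1]
        exact h3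
    have hsum : ∑ d ∈ R.erase f₀, (1 : ZMod 2) = 0 := by
      apply Finset.sum_involution (fun d _ => -d + g + c)
      · intro d _
        decide
      · intro d hd _ hfix
        have h1 : 2 * d = 2 * f₀ := by rw [h2f]; linear_combination -hfix
        exact (Finset.mem_erase.mp hd).1 (mul_left_cancel₀ h2ne h1)
      · intro d hd
        rw [Finset.mem_erase] at hd ⊢
        refine ⟨?_, hιmem d hd.2⟩
        intro hfix
        apply hd.1
        linear_combination -h2f - hfix
      · intro d _
        ring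
    have hevn : Even (R.erase f₀).card := by
      rw [Finset.sum_const, nsmul_eq_mul, mul_one] at hsum
      exact ZMod.natCast_eq_zero_iff_even.mp hsum
    have hf₀R : f₀ ∈ R ↔ inD f₀ := by
      rw [hRmem]
      constructor
      · exact fun h => h.1
      · intro h
        refine ⟨h, ?_⟩
        have h3 := hDsym _ h
        have h1 : f₀ - g = -f₀ + c := by linear_combination h2f
        rw [h1]
        exact h3
    rw [hνR, ← hf₀R]
    constructor
    · intro hev hmem
      have h1 := Finset.card_erase_add_one hmem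
      rw [← h1] at hev
      rcases hevn with ⟨a, ha⟩
      rcases hev with ⟨b, hb⟩
      omega
    · intro hnot
      rw [Finset.erase_eq_of_notMem hnot] at hevn
      exact hevn
  have hdich : ∀ x x' : ZMod p, x ≠ x₀ → x' ≠ x₀ → (inD x ↔ inD x') := by
    intro x x' hx hx'
    have hg : 2 * x - c ≠ 0 := by
      intro h
      apply hx
      rw [hx₀]
      linear_combination i2 * h - x * hi2
    have hg' : 2 * x' - c ≠ 0 := by
      intro h
      apply hx'
      rw [hx₀]
      linear_combination i2 * h - x' * hi2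
    have h1 := hpar _ hg
    have h2' := hpar _ hg'
    have e1 : (2 * x - c + c) * i2 = x := by linear_combination x * hi2
    have e2 : (2 * x' - c + c) * i2 = x' := by linear_combination x' * hi2
    rw [e1] at h1
    rw [e2] at h2'
    rw [hconst _ _ hg hg'] at h1
    constructor
    · intro h
      by_contra hn
      exact (h1.mp (h2'.mpr hn)) h
    · intro h
      by_contra hn
      exact (h2'.mp (h1.mpr hn)) h
  have hsingle : ∀ x, inD x → x = x₀ := by
    intro x hx
    by_contra hne
    apply hDnot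
    intro x'
    by_cases hx' : x' = x₀
    · rw [hx']; exact hD0
    · exact (hdich x x' hne hx').mp hx
  refine ⟨e x₀, fun h hh => ?_⟩
  have h1 : inD (e.symm (h • e x₀)) :=
    (hinD _).mpr ⟨h, hh, (Equiv.apply_symm_apply e _).symm⟩
  have h3 := hsingle _ h1
  rw [Equiv.symm_apply_eq] at h3
  exact h3

/-- S0677 -/
theorem index_p (hα : Fintype.card α = p) (G : Subgroup (Equiv.Perm α))
    [MulAction.IsPretransitive G α] (P : Sylow p G)
    (heven : Even (Nat.card (Subgroup.normalizer ((P : Subgroup G) : Set G))))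
    (H : Subgroup G) (hH : H.index = p) : ∃ a : α, H = MulAction.stabilizer G a := by
  classical
  have hp : p.Prime := Fact.out
  have key : ∃ a : α, ∀ h ∈ H, h • a = a := by
    by_cases hp2 : p = 2
    · have h3 := Subgroup.card_subgroup_dvd_card G
      rw [Nat.card_eq_fintype_card (α := Equiv.Perm α), Fintype.card_perm, hα, hp2] at h3
      have h4 := Subgroup.index_mul_card H
      rw [hH, hp2] at h4
      have h5 : Nat.factorial 2 = 2 := rfl
      rw [h5] at h3
      have h6 := Nat.le_of_dvd (by norm_num) h3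
      have h7 : Nat.card H = 1 := by
        have h8 : 0 < Nat.card H := Nat.card_pos
        omega
      have h8 : H = ⊥ := Subgroup.card_eq_one.mp h7
      haveI : Nonempty α := by rw [← Fintype.card_pos_iff, hα]; exact hp.pos
      obtain ⟨a⟩ := ‹Nonempty α›
      refine ⟨a, fun h hh => ?_⟩
      rw [h8, Subgroup.mem_bot] at hh
      rw [hh, one_smul]
    · by_cases h2 : MulAction.IsMultiplyPretransitive G α 2
      · exact fix_of_two_trans hα hp2 G h2 P heven H hH
      · exact fix_of_not_two_trans hα hp2 G H hH h2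
  obtain ⟨a, ha⟩ := key
  exact ⟨a, eq_stab hα G H hH a ha⟩

end Cfsg.Agent.Helper2.PrimeDeg
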