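import Mathlib

set_option autoImplicit false

namespace Cfsg.Agent.Helper2

/-- The matrix of a weighted sum of squares is the diagonal matrix of weights. -/
theorem wss_toMatrix' {F : Type*} [Field F] [Invertible (2 : F)] {ι : Type*} [Fintype ι]
    [DecidableEq ι] (w : ι → F) :
    QuadraticForm.toMatrix' (QuadraticMap.weightedSumSquares F w) = Matrix.diagonal w := by
  have h1 : (QuadraticMap.weightedSumSquares F w) =
      LinearMap.BilinMap.toQuadraticMap (Matrix.toLinearMap₂' F (Matrix.diagonal w)) := by
    ext v
    simp [Matrix.toLinearMap₂'_apply', dotProduct, Matrix.mulVec_diagonal]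
    apply Finset.sum_congr rfl
    intro i _
    ring
  have h2 : ∀ x y : ι → F, (Matrix.toLinearMap₂' F (Matrix.diagonal w)) x y =
      (Matrix.toLinearMap₂' F (Matrix.diagonal w)) y x := by
    intro x y
    simp [Matrix.toLinearMap₂'_apply', dotProduct, Matrix.mulVec_diagonal]
    apply Finset.sum_congr rfl
    intro i _
    ring
  unfold QuadraticForm.toMatrix'
  rw [h1]
  have h3 := QuadraticMap.associated_left_inverse (S := F) h2
  rw [h3]
  exact LinearMap.toMatrix'_toLinearMap₂' _

/-- The discriminant of a weighted sum of squares is the product of the weights. -/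
theorem wss_discr' {F : Type*} [Field F] [Invertible (2 : F)] {ι : Type*} [Fintype ι]
    [DecidableEq ι] (w : ι → F) :
    QuadraticForm.discr' (QuadraticMap.weightedSumSquares F w) = ∏ i, w i := by
  unfold QuadraticForm.discr'
  rw [wss_toMatrix', Matrix.det_diagonal]

end Cfsg.Agent.Helper2
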