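import Mathlib
import Cfsg.Agent.Helper2.Conj

/-! Groups with generalized quaternion Sylow 2-subgroups: the centralizer of the derived subgroup. -/

namespace Cfsg.Agent.Helper2.QuatSyl

open Cfsg.Agent.Helper2

section General

variable {G : Type*} [Group G]

lemma relIndex_inf_dvd_index_of_normal [Finite G] (H K : Subgroup G) [K.Normal] :
    (H ⊓ K).relIndex K ∣ H.index := by
  have h1 : (H ⊓ K).relIndex H * H.relIndex (H ⊔ K) = (H ⊓ K).relIndex (H ⊔ K) :=
    Subgroup.relIndex_mul_relIndex _ _ _ inf_le_left le_sup_left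
  have h2 : (H ⊓ K).relIndex K * K.relIndex (H ⊔ K) = (H ⊓ K).relIndex (H ⊔ K) :=
    Subgroup.relIndex_mul_relIndex _ _ _ inf_le_right le_sup_right
  have h3 : K.relIndex (H ⊔ K) = K.relIndex H := Subgroup.relIndex_sup_right H K
  have h4 : (H ⊓ K).relIndex H = K.relIndex H := Subgroup.inf_relIndex_left H K
  have h5 : K.relIndex H ≠ 0 := by
    show (K.subgroupOf H).index ≠ 0
    exact Subgroup.index_ne_zero_of_finite
  have h6 : H.relIndex (H ⊔ K) = (H ⊓ K).relIndex K := by
    rw [h4] at h1; rw [h3] at h2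
    have : K.relIndex H * H.relIndex (H ⊔ K) = K.relIndex H * (H ⊓ K).relIndex K := by
      rw [h1, ← h2, mul_comm]
    exact Nat.eq_of_mul_eq_mul_left (Nat.pos_of_ne_zero h5) this
  rw [← h6]; exact Subgroup.relIndex_dvd_index_of_le le_sup_left

lemma relIndex_inf_dvd_index [Finite G] (P C : Subgroup G)
    (hP : P ≤ Subgroup.normalizer (C : Set G)) :
    (P ⊓ C).relIndex C ∣ P.index := by
  have hCN : C ≤ Subgroup.normalizer (C : Set G) := Subgroup.le_normalizer
  haveI : (C.subgroupOf (Subgroup.normalizer (C : Set G))).Normal := Subgroup.normal_in_normalizer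
  have h1 := relIndex_inf_dvd_index_of_normal (P.subgroupOf (Subgroup.normalizer (C : Set G)))
    (C.subgroupOf (Subgroup.normalizer (C : Set G)))
  have h2 : (P.subgroupOf (Subgroup.normalizer (C : Set G)) ⊓
      C.subgroupOf (Subgroup.normalizer (C : Set G))) =
      (P ⊓ C).subgroupOf (Subgroup.normalizer (C : Set G)) := by
    ext x; simp [Subgroup.mem_subgroupOf]
  rw [h2, Subgroup.relIndex_subgroupOf hCN] at h1
  exact h1.trans (Subgroup.relIndex_dvd_index_of_le hP)

/-- A finite group with cyclic Sylow 2-subgroup has a normal 2-complement, consisting of the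
elements of odd order. -/
theorem exists_two_complement {C : Type*} [Group C] [Finite C] (P : Sylow 2 C)
    (hP : IsCyclic (P : Subgroup C)) :
    ∃ K : Subgroup C, K.Normal ∧ K.IsComplement' (P : Subgroup C) ∧
      (∀ x : C, x ∈ K ↔ Odd (orderOf x)) := by
  have hodd_idx : Odd (P : Subgroup C).index := by
    rw [← Nat.not_even_iff_odd, even_iff_two_dvd]; exact P.not_dvd_index
  by_cases h2 : 2 ∣ Nat.card C
  · have hmf : (Nat.card C).minFac = 2 := (Nat.minFac_eq_two_iff _).mpr h2
    have hcomp := IsCyclic.isComplement' hmf hP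
    refine ⟨(MonoidHom.transferSylow P (hP.normalizer_le_centralizer hmf)).ker, inferInstance,
      hcomp, fun x => ⟨fun hx => ?_, fun hx => ?_⟩⟩
    · have h3 := hcomp.index_eq_card
      have h4 : orderOf (⟨x, hx⟩ : (MonoidHom.transferSylow P
          (hP.normalizer_le_centralizer hmf)).ker) ∣ (P : Subgroup C).index := by
        rw [h3]; exact orderOf_dvd_natCard _
      rw [Subgroup.orderOf_mk] at h4
      exact Odd.of_dvd_nat hodd_idx h4
    · rw [MonoidHom.mem_ker]
      have h3 : orderOf (MonoidHom.transferSylow P (hP.normalizer_le_centralizer hmf) x) ∣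
          orderOf x := orderOf_map_dvd _ x
      obtain ⟨k, hk⟩ := P.isPGroup' (MonoidHom.transferSylow P (hP.normalizer_le_centralizer hmf) x)
      have h4 : orderOf (MonoidHom.transferSylow P (hP.normalizer_le_centralizer hmf) x) ∣ 2 ^ k :=
        orderOf_dvd_of_pow_eq_one hk
      have h5 : Odd (orderOf (MonoidHom.transferSylow P (hP.normalizer_le_centralizer hmf) x)) :=
        Odd.of_dvd_nat hx h3
      obtain ⟨j, _, hj⟩ := (Nat.dvd_prime_pow Nat.prime_two).mp h4
      rw [hj] at h5
      rcases Nat.eq_zero_or_pos j with h0 | h0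
      · rw [h0, pow_zero] at hj; exact orderOf_eq_one_iff.mp hj
      · exfalso
        rw [← Nat.not_even_iff_odd] at h5
        exact h5 (Nat.even_pow.mpr ⟨even_two, h0.ne'⟩)
  · have hbot : (P : Subgroup C) = ⊥ := by
      rw [← Subgroup.card_eq_one]
      obtain ⟨k, hk⟩ := P.isPGroup'.exists_card_eq
      have h3 : Nat.card (P : Subgroup C) ∣ Nat.card C := Subgroup.card_subgroup_dvd_card _
      rcases Nat.eq_zero_or_pos k with h0 | h0
      · rw [hk, h0, pow_zero]
      · exfalso; apply h2
        rw [hk] at h3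
        exact (dvd_pow_self 2 h0.ne').trans h3
    refine ⟨⊤, inferInstance, ?_, fun x => ⟨fun _ => ?_, fun _ => Subgroup.mem_top x⟩⟩
    · rw [hbot]; exact Subgroup.isComplement'_top_bot
    · have h3 : orderOf x ∣ Nat.card C := orderOf_dvd_natCard x
      rw [← Nat.not_even_iff_odd, even_iff_two_dvd]
      exact fun h => h2 (h.trans h3)

end General

section Quat

open QuaternionGroup
open scoped commutatorElement

variable {m : ℕ}

/-- The sign homomorphism of the generalized quaternion group, with kernel the cyclic part. -/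
def quatSign (m : ℕ) : QuaternionGroup m →* Multiplicative (ZMod 2) :=
  MonoidHom.mk' (fun x => match x with
    | a _ => 1
    | xa _ => Multiplicative.ofAdd 1) (by
      rintro (i | i) (j | j)
      · rw [a_mul_a]; rfl
      · rw [a_mul_xa]; rfl
      · rw [xa_mul_a]; rfl
      · rw [xa_mul_xa]
        show (1 : Multiplicative (ZMod 2)) = Multiplicative.ofAdd 1 * Multiplicative.ofAdd 1
        decide)

lemma quatSign_eq_one_iff (x : QuaternionGroup m) : quatSign m x = 1 ↔ ∃ i, x = a i := by
  cases x with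
  | a i => exact ⟨fun _ => ⟨i, rfl⟩, fun _ => rfl⟩
  | xa i =>
    constructor
    · intro h
      exfalso
      have h1 : (Multiplicative.ofAdd (1 : ZMod 2)) = 1 := h
      revert h1; decide
    · rintro ⟨j, hj⟩; cases hj

lemma commutator_le (x : QuaternionGroup m) (hx : x ∈ commutator (QuaternionGroup m)) :
    ∃ i, x = a i := by
  have := Abelianization.commutator_subset_ker (quatSign m) hx
  exact (quatSign_eq_one_iff x).mp (MonoidHom.mem_ker.mp this)

lemma a_neg_two_mem : (a (-2) : QuaternionGroup m) ∈ commutator (QuaternionGroup m) := by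
  have h : ⁅(xa 0 : QuaternionGroup m), (a 1 : QuaternionGroup m)⁆ = a (-2) := by
    rw [commutatorElement_def, mul_inv_eq_iff_eq_mul, mul_inv_eq_iff_eq_mul]
    rw [xa_mul_a, a_mul_a, a_mul_xa]
    congr 1; ring
  rw [← h, commutator_def]
  exact Subgroup.commutator_mem_commutator (Subgroup.mem_top _) (Subgroup.mem_top _)

lemma comm_a_neg_two (h4 : (4 : ZMod (2 * m)) ≠ 0) (x : QuaternionGroup m)
    (hx : x * a (-2) = a (-2) * x) : ∃ i, x = a i := by
  cases x with
  | a i => exact ⟨i, rfl⟩
  | xa i =>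
    exfalso
    rw [xa_mul_a, a_mul_xa] at hx
    have h5 : i + -2 = i - -2 := xa.inj hx
    apply h4
    have : (4 : ZMod (2 * m)) = (i - -2) - (i + -2) := by ring
    rw [this, h5, sub_self]

lemma mem_zpowers_a_one [NeZero m] (x : QuaternionGroup m) :
    x ∈ Subgroup.zpowers (a 1 : QuaternionGroup m) ↔ ∃ i, x = a i := by
  constructor
  · intro hx
    rw [← mem_powers_iff_mem_zpowers] at hx
    obtain ⟨k, hk⟩ := hx
    refine ⟨(k : ZMod (2 * m)), ?_⟩
    rw [← hk]; exact a_one_pow k
  · rintro ⟨i, rfl⟩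
    have h1 := a_one_pow (n := m) i.val
    rw [ZMod.natCast_zmod_val] at h1
    rw [← h1]
    exact Subgroup.pow_mem _ (Subgroup.mem_zpowers _) _

end Quat

section Main

variable {G : Type*} [Group G] [Finite G]

open QuaternionGroup

/-- Basic structure facts for a generalized quaternion Sylow 2-subgroup of order at least 16. -/
theorem quat_facts (S : Sylow 2 G) (n : ℕ)
    (e : (S : Subgroup G) ≃* QuaternionGroup (2 ^ (n + 2))) (D : Subgroup G)
    (hD0 : D = ⁅(S : Subgroup G), (S : Subgroup G)⁆) :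
    ∃ z : G, orderOf z = 2 * 2 ^ (n + 2) ∧
      (S : Subgroup G) ⊓ Subgroup.centralizer (D : Set G) = Subgroup.zpowers z ∧
      D ≤ Subgroup.zpowers z ∧
      (S : Subgroup G) ≤ Subgroup.normalizer (D : Set G) ∧
      Nat.card (S : Subgroup G) = 4 * 2 ^ (n + 2) := by
  subst hD0
  haveI : NeZero (2 ^ (n + 2)) := ⟨by positivity⟩
  set φ : QuaternionGroup (2 ^ (n + 2)) →* G :=
    (S : Subgroup G).subtype.comp e.symm.toMonoidHom with hφ
  have hφinj : Function.Injective φ := by
    intro x y hxy
    have : (e.symm x : G) = (e.symm y : G) := hxy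
    exact e.symm.injective (Subtype.ext this)
  have hφS : ∀ q, φ q ∈ (S : Subgroup G) := fun q => (e.symm q).2
  have hSφ : ∀ x ∈ (S : Subgroup G), ∃ q, φ q = x := fun x hx => ⟨e ⟨x, hx⟩, by simp [hφ]⟩
  have hmap : Subgroup.map φ ⊤ = (S : Subgroup G) := by
    ext x; constructor
    · rintro ⟨q, _, rfl⟩; exact hφS q
    · intro hx; obtain ⟨q, rfl⟩ := hSφ x hx; exact ⟨q, Subgroup.mem_top _, rfl⟩
  have hD : ⁅(S : Subgroup G), (S : Subgroup G)⁆ =
      (commutator (QuaternionGroup (2 ^ (n + 2)))).map φ := by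
    rw [commutator_def, Subgroup.map_commutator, hmap]
  have h4 : (4 : ZMod (2 * 2 ^ (n + 2))) ≠ 0 := by
    intro h
    have h1 : ((4 : ℕ) : ZMod (2 * 2 ^ (n + 2))) = 0 := by exact_mod_cast h
    rw [ZMod.natCast_eq_zero_iff] at h1
    have h2 : 2 * 2 ^ (n + 2) ≤ 4 := Nat.le_of_dvd (by norm_num) h1
    have h3 : 2 ^ 2 ≤ 2 ^ (n + 2) := Nat.pow_le_pow_right (by norm_num) (by omega)
    omega
  have key : ∀ (q : QuaternionGroup (2 ^ (n + 2))) (d : G),
      d ∈ (commutator (QuaternionGroup (2 ^ (n + 2)))).map φ →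
      φ q * d * (φ q)⁻¹ ∈ (commutator (QuaternionGroup (2 ^ (n + 2)))).map φ := by
    rintro q d ⟨c, hc, rfl⟩
    refine ⟨q * c * q⁻¹, ?_, by simp⟩
    exact (inferInstance : (commutator (QuaternionGroup (2 ^ (n + 2)))).Normal).conj_mem c hc q
  refine ⟨φ (a 1), ?_, ?_, ?_, ?_, ?_⟩
  · rw [orderOf_injective φ hφinj, orderOf_a_one]
  · rw [hD]
    ext x
    rw [Subgroup.mem_inf, Subgroup.mem_centralizer_iff, ← MonoidHom.map_zpowers, Subgroup.mem_map]
    constructor
    · rintro ⟨hxS, hxC⟩
      obtain ⟨q, rfl⟩ := hSφ x hxS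
      have h1 := hxC (φ (a (-2))) (Subgroup.mem_map_of_mem φ a_neg_two_mem)
      rw [← map_mul, ← map_mul] at h1
      have h2 := hφinj h1
      obtain ⟨i, hi⟩ := comm_a_neg_two h4 q h2.symm
      exact ⟨q, (mem_zpowers_a_one q).mpr ⟨i, hi⟩, rfl⟩
    · rintro ⟨q, hq, rfl⟩
      obtain ⟨i, rfl⟩ := (mem_zpowers_a_one q).mp hq
      refine ⟨hφS _, ?_⟩
      rintro d ⟨c, hc, rfl⟩
      obtain ⟨j, rfl⟩ := commutator_le c hc
      rw [← map_mul, ← map_mul, a_mul_a, a_mul_a, add_comm j i]
  · rw [hD, ← MonoidHom.map_zpowers]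
    apply Subgroup.map_mono
    intro c hc
    exact (mem_zpowers_a_one c).mpr (commutator_le c hc)
  · intro s hs
    rw [hD]
    obtain ⟨q, rfl⟩ := hSφ s hs
    rw [Subgroup.mem_normalizer_iff]
    intro d
    constructor
    · exact key q d
    · intro hd
      have h5 := key q⁻¹ _ hd
      have h6 : φ q⁻¹ * (φ q * d * (φ q)⁻¹) * (φ q⁻¹)⁻¹ = d := by
        rw [map_inv]; group
      rw [h6] at h5; exact h5
  · rw [Nat.card_congr e.toEquiv, Nat.card_eq_fintype_card, QuaternionGroup.card]

omit [Finite G] in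
lemma normalizer_le_normalizer_centralizer (D : Subgroup G) :
    Subgroup.normalizer (D : Set G) ≤
      Subgroup.normalizer (Subgroup.centralizer (D : Set G) : Set G) := by
  have key : ∀ g ∈ Subgroup.normalizer (D : Set G), ∀ x ∈ Subgroup.centralizer (D : Set G),
      g * x * g⁻¹ ∈ Subgroup.centralizer (D : Set G) := by
    intro g hg x hx
    rw [Subgroup.mem_centralizer_iff] at hx ⊢
    intro d hd
    have h1 : g⁻¹ * d * g ∈ D := by
      have := (Subgroup.mem_normalizer_iff.mp (inv_mem hg) d).mp hd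
      simpa using this
    have h2 := hx _ h1
    calc d * (g * x * g⁻¹) = g * ((g⁻¹ * d * g) * x) * g⁻¹ := by group
      _ = g * (x * (g⁻¹ * d * g)) * g⁻¹ := by rw [h2]
      _ = g * x * g⁻¹ * d := by group
  intro g hg
  rw [Subgroup.mem_normalizer_iff]
  intro x
  constructor
  · exact key g hg x
  · intro hx
    have h5 := key g⁻¹ (inv_mem hg) _ hx
    have h6 : g⁻¹ * (g * x * g⁻¹) * g⁻¹⁻¹ = x := by group
    rw [h6] at h5; exact h5

/-- `S ∩ C_G(D)` is a Sylow 2-subgroup of `C_G(D)` when `S` normalizes `D`. -/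
lemma exists_sylow_centralizer (S : Sylow 2 G) (D : Subgroup G)
    (hSN : (S : Subgroup G) ≤ Subgroup.normalizer (D : Set G)) :
    ∃ P : Sylow 2 ↥(Subgroup.centralizer (D : Set G)),
      (P : Subgroup ↥(Subgroup.centralizer (D : Set G))) =
        ((S : Subgroup G) ⊓ Subgroup.centralizer (D : Set G)).subgroupOf
          (Subgroup.centralizer (D : Set G)) := by
  have h1 := relIndex_inf_dvd_index (S : Subgroup G) (Subgroup.centralizer (D : Set G))
    (hSN.trans (normalizer_le_normalizer_centralizer D))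
  have h2 : ¬ 2 ∣ (((S : Subgroup G) ⊓ Subgroup.centralizer (D : Set G)).subgroupOf
      (Subgroup.centralizer (D : Set G))).index := fun h => S.not_dvd_index (h.trans h1)
  have h3 : IsPGroup 2 ↥(((S : Subgroup G) ⊓ Subgroup.centralizer (D : Set G)).subgroupOf
      (Subgroup.centralizer (D : Set G))) :=
    (IsPGroup.to_le S.isPGroup' inf_le_left).comap_subtype
  exact ⟨h3.toSylow h2, rfl⟩

omit [Finite G] in
lemma two_pow_arith {r k j : ℕ} (hr : Odd r) (hk : Odd k) (h : 2 * r = 2 ^ j * k) :
    j = 1 ∧ r = k := by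
  rcases j with _ | _ | j
  · exfalso
    obtain ⟨c, hc⟩ := hk
    simp at h; omega
  · refine ⟨rfl, ?_⟩
    simp at h; omega
  · exfalso
    obtain ⟨c, hc⟩ := hr
    have h1 : 2 * r = 4 * (2 ^ j * k) := by rw [h]; ring
    generalize 2 ^ j * k = t at h1
    omega

/-- Structure of `N_G(D)` and `C_G(D)` when `S ∩ C_G(D)` is cyclic of index 2 in the Sylow
2-subgroup `S` and contains `D`. -/
theorem structure_thm (S : Sylow 2 G) (D : Subgroup G) (z : G)
    (hz : (S : Subgroup G) ⊓ Subgroup.centralizer (D : Set G) = Subgroup.zpowers z)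
    (hDz : D ≤ Subgroup.zpowers z)
    (hSN : (S : Subgroup G) ≤ Subgroup.normalizer (D : Set G))
    (hcard : Nat.card (S : Subgroup G) = 2 * orderOf z) :
    ∃ K : Subgroup G, Odd (Nat.card K) ∧ K ≤ Subgroup.centralizer (D : Set G) ∧
      Subgroup.normalizer (D : Set G) ≤ Subgroup.normalizer (K : Set G) ∧
      K ⊔ (S : Subgroup G) = Subgroup.normalizer (D : Set G) ∧
      K ⊔ ((S : Subgroup G) ⊓ Subgroup.centralizer (D : Set G)) =
        Subgroup.centralizer (D : Set G) ∧
      ((Subgroup.centralizer (D : Set G)).subgroupOf (Subgroup.normalizer (D : Set G))).index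
        = 2 := by
  classical
  obtain ⟨P, hP⟩ := exists_sylow_centralizer S D hSN
  have hCN : Subgroup.centralizer (D : Set G) ≤ Subgroup.normalizer (D : Set G) :=
    Subgroup.centralizer_le_normalizer _
  have hSC : (S : Subgroup G) ⊓ Subgroup.centralizer (D : Set G) ≤
      Subgroup.centralizer (D : Set G) := inf_le_right
  have hcyc : IsCyclic (P : Subgroup ↥(Subgroup.centralizer (D : Set G))) := by
    rw [hP]
    haveI : IsCyclic ↥((S : Subgroup G) ⊓ Subgroup.centralizer (D : Set G)) := by
      rw [hz]; infer_instance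
    exact isCyclic_of_injective (Subgroup.subgroupOfEquivOfLe hSC).toMonoidHom
      (Subgroup.subgroupOfEquivOfLe hSC).injective
  obtain ⟨KC, hKn, hKc, hKodd⟩ := exists_two_complement P hcyc
  have hcardP : Nat.card (P : Subgroup ↥(Subgroup.centralizer (D : Set G))) = orderOf z := by
    rw [hP, Nat.card_congr (Subgroup.subgroupOfEquivOfLe hSC).toEquiv, hz, Nat.card_zpowers]
  have hKCodd : Odd (Nat.card KC) := by
    rw [← hKc.index_eq_card, ← Nat.not_even_iff_odd, even_iff_two_dvd]; exact P.not_dvd_index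
  have hKmem : ∀ x : G, x ∈ KC.map (Subgroup.centralizer (D : Set G)).subtype ↔
      x ∈ Subgroup.centralizer (D : Set G) ∧ Odd (orderOf x) := by
    intro x; constructor
    · rintro ⟨y, hy, rfl⟩
      refine ⟨y.2, ?_⟩
      have := (hKodd y).mp hy
      rwa [← Subgroup.orderOf_coe] at this
    · rintro ⟨hxC, hxo⟩
      refine ⟨⟨x, hxC⟩, (hKodd _).mpr ?_, rfl⟩
      rwa [Subgroup.orderOf_mk]
  have hcardK : Nat.card (KC.map (Subgroup.centralizer (D : Set G)).subtype) = Nat.card KC :=
    Subgroup.card_map_of_injective (Subgroup.subtype_injective _)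
  have hcardC : Nat.card (Subgroup.centralizer (D : Set G)) = Nat.card KC * orderOf z := by
    rw [← hKc.card_mul_card, hcardP]
  -- the index of `C` in `N` is a power of two
  haveI : IsCyclic ↥D := Subgroup.isCyclic_of_le hDz
  have hD2 : IsPGroup 2 ↥D := IsPGroup.to_le S.isPGroup' (hDz.trans (hz ▸ inf_le_left))
  obtain ⟨k, hk⟩ := hD2.exists_card_eq
  have key := Subgroup.card_dvd_of_injective _
    (QuotientGroup.kerLift_injective D.normalizerMonoidHom)
  rw [Subgroup.normalizerMonoidHom_ker, ← Subgroup.index, IsCyclic.card_mulAut, hk] at key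
  have hpow : ∃ j, ((Subgroup.centralizer (D : Set G)).subgroupOf
      (Subgroup.normalizer (D : Set G))).index = 2 ^ j := by
    rcases Nat.eq_zero_or_pos k with h0 | h0
    · rw [h0, pow_zero, Nat.totient_one] at key; exact ⟨0, Nat.dvd_one.mp key⟩
    · rw [Nat.totient_prime_pow Nat.prime_two h0] at key
      have key' : ((Subgroup.centralizer (D : Set G)).subgroupOf
          (Subgroup.normalizer (D : Set G))).index ∣ 2 ^ (k - 1) := by simpa using key
      obtain ⟨j, _, hj⟩ := (Nat.dvd_prime_pow Nat.prime_two).mp key'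
      exact ⟨j, hj⟩
  obtain ⟨j, hj⟩ := hpow
  have hcardN1 : Nat.card (Subgroup.normalizer (D : Set G)) =
      2 ^ j * (Nat.card KC * orderOf z) := by
    have h1 := Subgroup.card_mul_index ((Subgroup.centralizer (D : Set G)).subgroupOf
      (Subgroup.normalizer (D : Set G)))
    rw [Nat.card_congr (Subgroup.subgroupOfEquivOfLe hCN).toEquiv, hj, hcardC] at h1
    rw [← h1]; ring
  have hcardN2 : Nat.card (Subgroup.normalizer (D : Set G)) =
      2 * orderOf z * ((S : Subgroup G).subgroupOf (Subgroup.normalizer (D : Set G))).index := by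
    have h1 := Subgroup.card_mul_index ((S : Subgroup G).subgroupOf
      (Subgroup.normalizer (D : Set G)))
    rw [Nat.card_congr (Subgroup.subgroupOfEquivOfLe hSN).toEquiv, hcard] at h1
    exact h1.symm
  have hrodd : Odd ((S : Subgroup G).subgroupOf (Subgroup.normalizer (D : Set G))).index := by
    rw [← Nat.not_even_iff_odd, even_iff_two_dvd]
    intro h
    exact S.not_dvd_index (h.trans (Subgroup.relIndex_dvd_index_of_le hSN))
  have hopos : 0 < orderOf z := orderOf_pos z
  have harith : 2 * ((S : Subgroup G).subgroupOf (Subgroup.normalizer (D : Set G))).index =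
      2 ^ j * Nat.card KC := by
    have h1 : orderOf z * (2 * ((S : Subgroup G).subgroupOf
        (Subgroup.normalizer (D : Set G))).index) = orderOf z * (2 ^ j * Nat.card KC) := by
      calc orderOf z * (2 * ((S : Subgroup G).subgroupOf
            (Subgroup.normalizer (D : Set G))).index)
          = 2 * orderOf z * ((S : Subgroup G).subgroupOf
            (Subgroup.normalizer (D : Set G))).index := by ring
        _ = 2 ^ j * (Nat.card KC * orderOf z) := by rw [← hcardN2, hcardN1]
        _ = _ := by ring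
    exact Nat.eq_of_mul_eq_mul_left hopos h1
  obtain ⟨hj1, hr⟩ := two_pow_arith hrodd hKCodd harith
  refine ⟨KC.map (Subgroup.centralizer (D : Set G)).subtype, ?_, ?_, ?_, ?_, ?_, ?_⟩
  · rw [hcardK]; exact hKCodd
  · exact Subgroup.map_subtype_le KC
  · intro g hg
    have hgC := normalizer_le_normalizer_centralizer D hg
    rw [Subgroup.mem_normalizer_iff]
    intro x
    have ho : orderOf (g * x * g⁻¹) = orderOf x :=
      orderOf_injective (MulAut.conj g).toMonoidHom (MulAut.conj g).injective x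
    rw [hKmem, hKmem, ho]
    constructor
    · rintro ⟨h1, h2⟩; exact ⟨(Subgroup.mem_normalizer_iff.mp hgC x).mp h1, h2⟩
    · rintro ⟨h1, h2⟩; exact ⟨(Subgroup.mem_normalizer_iff.mp hgC x).mpr h1, h2⟩
  · have hle : KC.map (Subgroup.centralizer (D : Set G)).subtype ⊔ (S : Subgroup G) ≤
        Subgroup.normalizer (D : Set G) :=
      sup_le ((Subgroup.map_subtype_le KC).trans hCN) hSN
    apply Subgroup.eq_of_le_of_card_ge hle
    obtain ⟨t, ht⟩ := S.isPGroup'.exists_card_eq
    have hcop : Nat.Coprime (Nat.card (KC.map (Subgroup.centralizer (D : Set G)).subtype))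
        (Nat.card (S : Subgroup G)) := by
      rw [hcardK, ht]
      exact (Odd.coprime_two_right hKCodd).pow_right t
    have h1 : Nat.card (KC.map (Subgroup.centralizer (D : Set G)).subtype) ∣
        Nat.card ↥(KC.map (Subgroup.centralizer (D : Set G)).subtype ⊔ (S : Subgroup G)) :=
      Subgroup.card_dvd_of_le le_sup_left
    have h2 : Nat.card (S : Subgroup G) ∣
        Nat.card ↥(KC.map (Subgroup.centralizer (D : Set G)).subtype ⊔ (S : Subgroup G)) :=
      Subgroup.card_dvd_of_le le_sup_right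
    have h3 := Nat.le_of_dvd Nat.card_pos (hcop.mul_dvd_of_dvd_of_dvd h1 h2)
    rw [hcardN1, hj1]
    rw [hcardK, hcard] at h3
    calc 2 ^ 1 * (Nat.card KC * orderOf z) = Nat.card KC * (2 * orderOf z) := by ring
      _ ≤ _ := h3
  · have h1 := hKc.sup_eq_top
    have h2 := congrArg (Subgroup.map (Subgroup.centralizer (D : Set G)).subtype) h1
    rw [Subgroup.map_sup, hP, Subgroup.subgroupOf_map_subtype, ← MonoidHom.range_eq_map,
      Subgroup.range_subtype, inf_eq_left.mpr hSC] at h2
    exact h2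
  · rw [hj, hj1, pow_one]

end Main

end Cfsg.Agent.Helper2.QuatSyl
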