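import Mathlib
import Cfsg.Agent.Helper2.Conj
import Cfsg.Agent.Helper2.QuatSyl

/-! Groups with generalized quaternion Sylow 2-subgroups: the T.I. property of the derived subgroup. -/

namespace Cfsg.Agent.Helper2.QuatSyl

open Cfsg.Agent.Helper2

variable {G : Type*} [Group G] [Finite G]

omit [Finite G] in
lemma orderOf_conj' (g y : G) : orderOf (g * y * g⁻¹) = orderOf y :=
  orderOf_injective (MulAut.conj g).toMonoidHom (MulAut.conj g).injective y

lemma mem_zpowers_of_orderOf_dvd {z x w : G} (hx : x ∈ Subgroup.zpowers z)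
    (hw : w ∈ Subgroup.zpowers z) (h : orderOf x ∣ orderOf w) : x ∈ Subgroup.zpowers w := by
  rw [← mem_powers_iff_mem_zpowers] at hx hw
  obtain ⟨i, rfl⟩ := hx
  obtain ⟨j, rfl⟩ := hw
  have hN : 0 < orderOf z := orderOf_pos z
  have hM : orderOf (z ^ j) = orderOf z / Nat.gcd (orderOf z) j := orderOf_pow z
  have h1 : (z ^ i) ^ (orderOf z / Nat.gcd (orderOf z) j) = 1 := by
    rw [← hM]; exact orderOf_dvd_iff_pow_eq_one.mp h
  rw [← pow_mul, ← orderOf_dvd_iff_pow_eq_one] at h1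
  obtain ⟨M, hM'⟩ := Nat.gcd_dvd_left (orderOf z) j
  have hgpos : 0 < Nat.gcd (orderOf z) j := Nat.gcd_pos_of_pos_left j hN
  have hMpos : 0 < M := by
    rcases Nat.eq_zero_or_pos M with h0 | h0
    · rw [h0, mul_zero] at hM'; omega
    · exact h0
  have h2 : orderOf z / Nat.gcd (orderOf z) j = M := Nat.div_eq_of_eq_mul_right hgpos hM'
  rw [h2] at h1
  have h3 : Nat.gcd (orderOf z) j ∣ i := by
    have h4 : Nat.gcd (orderOf z) j * M ∣ i * M := by rw [← hM']; exact h1
    exact Nat.dvd_of_mul_dvd_mul_right hMpos h4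
  obtain ⟨c, hc⟩ := h3
  have h4 : z ^ Nat.gcd (orderOf z) j ∈ Subgroup.zpowers (z ^ j) := by
    have hb := Nat.gcd_eq_gcd_ab (orderOf z) j
    have h5 : z ^ Nat.gcd (orderOf z) j = (z ^ j) ^ (Nat.gcdB (orderOf z) j) := by
      rw [← zpow_natCast z (Nat.gcd (orderOf z) j), hb, zpow_add, zpow_mul, zpow_mul,
        zpow_natCast, zpow_natCast, pow_orderOf_eq_one, one_zpow, one_mul]
    rw [h5]; exact Subgroup.zpow_mem_zpowers _ _
  show z ^ i ∈ Subgroup.zpowers (z ^ j)
  rw [hc, pow_mul]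
  exact Subgroup.pow_mem _ h4 c

theorem conj_into (S : Sylow 2 G) (D : Subgroup G) (z : G)
    (hz : (S : Subgroup G) ⊓ Subgroup.centralizer (D : Set G) = Subgroup.zpowers z)
    (hSN : (S : Subgroup G) ≤ Subgroup.normalizer (D : Set G))
    (y : G) (hy : y ∈ Subgroup.centralizer (D : Set G)) (t : ℕ) (hyo : orderOf y = 2 ^ t) :
    ∃ c ∈ Subgroup.centralizer (D : Set G), c * y * c⁻¹ ∈ Subgroup.zpowers z := by
  obtain ⟨P, hP⟩ := exists_sylow_centralizer S D hSN
  have hR : IsPGroup 2 (Subgroup.zpowers (⟨y, hy⟩ : Subgroup.centralizer (D : Set G))) := by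
    apply IsPGroup.of_card (n := t)
    rw [Nat.card_zpowers, Subgroup.orderOf_mk, hyo]
  obtain ⟨c, hc⟩ := pgroup_exists_conj_le_sylow hR P
  have h2 : c * ⟨y, hy⟩ * c⁻¹ ∈ (P : Subgroup _) := hc _ (Subgroup.mem_zpowers _)
  rw [hP, Subgroup.mem_subgroupOf] at h2
  refine ⟨c.1, c.2, ?_⟩
  rw [← hz]
  exact h2

theorem ti_thm (S : Sylow 2 G) (D : Subgroup G) (z : G)
    (hz : (S : Subgroup G) ⊓ Subgroup.centralizer (D : Set G) = Subgroup.zpowers z)
    (hDz : D ≤ Subgroup.zpowers z)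
    (hSN : (S : Subgroup G) ≤ Subgroup.normalizer (D : Set G)) :
    (∀ y : G, y ∈ Subgroup.centralizer (D : Set G) → Nat.card D ∣ orderOf y →
      D ≤ Subgroup.zpowers y) ∧
    (∀ g y : G, y ∈ Subgroup.centralizer (D : Set G) → Nat.card D ∣ orderOf y →
      g * y * g⁻¹ ∈ Subgroup.centralizer (D : Set G) → g ∈ Subgroup.normalizer (D : Set G)) ∧
    (∀ g y : G, g ∈ Subgroup.normalizer (D : Set G) → y ∈ Subgroup.centralizer (D : Set G) →
      Nat.card D ∣ orderOf y → g * y * g⁻¹ ∈ Subgroup.centralizer (D : Set G) ∧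
        Nat.card D ∣ orderOf (g * y * g⁻¹)) := by
  have hD2 : IsPGroup 2 ↥D := IsPGroup.to_le S.isPGroup' (hDz.trans (hz ▸ inf_le_left))
  obtain ⟨k, hk⟩ := hD2.exists_card_eq
  have part1 : ∀ y : G, y ∈ Subgroup.centralizer (D : Set G) → Nat.card D ∣ orderOf y →
      D ≤ Subgroup.zpowers y := by
    intro y hy hdvd
    have hypos : orderOf y ≠ 0 := (orderOf_pos y).ne'
    obtain ⟨t, u, hu, htu⟩ := Nat.exists_eq_two_pow_mul_odd hypos
    have hkt : 2 ^ k ∣ 2 ^ t := by
      rw [hk, htu] at hdvd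
      exact (Nat.Coprime.pow_left k (Nat.coprime_two_left.mpr hu)).dvd_of_dvd_mul_right hdvd
    have hu0 : u ≠ 0 := by rintro rfl; simp at hu
    have hy2 : orderOf (y ^ u) = 2 ^ t := by
      rw [orderOf_pow_of_dvd hu0 (by rw [htu]; exact dvd_mul_left u _), htu,
        Nat.mul_div_cancel _ (Nat.pos_of_ne_zero hu0)]
    have hy2C : y ^ u ∈ Subgroup.centralizer (D : Set G) := pow_mem hy u
    obtain ⟨c, hcC, hcw⟩ := conj_into S D z hz hSN (y ^ u) hy2C t hy2
    have hwo : orderOf (c * y ^ u * c⁻¹) = 2 ^ t := by rw [orderOf_conj', hy2]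
    intro d hd
    have hdo : orderOf d ∣ orderOf (c * y ^ u * c⁻¹) := by
      rw [hwo]
      have h1 : orderOf d ∣ Nat.card D := by
        have := orderOf_dvd_natCard (⟨d, hd⟩ : D)
        rwa [Subgroup.orderOf_mk] at this
      rw [hk] at h1; exact h1.trans hkt
    have h1 := mem_zpowers_of_orderOf_dvd (hDz hd) hcw hdo
    obtain ⟨i, hi⟩ := Subgroup.mem_zpowers_iff.mp h1
    have hcd : d * c = c * d := Subgroup.mem_centralizer_iff.mp hcC d hd
    have h2 : d = (y ^ u) ^ i := by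
      have h3 : c * (y ^ u) ^ i * c⁻¹ = d := by rw [← hi, conj_zpow]
      have h4 : (y ^ u) ^ i = c⁻¹ * d * c := by rw [← h3]; group
      rw [h4, mul_assoc, hcd]; group
    rw [h2]
    exact Subgroup.zpow_mem _ (Subgroup.pow_mem _ (Subgroup.mem_zpowers y) u) i
  refine ⟨part1, ?_, ?_⟩
  · intro g y hy hdvd hgy
    have ho : orderOf (g * y * g⁻¹) = orderOf y := orderOf_conj' g y
    have h1 := part1 y hy hdvd
    have h2 := part1 (g * y * g⁻¹) hgy (by rw [ho]; exact hdvd)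
    obtain ⟨m, hm⟩ := (Subgroup.le_zpowers_iff z D).mp hDz
    have hd0 : z ^ m ∈ D := by rw [hm]; exact Subgroup.mem_zpowers _
    have hd0o : orderOf (z ^ m) = Nat.card D := by rw [hm, Nat.card_zpowers]
    have key : ∀ d ∈ D, g * d * g⁻¹ ∈ D := by
      intro d hd
      have h3 : g * d * g⁻¹ ∈ Subgroup.zpowers (g * y * g⁻¹) := by
        obtain ⟨i, hi⟩ := Subgroup.mem_zpowers_iff.mp (h1 hd)
        rw [← hi, ← conj_zpow]; exact Subgroup.zpow_mem_zpowers _ _
      have h4 : z ^ m ∈ Subgroup.zpowers (g * y * g⁻¹) := h2 hd0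
      have h5 : orderOf (g * d * g⁻¹) ∣ orderOf (z ^ m) := by
        rw [hd0o, orderOf_conj']
        have := orderOf_dvd_natCard (⟨d, hd⟩ : D)
        rwa [Subgroup.orderOf_mk] at this
      have h6 := mem_zpowers_of_orderOf_dvd h3 h4 h5
      rw [hm]; exact h6
    rw [Subgroup.mem_normalizer_iff]
    intro d
    constructor
    · exact key d
    · intro hd
      have h8 := conj_inv_mem_of_conj_mem D g key _ hd
      have h7 : g⁻¹ * (g * d * g⁻¹) * g = d := by group
      rw [h7] at h8; exact h8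
  · intro g y hg hy hdvd
    have hgC := normalizer_le_normalizer_centralizer D hg
    refine ⟨(Subgroup.mem_normalizer_iff.mp hgC y).mp hy, ?_⟩
    rw [orderOf_conj']; exact hdvd

end Cfsg.Agent.Helper2.QuatSyl
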