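import Mathlib

/-! Arithmetic of rank three groups of Wielandt type. -/

set_option autoImplicit false

namespace Cfsg.Agent.Helper2.Rank3

theorem arith (m k l lam mu : ℕ) (r s : ℂ) (hk : 1 ≤ k) (hl : 1 ≤ l) (hsum : 1 + k + l = 2 * m)
    (h1 : (k : ℂ) + ((m : ℂ) - 1) * r + (m : ℂ) * s = 0)
    (h2 : (k : ℂ) ^ 2 + ((m : ℂ) - 1) * r ^ 2 + (m : ℂ) * s ^ 2 = 2 * (m : ℂ) * k)
    (q1 : r ^ 2 = ((k : ℂ) - mu) + ((lam : ℂ) - mu) * r)
    (q2 : s ^ 2 = ((k : ℂ) - mu) + ((lam : ℂ) - mu) * s) :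
    k = 1 ∨ l = 1 ∨ ∃ a : ℕ, 0 < a ∧ m = 2 * a ^ 2 + 2 * a + 1 ∧
      ((k = a * (2 * a + 1) ∧ l = (a + 1) * (2 * a + 1)) ∨
        (k = (a + 1) * (2 * a + 1) ∧ l = a * (2 * a + 1))) := by
  have hm2 : 2 ≤ m := by omega
  have hm0 : (m : ℂ) ≠ 0 := by exact_mod_cast (by omega : m ≠ 0)
  by_cases hrs : r = s
  · exfalso
    subst hrs
    have e1' : (2 * (m : ℂ) - 1) * r = -(k : ℂ) := by linear_combination h1
    have e1sq : ((2 * (m : ℂ) - 1) * r) ^ 2 = (k : ℂ) ^ 2 := by rw [e1']; ring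
    have e2 : 2 * (m : ℂ) * (k : ℂ) * (k : ℂ) = 2 * (m : ℂ) * k * (2 * (m : ℂ) - 1) := by
      linear_combination (2 * (m : ℂ) - 1) * h2 - e1sq
    have e3 : (2 * m * k * k : ℕ) + 2 * m * k = 2 * m * k * (2 * m) := by
      have : ((2 * m * k * k + 2 * m * k : ℕ) : ℂ) = ((2 * m * k * (2 * m) : ℕ) : ℂ) := by
        push_cast
        linear_combination e2
      exact_mod_cast this
    have hpos : 0 < 2 * m * k := by positivity
    have e4 : 2 * m * k * (k + 1) = 2 * m * k * (2 * m) := by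
      rw [← e3]; ring
    have : k + 1 = 2 * m := Nat.eq_of_mul_eq_mul_left hpos e4
    omega
  · have hsum' : r + s = (lam : ℂ) - mu := by
      have h3 : (r - s) * (r + s - ((lam : ℂ) - mu)) = 0 := by linear_combination q1 - q2
      rcases mul_eq_zero.mp h3 with h | h
      · exact absurd (sub_eq_zero.mp h) hrs
      · linear_combination h
    obtain ⟨u, hu⟩ : ∃ u : ℤ, u = (lam : ℤ) - mu := ⟨_, rfl⟩
    have hu' : ((u : ℤ) : ℂ) = (lam : ℂ) - mu := by rw [hu]; push_cast; ring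
    rw [← hu'] at hsum'
    have hr : r = (k : ℂ) + (m : ℂ) * u := by linear_combination (-1) * h1 + (m : ℂ) * hsum'
    have hs : s = -(k : ℂ) - ((m : ℂ) - 1) * u := by linear_combination hsum' - hr
    have hZ : (2 * (k : ℤ) ^ 2 + 4 * k * ((m : ℤ) - 1) * u + ((m : ℤ) - 1) * (2 * m - 1) * u ^ 2
        = 2 * k) := by
      have hC : ((2 * (k : ℤ) ^ 2 + 4 * k * ((m : ℤ) - 1) * u
          + ((m : ℤ) - 1) * (2 * m - 1) * u ^ 2 : ℤ) : ℂ) * (m : ℂ)
          = ((2 * (k : ℤ) : ℤ) : ℂ) * (m : ℂ) := by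
        push_cast
        rw [hr, hs] at h2
        linear_combination h2
      exact_mod_cast mul_right_cancel₀ hm0 hC
    have hK : (1 : ℤ) ≤ (k : ℤ) := by exact_mod_cast hk
    have hL : (1 : ℤ) ≤ (l : ℤ) := by exact_mod_cast hl
    have hS : (1 : ℤ) + k + l = 2 * m := by exact_mod_cast hsum
    have hM : (1 : ℤ) ≤ (m : ℤ) - 1 := by
      have : (2 : ℤ) ≤ (m : ℤ) := by exact_mod_cast hm2
      linarith
    have hX : (2 * (k : ℤ) + 2 * ((m : ℤ) - 1) * u - 1) ^ 2
        = 1 - 2 * ((m : ℤ) - 1) * (u * (u + 2)) := by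
      linear_combination 2 * hZ
    have huu : u * (u + 2) ≤ 0 := by
      by_contra hc
      have hc' : 1 ≤ u * (u + 2) := by linarith [Int.not_le.mp hc]
      nlinarith [sq_nonneg (2 * (k : ℤ) + 2 * ((m : ℤ) - 1) * u - 1)]
    have hu1 : -2 ≤ u := by nlinarith
    have hu2 : u ≤ 0 := by nlinarith
    clear hu hu' hsum' hr hs hX
    interval_cases u
    · -- u = -2
      right; left
      have h5 : 2 * (((k : ℤ) - (2 * m - 1)) * ((k : ℤ) - (2 * m - 2))) = 0 := by
        linear_combination hZ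
      have h6 : ((k : ℤ) - (2 * m - 1)) * ((k : ℤ) - (2 * m - 2)) = 0 := by linarith
      rcases mul_eq_zero.mp h6 with h | h
      · exfalso; linarith
      · have : (l : ℤ) = 1 := by linarith
        exact_mod_cast this
    · -- u = -1
      right; right
      have h5 : (2 * (k : ℤ) - 2 * m + 1) ^ 2 = 2 * m - 1 := by linear_combination 2 * hZ
      obtain ⟨d, hd⟩ : ∃ d : ℕ, d = (2 * (k : ℤ) - 2 * m + 1).natAbs := ⟨_, rfl⟩
      have hd2 : (d : ℤ) ^ 2 = 2 * m - 1 := by
        rw [hd, Int.natAbs_sq]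
        exact h5
      have hdodd : d % 2 = 1 := by
        rcases Nat.mod_two_eq_zero_or_one d with h | h
        · exfalso
          obtain ⟨e, he⟩ : ∃ e, d = 2 * e := ⟨d / 2, by omega⟩
          rw [he] at hd2
          push_cast at hd2
          have : (2 : ℤ) * (2 * (e : ℤ) ^ 2 - m) = -1 := by linear_combination hd2
          omega
        · exact h
      obtain ⟨a, ha⟩ : ∃ a, d = 2 * a + 1 := ⟨d / 2, by omega⟩
      rw [ha] at hd2
      push_cast at hd2
      have hmZ : (m : ℤ) = 2 * (a : ℤ) ^ 2 + 2 * a + 1 := by nlinarith [hd2]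
      have hm' : m = 2 * a ^ 2 + 2 * a + 1 := by exact_mod_cast hmZ
      have ha0 : 0 < a := by
        rcases Nat.eq_zero_or_pos a with h | h
        · rw [h] at hm'; simp at hm'; omega
        · exact h
      refine ⟨a, ha0, hm', ?_⟩
      rcases Int.natAbs_eq (2 * (k : ℤ) - 2 * m + 1) with h | h
      · -- 2k - 2m + 1 = d
        right
        rw [← hd, ha] at h
        push_cast at h
        have hkZ : (k : ℤ) = ((a : ℤ) + 1) * (2 * a + 1) := by nlinarith
        have hlZ : (l : ℤ) = (a : ℤ) * (2 * a + 1) := by nlinarith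
        exact ⟨by exact_mod_cast hkZ, by exact_mod_cast hlZ⟩
      · left
        rw [← hd, ha] at h
        push_cast at h
        have hkZ : (k : ℤ) = (a : ℤ) * (2 * a + 1) := by nlinarith
        have hlZ : (l : ℤ) = ((a : ℤ) + 1) * (2 * a + 1) := by nlinarith
        exact ⟨by exact_mod_cast hkZ, by exact_mod_cast hlZ⟩
    · -- u = 0
      left
      have h5 : 2 * ((k : ℤ) * ((k : ℤ) - 1)) = 0 := by linear_combination hZ
      have h6 : (k : ℤ) * ((k : ℤ) - 1) = 0 := by linarith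
      rcases mul_eq_zero.mp h6 with h | h
      · exfalso; linarith
      · have : (k : ℤ) = 1 := by linarith
        exact_mod_cast this

end Cfsg.Agent.Helper2.Rank3
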