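import Mathlib
import Cfsg.Prelude.Def_Characters
import Cfsg.Agent.Lead.CharInt
import Cfsg.Agent.Lead.CharOdd

namespace Cfsg.Agent.Helper2.SubDeg

open scoped ComplexConjugate

universe u v w

/-- the trace of an endomorphism whose eigenvalues are algebraic integers is one -/
theorem trace_integral {V : Type v} [AddCommGroup V] [Module ℂ V] [FiniteDimensional ℂ V]
    (B : Module.End ℂ V) (h : ∀ μ : ℂ, B.HasEigenvalue μ → IsIntegral ℤ μ) :
    IsIntegral ℤ (LinearMap.trace ℂ V B) := by
  rw [Module.End.trace_eq_sum_roots_charpoly_of_splits (IsAlgClosed.splits _)]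
  apply IsIntegral.multiset_sum
  intro μ hμ
  apply h
  rw [Module.End.hasEigenvalue_iff_isRoot_charpoly]
  exact (Polynomial.mem_roots'.mp hμ).2

/-- an eigenvalue of an integral endomorphism is an algebraic integer -/
theorem eigen_integral {V : Type v} [AddCommGroup V] [Module ℂ V]
    (S : Module.End ℂ V) (hS : IsIntegral ℤ S) (μ : ℂ) (v : V) (hv : v ≠ 0)
    (h : S v = μ • v) : IsIntegral ℤ μ := by
  obtain ⟨p, hp, hp0⟩ := hS
  refine ⟨p, hp, ?_⟩
  have hev : S.HasEigenvector μ v := ⟨Module.End.mem_eigenspace_iff.mpr h, hv⟩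
  have h1 : Polynomial.aeval S (p.map (algebraMap ℤ ℂ)) v
      = (p.map (algebraMap ℤ ℂ)).eval μ • v := Module.End.aeval_apply_of_hasEigenvector hev
  have h2 : Polynomial.aeval S (p.map (algebraMap ℤ ℂ)) = 0 := by
    rw [Polynomial.aeval_map_algebraMap]; exact hp0
  rw [h2] at h1
  have h3 : (p.map (algebraMap ℤ ℂ)).eval μ = 0 := by
    by_contra hne
    have h4 : (p.map (algebraMap ℤ ℂ)).eval μ • v = 0 := by rw [← h1]; rfl
    exact hv ((smul_eq_zero.mp h4).resolve_left hne)
  rw [Polynomial.eval₂_eq_eval_map]; exact h3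

section act

variable {G : Type u} [Group G] [Fintype G] {Ω : Type w} [MulAction G Ω] [DecidableEq Ω]

/-- sum over the elements carrying `a` into `Δ`, decomposed along coset representatives -/
theorem sum_decomp {M : Type*} [AddCommMonoid M] (a : Ω) (Δ : Finset Ω) (rep : Ω → G)
    (hrep : ∀ δ, rep δ • a = δ) (F : G → M) :
    (∑ g : G, if g • a ∈ Δ then F g else 0)
      = ∑ δ ∈ Δ, ∑ x : G, if x • a = a then F (rep δ * x) else 0 := by
  have h1 : ∀ g : G, (if g • a ∈ Δ then F g else 0) = ∑ δ ∈ Δ, if g • a = δ then F g else 0 := by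
    intro g
    rw [Finset.sum_ite_eq]
  rw [Finset.sum_congr rfl (fun g _ => h1 g), Finset.sum_comm]
  refine Finset.sum_congr rfl (fun δ _ => ?_)
  rw [← Equiv.sum_comp (Equiv.mulLeft (rep δ))]
  refine Finset.sum_congr rfl (fun x _ => ?_)
  have h2 : (rep δ * x) • a = δ ↔ x • a = a := by
    rw [mul_smul]
    constructor
    · intro h
      have h3 : rep δ • (x • a) = rep δ • a := by rw [h, hrep]
      exact smul_left_cancel _ h3
    · intro h; rw [h, hrep]
  simp only [Equiv.coe_mulLeft, h2]

variable {V : Type v} [AddCommGroup V] [Module ℂ V] [FiniteDimensional ℂ V]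

/-- The Hecke-operator statement: for a stabiliser-invariant set `Δ` of points, the sum of
the character over the elements carrying `a` into `Δ` is the stabiliser order times an
algebraic integer, and it vanishes when the character sums to zero over the stabiliser. -/
theorem main_rep (ρ : Representation ℂ G V) (a : Ω) (Δ : Finset Ω) (rep : Ω → G)
    (hrep : ∀ δ, rep δ • a = δ) (hΔ : ∀ h : G, h • a = a → ∀ δ ∈ Δ, h • δ ∈ Δ) :
    IsIntegral ℤ (((Finset.univ.filter (fun x : G => x • a = a)).card : ℂ)⁻¹ *
        ∑ g : G, if g • a ∈ Δ then ρ.character g else 0) ∧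
      ((∑ x : G, if x • a = a then ρ.character x else 0) = 0 →
        (∑ g : G, if g • a ∈ Δ then ρ.character g else 0) = 0) := by
  classical
  set k : ℕ := (Finset.univ.filter (fun x : G => x • a = a)).card with hk
  have hkpos : 0 < k := Finset.card_pos.mpr ⟨1, by simp⟩
  have hk0 : (k : ℂ) ≠ 0 := by exact_mod_cast hkpos.ne'
  set E : Module.End ℂ V := ∑ x : G, if x • a = a then ρ x else 0 with hE
  set S : Module.End ℂ V := ∑ δ ∈ Δ, ρ (rep δ) with hS
  set T : Module.End ℂ V := ∑ g : G, if g • a ∈ Δ then ρ g else 0 with hT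
  have hTSE : T = S * E := by
    rw [hT, sum_decomp a Δ rep hrep (fun g => ρ g), hS, Finset.sum_mul]
    refine Finset.sum_congr rfl (fun δ _ => ?_)
    rw [hE, Finset.mul_sum]
    refine Finset.sum_congr rfl (fun x _ => ?_)
    split_ifs
    · rw [map_mul]
    · rw [mul_zero]
  -- left invariance
  have hhT : ∀ h : G, h • a = a → ρ h * T = T := by
    intro h hh
    rw [hT, Finset.mul_sum]
    rw [← Equiv.sum_comp (Equiv.mulLeft h) (fun g => if g • a ∈ Δ then ρ g else 0)]
    refine Finset.sum_congr rfl (fun g _ => ?_)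
    have h2 : (h * g) • a ∈ Δ ↔ g • a ∈ Δ := by
      rw [mul_smul]
      constructor
      · intro h3
        have hh' : h⁻¹ • a = a := by
          rw [inv_smul_eq_iff, hh]
        have := hΔ h⁻¹ hh' _ h3
        rwa [inv_smul_smul] at this
      · intro h3; exact hΔ h hh _ h3
    simp only [Equiv.coe_mulLeft, h2]
    split_ifs
    · rw [map_mul]
    · rw [mul_zero]
  have hET : E * T = (k : ℂ) • T := by
    rw [hE, Finset.sum_mul]
    have h1 : ∀ x : G, (if x • a = a then ρ x else 0) * T = if x • a = a then T else 0 := by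
      intro x
      split_ifs with hx
      · exact hhT x hx
      · rw [zero_mul]
    rw [Finset.sum_congr rfl (fun x _ => h1 x), ← Finset.sum_filter, Finset.sum_const, ← hk]
    exact (Nat.cast_smul_eq_nsmul ℂ k T).symm
  have hhE : ∀ h : G, h • a = a → ρ h * E = E := by
    intro h hh
    rw [hE, Finset.mul_sum]
    rw [← Equiv.sum_comp (Equiv.mulLeft h) (fun g => if g • a = a then ρ g else 0)]
    refine Finset.sum_congr rfl (fun g _ => ?_)
    have h2 : (h * g) • a = a ↔ g • a = a := by
      rw [mul_smul]
      constructor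
      · intro h3
        have : h • (g • a) = h • a := by rw [h3, hh]
        exact smul_left_cancel _ this
      · intro h3; rw [h3, hh]
    simp only [Equiv.coe_mulLeft, h2]
    split_ifs
    · rw [map_mul]
    · rw [mul_zero]
  have hEE : E * E = (k : ℂ) • E := by
    conv_lhs => rw [hE, Finset.sum_mul]
    have h1 : ∀ x : G, (if x • a = a then ρ x else 0) * E = if x • a = a then E else 0 := by
      intro x
      split_ifs with hx
      · exact hhE x hx
      · rw [zero_mul]
    rw [Finset.sum_congr rfl (fun x _ => h1 x), ← Finset.sum_filter, Finset.sum_const, ← hk]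
    exact (Nat.cast_smul_eq_nsmul ℂ k E).symm
  have htrT : LinearMap.trace ℂ V T = ∑ g : G, if g • a ∈ Δ then ρ.character g else 0 := by
    rw [hT, map_sum]
    refine Finset.sum_congr rfl (fun g _ => ?_)
    split_ifs
    · rfl
    · rw [map_zero]
  have htrE : LinearMap.trace ℂ V E = ∑ x : G, if x • a = a then ρ.character x else 0 := by
    rw [hE, map_sum]
    refine Finset.sum_congr rfl (fun g _ => ?_)
    split_ifs
    · rfl
    · rw [map_zero]
  set e : Module.End ℂ V := (k : ℂ)⁻¹ • E with he
  set B : Module.End ℂ V := (k : ℂ)⁻¹ • T with hB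
  have heB : e * B = B := by
    rw [he, hB, smul_mul_smul_comm, hET, smul_smul]
    congr 1
    field_simp
  have hBS : B = S * e := by
    rw [hB, he, hTSE, mul_smul_comm]
  have hSint : IsIntegral ℤ S := by
    let z : MonoidAlgebra ℤ G := ∑ δ ∈ Δ, MonoidAlgebra.of ℤ G (rep δ)
    let φ : MonoidAlgebra ℤ G →ₐ[ℤ] Module.End ℂ V := MonoidAlgebra.lift ℤ (Module.End ℂ V) G ρ
    have hφ : φ z = S := by
      simp only [z, map_sum, hS]
      refine Finset.sum_congr rfl (fun x _ => ?_)
      exact MonoidAlgebra.lift_of ρ (rep x)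
    have hz : IsIntegral ℤ z := IsIntegral.of_finite ℤ z
    rw [← hφ]
    exact hz.map φ
  constructor
  · have h1 : ((k : ℂ)⁻¹ * ∑ g : G, if g • a ∈ Δ then ρ.character g else 0)
        = LinearMap.trace ℂ V B := by
      rw [hB, map_smul, htrT, smul_eq_mul]
    rw [h1]
    apply trace_integral
    intro μ hμ
    by_cases hμ0 : μ = 0
    · rw [hμ0]; exact isIntegral_zero
    obtain ⟨v, hv⟩ := hμ.exists_hasEigenvector
    have hBv : B v = μ • v := Module.End.mem_eigenspace_iff.mp hv.1
    have hev : e v = v := by
      have h2 : e (B v) = B v := by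
        have := congrArg (fun f : Module.End ℂ V => f v) heB
        simpa using this
      rw [hBv, map_smul] at h2
      exact smul_right_injective V hμ0 h2
    have hSv : S v = μ • v := by
      rw [← hBv, hBS, Module.End.mul_apply, hev]
    exact eigen_integral S hSint μ v hv.2 hSv
  · intro h0
    rw [← htrE] at h0
    have hidem : IsIdempotentElem e := by
      change e * e = e
      rw [he, smul_mul_smul_comm, hEE, smul_smul]
      congr 1
      field_simp
    have htre : LinearMap.trace ℂ V e = 0 := by
      rw [he, map_smul, h0, smul_zero]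
    have he0 : e = 0 := LinearMap.IsIdempotentElem.eq_zero_of_trace_eq_zero hidem htre
    have hE0 : E = 0 := by
      have : (k : ℂ)⁻¹ • E = 0 := he0
      exact (smul_eq_zero.mp this).resolve_left (inv_ne_zero hk0)
    rw [← htrT, hTSE, hE0, mul_zero, map_zero]

/-- the inner product of the permutation character with a character, through the
stabiliser -/
theorem perm_inner [Fintype Ω] (ρ : Representation ℂ G V) (a : Ω) (rep : Ω → G)
    (hrep : ∀ δ, rep δ • a = δ) :
    (∑ g : G, (Nat.card (MulAction.fixedBy Ω g) : ℂ) * conj (ρ.character g))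
      = (Fintype.card Ω : ℂ) * conj (∑ x : G, if x • a = a then ρ.character x else 0) := by
  classical
  have h1 : ∀ g : G, (Nat.card (MulAction.fixedBy Ω g) : ℂ) * conj (ρ.character g)
      = ∑ ω : Ω, if g • ω = ω then conj (ρ.character g) else 0 := by
    intro g
    rw [← Finset.sum_filter, Finset.sum_const, nsmul_eq_mul]
    congr 2
    rw [Nat.card_eq_fintype_card, ← Fintype.card_subtype]
    exact Fintype.card_congr (Equiv.subtypeEquivRight (fun ω => by
      rw [MulAction.mem_fixedBy]))
  rw [Finset.sum_congr rfl (fun g _ => h1 g), Finset.sum_comm]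
  have h2 : ∀ ω : Ω, (∑ g : G, if g • ω = ω then conj (ρ.character g) else 0)
      = conj (∑ x : G, if x • a = a then ρ.character x else 0) := by
    intro ω
    rw [map_sum]
    rw [← Equiv.sum_comp (MulAut.conj (rep ω)).toEquiv]
    refine Finset.sum_congr rfl (fun x _ => ?_)
    have h3' : ∀ (r : G), r • a = ω → ((r * x * r⁻¹) • ω = ω ↔ x • a = a) := by
      intro r hr
      rw [← hr, mul_smul, mul_smul, inv_smul_smul]
      constructor
      · intro h
        exact smul_left_cancel _ h
      · intro h; rw [h]
    have h3 : (MulAut.conj (rep ω)).toEquiv x • ω = ω ↔ x • a = a := h3' (rep ω) (hrep ω)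
    have h4 : ρ.character ((MulAut.conj (rep ω)).toEquiv x) = ρ.character x := by
      change ρ.character (rep ω * x * (rep ω)⁻¹) = _
      exact Representation.char_conj ρ x (rep ω)
    rw [h4]
    simp only [h3]
    split_ifs
    · rfl
    · rw [map_zero]
  rw [Finset.sum_congr rfl (fun ω _ => h2 ω), Finset.sum_const, Finset.card_univ, nsmul_eq_mul]

end act

end Cfsg.Agent.Helper2.SubDeg
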