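import Mathlib
import Cfsg.Agent.Lead.CharCore
import Cfsg.Agent.Lead.CharCore2
import Cfsg.Agent.Lead.CharCore5
import Cfsg.Agent.Lead.CharOdd
import Cfsg.Agent.Lead.PermChar
import Cfsg.Agent.Helper2.MultFree
import Cfsg.Agent.Helper2.ClsSep
import Cfsg.Agent.S0669
import Cfsg.Agent.S0715

/-! Rank, degrees and multiplicity-freeness of permutation characters. -/

set_option autoImplicit false

namespace Cfsg.Agent.Helper2.RankMF

open Cfsg Cfsg.Agent.Lead

universe u v

variable {G : Type u} [Group G] [Fintype G] {Ω : Type v} [Fintype Ω] [MulAction G Ω]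

theorem inner_one [MulAction.IsPretransitive G Ω] [Nonempty Ω] :
    Cfsg.classInner (fun g : G => (Nat.card (MulAction.fixedBy Ω g) : ℂ)) (fun _ => 1) = 1 := by
  have hG : (Nat.card G : ℂ) ≠ 0 := by exact_mod_cast Nat.card_pos.ne'
  show (Nat.card G : ℂ)⁻¹ * ∑ g : G, (Nat.card (MulAction.fixedBy Ω g) : ℂ)
    * (starRingEnd ℂ) (1 : ℂ) = 1
  have h1 : ∑ g : G, (Nat.card (MulAction.fixedBy Ω g) : ℂ) * (starRingEnd ℂ) (1 : ℂ)
      = ((∑ g : G, Nat.card (MulAction.fixedBy Ω g) : ℕ) : ℂ) := by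
    rw [Nat.cast_sum]
    refine Finset.sum_congr rfl (fun g _ => ?_)
    rw [map_one, mul_one]
  rw [h1, burnside_natCard, card_orbitRel_quotient_eq_one, one_mul]
  exact inv_mul_cancel₀ hG

theorem card_fixedBy_prod (g : G) : Nat.card (MulAction.fixedBy (Ω × Ω) g)
    = Nat.card (MulAction.fixedBy Ω g) * Nat.card (MulAction.fixedBy Ω g) := by
  rw [← Nat.card_prod]
  apply Nat.card_congr
  exact {
    toFun := fun x => (⟨x.1.1, congrArg Prod.fst x.2⟩, ⟨x.1.2, congrArg Prod.snd x.2⟩)
    invFun := fun y => ⟨(y.1.1, y.2.1), Prod.ext y.1.2 y.2.2⟩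
    left_inv := fun x => rfl
    right_inv := fun y => rfl }

theorem inner_self :
    Cfsg.classInner (fun g : G => (Nat.card (MulAction.fixedBy Ω g) : ℂ))
      (fun g : G => (Nat.card (MulAction.fixedBy Ω g) : ℂ))
      = (Nat.card (MulAction.orbitRel.Quotient G (Ω × Ω)) : ℂ) := by
  have hG : (Nat.card G : ℂ) ≠ 0 := by exact_mod_cast Nat.card_pos.ne'
  show (Nat.card G : ℂ)⁻¹ * ∑ g : G, (Nat.card (MulAction.fixedBy Ω g) : ℂ)
    * (starRingEnd ℂ) (Nat.card (MulAction.fixedBy Ω g) : ℂ) = _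
  have h1 : ∑ g : G, (Nat.card (MulAction.fixedBy Ω g) : ℂ)
      * (starRingEnd ℂ) (Nat.card (MulAction.fixedBy Ω g) : ℂ)
      = ((∑ g : G, Nat.card (MulAction.fixedBy (Ω × Ω) g) : ℕ) : ℂ) := by
    rw [Nat.cast_sum]
    refine Finset.sum_congr rfl (fun g _ => ?_)
    rw [Complex.conj_natCast, card_fixedBy_prod, Nat.cast_mul]
  rw [h1, burnside_natCard, Nat.cast_mul]
  field_simp

theorem nodup_of_sum_count_le {α : Type*} [DecidableEq α] (s : Multiset α)
    (h : (s.map (fun a => s.count a)).sum ≤ s.card) : s.Nodup := by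
  rw [Multiset.nodup_iff_count_le_one]
  intro a
  by_contra hc
  have hc' : 2 ≤ s.count a := by omega
  have ha : a ∈ s := Multiset.count_pos.mp (by omega)
  obtain ⟨t, rfl⟩ := Multiset.exists_cons_of_mem ha
  rw [Multiset.map_cons, Multiset.sum_cons, Multiset.card_cons] at h
  have h1 : t.card • 1 ≤ (t.map (fun b => (a ::ₘ t).count b)).sum := by
    have := Multiset.card_nsmul_le_sum (s := t.map (fun b => (a ::ₘ t).count b)) (a := 1) (by
      intro x hx
      obtain ⟨b, hb, rfl⟩ := Multiset.mem_map.mp hx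
      exact Multiset.count_pos.mpr (Multiset.mem_cons_of_mem hb))
    rwa [Multiset.card_map] at this
  rw [smul_eq_mul, mul_one] at h1
  omega

theorem sum_deg (m' : Multiset (Cfsg.IrrCharacter G)) (f : ℂ)
    (h : ∀ ψ ∈ m', (ψ : G → ℂ) 1 = f) :
    (m'.map (fun ψ : Cfsg.IrrCharacter G => (ψ : G → ℂ))).sum 1 = (m'.card : ℂ) * f := by
  induction m' using Multiset.induction_on with
  | empty => simp
  | cons a s ih =>
    rw [Multiset.map_cons, Multiset.sum_cons, Pi.add_apply,
      ih (fun ψ hψ => h ψ (Multiset.mem_cons_of_mem hψ)), h a (Multiset.mem_cons_self a s),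
      Multiset.card_cons]
    push_cast
    ring

/-- the principal character as an element of `IrrCharacter` -/
noncomputable def one (G : Type u) [Group G] [Fintype G] : Cfsg.IrrCharacter G :=
  ⟨fun _ => 1, isIrrCharacter_one⟩

/-- decomposition of a transitive permutation character -/
theorem decomp [MulAction.IsPretransitive G Ω] (a : Ω) [DecidableEq (Cfsg.IrrCharacter G)] :
    ∃ m' : Multiset (Cfsg.IrrCharacter G),
      (fun g : G => (Nat.card (MulAction.fixedBy Ω g) : ℂ))
        = ((one G ::ₘ m').map (fun ψ : Cfsg.IrrCharacter G => (ψ : G → ℂ))).sum ∧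
      m'.count (one G) = 0 ∧
      Nat.card (MulAction.orbitRel.Quotient (MulAction.stabilizer G a) Ω)
        = 1 + (m'.map (fun ψ => m'.count ψ)).sum := by
  haveI : Nonempty Ω := ⟨a⟩
  have hπ : (fun g : G => (Nat.card (MulAction.fixedBy Ω g) : ℂ))
      = (Cfsg.permRep ℂ G Ω).character :=
    funext fun g => (MultFree.permRep_char G Ω g).symm
  obtain ⟨m, hm⟩ := exists_multiset_irr_of_rep (Cfsg.permRep ℂ G Ω)
  rw [← hπ] at hm
  have h1 : m.count (one G) = 1 := by
    have h2 := classInner_multiset_irr m (one G)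
    rw [← hm] at h2
    have h3 := inner_one (G := G) (Ω := Ω)
    exact_mod_cast (h2.symm.trans h3)
  have hmem : one G ∈ m := Multiset.count_pos.mp (by omega)
  obtain ⟨m', rfl⟩ := Multiset.exists_cons_of_mem hmem
  rw [Multiset.count_cons_self] at h1
  have h1' : m'.count (one G) = 0 := by omega
  refine ⟨m', hm, h1', ?_⟩
  have h2 := inner_self (G := G) (Ω := Ω)
  rw [Cfsg.Agent.S0669.result a] at h2
  have h4 := classInner_multiset_multiset (one G ::ₘ m') (one G ::ₘ m')
  rw [← hm] at h4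
  have h3 : ((one G ::ₘ m').map (fun ψ => (one G ::ₘ m').count ψ)).sum
      = 1 + (m'.map (fun ψ => m'.count ψ)).sum := by
    rw [Multiset.map_cons, Multiset.sum_cons, Multiset.count_cons_self, h1']
    congr 1
    apply congrArg
    apply Multiset.map_congr rfl
    intro ψ hψ
    rw [Multiset.count_cons_of_ne]
    intro h
    rw [h] at hψ
    exact absurd (Multiset.count_pos.mpr hψ) (by omega)
  rw [h3] at h4
  exact_mod_cast (h2.symm.trans h4)

end Cfsg.Agent.Helper2.RankMF
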