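import Mathlib
import Cfsg.Agent.Helper2.RankMF

/-! Rank, degrees and multiplicity-freeness of permutation characters, II. -/

set_option autoImplicit false

namespace Cfsg.Agent.Helper2.RankMF

open Cfsg Cfsg.Agent.Lead

universe u v

variable {G : Type u} [Group G] [Fintype G] {Ω : Type v} [Fintype Ω] [MulAction G Ω]

theorem orbit_stab_self (a : Ω) : MulAction.orbit (MulAction.stabilizer G a) a = {a} := by
  ext x
  constructor
  · rintro ⟨h, rfl⟩
    exact h.2
  · intro hx
    rw [Set.mem_singleton_iff] at hx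
    rw [hx]
    exact MulAction.mem_orbit_self a

theorem card_eq_sum_suborbits (a : Ω)
    [Fintype (MulAction.orbitRel.Quotient (MulAction.stabilizer G a) Ω)] :
    Fintype.card Ω = ∑ q : MulAction.orbitRel.Quotient (MulAction.stabilizer G a) Ω,
      Nat.card (MulAction.orbit (MulAction.stabilizer G a) q.out) := by
  rw [← Nat.card_eq_fintype_card,
    Nat.card_congr (MulAction.selfEquivSigmaOrbits (MulAction.stabilizer G a) Ω), Nat.card_sigma]

theorem mf_of_nodup [DecidableEq (Cfsg.IrrCharacter G)] (m' : Multiset (Cfsg.IrrCharacter G))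
    (F : G → ℂ)
    (hm : F = ((one G ::ₘ m').map (fun ψ : Cfsg.IrrCharacter G => (ψ : G → ℂ))).sum)
    (h1' : m'.count (one G) = 0) (hnd : m'.Nodup)
    (χ : G → ℂ) (hχ : Cfsg.IsIrrCharacter G χ) :
    Cfsg.classInner F χ = 0 ∨ Cfsg.classInner F χ = 1 := by
  have hc : Cfsg.classInner F χ = ((one G ::ₘ m').count ⟨χ, hχ⟩ : ℂ) := by
    rw [hm]; exact classInner_multiset_irr _ ⟨χ, hχ⟩
  rw [hc]
  by_cases hχ1 : (⟨χ, hχ⟩ : Cfsg.IrrCharacter G) = one G
  · right
    rw [hχ1, Multiset.count_cons_self, h1']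
    simp
  · rw [Multiset.count_cons_of_ne hχ1]
    have := Multiset.nodup_iff_count_le_one.mp hnd ⟨χ, hχ⟩
    rcases Nat.le_one_iff_eq_zero_or_eq_one.mp this with h | h
    · left; rw [h]; simp
    · right; rw [h]; simp

theorem part_a [MulAction.IsPretransitive G Ω] (a : Ω) (f : ℕ)
    (hf : ∀ χ : G → ℂ, Cfsg.IsIrrCharacter G χ → χ ≠ (fun _ => 1) →
      Cfsg.classInner (fun g : G => (Nat.card (MulAction.fixedBy Ω g) : ℂ)) χ ≠ 0 → χ 1 = f) :
    (∀ χ : G → ℂ, Cfsg.IsIrrCharacter G χ →
      Cfsg.classInner (fun g : G => (Nat.card (MulAction.fixedBy Ω g) : ℂ)) χ = 0 ∨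
      Cfsg.classInner (fun g : G => (Nat.card (MulAction.fixedBy Ω g) : ℂ)) χ = 1) ∧
    ∀ b : Ω, b ≠ a → Nat.card (MulAction.orbit (MulAction.stabilizer G a) b) = f := by
  classical
  obtain ⟨m', hm, h1', hr⟩ := decomp (G := G) a
  have hcount : ∀ φ : Cfsg.IrrCharacter G,
      Cfsg.classInner (fun g : G => (Nat.card (MulAction.fixedBy Ω g) : ℂ)) (φ : G → ℂ)
        = ((one G ::ₘ m').count φ : ℂ) := by
    intro φ
    rw [hm]
    exact classInner_multiset_irr _ φ
  have hne : ∀ ψ ∈ m', ψ ≠ one G := by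
    intro ψ hψ h
    rw [h] at hψ
    exact absurd (Multiset.count_pos.mpr hψ) (by omega)
  have hdeg : ∀ ψ ∈ m', (ψ : G → ℂ) 1 = f := by
    intro ψ hψ
    apply hf ψ ψ.2
    · intro h
      exact hne ψ hψ (Subtype.ext h)
    · rw [hcount ψ]
      have : 0 < (one G ::ₘ m').count ψ := Multiset.count_pos.mpr (Multiset.mem_cons_of_mem hψ)
      exact_mod_cast this.ne'
  have hn : Fintype.card Ω = 1 + m'.card * f := by
    have h2 := congrFun hm 1
    rw [Multiset.map_cons, Multiset.sum_cons, Pi.add_apply, sum_deg m' f hdeg] at h2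
    have h3 : Nat.card (MulAction.fixedBy Ω (1 : G)) = Fintype.card Ω := by
      rw [← Nat.card_eq_fintype_card]
      exact Nat.card_congr (Equiv.subtypeUnivEquiv (fun x => one_smul G x))
    have h4 : ((one G : Cfsg.IrrCharacter G) : G → ℂ) 1 = 1 := rfl
    rw [h4] at h2
    have h5 : (Nat.card (MulAction.fixedBy Ω (1 : G)) : ℂ) = 1 + (m'.card : ℂ) * f := h2
    rw [h3] at h5
    exact_mod_cast h5
  haveI : Fintype (MulAction.orbitRel.Quotient (MulAction.stabilizer G a) Ω) := Fintype.ofFinite _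
  let q₀ : MulAction.orbitRel.Quotient (MulAction.stabilizer G a) Ω := Quotient.mk'' a
  let s : MulAction.orbitRel.Quotient (MulAction.stabilizer G a) Ω → ℕ :=
    fun q => Nat.card (MulAction.orbit (MulAction.stabilizer G a) q.out)
  have hsum : Fintype.card Ω = ∑ q, s q := card_eq_sum_suborbits a
  have hout : ∀ q : MulAction.orbitRel.Quotient (MulAction.stabilizer G a) Ω, q ≠ q₀ →
      q.out ≠ a := by
    intro q hq h
    apply hq
    rw [← Quotient.out_eq' q, h]
  have hs0 : s q₀ = 1 := by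
    have h1 : q₀.out ∈ MulAction.orbit (MulAction.stabilizer G a) a :=
      Quotient.exact' (Quotient.out_eq' q₀)
    rw [orbit_stab_self, Set.mem_singleton_iff] at h1
    show Nat.card (MulAction.orbit (MulAction.stabilizer G a) q₀.out) = 1
    rw [h1, orbit_stab_self]
    simp
  have hfs : ∀ q : MulAction.orbitRel.Quotient (MulAction.stabilizer G a) Ω, q ≠ q₀ →
      f ≤ s q := by
    intro q hq
    have hd : f ∣ s q := Cfsg.Agent.S0715.result f
      (fun χ hχ hne hin => ⟨1, by rw [hf χ hχ hne hin]; simp⟩) a q.out (hout q hq)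
    haveI : Nonempty (MulAction.orbit (MulAction.stabilizer G a) q.out) :=
      ⟨⟨q.out, MulAction.mem_orbit_self _⟩⟩
    have hpos : 0 < s q := Nat.card_pos
    exact Nat.le_of_dvd hpos hd
  have hsplit : ∑ q, s q = 1 + ∑ q ∈ Finset.univ.erase q₀, s q := by
    rw [← Finset.add_sum_erase Finset.univ s (Finset.mem_univ q₀), hs0]
  have hS : ∑ q ∈ Finset.univ.erase q₀, s q = m'.card * f := by
    have h1 : (1 : ℕ) + ∑ q ∈ Finset.univ.erase q₀, s q = 1 + m'.card * f := by
      rw [← hsplit, ← hsum, hn]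
    omega
  have hcardQ : (Finset.univ.erase q₀).card = (m'.map (fun ψ => m'.count ψ)).sum := by
    rw [Finset.card_erase_of_mem (Finset.mem_univ q₀), Finset.card_univ,
      ← Nat.card_eq_fintype_card, hr]
    omega
  have hle : (Finset.univ.erase q₀).card * f ≤ ∑ q ∈ Finset.univ.erase q₀, s q := by
    have := Finset.card_nsmul_le_sum (Finset.univ.erase q₀) s f
      (fun q hq => hfs q (Finset.ne_of_mem_erase hq))
    rwa [smul_eq_mul] at this
  have htc : m'.card ≤ (m'.map (fun ψ => m'.count ψ)).sum := by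
    have := Multiset.card_nsmul_le_sum (s := m'.map (fun ψ => m'.count ψ)) (a := 1) (by
      intro x hx
      obtain ⟨b, hb, rfl⟩ := Multiset.mem_map.mp hx
      exact Multiset.count_pos.mpr hb)
    rwa [Multiset.card_map, smul_eq_mul, mul_one] at this
  have htf : (m'.map (fun ψ => m'.count ψ)).sum * f ≤ m'.card * f := by
    rw [← hcardQ, ← hS]
    exact hle
  have htc' : (m'.map (fun ψ => m'.count ψ)).sum ≤ m'.card := by
    rcases Nat.eq_zero_or_pos f with hf0 | hfpos
    · have hm0 : m' = 0 := by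
        by_contra hne0
        obtain ⟨ψ, hψ⟩ := Multiset.exists_mem_of_ne_zero hne0
        have h1 := hdeg ψ hψ
        rw [hf0] at h1
        exact Cfsg.Agent.Helper2.ClsSep.irr_one_ne_zero ψ.2 (by simpa using h1)
      rw [hm0]
      simp
    · exact Nat.le_of_mul_le_mul_right htf hfpos
  have hnodup : m'.Nodup := nodup_of_sum_count_le m' htc'
  constructor
  · intro χ hχ
    exact mf_of_nodup m' _ hm h1' hnodup χ hχ
  · intro b hb
    have heq : ∑ q ∈ Finset.univ.erase q₀, f = ∑ q ∈ Finset.univ.erase q₀, s q := by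
      rw [Finset.sum_const, smul_eq_mul, hS, hcardQ, le_antisymm htc' htc]
    have hall := (Finset.sum_eq_sum_iff_of_le
      (fun q hq => hfs q (Finset.ne_of_mem_erase hq))).mp heq
    let q : MulAction.orbitRel.Quotient (MulAction.stabilizer G a) Ω := Quotient.mk'' b
    have hq : q ≠ q₀ := by
      intro h
      have h1 : b ∈ MulAction.orbit (MulAction.stabilizer G a) a := Quotient.exact' h
      rw [orbit_stab_self, Set.mem_singleton_iff] at h1
      exact hb h1
    have h6 := hall q (Finset.mem_erase.mpr ⟨hq, Finset.mem_univ q⟩)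
    have h7 : MulAction.orbit (MulAction.stabilizer G a) q.out
        = MulAction.orbit (MulAction.stabilizer G a) b := by
      apply MulAction.orbit_eq_iff.mpr
      exact Quotient.exact' (Quotient.out_eq' q)
    rw [← h7]
    exact h6.symm

theorem part_b [MulAction.IsPretransitive G Ω] (a : Ω)
    (hrank : Nat.card (MulAction.orbitRel.Quotient (MulAction.stabilizer G a) Ω) ≤ 5) :
    ∀ χ : G → ℂ, Cfsg.IsIrrCharacter G χ →
      Cfsg.classInner (fun g : G => (Nat.card (MulAction.fixedBy Ω g) : ℂ)) χ = 0 ∨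
      Cfsg.classInner (fun g : G => (Nat.card (MulAction.fixedBy Ω g) : ℂ)) χ = 1 := by
  classical
  obtain ⟨m', hm, h1', hr⟩ := decomp (G := G) a
  have hcount : ∀ φ : Cfsg.IrrCharacter G,
      Cfsg.classInner (fun g : G => (Nat.card (MulAction.fixedBy Ω g) : ℂ)) (φ : G → ℂ)
        = ((one G ::ₘ m').count φ : ℂ) := by
    intro φ
    rw [hm]
    exact classInner_multiset_irr _ φ
  by_cases hnd : m'.Nodup
  · intro χ hχ
    exact mf_of_nodup m' _ hm h1' hnd χ hχ
  · exfalso
    rw [Multiset.nodup_iff_count_le_one] at hnd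
    push_neg at hnd
    obtain ⟨χ, hχ2⟩ := hnd
    have hmem : χ ∈ m' := Multiset.count_pos.mp (by omega)
    obtain ⟨m₁, rfl⟩ := Multiset.exists_cons_of_mem hmem
    rw [Multiset.count_cons_self] at hχ2
    have hmem₁ : χ ∈ m₁ := Multiset.count_pos.mp (by omega)
    obtain ⟨m₂, rfl⟩ := Multiset.exists_cons_of_mem hmem₁
    have hχne : χ ≠ one G := by
      intro h
      rw [h, Multiset.count_cons_self] at h1'
      omega
    have ht : 4 + m₂.card
        ≤ ((χ ::ₘ χ ::ₘ m₂).map (fun ψ => (χ ::ₘ χ ::ₘ m₂).count ψ)).sum := by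
      rw [Multiset.map_cons, Multiset.sum_cons, Multiset.map_cons, Multiset.sum_cons,
        Multiset.count_cons_self, Multiset.count_cons_self]
      have h1 : m₂.card • 1 ≤ (m₂.map (fun ψ => (χ ::ₘ χ ::ₘ m₂).count ψ)).sum := by
        have := Multiset.card_nsmul_le_sum (s := m₂.map (fun ψ => (χ ::ₘ χ ::ₘ m₂).count ψ))
          (a := 1) (by
            intro x hx
            obtain ⟨b, hb, rfl⟩ := Multiset.mem_map.mp hx
            exact Multiset.count_pos.mpr
              (Multiset.mem_cons_of_mem (Multiset.mem_cons_of_mem hb)))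
        rwa [Multiset.card_map] at this
      rw [smul_eq_mul, mul_one] at h1
      omega
    have hm₂ : m₂ = 0 := by
      apply Multiset.card_eq_zero.mp
      omega
    subst hm₂
    obtain ⟨d, hd0, hd⟩ := isIrrCharacter_one_eq_nat χ.2
    have hA := (part_a a d (by
      intro χ' hχ' hne hin
      have hc := hcount ⟨χ', hχ'⟩
      have hmem' : (⟨χ', hχ'⟩ : Cfsg.IrrCharacter G) ∈ one G ::ₘ χ ::ₘ χ ::ₘ 0 :=
        Multiset.count_pos.mp (Nat.pos_of_ne_zero (fun h0 => hin (by
          rw [show Cfsg.classInner (fun g : G => (Nat.card (MulAction.fixedBy Ω g) : ℂ)) χ'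
            = _ from hc, h0]
          simp)))
      simp only [Multiset.mem_cons, Multiset.notMem_zero, or_false] at hmem'
      rcases hmem' with h | h | h
      · exact absurd (congrArg Subtype.val h) hne
      · rw [← hd, ← h]
      · rw [← hd, ← h])).1 χ χ.2
    have hc := hcount χ
    have h2 : (one G ::ₘ χ ::ₘ χ ::ₘ 0).count χ = 2 := by
      rw [Multiset.count_cons_of_ne hχne, Multiset.count_cons_self, Multiset.count_cons_self]
      simp
    rw [hc, h2] at hA
    norm_num at hA

end Cfsg.Agent.Helper2.RankMF
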