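import Mathlib
import Cfsg.Agent.Helper2.GenTrans3
import Cfsg.Agent.Helper2.RankMF2
import Cfsg.Agent.Helper2.Rank3Arith
import Cfsg.Agent.Lead.CharConj2

/-! Rank three groups: orbital operators and basic structure. -/

set_option autoImplicit false

namespace Cfsg.Agent.Helper2.Rank3

open Cfsg Cfsg.Agent.Lead Cfsg.Agent.Helper2.GenTrans

universe u v

section entries

variable {Ω : Type v} [Fintype Ω] [DecidableEq Ω]

theorem comp_entry (A B : (Ω → ℂ) →ₗ[ℂ] (Ω → ℂ)) (α β : Ω) :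
    (A ∘ₗ B) (Pi.single β 1) α = ∑ γ, A (Pi.single γ 1) α * B (Pi.single β 1) γ := by
  have h := congrFun (congrFun (LinearMap.toMatrix'_comp A B) α) β
  rw [Matrix.mul_apply] at h
  exact h

theorem ext_entry (A B : (Ω → ℂ) →ₗ[ℂ] (Ω → ℂ))
    (h : ∀ α β, A (Pi.single β 1) α = B (Pi.single β 1) α) : A = B :=
  LinearMap.toMatrix'.injective (Matrix.ext (fun α β => h α β))

theorem trace_entry (A : (Ω → ℂ) →ₗ[ℂ] (Ω → ℂ)) :
    LinearMap.trace ℂ (Ω → ℂ) A = ∑ α, A (Pi.single α 1) α := by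
  rw [LinearMap.trace_eq_matrix_trace ℂ (Pi.basisFun ℂ Ω), LinearMap.toMatrix_eq_toMatrix']
  rfl

end entries

section orbital

variable (G : Type u) [Group G] {Ω : Type v} [MulAction G Ω]

/-- the orbital matrix of the pair `(a, b)` -/
noncomputable def orbM (a b : Ω) : Matrix Ω Ω ℂ := fun α β => by
  classical
  exact if ∃ g : G, g • a = α ∧ g • b = β then 1 else 0

theorem orbM_pos (a b α β : Ω) (h : ∃ g : G, g • a = α ∧ g • b = β) : orbM G a b α β = 1 := by
  unfold orbM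
  exact if_pos h

theorem orbM_neg (a b α β : Ω) (h : ¬ ∃ g : G, g • a = α ∧ g • b = β) : orbM G a b α β = 0 := by
  unfold orbM
  exact if_neg h

theorem orbM_inv (a b α β : Ω) (g : G) : orbM G a b (g • α) (g • β) = orbM G a b α β := by
  by_cases h : ∃ k : G, k • a = α ∧ k • b = β
  · rw [orbM_pos G a b α β h]
    obtain ⟨k, rfl, rfl⟩ := h
    exact orbM_pos G a b _ _ ⟨g * k, mul_smul _ _ _, mul_smul _ _ _⟩
  · rw [orbM_neg G a b α β h]
    apply orbM_neg
    rintro ⟨k, h1, h2⟩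
    apply h
    refine ⟨g⁻¹ * k, ?_, ?_⟩
    · rw [mul_smul, h1, inv_smul_smul]
    · rw [mul_smul, h2, inv_smul_smul]

theorem orbM_sq (a b α β : Ω) : orbM G a b α β * orbM G a b α β = orbM G a b α β := by
  by_cases h : ∃ k : G, k • a = α ∧ k • b = β
  · rw [orbM_pos G a b α β h, mul_one]
  · rw [orbM_neg G a b α β h, mul_zero]

variable [Fintype Ω] [DecidableEq Ω]

/-- the orbital operator of the pair `(a, b)` -/
noncomputable def orb (a b : Ω) : (Ω → ℂ) →ₗ[ℂ] (Ω → ℂ) := Matrix.toLin' (orbM G a b)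

theorem orb_entry (a b α β : Ω) : orb G a b (Pi.single β 1) α = orbM G a b α β := by
  unfold orb
  rw [Matrix.toLin'_apply, Matrix.mulVec_single_one]
  rfl

theorem orb_equiv (a b : Ω) (g : G) (x : Ω → ℂ) :
    orb G a b (Cfsg.permRep ℂ G Ω g x) = Cfsg.permRep ℂ G Ω g (orb G a b x) := by
  funext α
  show (Matrix.toLin' (orbM G a b)) (Cfsg.permRep ℂ G Ω g x) α
    = (Matrix.toLin' (orbM G a b) x) (g⁻¹ • α)
  rw [Matrix.toLin'_apply, Matrix.toLin'_apply]
  show ∑ β, orbM G a b α β * (Cfsg.permRep ℂ G Ω g x) β = ∑ β, orbM G a b (g⁻¹ • α) β * x β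
  refine Fintype.sum_equiv (MulAction.toPerm g⁻¹) _ _ (fun β => ?_)
  show orbM G a b α β * x (g⁻¹ • β) = orbM G a b (g⁻¹ • α) (g⁻¹ • β) * x (g⁻¹ • β)
  rw [orbM_inv]

end orbital

section struct

variable {G : Type u} [Group G] [Fintype G] {Ω : Type v} [Fintype Ω] [MulAction G Ω]

theorem E_const_entry [DecidableEq Ω] [MulAction.IsPretransitive G Ω] (a₀ α β : Ω) :
    E (Cfsg.permRep ℂ G Ω) (fun _ => (1:ℂ)) (Pi.single β 1) α
      = ((Finset.univ.filter (fun g : G => g • a₀ = a₀)).card : ℂ) := by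
  rw [E_entry]
  obtain ⟨t, rfl⟩ := MulAction.exists_smul_eq G a₀ β
  obtain ⟨t', rfl⟩ := MulAction.exists_smul_eq G a₀ α
  rw [Finset.card_filter]
  push_cast
  refine Fintype.sum_equiv ((Equiv.mulLeft t'⁻¹).trans (Equiv.mulRight t)) _ _ (fun g => ?_)
  show (if g • t • a₀ = t' • a₀ then (1:ℂ) else 0) = if (t'⁻¹ * g * t) • a₀ = a₀ then 1 else 0
  have h : (t'⁻¹ * g * t) • a₀ = a₀ ↔ g • t • a₀ = t' • a₀ := by
    rw [mul_smul, mul_smul, inv_smul_eq_iff]
  simp only [h]

theorem R1 [MulAction.IsPretransitive G Ω] [Nonempty Ω] {m : ℕ} (χ₁ χ₂ : G → ℂ)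
    (h₁ : Cfsg.IsIrrCharacter G χ₁) (h₂ : Cfsg.IsIrrCharacter G χ₂)
    (hπ : (fun g : G => (Nat.card (MulAction.fixedBy Ω g) : ℂ)) = fun g => 1 + χ₁ g + χ₂ g)
    (hd₁ : χ₁ 1 = (m : ℂ) - 1) (hd₂ : χ₂ 1 = m) :
    χ₁ ≠ χ₂ ∧ χ₁ ≠ (fun _ => 1) ∧ χ₂ ≠ (fun _ => 1) ∧
    (∀ χ : G → ℂ, Cfsg.IsIrrCharacter G χ → (χ = (fun _ => 1) ∨ χ = χ₁ ∨ χ = χ₂) →
      Cfsg.classInner (fun g : G => (Nat.card (MulAction.fixedBy Ω g) : ℂ)) χ = 1) ∧
    (∀ χ : G → ℂ, Cfsg.IsIrrCharacter G χ → χ ≠ (fun _ => 1) → χ ≠ χ₁ → χ ≠ χ₂ →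
      Cfsg.classInner (fun g : G => (Nat.card (MulAction.fixedBy Ω g) : ℂ)) χ = 0) ∧
    (∀ g, (starRingEnd ℂ) (χ₁ g) = χ₁ g) ∧ (∀ g, (starRingEnd ℂ) (χ₂ g) = χ₂ g) := by
  classical
  have h0 : Cfsg.IsIrrCharacter G (fun _ : G => (1:ℂ)) := isIrrCharacter_one
  have hπ' : (fun g : G => (Nat.card (MulAction.fixedBy Ω g) : ℂ))
      = (fun _ => (1:ℂ)) + χ₁ + χ₂ := by rw [hπ]; rfl
  have hin : ∀ χ : G → ℂ,
      Cfsg.classInner (fun g : G => (Nat.card (MulAction.fixedBy Ω g) : ℂ)) χ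
        = Cfsg.classInner (fun _ => (1:ℂ)) χ + Cfsg.classInner χ₁ χ + Cfsg.classInner χ₂ χ := by
    intro χ
    rw [hπ', classInner_add_left, classInner_add_left]
  have hself : ∀ {χ : G → ℂ}, Cfsg.IsIrrCharacter G χ → Cfsg.classInner χ χ = 1 :=
    fun h => classInner_self_of_isIrrCharacter h
  have h12 : χ₁ ≠ χ₂ := by
    intro h
    rw [h, hd₂] at hd₁
    have : (1:ℂ) = 0 := by linear_combination hd₁
    exact one_ne_zero this
  have hone := RankMF.inner_one (G := G) (Ω := Ω)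
  rw [hin, hself h0] at hone
  have h10 : χ₁ ≠ (fun _ => 1) := by
    intro h
    rw [h, hself h0] at hone
    by_cases h2 : χ₂ = (fun _ => 1)
    · rw [h2, hself h0] at hone; norm_num at hone
    · rw [inner_irr_ne h₂ h0 h2] at hone; norm_num at hone
  have h20 : χ₂ ≠ (fun _ => 1) := by
    intro h
    rw [h, hself h0, inner_irr_ne h₁ h0 h10] at hone
    norm_num at hone
  have hpos : ∀ χ : G → ℂ, Cfsg.IsIrrCharacter G χ → (χ = (fun _ => 1) ∨ χ = χ₁ ∨ χ = χ₂) →
      Cfsg.classInner (fun g : G => (Nat.card (MulAction.fixedBy Ω g) : ℂ)) χ = 1 := by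
    intro χ hχ hc
    rw [hin]
    rcases hc with rfl | rfl | rfl
    · rw [hself h0, inner_irr_ne h₁ h0 h10, inner_irr_ne h₂ h0 h20]; ring
    · rw [inner_irr_ne h0 h₁ (Ne.symm h10), hself h₁, inner_irr_ne h₂ h₁ (Ne.symm h12)]; ring
    · rw [inner_irr_ne h0 h₂ (Ne.symm h20), inner_irr_ne h₁ h₂ h12, hself h₂]; ring
  have hzero : ∀ χ : G → ℂ, Cfsg.IsIrrCharacter G χ → χ ≠ (fun _ => 1) → χ ≠ χ₁ → χ ≠ χ₂ →
      Cfsg.classInner (fun g : G => (Nat.card (MulAction.fixedBy Ω g) : ℂ)) χ = 0 := by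
    intro χ hχ c0 c1 c2
    rw [hin, inner_irr_ne h0 hχ (Ne.symm c0), inner_irr_ne h₁ hχ (Ne.symm c1),
      inner_irr_ne h₂ hχ (Ne.symm c2)]
    ring
  have hreal : ∀ χ : G → ℂ,
      Cfsg.classInner (fun g : G => (Nat.card (MulAction.fixedBy Ω g) : ℂ)) χ = 1 →
      Cfsg.classInner (fun g : G => (Nat.card (MulAction.fixedBy Ω g) : ℂ))
        (fun g => (starRingEnd ℂ) (χ g)) = 1 := by
    intro χ h1
    have h2 := classInner_conj_conj χ (fun g : G => (Nat.card (MulAction.fixedBy Ω g) : ℂ))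
    have h3 : (fun g : G => (starRingEnd ℂ) ((Nat.card (MulAction.fixedBy Ω g) : ℂ)))
        = (fun g : G => (Nat.card (MulAction.fixedBy Ω g) : ℂ)) :=
      funext (fun g => Complex.conj_natCast _)
    rw [h3] at h2
    rw [← classInner_conj_symm, h2, h1, map_one]
  refine ⟨h12, h10, h20, hpos, hzero, ?_, ?_⟩
  · have hψ := isIrrCharacter_conj h₁
    have h1 := hreal χ₁ (hpos χ₁ h₁ (Or.inr (Or.inl rfl)))
    by_contra hne
    have c1 : (fun g => (starRingEnd ℂ) (χ₁ g)) ≠ χ₁ := fun h => hne (fun g => congrFun h g)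
    have c0 : (fun g => (starRingEnd ℂ) (χ₁ g)) ≠ (fun _ => 1) := by
      intro h
      apply h10
      funext g
      have h' := congrArg (starRingEnd ℂ) (congrFun h g)
      rw [Complex.conj_conj, map_one] at h'
      exact h'
    by_cases c2 : (fun g => (starRingEnd ℂ) (χ₁ g)) = χ₂
    · have h4 : (starRingEnd ℂ) (χ₁ 1) = χ₂ 1 := congrFun c2 1
      rw [hd₁, hd₂, map_sub, Complex.conj_natCast, map_one] at h4
      have : (1:ℂ) = 0 := by linear_combination (-1 : ℂ) * h4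
      exact one_ne_zero this
    · rw [hzero _ hψ c0 c1 c2] at h1
      exact zero_ne_one h1
  · have hψ := isIrrCharacter_conj h₂
    have h1 := hreal χ₂ (hpos χ₂ h₂ (Or.inr (Or.inr rfl)))
    by_contra hne
    have c2 : (fun g => (starRingEnd ℂ) (χ₂ g)) ≠ χ₂ := fun h => hne (fun g => congrFun h g)
    have c0 : (fun g => (starRingEnd ℂ) (χ₂ g)) ≠ (fun _ => 1) := by
      intro h
      apply h20
      funext g
      have h' := congrArg (starRingEnd ℂ) (congrFun h g)
      rw [Complex.conj_conj, map_one] at h'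
      exact h'
    by_cases c1 : (fun g => (starRingEnd ℂ) (χ₂ g)) = χ₁
    · have h4 : (starRingEnd ℂ) (χ₂ 1) = χ₁ 1 := congrFun c1 1
      rw [hd₁, hd₂, Complex.conj_natCast] at h4
      have : (1:ℂ) = 0 := by linear_combination h4
      exact one_ne_zero this
    · rw [hzero _ hψ c0 c1 c2] at h1
      exact zero_ne_one h1

theorem R2 (a₀ : Ω)
    (hrank : Nat.card (MulAction.orbitRel.Quotient (MulAction.stabilizer G a₀) Ω) = 3) :
    ∃ b₁ b₂ : Ω, b₁ ≠ a₀ ∧ b₂ ≠ a₀ ∧
      (∀ b : Ω, b ≠ a₀ → b ∈ MulAction.orbit (MulAction.stabilizer G a₀) b₁ ∨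
        b ∈ MulAction.orbit (MulAction.stabilizer G a₀) b₂) ∧
      1 + Nat.card (MulAction.orbit (MulAction.stabilizer G a₀) b₁)
        + Nat.card (MulAction.orbit (MulAction.stabilizer G a₀) b₂) = Fintype.card Ω := by
  classical
  haveI : Fintype (MulAction.orbitRel.Quotient (MulAction.stabilizer G a₀) Ω) := Fintype.ofFinite _
  let q₀ : MulAction.orbitRel.Quotient (MulAction.stabilizer G a₀) Ω := Quotient.mk'' a₀
  have hcard : (Finset.univ.erase q₀).card = 2 := by
    rw [Finset.card_erase_of_mem (Finset.mem_univ q₀), Finset.card_univ,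
      ← Nat.card_eq_fintype_card, hrank]
  obtain ⟨q₁, q₂, hq12, hq⟩ := Finset.card_eq_two.mp hcard
  have hq1 : q₁ ≠ q₀ := by
    have : q₁ ∈ Finset.univ.erase q₀ := by rw [hq]; simp
    exact Finset.ne_of_mem_erase this
  have hq2 : q₂ ≠ q₀ := by
    have : q₂ ∈ Finset.univ.erase q₀ := by rw [hq]; simp
    exact Finset.ne_of_mem_erase this
  have hout : ∀ q : MulAction.orbitRel.Quotient (MulAction.stabilizer G a₀) Ω, q ≠ q₀ →
      q.out ≠ a₀ := by
    intro q hq h
    apply hq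
    rw [← Quotient.out_eq' q, h]
  refine ⟨q₁.out, q₂.out, hout q₁ hq1, hout q₂ hq2, ?_, ?_⟩
  · intro b hb
    have hbq : (Quotient.mk'' b : MulAction.orbitRel.Quotient (MulAction.stabilizer G a₀) Ω)
        ≠ q₀ := by
      intro h
      have h1 : b ∈ MulAction.orbit (MulAction.stabilizer G a₀) a₀ := Quotient.exact' h
      rw [RankMF.orbit_stab_self, Set.mem_singleton_iff] at h1
      exact hb h1
    have hmem : (Quotient.mk'' b : MulAction.orbitRel.Quotient (MulAction.stabilizer G a₀) Ω)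
        ∈ Finset.univ.erase q₀ := Finset.mem_erase.mpr ⟨hbq, Finset.mem_univ _⟩
    rw [hq] at hmem
    simp only [Finset.mem_insert, Finset.mem_singleton] at hmem
    rcases hmem with h | h
    · left
      exact Quotient.exact' (h.trans (Quotient.out_eq' q₁).symm)
    · right
      exact Quotient.exact' (h.trans (Quotient.out_eq' q₂).symm)
  · have hsum := RankMF.card_eq_sum_suborbits (G := G) a₀
    rw [← Finset.add_sum_erase Finset.univ _ (Finset.mem_univ q₀), hq,
      Finset.sum_pair hq12] at hsum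
    have hs0 : Nat.card (MulAction.orbit (MulAction.stabilizer G a₀) q₀.out) = 1 := by
      have h1 : q₀.out ∈ MulAction.orbit (MulAction.stabilizer G a₀) a₀ :=
        Quotient.exact' (Quotient.out_eq' q₀)
      rw [RankMF.orbit_stab_self, Set.mem_singleton_iff] at h1
      rw [h1, RankMF.orbit_stab_self]
      simp
    rw [hs0] at hsum
    omega

theorem R3 (hprim : MulAction.IsPreprimitive G Ω) (a₀ b : Ω) (hb : b ≠ a₀)
    (h1 : Nat.card (MulAction.orbit (MulAction.stabilizer G a₀) b) = 1) :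
    ∀ x : Ω, Nat.card (MulAction.orbit (MulAction.stabilizer G a₀) x) = 1 := by
  haveI : Nontrivial Ω := ⟨⟨b, a₀, hb⟩⟩
  haveI := hprim
  haveI : MulAction.IsPretransitive G Ω := hprim.toIsPretransitive
  have hco : IsCoatom (MulAction.stabilizer G a₀) :=
    (MulAction.isCoatom_stabilizer_iff_preprimitive (G := G) (X := Ω) a₀).mpr hprim
  have hfix : ∀ h ∈ MulAction.stabilizer G a₀, h • b = b := by
    intro h hh
    haveI : Subsingleton (MulAction.orbit (MulAction.stabilizer G a₀) b) :=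
      (Nat.card_eq_one_iff_unique.mp h1).1
    have e := Subsingleton.elim
      (⟨(⟨h, hh⟩ : MulAction.stabilizer G a₀) • b, MulAction.mem_orbit _ _⟩ :
        MulAction.orbit (MulAction.stabilizer G a₀) b) ⟨b, MulAction.mem_orbit_self _⟩
    exact congrArg Subtype.val e
  have hle : MulAction.stabilizer G a₀ ≤ MulAction.stabilizer G b := fun h hh => hfix h hh
  obtain ⟨g, hg⟩ := MulAction.exists_smul_eq G a₀ b
  have hne_top : MulAction.stabilizer G b ≠ ⊤ := by
    intro h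
    obtain ⟨t, ht⟩ := MulAction.exists_smul_eq G b a₀
    have h2 : t ∈ MulAction.stabilizer G b := by rw [h]; exact Subgroup.mem_top t
    have h3 : t • b = b := h2
    exact hb (h3.symm.trans ht)
  have heq : MulAction.stabilizer G b = MulAction.stabilizer G a₀ := by
    by_contra hne
    exact hne_top (hco.2 _ (lt_of_le_of_ne hle (Ne.symm hne)))
  have key : ∀ h : G, g * h * g⁻¹ ∈ MulAction.stabilizer G a₀ ↔
      h ∈ MulAction.stabilizer G a₀ := by
    intro h
    have e1 : g * h * g⁻¹ ∈ MulAction.stabilizer G a₀ ↔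
        g * h * g⁻¹ ∈ MulAction.stabilizer G b := by rw [heq]
    rw [e1, MulAction.mem_stabilizer_iff, MulAction.mem_stabilizer_iff, ← hg, mul_smul, mul_smul,
      inv_smul_smul, smul_left_cancel_iff]
  have hgn : g ∈ Subgroup.normalizer (MulAction.stabilizer G a₀ : Set G) := by
    rw [Subgroup.mem_normalizer_iff]
    exact fun h => (key h).symm
  have hgH : g ∉ MulAction.stabilizer G a₀ := by
    intro h
    have h3 : g • a₀ = a₀ := h
    exact hb (hg.symm.trans h3)
  have hN : Subgroup.normalizer (MulAction.stabilizer G a₀ : Set G) = ⊤ := by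
    apply hco.2
    exact lt_of_le_of_ne Subgroup.le_normalizer (fun h => hgH (by rw [h]; exact hgn))
  intro x
  obtain ⟨t, rfl⟩ := MulAction.exists_smul_eq G a₀ x
  have hx : MulAction.orbit (MulAction.stabilizer G a₀) (t • a₀) = {t • a₀} := by
    ext y
    constructor
    · rintro ⟨h, rfl⟩
      have ht : t⁻¹ ∈ Subgroup.normalizer (MulAction.stabilizer G a₀ : Set G) := by
        rw [hN]; exact Subgroup.mem_top _
      have h2 := (Subgroup.mem_normalizer_iff.mp ht (h : G)).mp h.2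
      rw [inv_inv, MulAction.mem_stabilizer_iff, mul_smul, mul_smul, inv_smul_eq_iff] at h2
      exact h2
    · intro hy
      rw [Set.mem_singleton_iff] at hy
      rw [hy]
      exact MulAction.mem_orbit_self _
  rw [hx]
  simp

end struct

end Cfsg.Agent.Helper2.Rank3
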