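import Mathlib
import Cfsg.Agent.Helper2.Rank3

/-! Rank three groups of Wielandt type: the parameters. -/

set_option autoImplicit false

namespace Cfsg.Agent.Helper2.Rank3

open Cfsg Cfsg.Agent.Lead Cfsg.Agent.Helper2.GenTrans

universe u v

set_option maxHeartbeats 1600000 in
theorem main {G : Type u} [Group G] [Fintype G] {Ω : Type v} [Fintype Ω] [MulAction G Ω]
    [DecidableEq Ω]
    (hprim : MulAction.IsPreprimitive G Ω) {m : ℕ} (hm : Fintype.card Ω = 2 * m) (a₀ : Ω)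
    (hrank : Nat.card (MulAction.orbitRel.Quotient (MulAction.stabilizer G a₀) Ω) = 3)
    (χ₁ χ₂ : G → ℂ) (h₁ : Cfsg.IsIrrCharacter G χ₁) (h₂ : Cfsg.IsIrrCharacter G χ₂)
    (hπ : (fun g : G => (Nat.card (MulAction.fixedBy Ω g) : ℂ)) = fun g => 1 + χ₁ g + χ₂ g)
    (hd₁ : χ₁ 1 = (m : ℂ) - 1) (hd₂ : χ₂ 1 = m) :
    ∃ a : ℕ, 0 < a ∧ m = 2 * a ^ 2 + 2 * a + 1 ∧ ∀ b : Ω, b ≠ a₀ →
      Nat.card (MulAction.orbit (MulAction.stabilizer G a₀) b) = a * (2 * a + 1) ∨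
      Nat.card (MulAction.orbit (MulAction.stabilizer G a₀) b) = (a + 1) * (2 * a + 1) := by
  classical
  haveI : MulAction.IsPretransitive G Ω := hprim.toIsPretransitive
  haveI : Nonempty Ω := ⟨a₀⟩
  haveI : Finite (Cfsg.IrrCharacter G) := finite_irrCharacter G
  haveI : Fintype (Cfsg.IrrCharacter G) := Fintype.ofFinite _
  obtain ⟨h12, h10, h20, hpos, hzero, hr1, hr2⟩ := R1 (Ω := Ω) χ₁ χ₂ h₁ h₂ hπ hd₁ hd₂
  have h0 : Cfsg.IsIrrCharacter G (fun _ : G => (1:ℂ)) := isIrrCharacter_one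
  have hGne : (Nat.card G : ℂ) ≠ 0 := by exact_mod_cast Nat.card_pos.ne'
  -- generous transitivity
  have hgen : ∀ a b : Ω, ∃ g : G, g • a = b ∧ g • b = a := by
    intro a b
    refine gen_of_mf_real (G := G) (Ω := Ω) ?_ a b
    intro χ hχ hne
    by_cases c0 : χ = (fun _ => 1)
    · exact ⟨hpos χ hχ (Or.inl c0), fun g => by rw [c0]; exact map_one _⟩
    by_cases c1 : χ = χ₁
    · exact ⟨hpos χ hχ (Or.inr (Or.inl c1)), fun g => by rw [c1]; exact hr1 g⟩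
    by_cases c2 : χ = χ₂
    · exact ⟨hpos χ hχ (Or.inr (Or.inr c2)), fun g => by rw [c2]; exact hr2 g⟩
    exact absurd (hzero χ hχ c0 c1 c2) hne
  obtain ⟨b₁, b₂, hb1, hb2, hcover, hsum⟩ := R2 (G := G) a₀ hrank
  obtain ⟨k, hk⟩ : ∃ k, k = Nat.card (MulAction.orbit (MulAction.stabilizer G a₀) b₁) := ⟨_, rfl⟩
  obtain ⟨l, hl⟩ : ∃ l, l = Nat.card (MulAction.orbit (MulAction.stabilizer G a₀) b₂) := ⟨_, rfl⟩
  rw [← hk, ← hl, hm] at hsum
  have hkpos : 1 ≤ k := by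
    haveI : Nonempty (MulAction.orbit (MulAction.stabilizer G a₀) b₁) :=
      ⟨⟨b₁, MulAction.mem_orbit_self _⟩⟩
    rw [hk]
    exact Nat.card_pos
  have hlpos : 1 ≤ l := by
    haveI : Nonempty (MulAction.orbit (MulAction.stabilizer G a₀) b₂) :=
      ⟨⟨b₂, MulAction.mem_orbit_self _⟩⟩
    rw [hl]
    exact Nat.card_pos
  have hm2 : 2 ≤ m := by omega
  have hmC : (m : ℂ) ≠ 0 := by exact_mod_cast (by omega : m ≠ 0)
  have hm1C : (m : ℂ) - 1 ≠ 0 := by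
    have : ((m - 1 : ℕ) : ℂ) ≠ 0 := by exact_mod_cast (by omega : m - 1 ≠ 0)
    rwa [Nat.cast_sub (by omega), Nat.cast_one] at this
  have hπc : (fun g : G => (Nat.card (MulAction.fixedBy Ω g) : ℂ))
      = (Cfsg.permRep ℂ G Ω).character :=
    funext fun g => (MultFree.permRep_char G Ω g).symm
  -- the orbital operator
  have hAeq : ∀ g x, orb G a₀ b₁ (Cfsg.permRep ℂ G Ω g x)
      = Cfsg.permRep ℂ G Ω g (orb G a₀ b₁ x) := orb_equiv G a₀ b₁
  have hAsym : ∀ α β, orbM G a₀ b₁ α β = orbM G a₀ b₁ β α := by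
    intro α β
    obtain ⟨t, ht1, ht2⟩ := hgen α β
    have h := orbM_inv G a₀ b₁ α β t
    rw [ht1, ht2] at h
    exact h.symm
  have hAdiag : ∀ α, orbM G a₀ b₁ α α = 0 := by
    intro α
    apply orbM_neg
    rintro ⟨g, e1, e2⟩
    apply hb1
    exact smul_left_cancel g (e2.trans e1.symm)
  have hArow0 : ∑ β, orbM G a₀ b₁ a₀ β = (k : ℂ) := by
    have e1 : ∀ β, orbM G a₀ b₁ a₀ β
        = if β ∈ MulAction.orbit (MulAction.stabilizer G a₀) b₁ then 1 else 0 := by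
      intro β
      by_cases hβ : β ∈ MulAction.orbit (MulAction.stabilizer G a₀) b₁
      · rw [if_pos hβ]
        obtain ⟨h, rfl⟩ := hβ
        exact orbM_pos G a₀ b₁ _ _ ⟨(h : G), h.2, rfl⟩
      · rw [if_neg hβ]
        apply orbM_neg
        rintro ⟨g, hg1, hg2⟩
        exact hβ ⟨⟨g, hg1⟩, hg2⟩
    rw [Finset.sum_congr rfl (fun β _ => e1 β), Finset.sum_boole]
    have hcard : Nat.card (MulAction.orbit (MulAction.stabilizer G a₀) b₁)
        = (Finset.univ.filter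
          (fun β => β ∈ MulAction.orbit (MulAction.stabilizer G a₀) b₁)).card := by
      rw [← Fintype.card_coe, ← Nat.card_eq_fintype_card]
      exact Nat.card_congr (Equiv.subtypeEquivRight (fun β => by simp))
    rw [hk, hcard]
  have hArow : ∀ α, ∑ β, orbM G a₀ b₁ α β = (k : ℂ) := by
    intro α
    obtain ⟨t, rfl⟩ := MulAction.exists_smul_eq G a₀ α
    rw [← hArow0]
    refine (Fintype.sum_equiv (MulAction.toPerm t) _ _ (fun β => ?_)).symm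
    exact (orbM_inv G a₀ b₁ a₀ β t).symm
  -- decomposition
  have hmf : ∀ χ : G → ℂ, Cfsg.IsIrrCharacter G χ →
      Cfsg.classInner (Cfsg.permRep ℂ G Ω).character χ = 0 ∨
      Cfsg.classInner (Cfsg.permRep ℂ G Ω).character χ = 1 := by
    intro χ hχ
    rw [← hπc]
    by_cases c0 : χ = (fun _ => 1)
    · right; exact hpos χ hχ (Or.inl c0)
    by_cases c1 : χ = χ₁
    · right; exact hpos χ hχ (Or.inr (Or.inl c1))
    by_cases c2 : χ = χ₂
    · right; exact hpos χ hχ (Or.inr (Or.inr c2))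
    left; exact hzero χ hχ c0 c1 c2
  obtain ⟨c, hc0, hcA⟩ := decomp_comm _ (Cfsg.permRep ℂ G Ω) hmf (orb G a₀ b₁) hAeq
  obtain ⟨φ₀, hφ₀⟩ : ∃ φ : Cfsg.IrrCharacter G, φ = ⟨fun _ => 1, h0⟩ := ⟨_, rfl⟩
  obtain ⟨φ₁, hφ₁⟩ : ∃ φ : Cfsg.IrrCharacter G, φ = ⟨χ₁, h₁⟩ := ⟨_, rfl⟩
  obtain ⟨φ₂, hφ₂⟩ : ∃ φ : Cfsg.IrrCharacter G, φ = ⟨χ₂, h₂⟩ := ⟨_, rfl⟩
  have hφ01 : φ₀ ≠ φ₁ := by
    rw [hφ₀, hφ₁]; exact fun h => h10 (congrArg Subtype.val h).symm
  have hφ02 : φ₀ ≠ φ₂ := by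
    rw [hφ₀, hφ₂]; exact fun h => h20 (congrArg Subtype.val h).symm
  have hφ12 : φ₁ ≠ φ₂ := by
    rw [hφ₁, hφ₂]; exact fun h => h12 (congrArg Subtype.val h)
  obtain ⟨E₀, hE₀⟩ : ∃ E₀, E₀ = E (Cfsg.permRep ℂ G Ω)
    (fun g => (starRingEnd ℂ) ((fun _ : G => (1:ℂ)) g)) := ⟨_, rfl⟩
  obtain ⟨E₁, hE₁⟩ : ∃ E₁, E₁ = E (Cfsg.permRep ℂ G Ω) (fun g => (starRingEnd ℂ) (χ₁ g)) :=
    ⟨_, rfl⟩
  obtain ⟨E₂, hE₂⟩ : ∃ E₂, E₂ = E (Cfsg.permRep ℂ G Ω) (fun g => (starRingEnd ℂ) (χ₂ g)) :=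
    ⟨_, rfl⟩
  have hA3 : orb G a₀ b₁ = c φ₀ • E₀ + c φ₁ • E₁ + c φ₂ • E₂ := by
    have hsub := Finset.sum_subset
      (Finset.subset_univ ({φ₀, φ₁, φ₂} : Finset (Cfsg.IrrCharacter G)))
      (f := fun χ : Cfsg.IrrCharacter G => c χ • E (Cfsg.permRep ℂ G Ω)
        (fun g => (starRingEnd ℂ) ((χ : G → ℂ) g))) (by
        intro χ _ hχ
        simp only [Finset.mem_insert, Finset.mem_singleton, not_or] at hχ
        have hz : c χ = 0 := by
          apply hc0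
          rw [← hπc]
          apply hzero χ.1 χ.2
          · intro h; exact hχ.1 (by rw [hφ₀]; exact Subtype.ext h)
          · intro h; exact hχ.2.1 (by rw [hφ₁]; exact Subtype.ext h)
          · intro h; exact hχ.2.2 (by rw [hφ₂]; exact Subtype.ext h)
        rw [hz, zero_smul])
    rw [hcA, ← hsub, Finset.sum_insert (by
        simp only [Finset.mem_insert, Finset.mem_singleton, not_or]; exact ⟨hφ01, hφ02⟩),
      Finset.sum_insert (by simp only [Finset.mem_singleton]; exact hφ12),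
      Finset.sum_singleton, hE₀, hE₁, hE₂, hφ₀, hφ₁, hφ₂]
    exact (add_assoc _ _ _).symm
  -- orthogonality
  have hmul := E_mul (Ω → ℂ) (Cfsg.permRep ℂ G Ω)
  have o01 : E₀ ∘ₗ E₁ = 0 := by rw [hE₀, hE₁]; exact (hmul _ _ h0 h₁).1 (Ne.symm h10)
  have o02 : E₀ ∘ₗ E₂ = 0 := by rw [hE₀, hE₂]; exact (hmul _ _ h0 h₂).1 (Ne.symm h20)
  have o10 : E₁ ∘ₗ E₀ = 0 := by rw [hE₀, hE₁]; exact (hmul _ _ h₁ h0).1 h10
  have o12 : E₁ ∘ₗ E₂ = 0 := by rw [hE₁, hE₂]; exact (hmul _ _ h₁ h₂).1 h12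
  have o20 : E₂ ∘ₗ E₀ = 0 := by rw [hE₀, hE₂]; exact (hmul _ _ h₂ h0).1 h20
  have o21 : E₂ ∘ₗ E₁ = 0 := by rw [hE₁, hE₂]; exact (hmul _ _ h₂ h₁).1 (Ne.symm h12)
  have o00 : E₀ ∘ₗ E₀ = ((Nat.card G : ℂ) / 1) • E₀ := by
    rw [hE₀]; exact (hmul _ _ h0 h0).2
  have o11 : E₁ ∘ₗ E₁ = ((Nat.card G : ℂ) / ((m : ℂ) - 1)) • E₁ := by
    rw [hE₁, ← hd₁]; exact (hmul _ _ h₁ h₁).2
  have o22 : E₂ ∘ₗ E₂ = ((Nat.card G : ℂ) / (m : ℂ)) • E₂ := by
    rw [hE₂, ← hd₂]; exact (hmul _ _ h₂ h₂).2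
  -- traces
  have tr0 : LinearMap.trace ℂ (Ω → ℂ) E₀ = (Nat.card G : ℂ) := by
    rw [hE₀, E_trace]
    exact sum_of_inner_one _ _ (by rw [← hπc]; exact hpos _ h0 (Or.inl rfl))
  have tr1 : LinearMap.trace ℂ (Ω → ℂ) E₁ = (Nat.card G : ℂ) := by
    rw [hE₁, E_trace]
    exact sum_of_inner_one _ _ (by rw [← hπc]; exact hpos _ h₁ (Or.inr (Or.inl rfl)))
  have tr2 : LinearMap.trace ℂ (Ω → ℂ) E₂ = (Nat.card G : ℂ) := by
    rw [hE₂, E_trace]
    exact sum_of_inner_one _ _ (by rw [← hπc]; exact hpos _ h₂ (Or.inr (Or.inr rfl)))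
  -- eigenvalues
  obtain ⟨a0, ha0⟩ : ∃ x : ℂ, x = c φ₀ * ((Nat.card G : ℂ) / 1) := ⟨_, rfl⟩
  obtain ⟨a1, ha1⟩ : ∃ x : ℂ, x = c φ₁ * ((Nat.card G : ℂ) / ((m : ℂ) - 1)) := ⟨_, rfl⟩
  obtain ⟨a2, ha2⟩ : ∃ x : ℂ, x = c φ₂ * ((Nat.card G : ℂ) / (m : ℂ)) := ⟨_, rfl⟩
  have hAE0 : orb G a₀ b₁ ∘ₗ E₀ = a0 • E₀ := by
    rw [hA3, LinearMap.add_comp, LinearMap.add_comp, LinearMap.smul_comp, LinearMap.smul_comp,
      LinearMap.smul_comp, o00, o10, o20, smul_zero, smul_zero, add_zero, add_zero, smul_smul,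
      ← ha0]
  have hAE1 : orb G a₀ b₁ ∘ₗ E₁ = a1 • E₁ := by
    rw [hA3, LinearMap.add_comp, LinearMap.add_comp, LinearMap.smul_comp, LinearMap.smul_comp,
      LinearMap.smul_comp, o01, o11, o21, smul_zero, smul_zero, zero_add, add_zero, smul_smul,
      ← ha1]
  have hAE2 : orb G a₀ b₁ ∘ₗ E₂ = a2 • E₂ := by
    rw [hA3, LinearMap.add_comp, LinearMap.add_comp, LinearMap.smul_comp, LinearMap.smul_comp,
      LinearMap.smul_comp, o02, o12, o22, smul_zero, smul_zero, zero_add, zero_add, smul_smul,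
      ← ha2]
  have e0 : c φ₀ * (Nat.card G : ℂ) = a0 := by rw [ha0, div_one]
  have e1 : c φ₁ * (Nat.card G : ℂ) = a1 * ((m : ℂ) - 1) := by rw [ha1]; field_simp
  have e2 : c φ₂ * (Nat.card G : ℂ) = a2 * (m : ℂ) := by rw [ha2]; field_simp
  -- trace of A
  have trA : LinearMap.trace ℂ (Ω → ℂ) (orb G a₀ b₁) = 0 := by
    rw [trace_entry]
    exact Finset.sum_eq_zero (fun α _ => by rw [orb_entry]; exact hAdiag α)
  have trA' : LinearMap.trace ℂ (Ω → ℂ) (orb G a₀ b₁)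
      = (c φ₀ + c φ₁ + c φ₂) * (Nat.card G : ℂ) := by
    rw [hA3, map_add, map_add, map_smul, map_smul, map_smul, tr0, tr1, tr2, smul_eq_mul,
      smul_eq_mul, smul_eq_mul]
    ring
  -- the all-ones operator
  obtain ⟨N₀, hN₀⟩ : ∃ N₀ : ℕ, N₀ = (Finset.univ.filter (fun g : G => g • a₀ = a₀)).card :=
    ⟨_, rfl⟩
  have hN₀pos : (N₀ : ℂ) ≠ 0 := by
    have : 0 < N₀ := by rw [hN₀]; exact Finset.card_pos.mpr ⟨1, by simp⟩
    exact_mod_cast this.ne'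
  have hfun : (fun g : G => (starRingEnd ℂ) ((fun _ : G => (1:ℂ)) g)) = (fun _ => (1:ℂ)) :=
    funext (fun g => map_one _)
  have hE₀entry : ∀ α β, E₀ (Pi.single β 1) α = (N₀ : ℂ) := by
    intro α β
    rw [hE₀, hfun, hN₀]
    exact E_const_entry (G := G) a₀ α β
  have ha0k : a0 = (k : ℂ) := by
    have h1 : (orb G a₀ b₁ ∘ₗ E₀) (Pi.single a₀ 1) a₀ = (k : ℂ) * N₀ := by
      rw [comp_entry]
      have e : ∀ γ, orb G a₀ b₁ (Pi.single γ 1) a₀ * E₀ (Pi.single a₀ 1) γ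
          = orbM G a₀ b₁ a₀ γ * (N₀ : ℂ) := fun γ => by rw [orb_entry, hE₀entry]
      rw [Finset.sum_congr rfl (fun γ _ => e γ), ← Finset.sum_mul, hArow]
    rw [hAE0, LinearMap.smul_apply, Pi.smul_apply, hE₀entry, smul_eq_mul] at h1
    exact mul_right_cancel₀ hN₀pos h1
  -- A ∘ A
  have hAAdiag : ∀ α, (orb G a₀ b₁ ∘ₗ orb G a₀ b₁) (Pi.single α 1) α = (k : ℂ) := by
    intro α
    rw [comp_entry]
    have e : ∀ γ, orb G a₀ b₁ (Pi.single γ 1) α * orb G a₀ b₁ (Pi.single α 1) γ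
        = orbM G a₀ b₁ α γ := fun γ => by
      rw [orb_entry, orb_entry, hAsym γ α, orbM_sq]
    rw [Finset.sum_congr rfl (fun γ _ => e γ), hArow]
  have trAA : LinearMap.trace ℂ (Ω → ℂ) (orb G a₀ b₁ ∘ₗ orb G a₀ b₁) = 2 * (m : ℂ) * k := by
    rw [trace_entry, Finset.sum_congr rfl (fun α _ => hAAdiag α), Finset.sum_const,
      Finset.card_univ, hm, nsmul_eq_mul]
    push_cast
    ring
  have hAA3 : orb G a₀ b₁ ∘ₗ orb G a₀ b₁
      = (c φ₀ * a0) • E₀ + (c φ₁ * a1) • E₁ + (c φ₂ * a2) • E₂ := by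
    have h1 : orb G a₀ b₁ ∘ₗ orb G a₀ b₁
        = orb G a₀ b₁ ∘ₗ (c φ₀ • E₀ + c φ₁ • E₁ + c φ₂ • E₂) :=
      congrArg (fun X => orb G a₀ b₁ ∘ₗ X) hA3
    rw [h1, LinearMap.comp_add, LinearMap.comp_add, LinearMap.comp_smul, LinearMap.comp_smul,
      LinearMap.comp_smul, hAE0, hAE1, hAE2, smul_smul, smul_smul, smul_smul]
  have rel1 : (k : ℂ) + ((m : ℂ) - 1) * a1 + (m : ℂ) * a2 = 0 := by
    have h1 := trA'.symm.trans trA
    rw [ha0k] at e0
    linear_combination h1 - e0 - e1 - e2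
  have rel2 : (k : ℂ) ^ 2 + ((m : ℂ) - 1) * a1 ^ 2 + (m : ℂ) * a2 ^ 2 = 2 * (m : ℂ) * k := by
    have t := trAA
    rw [hAA3, map_add, map_add, map_smul, map_smul, map_smul, tr0, tr1, tr2, smul_eq_mul,
      smul_eq_mul, smul_eq_mul, ha0k] at t
    rw [ha0k] at e0
    linear_combination t - (k : ℂ) * e0 - a1 * e1 - a2 * e2
  -- the quadratic relation
  have hAAeq : ∀ g x, (orb G a₀ b₁ ∘ₗ orb G a₀ b₁) (Cfsg.permRep ℂ G Ω g x)
      = Cfsg.permRep ℂ G Ω g ((orb G a₀ b₁ ∘ₗ orb G a₀ b₁) x) := fun g x => by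
    rw [LinearMap.comp_apply, LinearMap.comp_apply, hAeq, hAeq]
  have natval : ∀ α β, ∃ n : ℕ, (orb G a₀ b₁ ∘ₗ orb G a₀ b₁) (Pi.single β 1) α = n := by
    intro α β
    rw [comp_entry]
    have e : ∀ γ, ∃ n : ℕ,
        orb G a₀ b₁ (Pi.single γ 1) α * orb G a₀ b₁ (Pi.single β 1) γ = n := by
      intro γ
      rw [orb_entry, orb_entry]
      by_cases c1 : ∃ g : G, g • a₀ = α ∧ g • b₁ = γ
      · by_cases c2 : ∃ g : G, g • a₀ = γ ∧ g • b₁ = β
        · exact ⟨1, by rw [orbM_pos G _ _ _ _ c1, orbM_pos G _ _ _ _ c2]; simp⟩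
        · exact ⟨0, by rw [orbM_neg G _ _ _ _ c2]; simp⟩
      · exact ⟨0, by rw [orbM_neg G _ _ _ _ c1]; simp⟩
    choose f hf using e
    exact ⟨∑ γ, f γ, by rw [Finset.sum_congr rfl (fun γ _ => hf γ)]; push_cast; rfl⟩
  obtain ⟨lam, hlam⟩ := natval a₀ b₁
  obtain ⟨mu, hmu⟩ := natval a₀ b₂
  have hquad : orb G a₀ b₁ ∘ₗ orb G a₀ b₁ = ((k : ℂ) - mu) • LinearMap.id
      + ((lam : ℂ) - mu) • orb G a₀ b₁ + ((mu : ℂ) / N₀) • E₀ := by
    apply ext_entry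
    intro α β
    rw [LinearMap.add_apply, LinearMap.add_apply, LinearMap.smul_apply, LinearMap.smul_apply,
      LinearMap.smul_apply, Pi.add_apply, Pi.add_apply, Pi.smul_apply, Pi.smul_apply,
      Pi.smul_apply, hE₀entry, orb_entry, LinearMap.id_apply, smul_eq_mul, smul_eq_mul,
      smul_eq_mul, div_mul_cancel₀ _ hN₀pos]
    by_cases hαβ : α = β
    · subst hαβ
      rw [hAAdiag, hAdiag, Pi.single_eq_same]
      ring
    · rw [Pi.single_eq_of_ne hαβ]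
      by_cases hA : ∃ g : G, g • a₀ = α ∧ g • b₁ = β
      · rw [orbM_pos G _ _ _ _ hA]
        obtain ⟨g, rfl, rfl⟩ := hA
        rw [entry_inv _ hAAeq g a₀ b₁, hlam]
        ring
      · rw [orbM_neg G _ _ _ _ hA]
        obtain ⟨t, rfl⟩ := MulAction.exists_smul_eq G a₀ α
        have hβ' : t⁻¹ • β ≠ a₀ := by
          intro h
          apply hαβ
          rw [← h, smul_inv_smul]
        rcases hcover _ hβ' with ⟨h, hh⟩ | ⟨h, hh⟩
        · exfalso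
          apply hA
          have hh' : (h : G) • b₁ = t⁻¹ • β := hh
          have hfix : (h : G) • a₀ = a₀ := h.2
          refine ⟨t * (h : G), ?_, ?_⟩
          · rw [mul_smul, hfix]
          · rw [mul_smul, hh', smul_inv_smul]
        · have hh' : (h : G) • b₂ = t⁻¹ • β := hh
          have hfix : (h : G) • a₀ = a₀ := h.2
          have hβ : β = (t * (h : G)) • b₂ := by
            rw [mul_smul, hh', smul_inv_smul]
          have hα : t • a₀ = (t * (h : G)) • a₀ := by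
            rw [mul_smul, hfix]
          rw [hβ, hα, entry_inv _ hAAeq (t * (h : G)) a₀ b₂, hmu]
          ring
  have hE1ne : E₁ ≠ 0 := by
    intro h
    rw [h, map_zero] at tr1
    exact hGne tr1.symm
  have hE2ne : E₂ ≠ 0 := by
    intro h
    rw [h, map_zero] at tr2
    exact hGne tr2.symm
  have q1 : a1 ^ 2 = ((k : ℂ) - mu) + ((lam : ℂ) - mu) * a1 := by
    have hl : (orb G a₀ b₁ ∘ₗ orb G a₀ b₁) ∘ₗ E₁ = (a1 * a1) • E₁ := by
      rw [LinearMap.comp_assoc, hAE1, LinearMap.comp_smul, hAE1, smul_smul]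
    have hr : (orb G a₀ b₁ ∘ₗ orb G a₀ b₁) ∘ₗ E₁
        = (((k : ℂ) - mu) + ((lam : ℂ) - mu) * a1) • E₁ := by
      rw [hquad, LinearMap.add_comp, LinearMap.add_comp, LinearMap.smul_comp,
        LinearMap.smul_comp, LinearMap.smul_comp, LinearMap.id_comp, hAE1, o01, smul_zero,
        add_zero, smul_smul, ← add_smul]
    have h4 := hl.symm.trans hr
    obtain ⟨v, hv⟩ : ∃ v, E₁ v ≠ 0 := by
      by_contra hcon
      push_neg at hcon
      exact hE1ne (LinearMap.ext (fun v => by rw [hcon v]; rfl))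
    have h5 := LinearMap.congr_fun h4 v
    rw [LinearMap.smul_apply, LinearMap.smul_apply] at h5
    have h6 := smul_left_injective ℂ hv h5
    linear_combination h6
  have q2 : a2 ^ 2 = ((k : ℂ) - mu) + ((lam : ℂ) - mu) * a2 := by
    have hl : (orb G a₀ b₁ ∘ₗ orb G a₀ b₁) ∘ₗ E₂ = (a2 * a2) • E₂ := by
      rw [LinearMap.comp_assoc, hAE2, LinearMap.comp_smul, hAE2, smul_smul]
    have hr : (orb G a₀ b₁ ∘ₗ orb G a₀ b₁) ∘ₗ E₂
        = (((k : ℂ) - mu) + ((lam : ℂ) - mu) * a2) • E₂ := by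
      rw [hquad, LinearMap.add_comp, LinearMap.add_comp, LinearMap.smul_comp,
        LinearMap.smul_comp, LinearMap.smul_comp, LinearMap.id_comp, hAE2, o02, smul_zero,
        add_zero, smul_smul, ← add_smul]
    have h4 := hl.symm.trans hr
    obtain ⟨v, hv⟩ : ∃ v, E₂ v ≠ 0 := by
      by_contra hcon
      push_neg at hcon
      exact hE2ne (LinearMap.ext (fun v => by rw [hcon v]; rfl))
    have h5 := LinearMap.congr_fun h4 v
    rw [LinearMap.smul_apply, LinearMap.smul_apply] at h5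
    have h6 := smul_left_injective ℂ hv h5
    linear_combination h6
  rcases arith m k l lam mu a1 a2 hkpos hlpos hsum rel1 rel2 q1 q2 with
    hk1 | hl1 | ⟨a, ha, hma, hcases⟩
  · exfalso
    have hall := R3 hprim a₀ b₁ hb1 (hk ▸ hk1)
    have h2 : l = 1 := by rw [hl]; exact hall b₂
    omega
  · exfalso
    have hall := R3 hprim a₀ b₂ hb2 (hl ▸ hl1)
    have h2 : k = 1 := by rw [hk]; exact hall b₁
    omega
  · refine ⟨a, ha, hma, ?_⟩
    intro b hb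
    rcases hcover b hb with h | h
    · have hb' : MulAction.orbit (MulAction.stabilizer G a₀) b
          = MulAction.orbit (MulAction.stabilizer G a₀) b₁ := MulAction.orbit_eq_iff.mpr h
      rw [hb', ← hk]
      rcases hcases with ⟨hk', _⟩ | ⟨hk', _⟩
      · left; exact hk'
      · right; exact hk'
    · have hb' : MulAction.orbit (MulAction.stabilizer G a₀) b
          = MulAction.orbit (MulAction.stabilizer G a₀) b₂ := MulAction.orbit_eq_iff.mpr h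
      rw [hb', ← hl]
      rcases hcases with ⟨_, hl'⟩ | ⟨_, hl'⟩
      · right; exact hl'
      · left; exact hl'

end Cfsg.Agent.Helper2.Rank3
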