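import Mathlib
import Cfsg.Prelude.Def_LieRecognition
import Cfsg.Agent.Helper2.RankOne

namespace Cfsg.Agent.Helper2.RankOne

variable {G Ω : Type*} [Group G] [MulAction G Ω] {a : Ω} {t : G} {Q : Subgroup G}

lemma t_inv (hS : Cfsg.IsRankOneSetup G Ω a t Q) : t⁻¹ = t :=
  inv_eq_of_mul_eq_one_left hS.mul_self

lemma t_t_mul (hS : Cfsg.IsRankOneSetup G Ω a t Q) (z : G) : t * (t * z) = z := by
  rw [← mul_assoc, hS.mul_self, one_mul]

lemma t_smul_t (hS : Cfsg.IsRankOneSetup G Ω a t Q) (b : Ω) : t • (t • b) = b := by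
  rw [← mul_smul, hS.mul_self, one_smul]

lemma D_fix_a {d : G}
    (hd : d ∈ MulAction.stabilizer G a ⊓ MulAction.stabilizer G (t • a)) : d • a = a :=
  (Subgroup.mem_inf.mp hd).1

lemma D_fix_ta {d : G}
    (hd : d ∈ MulAction.stabilizer G a ⊓ MulAction.stabilizer G (t • a)) : d • (t • a) = t • a :=
  (Subgroup.mem_inf.mp hd).2

lemma t_conj_D (hS : Cfsg.IsRankOneSetup G Ω a t Q) {d : G}
    (hd : d ∈ MulAction.stabilizer G a ⊓ MulAction.stabilizer G (t • a)) :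
    t * d * t ∈ MulAction.stabilizer G a ⊓ MulAction.stabilizer G (t • a) := by
  refine Subgroup.mem_inf.mpr ⟨?_, ?_⟩
  · rw [MulAction.mem_stabilizer_iff, mul_smul, mul_smul, D_fix_ta hd, t_smul_t hS]
  · rw [MulAction.mem_stabilizer_iff, mul_smul, mul_smul, t_smul_t hS, D_fix_a hd]

lemma D_conj_Q (hS : Cfsg.IsRankOneSetup G Ω a t Q) {d x : G}
    (hd : d ∈ MulAction.stabilizer G a ⊓ MulAction.stabilizer G (t • a)) (hx : x ∈ Q) :
    d * x * d⁻¹ ∈ Q := hS.conj_mem d (Subgroup.mem_inf.mp hd).1 x hx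

lemma D_conj_Q' (hS : Cfsg.IsRankOneSetup G Ω a t Q) {d x : G}
    (hd : d ∈ MulAction.stabilizer G a ⊓ MulAction.stabilizer G (t • a)) (hx : x ∈ Q) :
    d⁻¹ * x * d ∈ Q := by
  have := D_conj_Q hS (inv_mem hd) hx
  rwa [inv_inv] at this

lemma t_Q_t_not_mem (hS : Cfsg.IsRankOneSetup G Ω a t Q) {x : G} (hx : x ∈ Q) (hx1 : x ≠ 1) :
    t * x * t ∉ MulAction.stabilizer G a := by
  intro h
  rw [MulAction.mem_stabilizer_iff, mul_smul, mul_smul] at h
  apply hx1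
  apply Q_free hS hx (ta_ne hS)
  have := congrArg (fun b => t • b) h
  simp only [t_smul_t hS] at this
  exact this

/-- uniqueness of the decomposition `g * h * t * f` with `g, f ∈ Q`, `h ∈ D` -/
lemma bruhat_unique (hS : Cfsg.IsRankOneSetup G Ω a t Q) {g h f g' h' f' : G}
    (hg : g ∈ Q) (hh : h ∈ MulAction.stabilizer G a ⊓ MulAction.stabilizer G (t • a)) (hf : f ∈ Q)
    (hg' : g' ∈ Q) (hh' : h' ∈ MulAction.stabilizer G a ⊓ MulAction.stabilizer G (t • a))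
    (hf' : f' ∈ Q) (e : g * h * t * f = g' * h' * t * f') : g = g' ∧ h = h' ∧ f = f' := by
  have e1 : t * (f * f'⁻¹) * t = (g * h)⁻¹ * (g' * h') := by
    calc t * (f * f'⁻¹) * t = (g * h)⁻¹ * (g * h * t * f) * f'⁻¹ * t := by group
      _ = (g * h)⁻¹ * (g' * h' * t * f') * f'⁻¹ * t := by rw [e]
      _ = (g * h)⁻¹ * (g' * h') * (t * t) := by group
      _ = (g * h)⁻¹ * (g' * h') := by rw [hS.mul_self, mul_one]
  have e2 : t * (f * f'⁻¹) * t ∈ MulAction.stabilizer G a := by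
    rw [e1]
    exact mul_mem (inv_mem (mul_mem (hS.le hg) (Subgroup.mem_inf.mp hh).1))
      (mul_mem (hS.le hg') (Subgroup.mem_inf.mp hh').1)
  have e3 : f * f'⁻¹ = 1 := by
    by_contra hne
    exact t_Q_t_not_mem hS (mul_mem hf (inv_mem hf')) hne e2
  have hff : f = f' := mul_inv_eq_one.mp e3
  subst hff
  have e4 : g * h = g' * h' := mul_right_cancel (mul_right_cancel e)
  have e5 : g'⁻¹ * g = h' * h⁻¹ := by
    calc g'⁻¹ * g = g'⁻¹ * (g * h) * h⁻¹ := by group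
      _ = g'⁻¹ * (g' * h') * h⁻¹ := by rw [e4]
      _ = h' * h⁻¹ := by group
  have e6 : g'⁻¹ * g ∈ Q ⊓ MulAction.stabilizer G (t • a) := by
    refine Subgroup.mem_inf.mpr ⟨mul_mem (inv_mem hg') hg, ?_⟩
    rw [e5]
    exact mul_mem (Subgroup.mem_inf.mp hh').2 (inv_mem (Subgroup.mem_inf.mp hh).2)
  rw [hS.inf_eq_bot, Subgroup.mem_bot] at e6
  have hgg : g' = g := inv_mul_eq_one.mp e6
  subst hgg
  exact ⟨rfl, mul_left_cancel e4, rfl⟩

end Cfsg.Agent.Helper2.RankOne
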