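import Mathlib
import Cfsg.Prelude.Def_LieRecognition
import Cfsg.Agent.Helper2.RankOne2

namespace Cfsg.Agent.Helper2.RankOne

variable {G Ω : Type*} [Group G] [MulAction G Ω] {a : Ω} {t : G} {Q : Subgroup G}

lemma stab_decomp (hS : Cfsg.IsRankOneSetup G Ω a t Q) {h : G}
    (hh : h ∈ MulAction.stabilizer G a) :
    ∃ x ∈ Q, ∃ d ∈ MulAction.stabilizer G a ⊓ MulAction.stabilizer G (t • a), h = x * d := by
  obtain ⟨x, hx, e⟩ := stab_smul_eq hS hh
  refine ⟨x, hx, x⁻¹ * h, ?_, by group⟩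
  refine Subgroup.mem_inf.mpr ⟨mul_mem (inv_mem (hS.le hx)) hh, ?_⟩
  rw [MulAction.mem_stabilizer_iff, mul_smul, e, inv_smul_smul]

lemma D_sq_eq_one [Finite G] (hS : Cfsg.IsRankOneSetup G Ω a t Q) {d : G}
    (hd : d ∈ MulAction.stabilizer G a ⊓ MulAction.stabilizer G (t • a)) (h2 : d * d = 1) :
    d = 1 := by
  have h1 : orderOf d ∣ 2 := orderOf_dvd_of_pow_eq_one (by rw [pow_two]; exact h2)
  have h3 : orderOf d ∣ Nat.card ↥(MulAction.stabilizer G a ⊓ MulAction.stabilizer G (t • a)) :=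
    Subgroup.orderOf_dvd_natCard _ hd
  have hodd := hS.odd_card
  have h4 : orderOf d = 1 := by
    rcases (Nat.dvd_prime Nat.prime_two).mp h1 with h | h
    · exact h
    · exfalso
      rw [h] at h3
      exact (Nat.not_even_iff_odd.mpr hodd) (even_iff_two_dvd.mpr h3)
  exact orderOf_eq_one_iff.mp h4

/-- involutions of `G_a` lie in `Q` -/
lemma invol_mem_Q [Finite G] (hS : Cfsg.IsRankOneSetup G Ω a t Q) {s : G}
    (hs : s ∈ MulAction.stabilizer G a) (hs2 : s * s = 1) : s ∈ Q := by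
  obtain ⟨x, hx, d, hd, rfl⟩ := stab_decomp hS hs
  have h1 : d * d = (x * (d * x * d⁻¹))⁻¹ := by
    have : x * (d * x * d⁻¹) * (d * d) = x * d * (x * d) := by group
    rw [hs2] at this
    exact eq_inv_of_mul_eq_one_right this
  have h2 : d * d ∈ Q ⊓ MulAction.stabilizer G (t • a) := by
    refine Subgroup.mem_inf.mpr
      ⟨?_, mul_mem (Subgroup.mem_inf.mp hd).2 (Subgroup.mem_inf.mp hd).2⟩
    rw [h1]
    exact inv_mem (mul_mem hx (D_conj_Q hS hd hx))
  rw [hS.inf_eq_bot, Subgroup.mem_bot] at h2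
  have := D_sq_eq_one hS hd h2
  rw [this, mul_one]; exact hx

lemma exists_invol_Q [Finite G] (hS : Cfsg.IsRankOneSetup G Ω a t Q) :
    ∃ s ∈ Q, s ≠ 1 ∧ s * s = 1 := by
  haveI : Fact (Nat.Prime 2) := ⟨Nat.prime_two⟩
  obtain ⟨x, hx⟩ := exists_prime_orderOf_dvd_card' (G := Q) 2 (even_iff_two_dvd.mp hS.even_card)
  refine ⟨(x : G), x.2, ?_, ?_⟩
  · intro h
    have : x = 1 := Subtype.ext h
    rw [this, orderOf_one] at hx
    exact absurd hx (by decide)
  · have h2 : x ^ 2 = 1 := by rw [← hx]; exact pow_orderOf_eq_one x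
    have h3 : ((x ^ 2 : Q) : G) = 1 := by rw [h2]; rfl
    rw [Subgroup.coe_pow, pow_two] at h3
    exact h3

lemma t_fixed [Finite G] (hS : Cfsg.IsRankOneSetup G Ω a t Q) :
    ∃ c : Ω, t • c = c ∧ c ≠ a ∧ c ≠ t • a ∧ ∀ c' : Ω, t • c' = c' → c' = c := by
  obtain ⟨c, hc, hcu⟩ := invol_fixed hS hS.ne_one hS.mul_self
  refine ⟨c, hc, ?_, ?_, hcu⟩
  · rintro rfl; exact ta_ne hS hc
  · intro h
    apply ta_ne hS
    rw [h, t_smul_t hS] at hc
    exact hc.symm

/-- the canonical pair `(s, r)` with `t s t = r⁻¹ t r` -/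
lemma canon_exists [Finite G] (hS : Cfsg.IsRankOneSetup G Ω a t Q) :
    ∃ s r : G, s ∈ MulAction.stabilizer G a ∧ s ≠ 1 ∧ s * s = 1 ∧ r ∈ Q ∧
      t * s * t = r⁻¹ * t * r ∧
      ∀ s' r' : G, s' ∈ MulAction.stabilizer G a → r' ∈ Q →
        t * s' * t = r'⁻¹ * t * r' → s' = s ∧ r' = r := by
  obtain ⟨c, hc, hca, hcta, hcu⟩ := t_fixed hS
  obtain ⟨r, hr, hrc⟩ := Q_trans hS (ta_ne hS) hca
  have hs_eq : t * (r⁻¹ * t * r) * t = (t * r⁻¹) * t * (t * r⁻¹)⁻¹ := by
    simp only [mul_inv_rev, inv_inv, t_inv hS, mul_assoc]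
  refine ⟨t * (r⁻¹ * t * r) * t, r, ?_, ?_, ?_, hr, ?_, ?_⟩
  · rw [MulAction.mem_stabilizer_iff]
    simp only [mul_smul]
    rw [hrc, hc, inv_smul_eq_iff.mpr hrc.symm, t_smul_t hS]
  · rw [hs_eq]; exact conj_ne_one hS.ne_one
  · rw [hs_eq]; exact conj_mul_self hS.mul_self
  · simp only [mul_assoc, t_t_mul hS, hS.mul_self, mul_one]
  · intro s' r' hs' hr' e
    have hs'a : s' • a = a := hs'
    have h1 : (r'⁻¹ * t * r') • (t • a) = t • a := by
      rw [← e, mul_smul, mul_smul, t_smul_t hS, hs'a]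
    have h2 : t • (r' • (t • a)) = r' • (t • a) := by
      rw [mul_smul, mul_smul] at h1
      exact inv_smul_eq_iff.mp h1
    have h3 : r' • (t • a) = c := hcu _ h2
    have h4 : r' = r := by
      have : r⁻¹ * r' = 1 :=
        Q_free hS (mul_mem (inv_mem hr) hr') (ta_ne hS)
          (by rw [mul_smul, h3, ← hrc, inv_smul_smul])
      exact (inv_mul_eq_one.mp this).symm
    refine ⟨?_, h4⟩
    have : s' = t * (t * s' * t) * t := by
      simp only [mul_assoc, t_t_mul hS, hS.mul_self, mul_one]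
    rw [this, e, h4]

/-- an involution fixing `t • a` is not in `G_a` -/
lemma not_mem_of_fix_ta [Finite G] (hS : Cfsg.IsRankOneSetup G Ω a t Q) {u : G}
    (hu : u • (t • a) = t • a) (hu1 : u ≠ 1) (hu2 : u * u = 1) :
    u ∉ MulAction.stabilizer G a := by
  intro h
  obtain ⟨b, _, hbu⟩ := invol_fixed hS hu1 hu2
  exact ta_ne hS ((hbu _ hu).trans (hbu a h).symm)

/-- an involution conjugating `u ∈ Inv(G_{ta})` to `s' ∈ Inv(G_a)`, in `⟨s', u⟩` -/
lemma exists_conj_invol [Finite G] (hS : Cfsg.IsRankOneSetup G Ω a t Q) {s' u : G}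
    (hs' : s' ∈ MulAction.stabilizer G a) (hs'1 : s' ≠ 1) (hs'2 : s' * s' = 1)
    (hu : u • (t • a) = t • a) (hu1 : u ≠ 1) (hu2 : u * u = 1) :
    ∃ v : G, v * v = 1 ∧ v * u * v = s' ∧
      (∀ x : G, x * s' = s' * x → x * u = u * x → x * v = v * x) := by
  have hodd := invol_prod_odd hS hs' hs'1 hs'2 (not_mem_of_fix_ta hS hu hu1 hu2) hu2
  obtain ⟨j, hj⟩ := Cfsg.Agent.Helper2.invol_conj_of_odd hs'2 hu2 hodd
  obtain ⟨w, hw⟩ : ∃ w : G, w = (s' * u) ^ j := ⟨_, rfl⟩
  rw [← hw] at hj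
  have hinv : s' * w = w⁻¹ * s' := by
    rw [hw]; exact Cfsg.Agent.Helper2.invol_mul_pow_left hs'2 hu2 j
  refine ⟨w * s', ?_, ?_, ?_⟩
  · calc w * s' * (w * s') = w * (s' * w) * s' := by group
      _ = w * (w⁻¹ * s') * s' := by rw [hinv]
      _ = s' * s' := by group
      _ = 1 := hs'2
  · calc w * s' * u * (w * s') = w * s' * (w * s' * w⁻¹) * (w * s') := by rw [hj]
      _ = w * (s' * w) * (s' * s') := by group
      _ = w * (w⁻¹ * s') * 1 := by rw [hinv, hs'2]
      _ = s' := by group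
  · intro x hxs hxu
    have hxw : x * w = w * x := by
      rw [hw]
      have h1 : Commute x (s' * u) := Commute.mul_right hxs hxu
      exact (h1.pow_right j).eq
    calc x * (w * s') = (x * w) * s' := by group
      _ = w * x * s' := by rw [hxw]
      _ = w * (x * s') := by group
      _ = w * (s' * x) := by rw [hxs]
      _ = w * s' * x := by group

lemma conj_invol_swap [Finite G] (hS : Cfsg.IsRankOneSetup G Ω a t Q) {s' u v : G}
    (hs' : s' ∈ MulAction.stabilizer G a)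
    (hu : u • (t • a) = t • a) (hu1 : u ≠ 1) (hu2 : u * u = 1)
    (hv2 : v * v = 1) (hv : v * u * v = s') : v • a = t • a ∧ v • (t • a) = a := by
  obtain ⟨b, _, hbu⟩ := invol_fixed hS hu1 hu2
  have hs'a : s' • a = a := hs'
  have h1 : u * v = v * s' := by
    rw [← hv]
    calc u * v = (v * v) * u * v := by rw [hv2, one_mul]
      _ = v * (v * u * v) := by group
  have h2 : u • (v • a) = v • a := by
    rw [← mul_smul, h1, mul_smul, hs'a]
  have h3 : v • a = t • a := (hbu _ h2).trans (hbu _ hu).symm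
  refine ⟨h3, ?_⟩
  rw [← h3, ← mul_smul, hv2, one_smul]

lemma conj_invol_unique [Finite G] (hS : Cfsg.IsRankOneSetup G Ω a t Q) {s' u v v' : G}
    (hs' : s' ∈ MulAction.stabilizer G a) (hs'1 : s' ≠ 1) (hs'2 : s' * s' = 1)
    (hu : u • (t • a) = t • a) (hu1 : u ≠ 1) (hu2 : u * u = 1)
    (hv2 : v * v = 1) (hv : v * u * v = s') (hv'2 : v' * v' = 1) (hv' : v' * u * v' = s') :
    v = v' := by
  obtain ⟨v₀, hv₀2, hv₀, hcomm⟩ := exists_conj_invol hS hs' hs'1 hs'2 hu hu1 hu2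
  have key : ∀ v : G, v * v = 1 → v * u * v = s' → v = v₀ := by
    intro v hv2 hv
    obtain ⟨ha1, hta1⟩ := conj_invol_swap hS hs' hu hu1 hu2 hv2 hv
    obtain ⟨ha0, hta0⟩ := conj_invol_swap hS hs' hu hu1 hu2 hv₀2 hv₀
    have hxD : v * v₀ ∈ MulAction.stabilizer G a ⊓ MulAction.stabilizer G (t • a) := by
      refine Subgroup.mem_inf.mpr ⟨?_, ?_⟩
      · rw [MulAction.mem_stabilizer_iff, mul_smul, ha0, hta1]
      · rw [MulAction.mem_stabilizer_iff, mul_smul, hta0, ha1]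
    -- relations
    have r1 : v₀ * s' = u * v₀ := by
      rw [← hv₀]
      calc v₀ * (v₀ * u * v₀) = (v₀ * v₀) * u * v₀ := by group
        _ = u * v₀ := by rw [hv₀2, one_mul]
    have r2 : v * u = s' * v := by
      rw [← hv]
      calc v * u = v * u * (v * v) := by rw [hv2, mul_one]
        _ = v * u * v * v := by group
    have r3 : v₀ * u = s' * v₀ := by
      rw [← hv₀]
      calc v₀ * u = v₀ * u * (v₀ * v₀) := by rw [hv₀2, mul_one]
        _ = v₀ * u * v₀ * v₀ := by group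
    have r4 : v * s' = u * v := by
      rw [← hv]
      calc v * (v * u * v) = (v * v) * u * v := by group
        _ = u * v := by rw [hv2, one_mul]
    have hxs : (v * v₀) * s' = s' * (v * v₀) := by
      calc v * v₀ * s' = v * (v₀ * s') := by group
        _ = v * (u * v₀) := by rw [r1]
        _ = (v * u) * v₀ := by group
        _ = s' * v * v₀ := by rw [r2]
        _ = s' * (v * v₀) := by group
    have hxu : (v * v₀) * u = u * (v * v₀) := by
      calc v * v₀ * u = v * (v₀ * u) := by group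
        _ = v * (s' * v₀) := by rw [r3]
        _ = (v * s') * v₀ := by group
        _ = u * v * v₀ := by rw [r4]
        _ = u * (v * v₀) := by group
    have hxv₀ := hcomm _ hxs hxu
    have hx2 : (v * v₀) * (v * v₀) = 1 := by
      calc (v * v₀) * (v * v₀) = (v * v₀) * (v * v₀) * (v₀ * v₀) := by rw [hv₀2, mul_one]
        _ = (v * v₀) * ((v * v₀) * v₀) * v₀ := by group
        _ = (v * v₀) * (v₀ * (v * v₀)) * v₀ := by rw [hxv₀]
        _ = v * (v₀ * v₀) * v * (v₀ * v₀) := by group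
        _ = v * v := by rw [hv₀2, mul_one, mul_one]
        _ = 1 := hv2
    have hx1 := D_sq_eq_one hS hxD hx2
    calc v = (v * v₀) * v₀ := by rw [mul_assoc, hv₀2, mul_one]
      _ = v₀ := by rw [hx1, one_mul]
  exact (key v hv2 hv).trans (key v' hv'2 hv').symm

lemma conj_mem_involutionsIn {s k : G}
    (hs : s ∈ Cfsg.involutionsIn (MulAction.stabilizer G a : Set G))
    (hk : k ∈ MulAction.stabilizer G a) :
    k⁻¹ * s * k ∈ Cfsg.involutionsIn (MulAction.stabilizer G a : Set G) := by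
  obtain ⟨hsm, hs1, hs2⟩ := hs
  refine ⟨mul_mem (mul_mem (inv_mem hk) hsm) hk, ?_, ?_⟩
  · have := conj_ne_one (g := k⁻¹) hs1
    rwa [inv_inv] at this
  · have := conj_mul_self (g := k⁻¹) hs2
    rwa [inv_inv] at this

/-- the elements of `D` inverted by `t` permute the involutions of `G_a` transitively -/
lemma K_trans [Finite G] (hS : Cfsg.IsRankOneSetup G Ω a t Q) {s s' : G}
    (hs : s ∈ Cfsg.involutionsIn (MulAction.stabilizer G a : Set G))
    (hs' : s' ∈ Cfsg.involutionsIn (MulAction.stabilizer G a : Set G)) :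
    ∃ k ∈ Cfsg.invertedBy (MulAction.stabilizer G a ⊓ MulAction.stabilizer G (t • a)) t,
      k⁻¹ * s * k = s' := by
  obtain ⟨hsm, hs1, hs2⟩ := hs
  obtain ⟨hs'm, hs'1, hs'2⟩ := hs'
  have hsa : s • a = a := hsm
  have ht := t_inv hS
  have hu : (t * s * t) • (t • a) = t • a := by
    rw [mul_smul, mul_smul, t_smul_t hS, hsa]
  have hu1 : t * s * t ≠ 1 := by
    have := conj_ne_one (g := t) hs1
    rwa [ht] at this
  have hu2 : (t * s * t) * (t * s * t) = 1 := by
    have := conj_mul_self (g := t) hs2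
    rwa [ht] at this
  obtain ⟨v, hv2, hv, _⟩ := exists_conj_invol hS hs'm hs'1 hs'2 hu hu1 hu2
  obtain ⟨hva, hvta⟩ := conj_invol_swap hS hs'm hu hu1 hu2 hv2 hv
  have hvinv : v⁻¹ = v := inv_eq_of_mul_eq_one_left hv2
  refine ⟨t * v, ⟨?_, ?_⟩, ?_⟩
  · refine Subgroup.mem_inf.mpr ⟨?_, ?_⟩
    · rw [MulAction.mem_stabilizer_iff, mul_smul, hva, t_smul_t hS]
    · rw [MulAction.mem_stabilizer_iff, mul_smul, hvta]
  · rw [mul_inv_rev, hvinv, ht, t_t_mul hS]
  · rw [mul_inv_rev, hvinv, ht, ← hv]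
    simp only [mul_assoc]

lemma K_inj [Finite G] (hS : Cfsg.IsRankOneSetup G Ω a t Q) {s k k' : G}
    (hs : s ∈ Cfsg.involutionsIn (MulAction.stabilizer G a : Set G))
    (hk : k ∈ Cfsg.invertedBy (MulAction.stabilizer G a ⊓ MulAction.stabilizer G (t • a)) t)
    (hk' : k' ∈ Cfsg.invertedBy (MulAction.stabilizer G a ⊓ MulAction.stabilizer G (t • a)) t)
    (e : k⁻¹ * s * k = k'⁻¹ * s * k') : k = k' := by
  have ht := t_inv hS
  have hs' := conj_mem_involutionsIn hs (Subgroup.mem_inf.mp hk.1).1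
  obtain ⟨hsm, hs1, hs2⟩ := hs
  obtain ⟨hs'm, hs'1, hs'2⟩ := hs'
  have hsa : s • a = a := hsm
  have hu : (t * s * t) • (t • a) = t • a := by
    rw [mul_smul, mul_smul, t_smul_t hS, hsa]
  have hu1 : t * s * t ≠ 1 := by
    have := conj_ne_one (g := t) hs1
    rwa [ht] at this
  have hu2 : (t * s * t) * (t * s * t) = 1 := by
    have := conj_mul_self (g := t) hs2
    rwa [ht] at this
  have aux : ∀ k : G,
      k ∈ Cfsg.invertedBy (MulAction.stabilizer G a ⊓ MulAction.stabilizer G (t • a)) t →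
      (t * k) * (t * k) = 1 ∧ (t * k) * (t * s * t) * (t * k) = k⁻¹ * s * k := by
    intro k hk
    have h1 : t * k = k⁻¹ * t := by
      have h := hk.2
      rw [ht] at h
      calc t * k = t * k * (t * t) := by rw [hS.mul_self, mul_one]
        _ = (t * k * t) * t := by group
        _ = k⁻¹ * t := by rw [h]
    refine ⟨?_, ?_⟩
    · calc t * k * (t * k) = (k⁻¹ * t) * (t * k) := by rw [h1]
        _ = k⁻¹ * (t * t) * k := by group
        _ = 1 := by rw [hS.mul_self]; group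
    · calc t * k * (t * s * t) * (t * k) = (k⁻¹ * t) * (t * s * t) * (t * k) := by rw [h1]
        _ = k⁻¹ * (t * t) * s * (t * t) * k := by group
        _ = k⁻¹ * s * k := by rw [hS.mul_self]; group
  obtain ⟨h1, h2⟩ := aux k hk
  obtain ⟨h3, h4⟩ := aux k' hk'
  rw [← e] at h4
  have := conj_invol_unique hS hs'm hs'1 hs'2 hu hu1 hu2 h1 h2 h3 h4
  exact mul_left_cancel this

end Cfsg.Agent.Helper2.RankOne
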