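import Mathlib
import Cfsg.Prelude.Def_LieRecognition
import Cfsg.Agent.Helper2.RankOne3

namespace Cfsg.Agent.Helper2.RankOne

variable {G Ω : Type*} [Group G] [MulAction G Ω] {a : Ω} {t : G} {Q : Subgroup G}

/-- in the odd order group `D` every element is a fixed power of its square -/
lemma D_sq_pow [Finite G] (hS : Cfsg.IsRankOneSetup G Ω a t Q) :
    ∃ M : ℕ, ∀ x ∈ MulAction.stabilizer G a ⊓ MulAction.stabilizer G (t • a),
      (x * x) ^ M = x := by
  obtain ⟨M, hM⟩ := hS.odd_card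
  refine ⟨M + 1, fun x hx => ?_⟩
  have h1 : x ^ (2 * M + 1) = 1 := by
    rw [← hM]
    exact orderOf_dvd_iff_pow_eq_one.mp (Subgroup.orderOf_dvd_natCard _ hx)
  calc (x * x) ^ (M + 1) = x ^ (2 * M + 1) * x := by
        rw [← pow_two, ← pow_mul, ← pow_succ]
        have h2 : 2 * (M + 1) = 2 * M + 1 + 1 := by ring
        rw [h2]
    _ = x := by rw [h1, one_mul]

lemma D_sq_inj [Finite G] (hS : Cfsg.IsRankOneSetup G Ω a t Q) {x y : G}
    (hx : x ∈ MulAction.stabilizer G a ⊓ MulAction.stabilizer G (t • a))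
    (hy : y ∈ MulAction.stabilizer G a ⊓ MulAction.stabilizer G (t • a))
    (h : x * x = y * y) : x = y := by
  obtain ⟨M, hM⟩ := D_sq_pow hS
  rw [← hM x hx, ← hM y hy, h]

lemma one_mem_K : (1 : G) ∈
    Cfsg.invertedBy (MulAction.stabilizer G a ⊓ MulAction.stabilizer G (t • a)) t :=
  ⟨one_mem _, by simp⟩

lemma K_inv {k : G}
    (hk : k ∈ Cfsg.invertedBy (MulAction.stabilizer G a ⊓ MulAction.stabilizer G (t • a)) t) :
    k⁻¹ ∈ Cfsg.invertedBy (MulAction.stabilizer G a ⊓ MulAction.stabilizer G (t • a)) t := by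
  refine ⟨inv_mem hk.1, ?_⟩
  have h := hk.2
  calc t * k⁻¹ * t⁻¹ = (t * k * t⁻¹)⁻¹ := by group
    _ = k⁻¹⁻¹ := by rw [h]

lemma K_pow {k : G}
    (hk : k ∈ Cfsg.invertedBy (MulAction.stabilizer G a ⊓ MulAction.stabilizer G (t • a)) t)
    (i : ℕ) :
    k ^ i ∈ Cfsg.invertedBy (MulAction.stabilizer G a ⊓ MulAction.stabilizer G (t • a)) t := by
  refine ⟨pow_mem hk.1 i, ?_⟩
  have h := hk.2
  rw [← conj_pow, h, inv_pow]

/-- square roots in `K` -/
lemma K_sqrt [Finite G] (hS : Cfsg.IsRankOneSetup G Ω a t Q) {k : G}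
    (hk : k ∈ Cfsg.invertedBy (MulAction.stabilizer G a ⊓ MulAction.stabilizer G (t • a)) t) :
    ∃ e ∈ Cfsg.invertedBy (MulAction.stabilizer G a ⊓ MulAction.stabilizer G (t • a)) t,
      e * e = k := by
  obtain ⟨M, hM⟩ := hS.odd_card
  have h1 : k ^ (2 * M + 1) = 1 := by
    rw [← hM]
    exact orderOf_dvd_iff_pow_eq_one.mp (Subgroup.orderOf_dvd_natCard _ hk.1)
  refine ⟨k ^ (M + 1), K_pow hk _, ?_⟩
  calc k ^ (M + 1) * k ^ (M + 1) = k ^ (2 * M + 1) * k := by
        rw [← pow_add, ← pow_succ]; congr 1; ring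
    _ = k := by rw [h1, one_mul]

/-- the commutator-like element `d⁻¹ * (t d t)` lies in `K` -/
lemma comm_mem_K (hS : Cfsg.IsRankOneSetup G Ω a t Q) {d : G}
    (hd : d ∈ MulAction.stabilizer G a ⊓ MulAction.stabilizer G (t • a)) :
    d⁻¹ * (t * d * t) ∈
      Cfsg.invertedBy (MulAction.stabilizer G a ⊓ MulAction.stabilizer G (t • a)) t := by
  refine ⟨mul_mem (inv_mem hd) (t_conj_D hS hd), ?_⟩
  rw [t_inv hS]
  simp only [mul_inv_rev, inv_inv, t_inv hS, mul_assoc, t_t_mul hS, hS.mul_self, mul_one]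

/-- `|D| = |C_D(t)| * |K|` -/
lemma card_D_eq_centralizer_t [Finite G] (hS : Cfsg.IsRankOneSetup G Ω a t Q) :
    Nat.card ↥(MulAction.stabilizer G a ⊓ MulAction.stabilizer G (t • a)) =
      Nat.card ↥((MulAction.stabilizer G a ⊓ MulAction.stabilizer G (t • a)) ⊓
        Subgroup.centralizer {t}) *
      Nat.card ↥(Cfsg.invertedBy (MulAction.stabilizer G a ⊓ MulAction.stabilizer G (t • a)) t) := by
  have ht := t_inv hS
  have hbij : Function.Bijective
      (fun p : ↥((MulAction.stabilizer G a ⊓ MulAction.stabilizer G (t • a)) ⊓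
          Subgroup.centralizer {t}) ×
          ↥(Cfsg.invertedBy (MulAction.stabilizer G a ⊓ MulAction.stabilizer G (t • a)) t) =>
        (⟨(p.1 : G) * (p.2 : G), mul_mem (Subgroup.mem_inf.mp p.1.2).1 p.2.2.1⟩ :
          ↥(MulAction.stabilizer G a ⊓ MulAction.stabilizer G (t • a)))) := by
    constructor
    · rintro ⟨⟨c, hc⟩, ⟨k, hk⟩⟩ ⟨⟨c', hc'⟩, ⟨k', hk'⟩⟩ h
      have h' : c * k = c' * k' := congrArg Subtype.val h
      have hcD := (Subgroup.mem_inf.mp hc).1
      have hc'D := (Subgroup.mem_inf.mp hc').1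
      have hct : t * c = c * t :=
        Subgroup.mem_centralizer_iff.mp (Subgroup.mem_inf.mp hc).2 t rfl
      have hc't : t * c' = c' * t :=
        Subgroup.mem_centralizer_iff.mp (Subgroup.mem_inf.mp hc').2 t rfl
      have e1 : c'⁻¹ * c = k' * k⁻¹ := by
        calc c'⁻¹ * c = c'⁻¹ * (c * k) * k⁻¹ := by group
          _ = c'⁻¹ * (c' * k') * k⁻¹ := by rw [h']
          _ = k' * k⁻¹ := by group
      have e2 : t * (c'⁻¹ * c) * t⁻¹ = c'⁻¹ * c := by
        have hc'i : t * c'⁻¹ = c'⁻¹ * t := by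
          calc t * c'⁻¹ = c'⁻¹ * (c' * t) * c'⁻¹ := by group
            _ = c'⁻¹ * (t * c') * c'⁻¹ := by rw [hc't]
            _ = c'⁻¹ * t := by group
        calc t * (c'⁻¹ * c) * t⁻¹ = (t * c'⁻¹) * c * t⁻¹ := by group
          _ = c'⁻¹ * (t * c) * t⁻¹ := by rw [hc'i]; group
          _ = c'⁻¹ * (c * t) * t⁻¹ := by rw [hct]
          _ = c'⁻¹ * c := by group
      have e3 : t * (k' * k⁻¹) * t⁻¹ = k'⁻¹ * k := by
        calc t * (k' * k⁻¹) * t⁻¹ = (t * k' * t⁻¹) * (t * k * t⁻¹)⁻¹ := by group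
          _ = k'⁻¹ * k := by rw [hk'.2, hk.2, inv_inv]
      have e4 : k' * k⁻¹ = k'⁻¹ * k := by
        rw [← e3, ← e1, e2]
      have e5 : k' * k' = k * k := by
        calc k' * k' = k' * (k' * k⁻¹) * k := by group
          _ = k' * (k'⁻¹ * k) * k := by rw [e4]
          _ = k * k := by group
      have hkk : k' = k := D_sq_inj hS hk'.1 hk.1 e5
      subst hkk
      have hcc : c = c' := mul_right_cancel h'
      subst hcc
      rfl
    · rintro ⟨d, hd⟩
      obtain ⟨e, he, hee⟩ := K_sqrt hS (comm_mem_K hS hd)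
      have hte : t * e * t = e⁻¹ := by
        have := he.2
        rwa [ht] at this
      have hcomm : t * (d * e) = (d * e) * t := by
        have h1 : t * d * t = d * (e * e) := by
          rw [hee]; group
        calc t * (d * e) = (t * d * t) * (t * e * t) * t := by
              simp only [mul_assoc, t_t_mul hS, hS.mul_self, mul_one]
          _ = d * (e * e) * e⁻¹ * t := by rw [h1, hte]
          _ = d * e * t := by group
      refine ⟨⟨⟨d * e, ?_⟩, ⟨e⁻¹, K_inv he⟩⟩, ?_⟩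
      · refine Subgroup.mem_inf.mpr ⟨mul_mem hd he.1, ?_⟩
        rw [Subgroup.mem_centralizer_iff]
        intro h hh
        rw [Set.mem_singleton_iff] at hh
        rw [hh]; exact hcomm
      · apply Subtype.ext
        show d * e * e⁻¹ = d
        group
  rw [← Nat.card_congr (Equiv.ofBijective _ hbij), Nat.card_prod]

/-- `|D| = |C_D(s)| * |K|` for an involution `s` of `G_a` -/
lemma card_D_eq_centralizer_s [Finite G] (hS : Cfsg.IsRankOneSetup G Ω a t Q) {s : G}
    (hs : s ∈ Cfsg.involutionsIn (MulAction.stabilizer G a : Set G)) :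
    Nat.card ↥(MulAction.stabilizer G a ⊓ MulAction.stabilizer G (t • a)) =
      Nat.card ↥((MulAction.stabilizer G a ⊓ MulAction.stabilizer G (t • a)) ⊓
        Subgroup.centralizer {s}) *
      Nat.card ↥(Cfsg.invertedBy (MulAction.stabilizer G a ⊓ MulAction.stabilizer G (t • a)) t) := by
  have hbij : Function.Bijective
      (fun p : ↥((MulAction.stabilizer G a ⊓ MulAction.stabilizer G (t • a)) ⊓
          Subgroup.centralizer {s}) ×
          ↥(Cfsg.invertedBy (MulAction.stabilizer G a ⊓ MulAction.stabilizer G (t • a)) t) =>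
        (⟨(p.1 : G) * (p.2 : G), mul_mem (Subgroup.mem_inf.mp p.1.2).1 p.2.2.1⟩ :
          ↥(MulAction.stabilizer G a ⊓ MulAction.stabilizer G (t • a)))) := by
    constructor
    · rintro ⟨⟨c, hc⟩, ⟨k, hk⟩⟩ ⟨⟨c', hc'⟩, ⟨k', hk'⟩⟩ h
      have h' : c * k = c' * k' := congrArg Subtype.val h
      have hcs : s * c = c * s :=
        Subgroup.mem_centralizer_iff.mp (Subgroup.mem_inf.mp hc).2 s rfl
      have hc's : s * c' = c' * s :=
        Subgroup.mem_centralizer_iff.mp (Subgroup.mem_inf.mp hc').2 s rfl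
      have e1 : ∀ c k : G, s * c = c * s → (c * k)⁻¹ * s * (c * k) = k⁻¹ * s * k := by
        intro c k hcs
        calc (c * k)⁻¹ * s * (c * k) = k⁻¹ * c⁻¹ * (s * c) * k := by group
          _ = k⁻¹ * c⁻¹ * (c * s) * k := by rw [hcs]
          _ = k⁻¹ * s * k := by group
      have e2 : k⁻¹ * s * k = k'⁻¹ * s * k' := by
        rw [← e1 c k hcs, ← e1 c' k' hc's, h']
      have hkk : k = k' := K_inj hS hs hk hk' e2
      subst hkk
      have hcc : c = c' := mul_right_cancel h'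
      subst hcc
      rfl
    · rintro ⟨d, hd⟩
      have hs' := conj_mem_involutionsIn hs (Subgroup.mem_inf.mp hd).1
      obtain ⟨k, hk, e⟩ := K_trans hS hs hs'
      refine ⟨⟨⟨d * k⁻¹, ?_⟩, ⟨k, hk⟩⟩, ?_⟩
      · refine Subgroup.mem_inf.mpr ⟨mul_mem hd (inv_mem hk.1), ?_⟩
        rw [Subgroup.mem_centralizer_iff]
        intro h hh
        rw [Set.mem_singleton_iff] at hh
        rw [hh]
        have e' : s = k * (d⁻¹ * s * d) * k⁻¹ := by rw [← e]; group
        calc s * (d * k⁻¹) = d * k⁻¹ * (k * (d⁻¹ * s * d) * k⁻¹) := by group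
          _ = d * k⁻¹ * s := by rw [← e']
      · apply Subtype.ext
        show d * k⁻¹ * k = d
        group
  rw [← Nat.card_congr (Equiv.ofBijective _ hbij), Nat.card_prod]

lemma card_centralizer_s_eq [Finite G] (hS : Cfsg.IsRankOneSetup G Ω a t Q) {s : G}
    (hs : s ∈ Cfsg.involutionsIn (MulAction.stabilizer G a : Set G)) :
    Nat.card ↥((MulAction.stabilizer G a ⊓ MulAction.stabilizer G (t • a)) ⊓
        Subgroup.centralizer {s}) =
    Nat.card ↥((MulAction.stabilizer G a ⊓ MulAction.stabilizer G (t • a)) ⊓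
        Subgroup.centralizer {t}) := by
  have h1 := card_D_eq_centralizer_s hS hs
  have h2 := card_D_eq_centralizer_t hS
  rw [h2] at h1
  have hK : 0 < Nat.card
      ↥(Cfsg.invertedBy (MulAction.stabilizer G a ⊓ MulAction.stabilizer G (t • a)) t) := by
    haveI : Nonempty
        ↥(Cfsg.invertedBy (MulAction.stabilizer G a ⊓ MulAction.stabilizer G (t • a)) t) :=
      ⟨⟨1, one_mem_K⟩⟩
    exact Nat.card_pos
  exact (Nat.eq_of_mul_eq_mul_right hK h1).symm

/-- `C_D(t) = C_D(s)` for the canonical involution `s` -/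
lemma centralizer_t_eq_s [Finite G] (hS : Cfsg.IsRankOneSetup G Ω a t Q) {s r : G}
    (hs : s ∈ Cfsg.involutionsIn (MulAction.stabilizer G a : Set G)) (hr : r ∈ Q)
    (e : t * s * t = r⁻¹ * t * r) :
    (MulAction.stabilizer G a ⊓ MulAction.stabilizer G (t • a)) ⊓ Subgroup.centralizer {t} =
      (MulAction.stabilizer G a ⊓ MulAction.stabilizer G (t • a)) ⊓ Subgroup.centralizer {s} := by
  obtain ⟨s₀, r₀, _, _, _, _, _, huniq⟩ := canon_exists hS
  have hle : (MulAction.stabilizer G a ⊓ MulAction.stabilizer G (t • a)) ⊓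
      Subgroup.centralizer {t} ≤
      (MulAction.stabilizer G a ⊓ MulAction.stabilizer G (t • a)) ⊓ Subgroup.centralizer {s} := by
    intro d hd
    have hdD := (Subgroup.mem_inf.mp hd).1
    have hdt : t * d = d * t := Subgroup.mem_centralizer_iff.mp (Subgroup.mem_inf.mp hd).2 t rfl
    have hdti : t * d⁻¹ = d⁻¹ * t := by
      calc t * d⁻¹ = d⁻¹ * (d * t) * d⁻¹ := by group
        _ = d⁻¹ * (t * d) * d⁻¹ := by rw [hdt]
        _ = d⁻¹ * t := by group
    refine Subgroup.mem_inf.mpr ⟨hdD, ?_⟩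
    have hdG : d ∈ MulAction.stabilizer G a := (Subgroup.mem_inf.mp hdD).1
    have e' : t * (d * s * d⁻¹) * t = (d * r * d⁻¹)⁻¹ * t * (d * r * d⁻¹) := by
      calc t * (d * s * d⁻¹) * t = (t * d) * s * (d⁻¹ * t) := by group
        _ = d * t * s * (t * d⁻¹) := by rw [hdt, hdti]
        _ = d * (t * s * t) * d⁻¹ := by group
        _ = d * (r⁻¹ * t * r) * d⁻¹ := by rw [e]
        _ = d * r⁻¹ * (d⁻¹ * (d * t)) * r * d⁻¹ := by group
        _ = d * r⁻¹ * (d⁻¹ * (t * d)) * r * d⁻¹ := by rw [hdt]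
        _ = (d * r * d⁻¹)⁻¹ * t * (d * r * d⁻¹) := by group
    have h1 := huniq s r hs.1 hr e
    have h2 := huniq (d * s * d⁻¹) (d * r * d⁻¹) (mul_mem (mul_mem hdG hs.1) (inv_mem hdG))
      (hS.conj_mem d hdG r hr) e'
    have h3 : d * s * d⁻¹ = s := h2.1.trans h1.1.symm
    rw [Subgroup.mem_centralizer_iff]
    intro h hh
    rw [Set.mem_singleton_iff] at hh
    rw [hh]
    calc s * d = (d * s * d⁻¹) * d := by rw [h3]
      _ = d * s := by group
  exact Subgroup.eq_of_le_of_card_ge hle (card_centralizer_s_eq hS hs).le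

end Cfsg.Agent.Helper2.RankOne
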