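import Mathlib
import Cfsg.Prelude.Def_LieRecognition
import Cfsg.Agent.Helper2.RankOne3

namespace Cfsg.Agent.Helper2.RankOne

variable {G Ω : Type*} [Group G] [MulAction G Ω] {a : Ω} {t : G} {Q : Subgroup G}

/-- the centraliser of a set `X` fixing `p` is transitive on the other fixed points of `X`,
through elements fixing `p` -/
lemma fix_trans (hS : Cfsg.IsRankOneSetup G Ω a t Q) (X : Set G) {p b c : Ω}
    (hp : ∀ x ∈ X, x • p = p) (hb : ∀ x ∈ X, x • b = b) (hc : ∀ x ∈ X, x • c = c)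
    (hbp : b ≠ p) (hcp : c ≠ p) :
    ∃ y ∈ Subgroup.centralizer X, y • p = p ∧ y • b = c ∧ (p = a → y ∈ Q) := by
  obtain ⟨g, hg⟩ := trans hS a p
  have hb' : g⁻¹ • b ≠ a := by
    intro h; apply hbp; rw [← hg, ← h, smul_inv_smul]
  have hc' : g⁻¹ • c ≠ a := by
    intro h; apply hcp; rw [← hg, ← h, smul_inv_smul]
  obtain ⟨q, hq, hqb⟩ := Q_trans hS hb' hc'
  refine ⟨g * q * g⁻¹, ?_, ?_, ?_, ?_⟩
  · rw [Subgroup.mem_centralizer_iff]
    intro x hx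
    have hx'a : (g⁻¹ * x * g) • a = a := by
      rw [mul_smul, mul_smul, hg, hp x hx, ← hg, inv_smul_smul]
    have hx'Q : (g⁻¹ * x * g) * q * (g⁻¹ * x * g)⁻¹ ∈ Q := hS.conj_mem _ hx'a q hq
    have h1 : (q⁻¹ * ((g⁻¹ * x * g) * q * (g⁻¹ * x * g)⁻¹)) • (g⁻¹ • b) = g⁻¹ • b := by
      have e1 : (g⁻¹ * x * g)⁻¹ • (g⁻¹ • b) = g⁻¹ • b := by
        rw [inv_smul_eq_iff, mul_smul, mul_smul, smul_inv_smul, hb x hx]
      have e2 : (g⁻¹ * x * g) • (g⁻¹ • c) = g⁻¹ • c := by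
        rw [mul_smul, mul_smul, smul_inv_smul, hc x hx]
      calc (q⁻¹ * ((g⁻¹ * x * g) * q * (g⁻¹ * x * g)⁻¹)) • (g⁻¹ • b)
          = q⁻¹ • ((g⁻¹ * x * g) • (q • ((g⁻¹ * x * g)⁻¹ • (g⁻¹ • b)))) := by
            simp only [mul_smul]
        _ = q⁻¹ • ((g⁻¹ * x * g) • (q • (g⁻¹ • b))) := by rw [e1]
        _ = q⁻¹ • ((g⁻¹ * x * g) • (g⁻¹ • c)) := by rw [hqb]
        _ = q⁻¹ • (g⁻¹ • c) := by rw [e2]
        _ = g⁻¹ • b := by rw [← hqb, inv_smul_smul]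
    have h2 := Q_free hS (mul_mem (inv_mem hq) hx'Q) hb' h1
    have h3 : (g⁻¹ * x * g) * q * (g⁻¹ * x * g)⁻¹ = q := (inv_mul_eq_one.mp h2).symm
    calc x * (g * q * g⁻¹) = g * ((g⁻¹ * x * g) * q * (g⁻¹ * x * g)⁻¹) * g⁻¹ * x := by group
      _ = g * q * g⁻¹ * x := by rw [h3]
  · rw [mul_smul, mul_smul, ← hg, inv_smul_smul, Q_fix hS hq]
  · rw [mul_smul, mul_smul, hqb, smul_inv_smul]
  · intro hpa
    have hga : g ∈ MulAction.stabilizer G a := by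
      rw [MulAction.mem_stabilizer_iff, hg, hpa]
    exact hS.conj_mem g hga q hq

end Cfsg.Agent.Helper2.RankOne
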