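import Mathlib
import Cfsg.Prelude.Def_LieRecognition
import Cfsg.Agent.Helper2.RankOne4

namespace Cfsg.Agent.Helper2.RankOne

variable {G Ω : Type*} [Group G] [MulAction G Ω] {a : Ω} {t : G} {Q : Subgroup G}

/-- from an element of a subgroup `H` swapping `a` and `t • a` we get an involution of `H`
swapping them -/
lemma exists_swap_invol [Finite G] (hS : Cfsg.IsRankOneSetup G Ω a t Q) (H : Subgroup G) {g : G}
    (hg : g ∈ H) (hga : g • a = t • a) (hgta : g • (t • a) = a) :
    ∃ w ∈ H, w * w = 1 ∧ w • a = t • a ∧ w • (t • a) = a := by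
  have hggD : g * g ∈ MulAction.stabilizer G a ⊓ MulAction.stabilizer G (t • a) := by
    refine Subgroup.mem_inf.mpr ⟨?_, ?_⟩
    · rw [MulAction.mem_stabilizer_iff, mul_smul, hga, hgta]
    · rw [MulAction.mem_stabilizer_iff, mul_smul, hgta, hga]
  obtain ⟨M, hM⟩ := hS.odd_card
  have hpow : (g * g) ^ (2 * M + 1) = 1 := by
    rw [← hM]
    exact orderOf_dvd_iff_pow_eq_one.mp (Subgroup.orderOf_dvd_natCard _ hggD)
  have hw2 : ((g * g) ^ M * g) * ((g * g) ^ M * g) = 1 := by
    have hc : Commute g ((g * g) ^ M) :=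
      (Commute.mul_right (Commute.refl g) (Commute.refl g)).pow_right M
    calc (g * g) ^ M * g * ((g * g) ^ M * g) = (g * g) ^ M * (g * (g * g) ^ M) * g := by group
      _ = (g * g) ^ M * ((g * g) ^ M * g) * g := by rw [hc.eq]
      _ = (g * g) ^ M * (g * g) ^ M * (g * g) := by group
      _ = (g * g) ^ (2 * M + 1) := by
        rw [← pow_add, ← pow_succ]
        have h2 : M + M + 1 = 2 * M + 1 := by ring
        rw [h2]
      _ = 1 := hpow
  have hDM : (g * g) ^ M ∈ MulAction.stabilizer G a ⊓ MulAction.stabilizer G (t • a) :=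
    pow_mem hggD M
  have hwa : ((g * g) ^ M * g) • a = t • a := by
    rw [mul_smul, hga]; exact (Subgroup.mem_inf.mp hDM).2
  refine ⟨(g * g) ^ M * g, mul_mem (pow_mem (mul_mem hg hg) M) hg, hw2, hwa, ?_⟩
  rw [← hwa, ← mul_smul, hw2, one_smul]

/-- an involution swapping `a` and `t • a` is a `K`-conjugate of `t` -/
lemma swap_invol_conj [Finite G] (hS : Cfsg.IsRankOneSetup G Ω a t Q) {w : G}
    (hw2 : w * w = 1) (hwa : w • a = t • a) (hwta : w • (t • a) = a) :
    ∃ e ∈ Cfsg.invertedBy (MulAction.stabilizer G a ⊓ MulAction.stabilizer G (t • a)) t,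
      w = e⁻¹ * t * e := by
  have ht := t_inv hS
  have hwinv : w⁻¹ = w := inv_eq_of_mul_eq_one_left hw2
  have hk : t * w ∈
      Cfsg.invertedBy (MulAction.stabilizer G a ⊓ MulAction.stabilizer G (t • a)) t := by
    refine ⟨Subgroup.mem_inf.mpr ⟨?_, ?_⟩, ?_⟩
    · rw [MulAction.mem_stabilizer_iff, mul_smul, hwa, t_smul_t hS]
    · rw [MulAction.mem_stabilizer_iff, mul_smul, hwta]
    · rw [mul_inv_rev, hwinv, ht, t_t_mul hS]
  obtain ⟨e, he, hee⟩ := K_sqrt hS hk
  refine ⟨e, he, ?_⟩
  have h1 : t * e = e⁻¹ * t := by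
    have h := he.2
    rw [ht] at h
    calc t * e = t * e * (t * t) := by rw [hS.mul_self, mul_one]
      _ = (t * e * t) * t := by group
      _ = e⁻¹ * t := by rw [h]
  calc w = t * (t * w) := by rw [t_t_mul hS]
    _ = t * (e * e) := by rw [hee]
    _ = (t * e) * e := by group
    _ = e⁻¹ * t * e := by rw [h1]

/-- an element of `D` whose square commutes with `x` commutes with `x` -/
lemma D_commute_of_sq [Finite G] (hS : Cfsg.IsRankOneSetup G Ω a t Q) {k x : G}
    (hk : k ∈ MulAction.stabilizer G a ⊓ MulAction.stabilizer G (t • a))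
    (h : (k * k) * x = x * (k * k)) : k * x = x * k := by
  obtain ⟨M, hM⟩ := D_sq_pow hS
  have h9 : Commute (k * k) x := h
  have h10 := h9.pow_left M
  rw [hM k hk] at h10
  exact h10.eq

end Cfsg.Agent.Helper2.RankOne
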