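import Mathlib
import Cfsg.Prelude.Def_ClassicalGeometry

set_option autoImplicit false

namespace Cfsg.Agent.Helper2

open Matrix

variable {F : Type*} [Field F] {ι : Type} [Fintype ι] [DecidableEq ι]

/-- The polar vector represents the polar form. -/
lemma polarVec_dot (Q : QuadraticForm F (ι → F)) (v x : ι → F) :
    Cfsg.polarVec (⇑Q) v ⬝ᵥ x = QuadraticMap.polar (⇑Q) v x := by
  have h := LinearMap.pi_apply_eq_sum_univ (QuadraticMap.polarBilin Q v) x
  rw [QuadraticMap.polarBilin_apply_apply] at h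
  rw [h]
  unfold Cfsg.polarVec dotProduct
  apply Finset.sum_congr rfl
  intro j _
  have e : (Pi.single j 1 : ι → F) = fun k => if j = k then 1 else 0 := by
    ext k
    rw [Pi.single_apply]
    by_cases hjk : j = k
    · subst hjk; simp
    · rw [if_neg hjk, if_neg (Ne.symm hjk)]
  rw [smul_eq_mul, mul_comm, QuadraticMap.polarBilin_apply_apply]
  beta_reduce
  rw [e]

/-- A rank-one update applied to a vector. -/
lemma one_add_smul_vecMulVec_mulVec (k : F) (u p x : ι → F) :
    (1 + k • vecMulVec u p) *ᵥ x = x + (k * (p ⬝ᵥ x)) • u := by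
  rw [add_mulVec, one_mulVec, smul_mulVec, vecMulVec_mulVec, op_smul_eq_smul, smul_smul]

lemma reflection_mulVec (Q : QuadraticForm F (ι → F)) (v x : ι → F) :
    (Cfsg.reflectionMatrix (⇑Q) v) *ᵥ x = x - ((Q v)⁻¹ * QuadraticMap.polar (⇑Q) v x) • v := by
  unfold Cfsg.reflectionMatrix
  rw [sub_eq_add_neg, ← neg_smul, one_add_smul_vecMulVec_mulVec, polarVec_dot, neg_mul, neg_smul,
    ← sub_eq_add_neg]

lemma reflection_det (Q : QuadraticForm F (ι → F)) (v : ι → F) (hv : Q v ≠ 0) :
    (Cfsg.reflectionMatrix (⇑Q) v).det = -1 := by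
  unfold Cfsg.reflectionMatrix
  have h1 : (1 : Matrix ι ι F) - (Q v)⁻¹ • vecMulVec v (Cfsg.polarVec (⇑Q) v) =
      1 + replicateCol Unit (-(Q v)⁻¹ • v) * replicateRow Unit (Cfsg.polarVec (⇑Q) v) := by
    rw [← vecMulVec_eq, smul_vecMulVec, neg_smul, sub_eq_add_neg]
  rw [h1, det_one_add_replicateCol_mul_replicateRow, dotProduct_smul, polarVec_dot,
    QuadraticMap.polar_self, smul_eq_mul, nsmul_eq_mul]
  field_simp
  ring

end Cfsg.Agent.Helper2
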