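import Mathlib
import Cfsg.Agent.Helper2.Chief
import Cfsg.Agent.Helper2.Mono
import Cfsg.Agent.Helper2.Mono2
import Cfsg.Agent.S0854

/-! Relative M-groups (Isaacs 6.22). -/

set_option autoImplicit false

namespace Cfsg.Agent.Helper2.RelM

open Cfsg Cfsg.Agent.Lead

universe u

/-- a perfect-mod-`L` subgroup of a group with solvable quotient lies in `L` -/
theorem le_of_perfect_mod {G : Type u} [Group G] (N L K : Subgroup G) [N.Normal] [L.Normal]
    (hNL : N ≤ L) (hsolv : Group.IsSolvable (G ⧸ N)) (h : ⁅K, K⁆ ⊔ L = K) : K ≤ L := by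
  haveI := hsolv
  have hQ : Group.IsSolvable (G ⧸ L) := by
    have hle : N ≤ L.comap (MonoidHom.id G) := by
      intro x hx
      exact hNL hx
    apply Group.isSolvable_of_surjective (f := QuotientGroup.map N L (MonoidHom.id G) hle)
    intro q
    induction q using QuotientGroup.induction_on with | H x =>
    exact ⟨(x : G ⧸ N), by rw [QuotientGroup.map_mk]; rfl⟩
  have hperf : ⁅K.map (QuotientGroup.mk' L), K.map (QuotientGroup.mk' L)⁆
      = K.map (QuotientGroup.mk' L) := by
    rw [← Subgroup.map_commutator]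
    conv_rhs => rw [← h]
    rw [Subgroup.map_sup, QuotientGroup.map_mk'_self, sup_bot_eq]
  have hall : ∀ n, K.map (QuotientGroup.mk' L) ≤ derivedSeries (G ⧸ L) n := by
    intro n
    induction n with
    | zero => rw [derivedSeries_zero]; exact le_top
    | succ n ih =>
      rw [derivedSeries_succ, ← hperf]
      exact Subgroup.commutator_mono ih ih
  obtain ⟨n, hn⟩ := hQ.solvable
  intro k hk
  have h1 : QuotientGroup.mk' L k ∈ K.map (QuotientGroup.mk' L) := Subgroup.mem_map_of_mem _ hk
  have h2 := hall n h1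
  rw [hn, Subgroup.mem_bot] at h2
  exact (QuotientGroup.eq_one_iff k).mp h2

theorem rel_M : ∀ (n : ℕ) (G : Type u) [Group G] [Fintype G] (N : Subgroup G) [N.Normal],
    Fintype.card G ≤ n → Group.IsSolvable (G ⧸ N) →
    (∀ (H K L : Subgroup G), N ≤ L → L < K → K ≤ H → (∀ h ∈ H, ∀ k ∈ K, h * k * h⁻¹ ∈ K) →
      (∀ h ∈ H, ∀ l ∈ L, h * l * h⁻¹ ∈ L) →
      (∀ M : Subgroup G, L ≤ M → M ≤ K → (∀ h ∈ H, ∀ m ∈ M, h * m * h⁻¹ ∈ M) →
        M = L ∨ M = K) → ¬ IsSquare (L.relIndex K)) →
    ∀ χ : G → ℂ, Cfsg.IsIrrCharacter G χ →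
    ∃ (H : Subgroup G) (hNH : N ≤ H) (ψ : H → ℂ), Cfsg.IsIrrCharacter H ψ ∧
      Cfsg.indFun H ψ = χ ∧ Cfsg.IsIrrCharacter N (fun n : N => ψ ⟨(n : G), hNH n.2⟩) := by
  intro n
  induction n with
  | zero =>
    intro G _ _ N _ hcard
    have := Fintype.card_pos (α := G)
    omega
  | succ n ih =>
    intro G _ _ N hNn hcard hsolv hchief χ hχ
    classical
    have hχc := isCharacter_of_isIrrCharacter hχ
    have hχcf := isCharacter_isClassFunction hχc
    by_cases hirrN : Cfsg.IsIrrCharacter N (fun n : N => χ n)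
    · refine ⟨⊤, le_top, fun h => χ h, ?_, Cfsg.Agent.Helper2.Mono.indFun_top χ hχcf, hirrN⟩
      exact isIrrCharacter_comp_mulEquiv Subgroup.topEquiv hχ
    let SK : Set (Subgroup G) :=
      {K | K.Normal ∧ N ≤ K ∧ Cfsg.IsIrrCharacter K (fun k : K => χ k)}
    have hSK : SK.Nonempty :=
      ⟨⊤, inferInstance, le_top, isIrrCharacter_comp_mulEquiv Subgroup.topEquiv hχ⟩
    obtain ⟨K, ⟨hKn, hNK, hKirr⟩, hKmin⟩ := wellFounded_lt.has_min SK hSK
    haveI := hKn
    have hNK' : N < K := by
      refine lt_of_le_of_ne hNK ?_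
      rintro rfl
      exact hirrN hKirr
    let SL : Set (Subgroup G) := {L | L.Normal ∧ N ≤ L ∧ L < K}
    have hSL : SL.Nonempty := ⟨N, hNn, le_refl N, hNK'⟩
    obtain ⟨L, ⟨hLn, hNL, hLK⟩, hLmax⟩ := wellFounded_gt.has_min SL hSL
    haveI := hLn
    have hchiefG : ∀ M : Subgroup G, M.Normal → L ≤ M → M ≤ K → M = L ∨ M = K := by
      intro M hMn hLM hMK
      by_cases hMK' : M = K
      · right; exact hMK'
      · left
        have hM : M ∈ SL := ⟨hMn, hNL.trans hLM, lt_of_le_of_ne hMK hMK'⟩
        have h1 := hLmax M hM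
        by_contra hne
        exact h1 (lt_of_le_of_ne hLM (Ne.symm hne))
    have hab : ⁅K, K⁆ ≤ L := by
      rcases hchiefG (⁅K, K⁆ ⊔ L) inferInstance le_sup_right
        (sup_le (Subgroup.commutator_le_right K K) hLK.le) with h | h
      · rw [← h]; exact le_sup_left
      · exact absurd (le_of_perfect_mod N L K hNL hsolv h) (not_le_of_gt hLK)
    rcases Cfsg.Agent.Helper2.Chief.main K L hLK hchiefG hab (fun k : K => χ k) hKirr
      (fun g k => hχcf (k : G) g) with h | ⟨φ, e, -, -, he⟩ | ⟨F, hFirr, hFcard, hFsum⟩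
    · exfalso
      exact hKmin L ⟨hLn, hNL, h⟩ hLK
    · exfalso
      refine hchief ⊤ K L hNL hLK le_top (fun h _ k hk => hKn.conj_mem k hk h)
        (fun h _ l hl => hLn.conj_mem l hl h) ?_ ⟨e, by rw [← he, sq]⟩
      intro M hLM hMK hM
      exact hchiefG M ⟨fun m hm g => hM g (Subgroup.mem_top g) m hm⟩ hLM hMK
    · haveI : Fintype L := Fintype.ofFinite L
      have hresL : (fun x : L => χ x) = ∑ φ ∈ F, φ := hFsum
      have hrel2 : 1 < F.card := by
        rw [hFcard]
        have h1 : L.relIndex K ≠ 1 :=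
          fun h1 => not_le_of_gt hLK (Subgroup.relIndex_eq_one.mp h1)
        have h0 : L.relIndex K ≠ 0 := Subgroup.index_ne_zero_of_finite
        omega
      have hFinner : ∀ φ ∈ F, Cfsg.classInner (fun x : L => χ x) φ = 1 := by
        intro φ hφ
        rw [hresL, classInner_sum_left, Finset.sum_eq_single φ]
        · exact classInner_self_of_isIrrCharacter (hFirr φ hφ)
        · intro φ' hφ' hne
          have h2 := classInner_irr (⟨φ', hFirr φ' hφ'⟩ : Cfsg.IrrCharacter L) ⟨φ, hFirr φ hφ⟩
          simp only at h2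
          rw [h2, if_neg]
          intro heq
          exact hne (congrArg Subtype.val heq)
        · intro h
          exact absurd hφ h
      obtain ⟨φ₁, hφ₁F⟩ : ∃ φ₁, φ₁ ∈ F := Finset.card_pos.mp (by omega)
      have hφ₁ := hFirr φ₁ hφ₁F
      have hcon₁ : Cfsg.classInner (fun x : L => χ x) φ₁ ≠ 0 := by
        rw [hFinner φ₁ hφ₁F]
        exact one_ne_zero
      have hLT : L ≤ Cfsg.Agent.Helper2.Mono.stab L φ₁ :=
        Cfsg.Agent.Helper2.Mono.le_stab L φ₁
          (isCharacter_isClassFunction (isCharacter_of_isIrrCharacter hφ₁))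
      have hTne : Cfsg.Agent.Helper2.Mono.stab L φ₁ ≠ ⊤ := by
        intro hT
        obtain ⟨φ₂, hφ₂F, hne⟩ := Finset.exists_mem_ne hrel2 φ₁
        have h4 := clifford_orbit L hχ hφ₁ hcon₁ ⟨φ₂, hFirr φ₂ hφ₂F⟩
        simp only at h4
        rw [hFinner φ₂ hφ₂F] at h4
        by_cases hex : ∃ g : G, φ₂ = conjFun L φ₁ g
        · obtain ⟨g, hg⟩ := hex
          apply hne
          rw [hg]
          funext x
          have hgT : g ∈ Cfsg.Agent.Helper2.Mono.stab L φ₁ := by
            rw [hT]
            exact Subgroup.mem_top g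
          exact (Cfsg.Agent.Helper2.Mono.mem_stab L φ₁ g).mp hgT x
        · rw [if_neg hex] at h4
          exact one_ne_zero h4
      set T := Cfsg.Agent.Helper2.Mono.stab L φ₁ with hTdef
      haveI : Fintype T := Fintype.ofFinite T
      obtain ⟨ψ, hψ, hind, -⟩ := Cfsg.Agent.S0854.result L φ₁ hφ₁ T
        (fun g => Cfsg.Agent.Helper2.Mono.mem_stab L φ₁ g) hLT χ hχ hcon₁
      have hlt : Fintype.card T < Fintype.card G := by
        have hle : Nat.card T ≤ Nat.card G := Subgroup.card_le_card_group _
        have hne : Nat.card T ≠ Nat.card G := fun h => hTne (Subgroup.eq_top_of_card_eq _ h)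
        rw [Nat.card_eq_fintype_card, Nat.card_eq_fintype_card] at hle hne
        omega
      have hNT : N ≤ T := hNL.trans hLT
      haveI : (N.subgroupOf T).Normal := Subgroup.normal_subgroupOf
      have hsolvT : Group.IsSolvable (T ⧸ N.subgroupOf T) := by
        haveI := hsolv
        have hle : N.subgroupOf T ≤ N.comap T.subtype := le_refl _
        apply Group.isSolvable_of_isSolvable_injective
          (f := QuotientGroup.map (N.subgroupOf T) N T.subtype hle)
        rw [injective_iff_map_eq_one]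
        intro q hq
        induction q using QuotientGroup.induction_on with | H t =>
        rw [QuotientGroup.map_mk, QuotientGroup.eq_one_iff] at hq
        exact (QuotientGroup.eq_one_iff t).mpr (Subgroup.mem_subgroupOf.mpr hq)
      have hchiefT : ∀ (H' K' L' : Subgroup T), N.subgroupOf T ≤ L' → L' < K' → K' ≤ H' →
          (∀ h ∈ H', ∀ k ∈ K', h * k * h⁻¹ ∈ K') → (∀ h ∈ H', ∀ l ∈ L', h * l * h⁻¹ ∈ L') →
          (∀ M : Subgroup T, L' ≤ M → M ≤ K' → (∀ h ∈ H', ∀ m ∈ M, h * m * h⁻¹ ∈ M) →
            M = L' ∨ M = K') → ¬ IsSquare (L'.relIndex K') := by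
        intro H' K' L' hNL' hLK' hKH' hKc hLc hMc
        rw [← Subgroup.relIndex_map_map_of_injective L' K' T.subtype_injective]
        apply hchief (H'.map T.subtype) (K'.map T.subtype) (L'.map T.subtype)
        · intro x hx
          exact ⟨⟨x, hNT hx⟩, hNL' (Subgroup.mem_subgroupOf.mpr hx), rfl⟩
        · exact lt_of_le_of_ne (Subgroup.map_mono hLK'.le)
            (fun h => hLK'.ne (Subgroup.map_injective T.subtype_injective h))
        · exact Subgroup.map_mono hKH'
        · rintro _ ⟨h, hh, rfl⟩ _ ⟨k, hk, rfl⟩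
          exact ⟨h * k * h⁻¹, hKc h hh k hk, by simp⟩
        · rintro _ ⟨h, hh, rfl⟩ _ ⟨l, hl, rfl⟩
          exact ⟨h * l * h⁻¹, hLc h hh l hl, by simp⟩
        · intro M hLM hMK hM
          have hMT : M ≤ T := by
            intro m hm
            obtain ⟨k, _, rfl⟩ := hMK hm
            exact k.2
          have h1 : L' ≤ M.subgroupOf T := by
            intro l hl
            rw [Subgroup.mem_subgroupOf]
            exact hLM ⟨l, hl, rfl⟩
          have h2 : M.subgroupOf T ≤ K' := by
            intro m hm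
            rw [Subgroup.mem_subgroupOf] at hm
            obtain ⟨k, hk, hkm⟩ := hMK hm
            have hkm' : k = m := Subtype.ext hkm
            rw [← hkm']
            exact hk
          have h3 : ∀ h ∈ H', ∀ m ∈ M.subgroupOf T, h * m * h⁻¹ ∈ M.subgroupOf T := by
            intro h hh m hm
            rw [Subgroup.mem_subgroupOf] at hm ⊢
            have h4 := hM (h : G) ⟨h, hh, rfl⟩ (m : G) hm
            simpa using h4
          rcases hMc (M.subgroupOf T) h1 h2 h3 with h | h
          · left
            rw [← Subgroup.map_subgroupOf_eq_of_le hMT, h]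
          · right
            rw [← Subgroup.map_subgroupOf_eq_of_le hMT, h]
      obtain ⟨H', hNH', ψ', hψ', hind', hirr'⟩ :=
        ih T (N.subgroupOf T) (by omega) hsolvT hchiefT ψ hψ
      have hNH : N ≤ H'.map T.subtype := by
        intro x hx
        exact ⟨⟨x, hNT hx⟩, hNH' (Subgroup.mem_subgroupOf.mpr hx), rfl⟩
      refine ⟨H'.map T.subtype, hNH,
        fun y => ψ' ((H'.equivMapOfInjective T.subtype T.subtype_injective).symm y), ?_, ?_, ?_⟩
      · exact isIrrCharacter_comp_mulEquiv
          (H'.equivMapOfInjective T.subtype T.subtype_injective).symm hψ'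
      · have h8 := Cfsg.Agent.Helper2.Mono.indFun_trans T H' ψ'
        rw [hind', hind] at h8
        exact h8.symm
      · have h5 : (fun n : N => ψ' ((H'.equivMapOfInjective T.subtype T.subtype_injective).symm
              ⟨(n : G), hNH n.2⟩))
            = (fun n' : N.subgroupOf T => ψ' ⟨(n' : T), hNH' n'.2⟩)
              ∘ (Subgroup.subgroupOfEquivOfLe hNT).symm := by
          funext n
          simp only [Function.comp_apply]
          congr 1
          apply Subtype.ext
          apply Subtype.ext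
          have h6 := (H'.equivMapOfInjective T.subtype T.subtype_injective).apply_symm_apply
            ⟨(n : G), hNH n.2⟩
          have h7 := congrArg Subtype.val h6
          rw [Subgroup.coe_equivMapOfInjective_apply] at h7
          exact h7
        rw [h5]
        exact isIrrCharacter_comp_mulEquiv (Subgroup.subgroupOfEquivOfLe hNT).symm hirr'

end Cfsg.Agent.Helper2.RelM
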