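import Mathlib
import Cfsg.Agent.Helper2.RelM
import Cfsg.Agent.Helper2.CharN
import Cfsg.Agent.Helper2.CharN2
import Cfsg.Agent.Helper2.Conv
import Cfsg.Agent.Helper2.Mono2
import Cfsg.Agent.S0146
import Cfsg.Agent.S0148
import Cfsg.Agent.S0854

/-! Relative M-groups with abelian Sylow subgroups are M-groups (Isaacs 6.23). -/

set_option autoImplicit false

namespace Cfsg.Agent.Helper2.RelM

open Cfsg Cfsg.Agent.Lead

universe u

/-- transfer: in a group whose `p`-subgroups are abelian, an element of the commutator subgroup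
that is central modulo `K` lies in `K` -/
theorem mem_of_central_commutator {N : Type u} [Group N] [Finite N]
    (hsyl : ∀ (p : ℕ), p.Prime → ∀ P : Subgroup N, IsPGroup p P →
      ∀ a ∈ P, ∀ b ∈ P, a * b = b * a)
    (K : Subgroup N) [K.Normal] (a : N) (ha : a ∈ commutator N)
    (hcen : ∀ x : N, a⁻¹ * x⁻¹ * a * x ∈ K) : a ∈ K := by
  by_contra haK
  have hfa : (QuotientGroup.mk' K) a ≠ 1 := fun h => haK ((QuotientGroup.eq_one_iff a).mp h)
  have hord : orderOf ((QuotientGroup.mk' K) a) ≠ 1 := fun h => hfa (orderOf_eq_one_iff.mp h)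
  obtain ⟨q, hq, hqdvd⟩ := Nat.exists_prime_and_dvd hord
  haveI : Fact q.Prime := ⟨hq⟩
  obtain ⟨P⟩ : Nonempty (Sylow q N) := inferInstance
  set PB : Subgroup (N ⧸ K) := (P : Subgroup N).map (QuotientGroup.mk' K) with hPB
  have hPBcomm : ∀ x y : PB, x * y = y * x := by
    rintro ⟨_, x, hx, rfl⟩ ⟨_, y, hy, rfl⟩
    apply Subtype.ext
    show (QuotientGroup.mk' K) x * (QuotientGroup.mk' K) y
      = (QuotientGroup.mk' K) y * (QuotientGroup.mk' K) x
    rw [← map_mul, ← map_mul, hsyl q hq P P.isPGroup' x hx y hy]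
  letI : CommGroup PB := { (inferInstance : Group PB) with mul_comm := hPBcomm }
  have hcenter : ∀ y : N ⧸ K, y * (QuotientGroup.mk' K) a = (QuotientGroup.mk' K) a * y := by
    intro y
    obtain ⟨x, rfl⟩ := QuotientGroup.mk_surjective y
    show (QuotientGroup.mk x : N ⧸ K) * QuotientGroup.mk a
      = QuotientGroup.mk a * QuotientGroup.mk x
    rw [← QuotientGroup.mk_mul, ← QuotientGroup.mk_mul, QuotientGroup.eq]
    have h1 := hcen x
    simpa [mul_assoc] using h1
  have hfcomm : (QuotientGroup.mk' K) a ∈ commutator (N ⧸ K) := by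
    have h1 : (commutator N).map (QuotientGroup.mk' K) ≤ commutator (N ⧸ K) := by
      rw [commutator_def, commutator_def, Subgroup.map_commutator]
      exact Subgroup.commutator_mono le_top le_top
    exact h1 (Subgroup.mem_map_of_mem _ ha)
  have htr := MonoidHom.transfer_eq_pow (MonoidHom.id PB) ((QuotientGroup.mk' K) a) (by
    intro k g₀ _
    have hc : Commute g₀ ((QuotientGroup.mk' K) a ^ k) :=
      (show Commute g₀ ((QuotientGroup.mk' K) a) from hcenter g₀).pow_right k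
    rw [mul_assoc, ← hc.eq, inv_mul_cancel_left])
  have hker : MonoidHom.transfer (MonoidHom.id PB) ((QuotientGroup.mk' K) a) = 1 := by
    have h1 := Abelianization.commutator_subset_ker (MonoidHom.transfer (MonoidHom.id PB)) hfcomm
    exact MonoidHom.mem_ker.mp h1
  rw [hker] at htr
  have hpow : (QuotientGroup.mk' K) a ^ PB.index = 1 := by
    have h1 := congrArg Subtype.val htr
    simpa using h1.symm
  have hdvd : orderOf ((QuotientGroup.mk' K) a) ∣ PB.index := orderOf_dvd_of_pow_eq_one hpow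
  have hdvd2 : PB.index ∣ (P : Subgroup N).index :=
    Subgroup.index_map_dvd (P : Subgroup N) (QuotientGroup.mk'_surjective K)
  exact P.not_dvd_index (hqdvd.trans (hdvd.trans hdvd2))

/-- the derived series of a subgroup, as subgroups of the ambient group -/
def dser {G : Type u} [Group G] (N : Subgroup G) : ℕ → Subgroup G
  | 0 => N
  | (i + 1) => ⁅dser N i, dser N i⁆

theorem dser_normal {G : Type u} [Group G] (N : Subgroup G) [hN : N.Normal] (i : ℕ) :
    (dser N i).Normal := by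
  induction i with
  | zero => exact hN
  | succ i ih =>
    haveI := ih
    show (⁅dser N i, dser N i⁆).Normal
    infer_instance

theorem dser_le {G : Type u} [Group G] (N : Subgroup G) (i : ℕ) : dser N i ≤ N := by
  induction i with
  | zero => exact le_refl N
  | succ i ih =>
    show ⁅dser N i, dser N i⁆ ≤ N
    rw [Subgroup.commutator_le]
    intro g₁ h₁ g₂ h₂
    rw [commutatorElement_def]
    exact N.mul_mem (N.mul_mem (N.mul_mem (ih h₁) (ih h₂)) (N.inv_mem (ih h₁))) (N.inv_mem (ih h₂))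

theorem dser_eq_map {G : Type u} [Group G] (N : Subgroup G) (i : ℕ) :
    dser N i = (derivedSeries N i).map N.subtype := by
  induction i with
  | zero =>
    show N = _
    rw [derivedSeries_zero, ← MonoidHom.range_eq_map, Subgroup.range_subtype]
  | succ i ih =>
    show ⁅dser N i, dser N i⁆ = _
    rw [derivedSeries_succ, Subgroup.map_commutator, ← ih]

/-- an invariant constituent on a normal subgroup that is abelian modulo the kernel forces
scalar action -/
theorem scalar_of_invariant {G : Type u} [Group G] [Fintype G] {d : ℕ}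
    (ρ : Representation ℂ G (Fin d → ℂ)) [Nontrivial (Fin d → ℂ)]
    (hχ' : Cfsg.IsIrrCharacter G ρ.character) (A : Subgroup G) [hAn : A.Normal] [Fintype A]
    (hAcomm : ∀ x ∈ A, ∀ y ∈ A, ρ (x * y) = ρ (y * x)) (θ : A → ℂ)
    (hθ : Cfsg.IsIrrCharacter A θ)
    (hcon : Cfsg.classInner (fun n : A => ρ.character n) θ ≠ 0)
    (htop : Cfsg.Agent.Helper2.Mono.stab A θ = ⊤) (a : G) (haA : a ∈ A) :
    ∃ ω : ℂ, ρ a = ω • (LinearMap.id : (Fin d → ℂ) →ₗ[ℂ] (Fin d → ℂ)) := by
  have hρ1 : ρ 1 = 1 := map_one ρ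
  have hinv : ∀ (g : G) (n : A), θ ⟨g * n * g⁻¹, hAn.conj_mem n n.2 g⟩ = θ n := fun g =>
    (Cfsg.Agent.Helper2.Mono.mem_stab A θ g).mp (htop ▸ Subgroup.mem_top g)
  have hsm := Cfsg.Agent.Helper2.CharN.res_eq_smul_of_invariant A hχ' hθ hcon hinv
  set e := Cfsg.classInner (fun n : A => ρ.character n) θ with he
  have he0 : e ≠ 0 := hcon
  have hθlin : θ 1 = 1 := by
    apply Cfsg.Agent.Helper2.Mono.linear_of_comm_ker hθ
    intro x y
    have h3 : ρ ((x * y * x⁻¹ * y⁻¹ : A) : G) = 1 := by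
      have hxy := hAcomm x x.2 y y.2
      have h4 : ((x * y * x⁻¹ * y⁻¹ : A) : G) = ((x : G) * y) * ((y : G) * x)⁻¹ := by
        push_cast
        group
      rw [h4, map_mul, hxy, ← map_mul, mul_inv_cancel, map_one]
    have h4 := congrFun hsm (x * y * x⁻¹ * y⁻¹)
    have h5 := congrFun hsm 1
    simp only [Pi.smul_apply, smul_eq_mul] at h4 h5
    have h6 : ρ.character ((x * y * x⁻¹ * y⁻¹ : A) : G) = ρ.character ((1 : A) : G) := by
      show LinearMap.trace ℂ _ (ρ _) = LinearMap.trace ℂ _ (ρ _)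
      rw [h3]
      have h7 : ρ ((1 : A) : G) = 1 := hρ1
      rw [h7]
    rw [h4, h5] at h6
    exact mul_left_cancel₀ he0 h6
  have h7 := congrFun hsm ⟨a, haA⟩
  have h8 := congrFun hsm 1
  simp only [Pi.smul_apply, smul_eq_mul] at h7 h8
  have hθa : ‖θ ⟨a, haA⟩‖ = 1 := by
    have hmul := isCharacter_linear_mul (isCharacter_of_isIrrCharacter hθ) hθlin
    have e1 : θ ⟨a, haA⟩ * θ (⟨a, haA⟩ : A)⁻¹ = 1 := by
      rw [← hmul, mul_inv_cancel, hθlin]
    have n1 := Cfsg.Agent.Helper2.Conv.norm_le_degree (isCharacter_of_isIrrCharacter hθ)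
      (⟨a, haA⟩ : A)
    have n2 := Cfsg.Agent.Helper2.Conv.norm_le_degree (isCharacter_of_isIrrCharacter hθ)
      ((⟨a, haA⟩ : A)⁻¹)
    rw [hθlin, norm_one] at n1 n2
    have n3 : ‖θ ⟨a, haA⟩‖ * ‖θ (⟨a, haA⟩ : A)⁻¹‖ = 1 := by
      rw [← norm_mul, e1, norm_one]
    nlinarith [norm_nonneg (θ ⟨a, haA⟩), norm_nonneg (θ (⟨a, haA⟩ : A)⁻¹)]
  have hnorm : ‖ρ.character a‖ = ‖ρ.character 1‖ := by
    have h9 : ρ.character a = e * θ ⟨a, haA⟩ := h7
    have h10 : ρ.character 1 = e * θ 1 := h8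
    rw [h9, h10, norm_mul, hθa, mul_one, norm_mul, hθlin, norm_one, mul_one]
  exact Cfsg.Agent.Helper2.Mono.scalar_of_norm_eq ρ a hnorm

/-- a nonlinear character restricting irreducibly to a solvable normal subgroup with abelian
Sylow subgroups has a normal subgroup with a non-invariant constituent -/
theorem exists_nonhomog {G : Type u} [Group G] [Fintype G] (N : Subgroup G) [hN : N.Normal]
    (hsyl : ∀ (p : ℕ), p.Prime → ∀ P : Subgroup G, P ≤ N → IsPGroup p P →
      ∀ a ∈ P, ∀ b ∈ P, a * b = b * a)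
    (hsolv : ∃ m, dser N m = ⊥) {χ : G → ℂ} (hχ : Cfsg.IsIrrCharacter G χ)
    (hirrN : Cfsg.IsIrrCharacter N (fun n : N => χ n)) (h1 : χ 1 ≠ 1) :
    ∃ (A : Subgroup G) (hA : A.Normal) (θ : A → ℂ), Cfsg.IsIrrCharacter A θ ∧
      (∀ inst : Fintype A, @Cfsg.classInner A _ inst (fun n : A => χ n) θ ≠ 0) ∧
      @Cfsg.Agent.Helper2.Mono.stab G _ A hA θ ≠ ⊤ := by
  classical
  have hχ' := hχ
  obtain ⟨d, ρ, hi, rfl⟩ := hχ
  haveI hnt : Nontrivial (Fin d → ℂ) := ((isIrreducible_iff ρ).mp hi).1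
  have hpos : 0 < Module.finrank ℂ (Fin d → ℂ) := Module.finrank_pos
  have hρ1 : ρ 1 = 1 := map_one ρ
  let Kρ : Subgroup G :=
    { carrier := {g | ρ g = 1}
      one_mem' := hρ1
      mul_mem' := by
        intro a b ha hb
        simp only [Set.mem_setOf_eq] at *
        rw [map_mul, ha, hb, one_mul]
      inv_mem' := by
        intro a ha
        simp only [Set.mem_setOf_eq] at *
        have h2 : ρ a * ρ a⁻¹ = 1 := by rw [← map_mul, mul_inv_cancel, map_one]
        rw [ha, one_mul] at h2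
        exact h2 }
  have hmemK : ∀ g, g ∈ Kρ ↔ ρ g = 1 := fun g => Iff.rfl
  haveI hKn : Kρ.Normal := ⟨fun a ha g => by
    rw [hmemK] at ha ⊢
    rw [map_mul, map_mul, ha, mul_one, ← map_mul, mul_inv_cancel, map_one]⟩
  obtain ⟨m, hm⟩ := hsolv
  have hex : ∃ j, dser N j ≤ Kρ := ⟨m, by rw [hm]; exact bot_le⟩
  have hnotN : ¬ (∀ x ∈ N, ∀ y ∈ N, ρ (x * y * x⁻¹ * y⁻¹) = 1) := by
    intro hall
    apply h1
    have h2 := Cfsg.Agent.Helper2.Mono.linear_of_comm_ker hirrN (fun x y => by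
      have h3 : ρ ((x * y * x⁻¹ * y⁻¹ : N) : G) = 1 := by
        have h4 := hall x x.2 y y.2
        simpa using h4
      show LinearMap.trace ℂ _ (ρ _) = LinearMap.trace ℂ _ (ρ _)
      rw [h3]
      have h5 : ρ ((1 : N) : G) = 1 := hρ1
      rw [h5])
    exact h2
  have hj0 : Nat.find hex ≠ 0 := by
    intro h0
    have h2 := Nat.find_spec hex
    rw [h0] at h2
    apply hnotN
    intro x hx y hy
    have h3 : x * y * x⁻¹ * y⁻¹ ∈ N :=
      N.mul_mem (N.mul_mem (N.mul_mem hx hy) (N.inv_mem hx)) (N.inv_mem hy)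
    exact (hmemK _).mp (h2 h3)
  obtain ⟨i, hi'⟩ := Nat.exists_eq_succ_of_ne_zero hj0
  have hA1 : dser N (i + 1) ≤ Kρ := by
    have h2 := Nat.find_spec hex
    rw [hi'] at h2
    exact h2
  have hA2 : ¬ dser N i ≤ Kρ := Nat.find_min hex (by omega)
  haveI hAn : (dser N i).Normal := dser_normal N i
  have hAN : dser N i ≤ N := dser_le N i
  have hAcomm : ∀ x ∈ dser N i, ∀ y ∈ dser N i, ρ (x * y) = ρ (y * x) := by
    intro x hx y hy
    have hc := Subgroup.commutator_mem_commutator hx hy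
    have h2 := (hmemK _).mp (hA1 hc)
    rw [commutatorElement_def] at h2
    have h3 : x * y = (x * y * x⁻¹ * y⁻¹) * (y * x) := by group
    rw [h3, map_mul, h2, one_mul]
  haveI instA : Fintype (dser N i) := Fintype.ofFinite _
  have hne : (fun n : dser N i => ρ.character n) ≠ 0 := by
    intro h0
    have h3 := congrFun h0 1
    have h4 : ρ.character ((1 : dser N i) : G) = (Module.finrank ℂ (Fin d → ℂ) : ℂ) :=
      Representation.char_one ρ
    simp only [Pi.zero_apply] at h3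
    rw [h4] at h3
    exact hpos.ne' (by exact_mod_cast h3)
  obtain ⟨θ, hθcon⟩ := Cfsg.Agent.Helper2.Chief.exists_const
    (isCharacter_isClassFunction (isCharacter_res (dser N i)
      (isCharacter_of_isIrrCharacter hχ'))) hne
  refine ⟨dser N i, hAn, (θ : dser N i → ℂ), θ.2, ?_, ?_⟩
  · intro inst
    have hinst : inst = instA := Subsingleton.elim _ _
    subst hinst
    exact hθcon
  intro htop
  have hscal : ∀ a ∈ dser N i, ∀ x : G, ρ (a⁻¹ * x⁻¹ * a * x) = 1 := by
    intro a ha x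
    obtain ⟨ω, hω⟩ := scalar_of_invariant ρ hχ' (dser N i) hAcomm (θ : dser N i → ℂ) θ.2
      hθcon htop a ha
    have hω1 : ρ a = ω • (1 : Module.End ℂ (Fin d → ℂ)) := hω
    have hcomm : ρ x⁻¹ * ρ a = ρ a * ρ x⁻¹ := by
      rw [hω1, smul_mul_assoc, one_mul, mul_smul_comm, mul_one]
    calc ρ (a⁻¹ * x⁻¹ * a * x) = ρ a⁻¹ * (ρ x⁻¹ * ρ a) * ρ x := by
          simp only [map_mul, mul_assoc]
      _ = ρ a⁻¹ * (ρ a * ρ x⁻¹) * ρ x := by rw [hcomm]
      _ = (ρ a⁻¹ * ρ a) * (ρ x⁻¹ * ρ x) := by simp only [mul_assoc]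
      _ = 1 := by rw [← map_mul, ← map_mul, inv_mul_cancel, inv_mul_cancel, map_one, mul_one]
  rcases Nat.eq_zero_or_pos i with hi0 | hipos
  · apply hnotN
    intro x hx y hy
    have hx' : x⁻¹ ∈ dser N i := by
      rw [hi0]
      exact N.inv_mem hx
    have h2 := hscal x⁻¹ hx' y⁻¹
    simpa using h2
  · obtain ⟨i', rfl⟩ := Nat.exists_eq_succ_of_ne_zero hipos.ne'
    apply hA2
    intro a ha
    have haN : a ∈ N := hAN ha
    have haNN : a ∈ ⁅N, N⁆ := by
      have h2 : dser N (i' + 1) ≤ ⁅N, N⁆ :=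
        Subgroup.commutator_mono (dser_le N i') (dser_le N i')
      exact h2 ha
    have hmap : (commutator N).map N.subtype = ⁅N, N⁆ := by
      rw [commutator_def, Subgroup.map_commutator, ← MonoidHom.range_eq_map,
        Subgroup.range_subtype]
    rw [← hmap] at haNN
    obtain ⟨a', ha', rfl⟩ := haNN
    have hsyl' : ∀ (p : ℕ), p.Prime → ∀ P : Subgroup N, IsPGroup p P →
        ∀ a ∈ P, ∀ b ∈ P, a * b = b * a := by
      intro p hp P hP x hx y hy
      have h2 := hsyl p hp (P.map N.subtype) (Subgroup.map_subtype_le P) (hP.map N.subtype)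
        (x : G) ⟨x, hx, rfl⟩ (y : G) ⟨y, hy, rfl⟩
      exact Subtype.ext h2
    have h3 := mem_of_central_commutator hsyl' (Kρ.subgroupOf N) a' ha' (fun x => by
      rw [Subgroup.mem_subgroupOf, hmemK]
      have h4 := hscal (a' : G) ha (x : G)
      simpa using h4)
    exact Subgroup.mem_subgroupOf.mp h3

/-- multiplicity times degree is at most the degree -/
theorem mult_degree {N : Type u} [Group N] [Fintype N] {Θ φ : N → ℂ}
    (hΘ : Cfsg.IsCharacter N Θ) (hφ : Cfsg.IsIrrCharacter N φ) :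
    ∃ c k : ℕ, Cfsg.classInner Θ φ = (c : ℂ) ∧ Θ 1 = (c : ℂ) * φ 1 + (k : ℂ) := by
  have h2 : ∀ m : Multiset (Cfsg.IrrCharacter N), ∃ c k : ℕ,
      Cfsg.classInner (m.map (fun ψ : Cfsg.IrrCharacter N => (ψ : N → ℂ))).sum φ = (c : ℂ) ∧
      (m.map (fun ψ : Cfsg.IrrCharacter N => (ψ : N → ℂ))).sum 1
        = (c : ℂ) * φ 1 + (k : ℂ) := by
    intro m
    induction m using Multiset.induction_on with
    | empty =>
      refine ⟨0, 0, ?_, ?_⟩
      · rw [Multiset.map_zero, Multiset.sum_zero, classInner_zero_left, Nat.cast_zero]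
      · simp
    | cons a m ih =>
      obtain ⟨c, k, hc, hk⟩ := ih
      obtain ⟨na, -, hna⟩ := isIrrCharacter_one_eq_nat a.2
      rw [Multiset.map_cons, Multiset.sum_cons, Pi.add_apply, hk, classInner_add_left, hc]
      by_cases ha : a = ⟨φ, hφ⟩
      · refine ⟨c + 1, k, ?_, ?_⟩
        · subst ha
          rw [classInner_self_of_isIrrCharacter hφ]
          push_cast
          ring
        · subst ha
          push_cast
          ring
      · refine ⟨c, k + na, ?_, ?_⟩
        · have h3 := @classInner_irr N _ _ a ⟨φ, hφ⟩ (Classical.propDecidable _)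
          rw [if_neg ha] at h3
          rw [h3, zero_add]
        · rw [hna]
          push_cast
          ring
  obtain ⟨m, rfl⟩ := exists_multiset_irr hΘ
  exact h2 m

/-- the two descriptions of `N ∩ T` -/
def isoNT {G : Type u} [Group G] (N T : Subgroup G) : ↥(N.subgroupOf T) ≃* ↥(T.subgroupOf N) where
  toFun x := ⟨⟨((x : T) : G), Subgroup.mem_subgroupOf.mp x.2⟩, Subgroup.mem_subgroupOf.mpr (x : T).2⟩
  invFun y := ⟨⟨((y : N) : G), Subgroup.mem_subgroupOf.mp y.2⟩, Subgroup.mem_subgroupOf.mpr (y : N).2⟩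
  left_inv _ := rfl
  right_inv _ := rfl
  map_mul' _ _ := rfl

/-- if `χ = η^G` restricts irreducibly to `N`, then `η` restricts irreducibly to `N ∩ T` -/
theorem irr_inter {G : Type u} [Group G] [Fintype G] (N T : Subgroup G) [Fintype N] [Fintype T]
    {χ : G → ℂ} (hχ : Cfsg.IsIrrCharacter G χ)
    (hN : Cfsg.IsIrrCharacter N (fun n : N => χ n))
    {η : T → ℂ} (hη : Cfsg.IsIrrCharacter T η) (hind : Cfsg.indFun T η = χ) :
    Cfsg.IsIrrCharacter (N.subgroupOf T) (fun x : N.subgroupOf T => η x) := by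
  classical
  have hχc := isCharacter_of_isIrrCharacter hχ
  have hχcf := isCharacter_isClassFunction hχc
  have hηc := isCharacter_of_isIrrCharacter hη
  haveI : Fintype (T.subgroupOf N) := Fintype.ofFinite _
  let ι : (T.subgroupOf N) →* T :=
    { toFun := fun x => ⟨((x : N) : G), Subgroup.mem_subgroupOf.mp x.2⟩
      map_one' := rfl
      map_mul' := fun _ _ => rfl }
  set ηR : (T.subgroupOf N) → ℂ := η ∘ ι with hηR
  have hηRc : Cfsg.IsCharacter (T.subgroupOf N) ηR := isCharacter_comp ι hηc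
  have hηR1 : ηR 1 = η 1 := rfl
  obtain ⟨nη, hnη0, hnη⟩ := isIrrCharacter_one_eq_nat hη
  have hΘc : Cfsg.IsCharacter N (Cfsg.indFun (T.subgroupOf N) ηR) :=
    Cfsg.Agent.S0148.result (T.subgroupOf N) ηR hηRc
  have hφcf : Cfsg.IsClassFunction N (fun n : N => χ n) :=
    isCharacter_isClassFunction (isCharacter_of_isIrrCharacter hN)
  have hfrob : Cfsg.classInner (Cfsg.indFun (T.subgroupOf N) ηR) (fun n : N => χ n)
      = Cfsg.classInner ηR (fun x : (T.subgroupOf N) => χ ((x : N) : G)) :=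
    Cfsg.Agent.S0146.result (T.subgroupOf N) ηR _ hφcf
  have hcT : Cfsg.IsCharacter T (fun t : T => χ t) := isCharacter_res T hχc
  obtain ⟨m, hm⟩ := exists_multiset_irr hcT
  have hcount : (m.count ⟨η, hη⟩ : ℂ) = 1 := by
    have h1 := classInner_multiset_irr m ⟨η, hη⟩
    rw [← hm] at h1
    rw [← h1]
    show Cfsg.classInner (fun t : T => χ t) η = 1
    rw [← classInner_conj_symm]
    have h2 := Cfsg.Agent.S0146.result T η χ hχcf
    rw [hind] at h2
    rw [← h2, classInner_self_of_isIrrCharacter hχ, map_one]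
  have hmem : (⟨η, hη⟩ : Cfsg.IrrCharacter T) ∈ m := by
    rw [← Multiset.count_pos]
    have h3 : m.count (⟨η, hη⟩ : Cfsg.IrrCharacter T) = 1 := by exact_mod_cast hcount
    omega
  obtain ⟨m', hm'⟩ := Multiset.exists_cons_of_mem hmem
  have hΔc : Cfsg.IsCharacter T (m'.map (fun ψ : Cfsg.IrrCharacter T => (ψ : T → ℂ))).sum :=
    isCharacter_multiset_sum m'
  have hdec : (fun t : T => χ t)
      = η + (m'.map (fun ψ : Cfsg.IrrCharacter T => (ψ : T → ℂ))).sum := by
    rw [hm, hm', Multiset.map_cons, Multiset.sum_cons]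
  have hres : (fun x : (T.subgroupOf N) => χ ((x : N) : G))
      = ηR + (m'.map (fun ψ : Cfsg.IrrCharacter T => (ψ : T → ℂ))).sum ∘ ι := by
    funext x
    exact congrFun hdec (ι x)
  obtain ⟨dd, hd⟩ := classInner_isCharacter_nat hηRc hηRc
  obtain ⟨k, hk⟩ := classInner_isCharacter_nat hηRc (isCharacter_comp ι hΔc)
  obtain ⟨c, k', hc, hdeg⟩ := mult_degree hΘc hN
  have hcdk : c = dd + k := by
    have h4 : (c : ℂ) = (dd : ℂ) + (k : ℂ) := by
      rw [← hc, hfrob, hres, classInner_add_right, hd, hk]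
    exact_mod_cast h4
  have hdeg2 : (T.relIndex N) * nη = c * (T.index * nη) + k' := by
    have h3 : Cfsg.indFun (T.subgroupOf N) ηR 1 = ((T.relIndex N : ℕ) : ℂ) * (nη : ℂ) := by
      rw [indFun_one, hηR1, hnη]
      rfl
    have h4 : χ 1 = ((T.index : ℕ) : ℂ) * (nη : ℂ) := by
      rw [← hind, indFun_one, hnη]
    have hdeg' : Cfsg.indFun (T.subgroupOf N) ηR 1 = (c : ℂ) * χ 1 + (k' : ℂ) := hdeg
    rw [h3, h4] at hdeg'
    exact_mod_cast hdeg'
  have hTidx : T.index ≠ 0 := Subgroup.index_ne_zero_of_finite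
  have hrel : T.relIndex N ≤ T.index := by
    have h5 := Subgroup.relIndex_le_of_le_right (H := T) (le_top : N ≤ ⊤)
      (by rw [Subgroup.relIndex_top_right]; exact hTidx)
    rwa [Subgroup.relIndex_top_right] at h5
  have hc1 : c ≤ 1 := by
    by_contra hc2
    push_neg at hc2
    have h6 : 2 * (T.index * nη) ≤ c * (T.index * nη) := Nat.mul_le_mul_right _ hc2
    have h7 : T.relIndex N * nη ≤ T.index * nη := Nat.mul_le_mul_right _ hrel
    have h8 : 0 < T.index * nη := Nat.mul_pos (Nat.pos_of_ne_zero hTidx) hnη0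
    omega
  have hd0 : dd ≠ 0 := by
    intro h0
    have h9 : Cfsg.classInner ηR ηR ≠ 0 :=
      Cfsg.Agent.Helper2.CharN.classInner_self_ne_zero
        (by rw [hηR1, hnη]; exact_mod_cast hnη0.ne')
    rw [hd, h0] at h9
    exact h9 (by simp)
  have hd1 : dd = 1 := by omega
  have hirrR : Cfsg.IsIrrCharacter (T.subgroupOf N) ηR :=
    isIrrCharacter_of_classInner_eq_one hηRc (by rw [hd, hd1]; simp)
  exact isIrrCharacter_comp_mulEquiv (isoNT N T) hirrR

theorem transport {G : Type u} [Group G] [Fintype G] (T : Subgroup G) [Fintype T] {η : T → ℂ}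
    {χ : G → ℂ} (hind : Cfsg.indFun T η = χ)
    (h : ∃ (U' : Subgroup T) (lam' : U' → ℂ), Cfsg.IsCharacter U' lam' ∧ lam' 1 = 1 ∧
      Cfsg.indFun U' lam' = η) :
    ∃ (U : Subgroup G) (lam : U → ℂ), Cfsg.IsCharacter U lam ∧ lam 1 = 1 ∧
      Cfsg.indFun U lam = χ := by
  obtain ⟨U', lam', hlam', hlam1', hind'⟩ := h
  refine ⟨U'.map T.subtype,
    fun y => lam' ((U'.equivMapOfInjective T.subtype T.subtype_injective).symm y), ?_, ?_, ?_⟩
  · exact isCharacter_comp
      (U'.equivMapOfInjective T.subtype T.subtype_injective).symm.toMonoidHom hlam'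
  · show lam' ((U'.equivMapOfInjective T.subtype T.subtype_injective).symm 1) = 1
    rw [map_one]
    exact hlam1'
  · have h8 := Cfsg.Agent.Helper2.Mono.indFun_trans T U' lam'
    rw [hind', hind] at h8
    exact h8.symm

theorem mono_of_res_irr : ∀ (n : ℕ) (G : Type u) [Group G] [Fintype G] [Group.IsSolvable G]
    (N : Subgroup G) [N.Normal], Fintype.card G ≤ n →
    (∀ (p : ℕ), p.Prime → ∀ P : Subgroup G, P ≤ N → IsPGroup p P →
      ∀ a ∈ P, ∀ b ∈ P, a * b = b * a) →
    ∀ χ : G → ℂ, Cfsg.IsIrrCharacter G χ → Cfsg.IsIrrCharacter N (fun n : N => χ n) →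
    ∃ (U : Subgroup G) (lam : U → ℂ), Cfsg.IsCharacter U lam ∧ lam 1 = 1 ∧
      Cfsg.indFun U lam = χ := by
  intro n
  induction n with
  | zero =>
    intro G _ _ _ N _ hcard
    have := Fintype.card_pos (α := G)
    omega
  | succ n ih =>
    intro G _ _ _ N hNn hcard hsyl χ hχ hirrN
    classical
    have hχc := isCharacter_of_isIrrCharacter hχ
    have hχcf := isCharacter_isClassFunction hχc
    by_cases h1 : χ 1 = 1
    · exact ⟨⊤, fun h => χ h, isCharacter_res ⊤ hχc, h1,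
        Cfsg.Agent.Helper2.Mono.indFun_top χ hχcf⟩
    have hsolvN : ∃ m, dser N m = ⊥ := by
      haveI : Group.IsSolvable N :=
        Group.isSolvable_of_isSolvable_injective (f := N.subtype) N.subtype_injective
      obtain ⟨m, hm⟩ := Group.IsSolvable.solvable (G := N)
      exact ⟨m, by rw [dser_eq_map, hm, Subgroup.map_bot]⟩
    obtain ⟨A, hAn, θ, hθ, hcon, hstab⟩ := exists_nonhomog N hsyl hsolvN hχ hirrN h1
    haveI := hAn
    haveI : Fintype A := Fintype.ofFinite A
    haveI : Fintype (Cfsg.Agent.Helper2.Mono.stab A θ) := Fintype.ofFinite _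
    have hAT : A ≤ Cfsg.Agent.Helper2.Mono.stab A θ :=
      Cfsg.Agent.Helper2.Mono.le_stab A θ
        (isCharacter_isClassFunction (isCharacter_of_isIrrCharacter hθ))
    obtain ⟨η, hη, hind, -⟩ := Cfsg.Agent.S0854.result A θ hθ (Cfsg.Agent.Helper2.Mono.stab A θ)
      (fun g => Cfsg.Agent.Helper2.Mono.mem_stab A θ g) hAT χ hχ (hcon _)
    have hlt : Fintype.card (Cfsg.Agent.Helper2.Mono.stab A θ) < Fintype.card G := by
      have hle : Nat.card (Cfsg.Agent.Helper2.Mono.stab A θ) ≤ Nat.card G :=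
        Subgroup.card_le_card_group _
      have hne : Nat.card (Cfsg.Agent.Helper2.Mono.stab A θ) ≠ Nat.card G :=
        fun h => hstab (Subgroup.eq_top_of_card_eq _ h)
      rw [Nat.card_eq_fintype_card, Nat.card_eq_fintype_card] at hle hne
      omega
    haveI : Fintype N := Fintype.ofFinite N
    have hirrT := irr_inter N (Cfsg.Agent.Helper2.Mono.stab A θ) hχ hirrN hη hind
    haveI : (N.subgroupOf (Cfsg.Agent.Helper2.Mono.stab A θ)).Normal :=
      Subgroup.normal_subgroupOf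
    haveI : Group.IsSolvable (Cfsg.Agent.Helper2.Mono.stab A θ) :=
      Group.isSolvable_of_isSolvable_injective
        (f := (Cfsg.Agent.Helper2.Mono.stab A θ).subtype) (Subgroup.subtype_injective _)
    have hsylT : ∀ (p : ℕ), p.Prime → ∀ P : Subgroup (Cfsg.Agent.Helper2.Mono.stab A θ),
        P ≤ N.subgroupOf (Cfsg.Agent.Helper2.Mono.stab A θ) → IsPGroup p P →
        ∀ a ∈ P, ∀ b ∈ P, a * b = b * a := by
      intro p hp P hPN hP a ha b hb
      have h2 := hsyl p hp (P.map (Cfsg.Agent.Helper2.Mono.stab A θ).subtype)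
        (by
          rintro _ ⟨x, hx, rfl⟩
          exact Subgroup.mem_subgroupOf.mp (hPN hx))
        (hP.map _) (a : G) ⟨a, ha, rfl⟩ (b : G) ⟨b, hb, rfl⟩
      exact Subtype.ext h2
    exact transport (Cfsg.Agent.Helper2.Mono.stab A θ) hind
      (ih (Cfsg.Agent.Helper2.Mono.stab A θ) (N.subgroupOf (Cfsg.Agent.Helper2.Mono.stab A θ))
        (by omega) hsylT η hη hirrT)

theorem main23 {G : Type u} [Group G] [Fintype G] [Group.IsSolvable G] (N : Subgroup G)
    [N.Normal]
    (hab : ∀ (p : ℕ) [Fact p.Prime] (P : Sylow p N), ∀ a ∈ P, ∀ b ∈ P, a * b = b * a)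
    (hrel : ∀ χ : G → ℂ, Cfsg.IsIrrCharacter G χ → ∃ (H : Subgroup G) (hNH : N ≤ H)
      (ψ : H → ℂ), Cfsg.IsIrrCharacter H ψ ∧ Cfsg.indFun H ψ = χ ∧
      Cfsg.IsIrrCharacter N (fun n : N => ψ ⟨(n : G), hNH n.2⟩))
    (χ : G → ℂ) (hχ : Cfsg.IsIrrCharacter G χ) :
    ∃ (U : Subgroup G) (lam : U → ℂ), Cfsg.IsCharacter U lam ∧ lam 1 = 1 ∧
      Cfsg.indFun U lam = χ := by
  classical
  obtain ⟨H, hNH, ψ, hψ, hind, hirrN⟩ := hrel χ hχ
  haveI : Fintype H := Fintype.ofFinite H
  haveI : (N.subgroupOf H).Normal := Subgroup.normal_subgroupOf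
  haveI : Group.IsSolvable H :=
    Group.isSolvable_of_isSolvable_injective (f := H.subtype) H.subtype_injective
  have hsylH : ∀ (p : ℕ), p.Prime → ∀ P : Subgroup H, P ≤ N.subgroupOf H → IsPGroup p P →
      ∀ a ∈ P, ∀ b ∈ P, a * b = b * a := by
    intro p hp P hPN hP a ha b hb
    haveI : Fact p.Prime := ⟨hp⟩
    have hP2 : IsPGroup p ((P.map H.subtype).subgroupOf N) :=
      (hP.map H.subtype).comap_of_injective N.subtype N.subtype_injective
    obtain ⟨Q, hQ⟩ := hP2.exists_le_sylow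
    have haN : (a : G) ∈ N := Subgroup.mem_subgroupOf.mp (hPN ha)
    have hbN : (b : G) ∈ N := Subgroup.mem_subgroupOf.mp (hPN hb)
    have ha2 : (⟨(a : G), haN⟩ : N) ∈ (P.map H.subtype).subgroupOf N :=
      Subgroup.mem_subgroupOf.mpr ⟨a, ha, rfl⟩
    have hb2 : (⟨(b : G), hbN⟩ : N) ∈ (P.map H.subtype).subgroupOf N :=
      Subgroup.mem_subgroupOf.mpr ⟨b, hb, rfl⟩
    have h2 := hab p Q _ (hQ ha2) _ (hQ hb2)
    have h3 := congrArg Subtype.val h2
    exact Subtype.ext h3
  have hirrN' : Cfsg.IsIrrCharacter (N.subgroupOf H) (fun x : N.subgroupOf H => ψ x) :=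
    isIrrCharacter_comp_mulEquiv (Subgroup.subgroupOfEquivOfLe hNH) hirrN
  exact transport H hind
    (mono_of_res_irr (Fintype.card H) H (N.subgroupOf H) le_rfl hsylH ψ hψ hirrN')

end Cfsg.Agent.Helper2.RelM
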