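import Mathlib

/-! Finite sharply doubly transitive permutation groups: the regular normal subgroup. -/

set_option autoImplicit false

namespace Cfsg.Agent.Helper2.Sharp2

universe w

variable {α : Type w} [Fintype α] [DecidableEq α] (G : Subgroup (Equiv.Perm α))

omit [Fintype α] [DecidableEq α] in
theorem fix_two (hsharp : ∀ x : Fin 2 ↪ α, MulAction.stabilizer G x = ⊥) (g : G) (a b : α)
    (hab : a ≠ b) (ha : g • a = a) (hb : g • b = b) : g = 1 := by
  let x : Fin 2 ↪ α := ⟨![a, b], by
    intro i j h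
    fin_cases i <;> fin_cases j <;> simp_all⟩
  have hx : g ∈ MulAction.stabilizer G x := by
    rw [MulAction.mem_stabilizer_iff]
    apply DFunLike.ext
    intro i
    have h0 := Function.Embedding.smul_apply g x i
    refine h0.trans ?_
    fin_cases i
    · exact ha
    · exact hb
  rw [hsharp x] at hx
  exact Subgroup.mem_bot.mp hx

theorem stab_card [h2t : MulAction.IsMultiplyPretransitive G α 2]
    (hsharp : ∀ x : Fin 2 ↪ α, MulAction.stabilizer G x = ⊥) (h2 : 2 ≤ Fintype.card α) (c : α) :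
    Nat.card (MulAction.stabilizer G c) = Fintype.card α - 1 := by
  classical
  haveI : Nontrivial α := by rw [← Fintype.one_lt_card_iff_nontrivial]; omega
  obtain ⟨b, hbc⟩ := exists_ne c
  have hstab : MulAction.stabilizer (MulAction.stabilizer G c) b = ⊥ := by
    rw [Subgroup.eq_bot_iff_forall]
    intro h hh
    apply Subtype.ext
    exact fix_two G hsharp h.1 c b (Ne.symm hbc) h.2 hh
  have h1 := MulAction.index_stabilizer (G := MulAction.stabilizer G c) (x := b)
  rw [hstab, Subgroup.index_bot] at h1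
  have horb : MulAction.orbit (MulAction.stabilizer G c) b = ({c} : Set α)ᶜ := by
    ext x
    constructor
    · rintro ⟨h, rfl⟩
      intro hx
      apply hbc
      have h3 : (h : G) • b = (h : G) • c := by
        rw [h.2]
        exact hx
      exact smul_left_cancel _ h3
    · intro hx
      have hx' : c ≠ x := fun h => hx h.symm
      obtain ⟨g, hg1, hg2⟩ := MulAction.is_two_pretransitive_iff.mp h2t (Ne.symm hbc) hx'
      exact ⟨⟨g, hg1⟩, hg2⟩
  rw [h1, horb, Set.ncard_compl, Set.ncard_singleton, Nat.card_eq_fintype_card]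

theorem card_G [h2t : MulAction.IsMultiplyPretransitive G α 2]
    (hsharp : ∀ x : Fin 2 ↪ α, MulAction.stabilizer G x = ⊥) (h2 : 2 ≤ Fintype.card α) :
    Nat.card G = Fintype.card α * (Fintype.card α - 1) := by
  haveI : MulAction.IsPretransitive G α := MulAction.isPretransitive_of_is_two_pretransitive
  haveI : Nonempty α := by rw [← Fintype.card_pos_iff]; omega
  obtain ⟨c⟩ := ‹Nonempty α›
  have h1 := Subgroup.index_mul_card (MulAction.stabilizer G c)
  rw [MulAction.index_stabilizer_of_transitive, Nat.card_eq_fintype_card,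
    stab_card G hsharp h2 c] at h1
  exact h1.symm

theorem fpf_count [h2t : MulAction.IsMultiplyPretransitive G α 2]
    (hsharp : ∀ x : Fin 2 ↪ α, MulAction.stabilizer G x = ⊥) (h2 : 2 ≤ Fintype.card α) :
    Set.ncard {g : G | ∀ a : α, g • a ≠ a} = Fintype.card α - 1 := by
  classical
  haveI : Fintype G := Fintype.ofFinite G
  haveI : Nonempty α := by rw [← Fintype.card_pos_iff]; omega
  obtain ⟨c₀⟩ := ‹Nonempty α›
  obtain ⟨n, hn⟩ : ∃ n, n = Fintype.card α := ⟨_, rfl⟩
  rw [← hn] at h2 ⊢
  have hG : (Finset.univ : Finset G).card = n * (n - 1) := by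
    rw [Finset.card_univ, ← Nat.card_eq_fintype_card, card_G G hsharp (by rw [← hn]; exact h2), hn]
  obtain ⟨T, hT⟩ : ∃ T : Finset G, T = Finset.univ.filter (fun g : G => ∃ c : α, g • c = c) :=
    ⟨_, rfl⟩
  obtain ⟨F, hF⟩ : ∃ F : Finset G, F = Finset.univ.filter (fun g : G => ¬ ∃ c : α, g • c = c) :=
    ⟨_, rfl⟩
  have hTF : T.card + F.card = n * (n - 1) := by
    rw [hT, hF, Finset.card_filter_add_card_filter_not, hG]
  obtain ⟨Sc, hSc⟩ : ∃ Sc : α → Finset G,
      ∀ c, Sc c = (Finset.univ.filter (fun g : G => g ∈ MulAction.stabilizer G c)).erase 1 :=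
    ⟨_, fun _ => rfl⟩
  have hSc_mem : ∀ c g, g ∈ Sc c ↔ g ≠ 1 ∧ g • c = c := by
    intro c g
    rw [hSc, Finset.mem_erase, Finset.mem_filter, MulAction.mem_stabilizer_iff]
    exact ⟨fun h => ⟨h.1, h.2.2⟩, fun h => ⟨h.1, Finset.mem_univ _, h.2⟩⟩
  have hSc_card : ∀ c, (Sc c).card = n - 1 - 1 := by
    intro c
    rw [hSc, Finset.card_erase_of_mem]
    · have h1 : Nat.card (MulAction.stabilizer G c)
          = (Finset.univ.filter (fun g : G => g ∈ MulAction.stabilizer G c)).card :=
        Nat.subtype_card _ (fun x => by rw [Finset.mem_filter]; exact ⟨fun h => h.2, fun h => ⟨Finset.mem_univ _, h⟩⟩)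
      rw [← h1, stab_card G hsharp (by rw [← hn]; exact h2) c, hn]
    · rw [Finset.mem_filter]
      exact ⟨Finset.mem_univ _, Subgroup.one_mem _⟩
  have hT1 : (1 : G) ∈ T := by
    rw [hT, Finset.mem_filter]
    exact ⟨Finset.mem_univ _, c₀, one_smul _ _⟩
  have hTerase : T.erase 1 = Finset.univ.biUnion Sc := by
    ext g
    rw [Finset.mem_erase, hT, Finset.mem_filter, Finset.mem_biUnion]
    constructor
    · rintro ⟨hg1, _, c, hc⟩
      exact ⟨c, Finset.mem_univ _, (hSc_mem c g).mpr ⟨hg1, hc⟩⟩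
    · rintro ⟨c, _, hc⟩
      have h3 := (hSc_mem c g).mp hc
      exact ⟨h3.1, Finset.mem_univ _, c, h3.2⟩
  have hbU : (Finset.univ.biUnion Sc).card = ∑ c : α, (Sc c).card := by
    apply Finset.card_biUnion
    intro c _ c' _ hcc'
    show Disjoint (Sc c) (Sc c')
    rw [Finset.disjoint_left]
    intro g hg hg'
    have h3 := (hSc_mem c g).mp hg
    have h4 := (hSc_mem c' g).mp hg'
    exact h3.1 (fix_two G hsharp g c c' hcc' h3.2 h4.2)
  have hTcard : T.card = n * (n - 1 - 1) + 1 := by
    rw [← Finset.card_erase_add_one hT1, hTerase, hbU, Finset.sum_congr rfl (fun c _ => hSc_card c),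
      Finset.sum_const, Finset.card_univ, ← hn, smul_eq_mul]
  have hFcard : F.card = n - 1 := by
    obtain ⟨m, rfl⟩ : ∃ m, n = m + 2 := ⟨n - 2, by omega⟩
    have e1 : (m + 2) * (m + 2 - 1) = (m + 2) * (m + 2 - 1 - 1) + (m + 2) := by
      have e2 : m + 2 - 1 = m + 1 := by omega
      have e3 : m + 1 - 1 = m := by omega
      rw [e2, e3]
      ring
    omega
  rw [← hFcard, hF, ← Set.ncard_coe_finset]
  congr 1
  ext g
  simp only [Set.mem_setOf_eq, Finset.coe_filter, Finset.mem_univ, true_and, not_exists]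

end Cfsg.Agent.Helper2.Sharp2
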