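import Mathlib
import Cfsg.Agent.Helper2.Sharp2

/-! Finite sharply doubly transitive permutation groups: centralisers of fixed-point-free
elements and the regular normal elementary abelian subgroup. -/

set_option autoImplicit false

namespace Cfsg.Agent.Helper2.Sharp2

universe w

variable {α : Type w} [Fintype α] [DecidableEq α] (G : Subgroup (Equiv.Perm α))

theorem cent [h2t : MulAction.IsMultiplyPretransitive G α 2]
    (hsharp : ∀ x : Fin 2 ↪ α, MulAction.stabilizer G x = ⊥) (h2 : 2 ≤ Fintype.card α)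
    (g₀ : G) (hg₀ : ∀ a : α, g₀ • a ≠ a) :
    (∀ g : G, g ∈ Subgroup.centralizer ({g₀} : Set G) ↔ (g = 1 ∨ ∀ a : α, g • a ≠ a)) ∧
    (∀ g : G, (∀ a : α, g • a ≠ a) → ∃ h : G, g = h * g₀ * h⁻¹) ∧
    Nat.card (Subgroup.centralizer ({g₀} : Set G)) = Fintype.card α := by
  classical
  haveI : Fintype G := Fintype.ofFinite G
  haveI : Nonempty α := by rw [← Fintype.card_pos_iff]; omega
  obtain ⟨a₀⟩ := ‹Nonempty α›
  obtain ⟨n, hn⟩ : ∃ n, n = Fintype.card α := ⟨_, rfl⟩
  have hn2 : 2 ≤ n := by rw [hn]; exact h2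
  obtain ⟨F, hF⟩ : ∃ F : Finset G, F = Finset.univ.filter (fun g : G => ∀ a : α, g • a ≠ a) :=
    ⟨_, rfl⟩
  have hFmem : ∀ g, g ∈ F ↔ ∀ a : α, g • a ≠ a := by
    intro g
    rw [hF, Finset.mem_filter]
    exact ⟨fun h => h.2, fun h => ⟨Finset.mem_univ _, h⟩⟩
  have hFcard : F.card = n - 1 := by
    rw [hn, ← fpf_count G hsharp h2, hF, ← Set.ncard_coe_finset]
    congr 1
    ext g
    simp only [Set.mem_setOf_eq, Finset.coe_filter, Finset.mem_univ, true_and]
  have hGcard : (Finset.univ : Finset G).card = n * (n - 1) := by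
    rw [Finset.card_univ, ← Nat.card_eq_fintype_card, card_G G hsharp h2, hn]
  obtain ⟨C, hC⟩ : ∃ C : Subgroup G, C = Subgroup.centralizer ({g₀} : Set G) := ⟨_, rfl⟩
  have hCmem : ∀ h, h ∈ C ↔ g₀ * h = h * g₀ := by
    intro h
    rw [hC, Subgroup.mem_centralizer_iff]
    constructor
    · intro hh
      exact hh g₀ rfl
    · intro hh x hx
      rw [Set.mem_singleton_iff.mp hx]
      exact hh
  have hsemi : ∀ h, h ∈ C → ∀ a : α, h • a = a → h = 1 := by
    intro h hh a ha
    apply fix_two G hsharp h a (g₀ • a) (Ne.symm (hg₀ a)) ha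
    rw [← mul_smul, ← (hCmem h).mp hh, mul_smul, ha]
  obtain ⟨Cf, hCf⟩ : ∃ Cf : Finset G, Cf = Finset.univ.filter (fun g : G => g ∈ C) := ⟨_, rfl⟩
  have hCfmem : ∀ g, g ∈ Cf ↔ g ∈ C := by
    intro g
    rw [hCf, Finset.mem_filter]
    exact ⟨fun h => h.2, fun h => ⟨Finset.mem_univ _, h⟩⟩
  have hCfcard : Nat.card C = Cf.card := Nat.subtype_card _ (fun x => hCfmem x)
  have hle : Cf.card ≤ n := by
    rw [hn, ← Finset.card_univ (α := α)]
    apply Finset.card_le_card_of_injOn (fun h => h • a₀)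
    · intro h _
      exact Finset.mem_coe.mpr (Finset.mem_univ _)
    · intro h hh h' hh' heq
      have hh1 := (hCfmem h).mp (Finset.mem_coe.mp hh)
      have hh1' := (hCfmem h').mp (Finset.mem_coe.mp hh')
      have heq' : h • a₀ = h' • a₀ := heq
      have h3 : (h⁻¹ * h') • a₀ = a₀ := by
        rw [mul_smul, ← heq', inv_smul_smul]
      have h4 := hsemi _ (C.mul_mem (C.inv_mem hh1) hh1') a₀ h3
      exact inv_mul_eq_one.mp h4
  obtain ⟨f, hf⟩ : ∃ f : G → G, ∀ h, f h = h * g₀ * h⁻¹ := ⟨_, fun _ => rfl⟩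
  have hfF : ∀ h, f h ∈ F := by
    intro h
    rw [hFmem, hf]
    intro a ha
    apply hg₀ (h⁻¹ • a)
    have h5 : h⁻¹ • ((h * g₀ * h⁻¹) • a) = h⁻¹ • a := by rw [ha]
    rw [mul_smul, mul_smul, inv_smul_smul] at h5
    exact h5
  have hfiber : ∀ y ∈ (Finset.univ : Finset G).image f,
      ((Finset.univ : Finset G).filter (fun x => f x = y)).card ≤ Cf.card := by
    intro y hy
    obtain ⟨h₀, _, rfl⟩ := Finset.mem_image.mp hy
    apply Finset.card_le_card_of_injOn (fun x => h₀⁻¹ * x)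
    · intro x hx
      have hx' := (Finset.mem_filter.mp (Finset.mem_coe.mp hx)).2
      apply Finset.mem_coe.mpr
      rw [hCfmem, hCmem]
      rw [hf, hf] at hx'
      have h4 : g₀ = h₀⁻¹ * (x * g₀ * x⁻¹) * h₀ := by rw [hx']; group
      calc g₀ * (h₀⁻¹ * x) = (h₀⁻¹ * (x * g₀ * x⁻¹) * h₀) * (h₀⁻¹ * x) := by rw [← h4]
        _ = h₀⁻¹ * x * g₀ := by group
    · intro x _ x' _ heq
      exact mul_left_cancel heq
  have hcount := Finset.card_le_mul_card_image (Finset.univ : Finset G) Cf.card hfiber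
  have himg_sub : (Finset.univ : Finset G).image f ⊆ F := by
    intro y hy
    obtain ⟨h, _, rfl⟩ := Finset.mem_image.mp hy
    exact hfF h
  have himg_le : ((Finset.univ : Finset G).image f).card ≤ n - 1 := by
    rw [← hFcard]
    exact Finset.card_le_card himg_sub
  have hCn : Cf.card = n := by
    apply le_antisymm hle
    rw [hGcard] at hcount
    have h5 : n * (n - 1) ≤ Cf.card * (n - 1) :=
      le_trans hcount (Nat.mul_le_mul_left _ himg_le)
    exact Nat.le_of_mul_le_mul_right h5 (by omega)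
  have himg_card : ((Finset.univ : Finset G).image f).card = n - 1 := by
    apply le_antisymm himg_le
    rw [hGcard, hCn] at hcount
    exact Nat.le_of_mul_le_mul_left hcount (by omega)
  have himg_eq : (Finset.univ : Finset G).image f = F :=
    Finset.eq_of_subset_of_card_le himg_sub (by rw [hFcard, himg_card])
  have hCsub : Cf.erase 1 ⊆ F := by
    intro h hh
    rw [Finset.mem_erase, hCfmem] at hh
    rw [hFmem]
    intro a ha
    exact hh.1 (hsemi h hh.2 a ha)
  have hCerase : Cf.erase 1 = F := by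
    apply Finset.eq_of_subset_of_card_le hCsub
    rw [Finset.card_erase_of_mem ((hCfmem 1).mpr C.one_mem), hCn, hFcard]
  refine ⟨fun g => ?_, fun g hg => ?_, ?_⟩
  · rw [← hC, ← hFmem, ← hCerase, Finset.mem_erase, hCfmem]
    constructor
    · intro h
      by_cases h1 : g = 1
      · exact Or.inl h1
      · exact Or.inr ⟨h1, h⟩
    · rintro (h | h)
      · rw [h]; exact C.one_mem
      · exact h.2
  · have h1 : g ∈ (Finset.univ : Finset G).image f := by rw [himg_eq, hFmem]; exact hg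
    obtain ⟨h, _, hh⟩ := Finset.mem_image.mp h1
    exact ⟨h, by rw [← hh, hf]⟩
  · rw [← hC, hCfcard, hCn, hn]

theorem main [h2t : MulAction.IsMultiplyPretransitive G α 2]
    (hsharp : ∀ x : Fin 2 ↪ α, MulAction.stabilizer G x = ⊥) (h2 : 2 ≤ Fintype.card α) :
    ∃ p j : ℕ, p.Prime ∧ 1 ≤ j ∧ Fintype.card α = p ^ j ∧
      ∀ (hp : Fact p.Prime) (P : Sylow p G),
        (P : Subgroup G).Normal ∧ IsMulCommutative (P : Subgroup G) ∧
        (∀ x ∈ (P : Subgroup G), x ^ p = 1) ∧ MulAction.IsPretransitive (P : Subgroup G) α ∧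
        (∀ a : α, MulAction.stabilizer (P : Subgroup G) a = ⊥) ∧
        ∀ g : G, g ∈ (P : Subgroup G) ↔ g = 1 ∨ ∀ a : α, g • a ≠ a := by
  classical
  haveI : Nonempty α := by rw [← Fintype.card_pos_iff]; omega
  obtain ⟨a₀⟩ := ‹Nonempty α›
  obtain ⟨g₀, hg₀⟩ : ∃ g₀ : G, ∀ a : α, g₀ • a ≠ a := by
    have h1 := fpf_count G hsharp h2
    have h3 : ({g : G | ∀ a : α, g • a ≠ a}).Nonempty := by
      rw [← Set.ncard_pos]
      omega
    exact h3
  obtain ⟨hN, hconj, hNcard⟩ := cent G hsharp h2 g₀ hg₀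
  obtain ⟨N, hNdef⟩ : ∃ N : Subgroup G, N = Subgroup.centralizer ({g₀} : Set G) := ⟨_, rfl⟩
  rw [← hNdef] at hN hNcard
  have hg₀1 : g₀ ≠ 1 := by
    intro h
    exact hg₀ a₀ (by rw [h, one_smul])
  have hg₀N : g₀ ∈ N := (hN g₀).mpr (Or.inr hg₀)
  have hcomm : ∀ x ∈ N, ∀ y ∈ N, x * y = y * x := by
    intro x hx y hy
    rcases (hN x).mp hx with h | h
    · rw [h, one_mul, mul_one]
    · obtain ⟨hNx, _, _⟩ := cent G hsharp h2 x h
      have hy' : y ∈ Subgroup.centralizer ({x} : Set G) := (hNx y).mpr ((hN y).mp hy)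
      exact (Subgroup.mem_centralizer_iff.mp hy') x rfl
  obtain ⟨d, hd⟩ : ∃ d, d = orderOf g₀ := ⟨_, rfl⟩
  have hd1 : d ≠ 1 := by
    rw [hd]
    intro h
    exact hg₀1 (orderOf_eq_one_iff.mp h)
  have hd0 : d ≠ 0 := by
    rw [hd]
    exact (orderOf_pos g₀).ne'
  obtain ⟨p, hp, hpd⟩ := Nat.exists_prime_and_dvd hd1
  have hord : ∀ g : G, (∀ a : α, g • a ≠ a) → orderOf g = d := by
    intro g hg
    obtain ⟨h, rfl⟩ := hconj g hg
    rw [hd, ← MulAut.conj_apply]
    exact orderOf_injective (MulAut.conj h).toMonoidHom (MulAut.conj h).injective g₀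
  have hdp : d = p := by
    have h1 : orderOf (g₀ ^ (orderOf g₀ / p)) = p :=
      orderOf_pow_orderOf_div (by rw [← hd]; exact hd0) (by rw [← hd]; exact hpd)
    have h3 : g₀ ^ (orderOf g₀ / p) ∈ N := N.pow_mem hg₀N _
    rcases (hN _).mp h3 with h | h
    · rw [h, orderOf_one] at h1
      exact absurd h1.symm hp.one_lt.ne'
    · rw [← hord _ h, h1]
  have hexp : ∀ x ∈ N, x ^ p = 1 := by
    intro x hx
    rcases (hN x).mp hx with h | h
    · rw [h, one_pow]
    · rw [← hdp, ← hord x h]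
      exact pow_orderOf_eq_one x
  haveI hpf : Fact p.Prime := ⟨hp⟩
  have hNp : IsPGroup p N := by
    intro x
    refine ⟨1, ?_⟩
    rw [pow_one]
    apply Subtype.ext
    rw [Subgroup.coe_pow, Subgroup.coe_one]
    exact hexp x.1 x.2
  obtain ⟨j, hj⟩ := IsPGroup.iff_card.mp hNp
  rw [hNcard] at hj
  have hj1 : 1 ≤ j := by
    by_contra h0
    have h1 : j = 0 := by omega
    rw [h1, pow_zero] at hj
    omega
  refine ⟨p, j, hp, hj1, hj, ?_⟩
  intro hp' P
  have hPN : (P : Subgroup G) = N := by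
    have hle : (P : Subgroup G) ≤ N := by
      intro x hx
      rw [hN]
      by_cases hx1 : x = 1
      · exact Or.inl hx1
      · right
        intro c hc
        have hc' : x ∈ MulAction.stabilizer G c := MulAction.mem_stabilizer_iff.mpr hc
        have h1 : orderOf (⟨x, hc'⟩ : MulAction.stabilizer G c)
            ∣ Nat.card (MulAction.stabilizer G c) := orderOf_dvd_natCard _
        rw [Subgroup.orderOf_mk, stab_card G hsharp h2 c, hj] at h1
        obtain ⟨k, hk⟩ := P.isPGroup' ⟨x, hx⟩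
        have hk' : x ^ p ^ k = 1 := by
          have h0 := congrArg Subtype.val hk
          rw [Subgroup.coe_pow, Subgroup.coe_one] at h0
          exact h0
        have h3 : orderOf x ∣ p ^ k := orderOf_dvd_of_pow_eq_one hk'
        obtain ⟨i, _, hi⟩ := (Nat.dvd_prime_pow hp).mp h3
        have hi0 : i ≠ 0 := by
          intro h0
          rw [h0, pow_zero] at hi
          exact hx1 (orderOf_eq_one_iff.mp hi)
        have h4 : p ∣ orderOf x := by rw [hi]; exact dvd_pow_self p hi0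
        have h5 : p ∣ p ^ j - 1 := dvd_trans h4 h1
        have h6 : p ∣ p ^ j := dvd_pow_self p (by omega)
        have h7 : p ∣ 1 := by
          have h8 : p ^ j - 1 + 1 = p ^ j := Nat.sub_add_cancel (Nat.one_le_pow _ _ hp.pos)
          exact (Nat.dvd_add_right h5).mp (by rw [h8]; exact h6)
        exact hp.one_lt.ne' (Nat.dvd_one.mp h7)
    exact (P.is_maximal' hNp hle).symm
  rw [hPN]
  refine ⟨?_, ?_, hexp, ?_, ?_, hN⟩
  · constructor
    intro x hx g
    rw [hN] at hx ⊢
    rcases hx with h | h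
    · left
      rw [h]
      group
    · right
      intro a ha
      apply h (g⁻¹ • a)
      have h5 : g⁻¹ • ((g * x * g⁻¹) • a) = g⁻¹ • a := by rw [ha]
      rw [mul_smul, mul_smul, inv_smul_smul] at h5
      exact h5
  · exact ⟨⟨fun a b => Subtype.ext (hcomm a.1 a.2 b.1 b.2)⟩⟩
  · have hinj : Function.Injective (fun h : N => (h : G) • a₀) := by
      intro h h' heq
      have heq' : (h : G) • a₀ = (h' : G) • a₀ := heq
      have h3 : ((h : G)⁻¹ * (h' : G)) • a₀ = a₀ := by
        rw [mul_smul, ← heq', inv_smul_smul]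
      have h4 : (h : G)⁻¹ * (h' : G) ∈ N := N.mul_mem (N.inv_mem h.2) h'.2
      rcases (hN _).mp h4 with h5 | h5
      · exact Subtype.ext (inv_mul_eq_one.mp h5)
      · exact absurd h3 (h5 a₀)
    have hbij : Function.Bijective (fun h : N => (h : G) • a₀) := by
      rw [Nat.bijective_iff_injective_and_card]
      exact ⟨hinj, by rw [hNcard, Nat.card_eq_fintype_card]⟩
    constructor
    intro a b
    obtain ⟨h, hh⟩ := hbij.2 a
    obtain ⟨h', hh'⟩ := hbij.2 b
    have hh1 : (h : G) • a₀ = a := hh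
    have hh2 : (h' : G) • a₀ = b := hh'
    refine ⟨h' * h⁻¹, ?_⟩
    show ((h' * h⁻¹ : N) : G) • a = b
    rw [← hh1, ← hh2, Subgroup.coe_mul, Subgroup.coe_inv, mul_smul, inv_smul_smul]
  · intro a
    rw [Subgroup.eq_bot_iff_forall]
    intro h hh
    have h3 : (h : G) • a = a := hh
    rcases (hN _).mp h.2 with h5 | h5
    · exact Subtype.ext h5
    · exact absurd h3 (h5 a)

end Cfsg.Agent.Helper2.Sharp2
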