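import Mathlib
import Cfsg.Agent.Helper2.Sharp2b
import Cfsg.Statements.S0683

/-! Finite sharply doubly transitive permutation groups: the near-field structure. -/

set_option autoImplicit false

namespace Cfsg.Agent.Helper2.Sharp2

universe w

variable {α : Type w} [Fintype α] [DecidableEq α] (G : Subgroup (Equiv.Perm α))

theorem nearfield_data [h2t : MulAction.IsMultiplyPretransitive G α 2]
    (hsharp : ∀ x : Fin 2 ↪ α, MulAction.stabilizer G x = ⊥) (h2 : 2 ≤ Fintype.card α) :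
    ∃ (o e1 : α) (addF mulF : α → α → α) (negF : α → α),
      (∀ a b c, addF (addF a b) c = addF a (addF b c)) ∧
      (∀ a, addF o a = a) ∧ (∀ a, addF a o = a) ∧ (∀ a, addF (negF a) a = o) ∧
      (∀ a b c, mulF (mulF a b) c = mulF a (mulF b c)) ∧
      (∀ a, mulF e1 a = a) ∧ (∀ a, mulF a e1 = a) ∧
      (∀ a b c, mulF (addF a b) c = addF (mulF a c) (mulF b c)) ∧
      (∀ a, mulF a o = o) ∧ o ≠ e1 ∧
      (∀ a, a ≠ o → ∃ b, mulF a b = e1 ∧ mulF b a = e1) ∧
      (∀ σ : Equiv.Perm α, σ ∈ G ↔ ∃ a b : α, a ≠ o ∧ ∀ x : α, σ x = addF (mulF x a) b) := by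
  classical
  obtain ⟨p, j, hp, hj, hcard, hP⟩ := main G hsharp h2
  haveI hpf : Fact p.Prime := Fact.mk hp
  obtain ⟨P⟩ : Nonempty (Sylow p G) := inferInstance
  obtain ⟨hN, -, -, htr, hstab, -⟩ := hP hpf P
  obtain ⟨o, e1, hoe⟩ : ∃ o e1 : α, o ≠ e1 :=
    Fintype.exists_pair_of_one_lt_card (by omega)
  -- translations
  have hν : ∀ x : α, ∃ g : G, g ∈ (P : Subgroup G) ∧ g • o = x := by
    intro x
    obtain ⟨g, hg⟩ := MulAction.exists_smul_eq (P : Subgroup G) o x
    exact ⟨g.1, g.2, hg⟩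
  choose ν hνP hνo using hν
  have hνu : ∀ (g : G), g ∈ (P : Subgroup G) → ∀ x, g • o = x → g = ν x := by
    intro g hg x hx
    have h1 : (⟨(ν x)⁻¹ * g, mul_mem (inv_mem (hνP x)) hg⟩ : (P : Subgroup G)) ∈
        MulAction.stabilizer (P : Subgroup G) o := by
      rw [MulAction.mem_stabilizer_iff]
      show ((ν x)⁻¹ * g) • o = o
      rw [mul_smul, hx, inv_smul_eq_iff, hνo]
    rw [hstab o, Subgroup.mem_bot] at h1
    have h2 : (ν x)⁻¹ * g = 1 := congrArg Subtype.val h1
    exact (inv_mul_eq_one.mp h2).symm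
  -- dilations
  have h2t' : ∀ a b c d : α, a ≠ b → c ≠ d → ∃ g : G, g • a = c ∧ g • b = d :=
    fun a b c d h h' => MulAction.is_two_pretransitive_iff.mp h2t h h'
  have hμ : ∀ y : α, ∃ g : G, y ≠ o → (g • o = o ∧ g • e1 = y) := by
    intro y
    by_cases hy : y = o
    · exact ⟨1, fun h => absurd hy h⟩
    · obtain ⟨g, h1, h2⟩ := h2t' o e1 o y hoe (Ne.symm hy)
      exact ⟨g, fun _ => ⟨h1, h2⟩⟩
  choose μ hμ using hμ
  have hμu : ∀ (g : G) (y : α), y ≠ o → g • o = o → g • e1 = y → g = μ y := by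
    intro g y hy h1 h2
    obtain ⟨h3, h4⟩ := hμ y hy
    have h5 := fix_two G hsharp ((μ y)⁻¹ * g) o e1 hoe
      (by rw [mul_smul, h1, inv_smul_eq_iff, h3]) (by rw [mul_smul, h2, inv_smul_eq_iff, h4])
    exact (inv_mul_eq_one.mp h5).symm
  have hν1 : ν o = 1 := (hνu 1 (one_mem _) o (one_smul _ _)).symm
  have hμ1 : μ e1 = 1 := (hμu 1 e1 hoe.symm (one_smul _ _) (one_smul _ _)).symm
  have hνmul : ∀ b c : α, ν (ν c • b) = ν c * ν b := by
    intro b c
    refine (hνu (ν c * ν b) (mul_mem (hνP c) (hνP b)) _ ?_).symm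
    rw [mul_smul, hνo]
  have hμo : ∀ c : α, c ≠ o → μ c • o = o := fun c hc => (hμ c hc).1
  have hμe : ∀ c : α, c ≠ o → μ c • e1 = c := fun c hc => (hμ c hc).2
  have hμne : ∀ (c b : α), c ≠ o → b ≠ o → μ c • b ≠ o := by
    intro c b hc hb h
    apply hb
    have h1 : μ c • b = μ c • o := by rw [h, hμo c hc]
    exact MulAction.injective (μ c) h1
  have hμmul : ∀ b c : α, c ≠ o → b ≠ o → μ (μ c • b) = μ c * μ b := by
    intro b c hc hb
    refine (hμu (μ c * μ b) _ (hμne c b hc hb) ?_ ?_).symm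
    · rw [mul_smul, hμo b hb, hμo c hc]
    · rw [mul_smul, hμe b hb]
  have hconj : ∀ b c : α, c ≠ o → ν (μ c • b) * μ c = μ c * ν b := by
    intro b c hc
    have h1 : μ c * ν b * (μ c)⁻¹ = ν (μ c • b) := by
      refine hνu _ (hN.conj_mem (ν b) (hνP b) (μ c)) _ ?_
      rw [mul_smul, mul_smul, inv_smul_eq_iff.mpr (hμo c hc).symm, hνo]
    rw [← h1, inv_mul_cancel_right]
  refine ⟨o, e1, fun x y => ν y • x, fun x y => if y = o then o else μ y • x,
    fun x => (ν x)⁻¹ • o, ?_, ?_, ?_, ?_, ?_, ?_, ?_, ?_, ?_, hoe, ?_, ?_⟩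
  · -- add_assoc
    intro a b c
    show ν c • (ν b • a) = ν (ν c • b) • a
    rw [hνmul, mul_smul]
  · intro a
    exact hνo a
  · intro a
    show ν o • a = a
    rw [hν1, one_smul]
  · intro a
    show ν a • ((ν a)⁻¹ • o) = o
    rw [smul_inv_smul]
  · -- mul_assoc
    intro a b c
    show (if c = o then o else μ c • (if b = o then o else μ b • a)) =
      (if (if c = o then o else μ c • b) = o then o else μ (if c = o then o else μ c • b) • a)
    by_cases hc : c = o
    · rw [if_pos hc, if_pos hc, if_pos rfl]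
    · rw [if_neg hc, if_neg hc]
      by_cases hb : b = o
      · rw [if_pos hb, hb, hμo c hc, if_pos rfl]
      · rw [if_neg hb, if_neg (hμne c b hc hb), hμmul b c hc hb, mul_smul]
  · -- one_mul
    intro a
    show (if a = o then o else μ a • e1) = a
    by_cases ha : a = o
    · rw [if_pos ha, ha]
    · rw [if_neg ha, hμe a ha]
  · -- mul_one
    intro a
    show (if e1 = o then o else μ e1 • a) = a
    rw [if_neg hoe.symm, hμ1, one_smul]
  · -- right_distrib
    intro a b c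
    show (if c = o then o else μ c • (ν b • a)) =
      ν (if c = o then o else μ c • b) • (if c = o then o else μ c • a)
    by_cases hc : c = o
    · rw [if_pos hc, if_pos hc, if_pos hc, hνo]
    · rw [if_neg hc, if_neg hc, if_neg hc, ← mul_smul, ← mul_smul, hconj b c hc]
  · intro a
    show (if o = o then o else μ o • a) = o
    rw [if_pos rfl]
  · -- inverses
    intro a ha
    have hb : (μ a)⁻¹ • e1 ≠ o := by
      intro h
      rw [inv_smul_eq_iff, hμo a ha] at h
      exact hoe h.symm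
    have hμb : μ ((μ a)⁻¹ • e1) = (μ a)⁻¹ := by
      refine (hμu _ _ hb ?_ rfl).symm
      rw [inv_smul_eq_iff, hμo a ha]
    refine ⟨(μ a)⁻¹ • e1, ?_, ?_⟩
    · show (if (μ a)⁻¹ • e1 = o then o else μ ((μ a)⁻¹ • e1) • a) = e1
      rw [if_neg hb, hμb, inv_smul_eq_iff, hμe a ha]
    · show (if a = o then o else μ a • ((μ a)⁻¹ • e1)) = e1
      rw [if_neg ha, smul_inv_smul]
  · -- the group
    intro σ
    constructor
    · intro hσ
      obtain ⟨s, hs⟩ : ∃ s : G, s = ⟨σ, hσ⟩ := ⟨_, rfl⟩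
      have hsx : ∀ x : α, s • x = σ x := by
        intro x
        rw [hs]
        rfl
      obtain ⟨g, hg⟩ : ∃ g : G, g = (ν (σ o))⁻¹ * s := ⟨_, rfl⟩
      have hgo : g • o = o := by
        rw [hg, mul_smul, hsx, inv_smul_eq_iff, hνo]
      have hga : g • e1 ≠ o := by
        intro h
        have h1 : g • e1 = g • o := by rw [h, hgo]
        exact hoe (MulAction.injective g h1).symm
      have hgμ : g = μ (g • e1) := hμu g _ hga hgo rfl
      refine ⟨g • e1, σ o, hga, fun x => ?_⟩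
      show σ x = ν (σ o) • (if g • e1 = o then o else μ (g • e1) • x)
      rw [if_neg hga, ← hgμ, hg, mul_smul, smul_inv_smul, hsx]
    · rintro ⟨a, b, ha, hx⟩
      have h1 : σ = ((ν b * μ a : G) : Equiv.Perm α) := by
        apply Equiv.ext
        intro x
        have h2 := hx x
        have h3 : (if a = o then o else μ a • x) = μ a • x := if_neg ha
        have h4 : σ x = ν b • (if a = o then o else μ a • x) := h2
        rw [h4, h3, ← mul_smul]
        rfl
      rw [h1]
      exact (ν b * μ a).2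

theorem nearfield [h2t : MulAction.IsMultiplyPretransitive G α 2]
    (hsharp : ∀ x : Fin 2 ↪ α, MulAction.stabilizer G x = ⊥) (h2 : 2 ≤ Fintype.card α) :
    ∃ _ : Cfsg.NearField α, ∀ σ : Equiv.Perm α,
      σ ∈ G ↔ ∃ a b : α, a ≠ 0 ∧ ∀ x : α, σ x = x * a + b := by
  obtain ⟨o, e1, addF, mulF, negF, h1, h2, h3, h4, h5, h6, h7, h8, h9, h10, h11, h12⟩ :=
    nearfield_data G hsharp h2
  letI iAdd : Add α := ⟨addF⟩
  letI iZero : Zero α := ⟨o⟩
  letI iNeg : Neg α := ⟨negF⟩
  letI A : AddGroup α := AddGroup.ofLeftAxioms h1 h2 h4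
  letI iMul : Mul α := ⟨mulF⟩
  letI iOne : One α := ⟨e1⟩
  letI M : Monoid α := { mul_assoc := h5, one_mul := h6, mul_one := h7 }
  exact ⟨{ toAddGroup := A, toMonoid := M, right_distrib := h8, mul_zero := h9,
           zero_ne_one := h10, exists_inv := h11 }, h12⟩

end Cfsg.Agent.Helper2.Sharp2
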