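import Mathlib
import Cfsg.Prelude.Def_ClassicalGeometry
import Cfsg.Agent.Helper2.Refl

set_option autoImplicit false

namespace Cfsg.Agent.Helper2

open Matrix

variable {F : Type*} [Field F] {ι : Type} [Fintype ι] [DecidableEq ι]

lemma siegel_mulVec (Q : QuadraticForm F (ι → F)) (u v x : ι → F) (c : F) :
    (Cfsg.siegelMatrix (⇑Q) u v c) *ᵥ x =
      x + ((c * QuadraticMap.polar (⇑Q) u x) • v - (c * QuadraticMap.polar (⇑Q) v x) • u) := by
  unfold Cfsg.siegelMatrix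
  rw [add_mulVec, one_mulVec, smul_mulVec, sub_mulVec, vecMulVec_mulVec, vecMulVec_mulVec,
    op_smul_eq_smul, op_smul_eq_smul, polarVec_dot, polarVec_dot, smul_sub, smul_smul, smul_smul]

lemma siegel_sq_zero (Q : QuadraticForm F (ι → F)) (u v : ι → F) (hu : Q u = 0) (hv : Q v = 0)
    (huv : QuadraticMap.polar (⇑Q) u v = 0) :
    (vecMulVec v (Cfsg.polarVec (⇑Q) u) - vecMulVec u (Cfsg.polarVec (⇑Q) v)) *
      (vecMulVec v (Cfsg.polarVec (⇑Q) u) - vecMulVec u (Cfsg.polarVec (⇑Q) v)) = 0 := by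
  have h1 : Cfsg.polarVec (⇑Q) u ⬝ᵥ v = 0 := by rw [polarVec_dot]; exact huv
  have h2 : Cfsg.polarVec (⇑Q) u ⬝ᵥ u = 0 := by
    rw [polarVec_dot, QuadraticMap.polar_self, hu, smul_zero]
  have h3 : Cfsg.polarVec (⇑Q) v ⬝ᵥ v = 0 := by
    rw [polarVec_dot, QuadraticMap.polar_self, hv, smul_zero]
  have h4 : Cfsg.polarVec (⇑Q) v ⬝ᵥ u = 0 := by
    rw [polarVec_dot, QuadraticMap.polar_comm]; exact huv
  rw [sub_mul, mul_sub, mul_sub, vecMulVec_mul_vecMulVec, vecMulVec_mul_vecMulVec,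
    vecMulVec_mul_vecMulVec, vecMulVec_mul_vecMulVec, h1, h2, h3, h4]
  simp

lemma siegel_mul (Q : QuadraticForm F (ι → F)) (u v : ι → F) (hu : Q u = 0) (hv : Q v = 0)
    (huv : QuadraticMap.polar (⇑Q) u v = 0) (c d : F) :
    Cfsg.siegelMatrix (⇑Q) u v c * Cfsg.siegelMatrix (⇑Q) u v d =
      Cfsg.siegelMatrix (⇑Q) u v (c + d) := by
  have hMM := siegel_sq_zero Q u v hu hv huv
  unfold Cfsg.siegelMatrix
  rw [add_mul, one_mul, mul_add, mul_one, smul_mul_smul_comm, hMM, smul_zero, add_zero, add_smul]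
  abel

lemma siegel_preserves (Q : QuadraticForm F (ι → F)) (u v : ι → F) (hu : Q u = 0) (hv : Q v = 0)
    (huv : QuadraticMap.polar (⇑Q) u v = 0) (c : F) (x : ι → F) :
    Q ((Cfsg.siegelMatrix (⇑Q) u v c) *ᵥ x) = Q x := by
  rw [siegel_mulVec]
  obtain ⟨a, ha⟩ : ∃ a : F, a = c * QuadraticMap.polar (⇑Q) u x := ⟨_, rfl⟩
  obtain ⟨b, hb⟩ : ∃ b : F, b = c * QuadraticMap.polar (⇑Q) v x := ⟨_, rfl⟩
  rw [← ha, ← hb]
  have h1 : Q (x + (a • v - b • u)) = Q x + Q (a • v - b • u) +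
      QuadraticMap.polar (⇑Q) x (a • v - b • u) := by
    unfold QuadraticMap.polar; ring
  have h2 : Q (a • v - b • u) = Q (a • v) + Q (-(b • u)) +
      QuadraticMap.polar (⇑Q) (a • v) (-(b • u)) := by
    rw [sub_eq_add_neg]; unfold QuadraticMap.polar; ring
  rw [h1, h2, QuadraticMap.map_neg, QuadraticMap.map_smul, QuadraticMap.map_smul, hu, hv,
    QuadraticMap.polar_neg_right, QuadraticMap.polar_smul_right, QuadraticMap.polar_smul_left,
    QuadraticMap.polar_comm (⇑Q) v u, huv, QuadraticMap.polar_sub_right,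
    QuadraticMap.polar_smul_right, QuadraticMap.polar_smul_right,
    QuadraticMap.polar_comm (⇑Q) x v, QuadraticMap.polar_comm (⇑Q) x u, ha, hb]
  simp only [smul_eq_mul, mul_zero, neg_zero, add_zero]
  ring

end Cfsg.Agent.Helper2
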