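import Mathlib
import Cfsg.Agent.Helper2.Conj

set_option autoImplicit false

namespace Cfsg.Agent.Helper2

open scoped Pointwise

variable {G : Type*} [Group G]

/-- Membership in a conjugate Sylow subgroup, elementwise. -/
lemma mem_smul_sylow_iff {p : ℕ} (R : Sylow p G) (n x : G) :
    x ∈ ((n • R : Sylow p G) : Subgroup G) ↔ n⁻¹ * x * n ∈ (R : Subgroup G) := by
  rw [Sylow.coe_subgroup_smul, Subgroup.mem_pointwise_smul_iff_inv_smul_mem, MulAut.smul_def,
    MulAut.conj_inv_apply]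

/-- Relative Sylow: if `S` is a Sylow `p`-subgroup of `G` inside `N` and `X ≤ N` is a `p`-subgroup,
some `n ∈ N` conjugates `X` into `S`. -/
lemma pgroup_exists_conj_le_sylow_in {p : ℕ} [Fact p.Prime] [Finite G] {N X : Subgroup G}
    (S : Sylow p G) (hSN : (S : Subgroup G) ≤ N) (hXN : X ≤ N) (hX : IsPGroup p X) :
    ∃ n ∈ N, ∀ x ∈ X, n * x * n⁻¹ ∈ (S : Subgroup G) := by
  have hX' : IsPGroup p (X.subgroupOf N) := hX.comap_subtype
  obtain ⟨n, hn⟩ := pgroup_exists_conj_le_sylow hX' (S.subtype hSN)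
  refine ⟨n, n.2, fun x hx => ?_⟩
  have h1 : (⟨x, hXN hx⟩ : N) ∈ X.subgroupOf N := by
    rw [Subgroup.mem_subgroupOf]; exact hx
  have h2 := hn ⟨x, hXN hx⟩ h1
  have h3 : n * (⟨x, hXN hx⟩ : N) * n⁻¹ ∈ ((S.subtype hSN : Sylow p N) : Subgroup N) := h2
  rw [Sylow.coe_subtype, Subgroup.mem_subgroupOf] at h3
  simpa using h3

end Cfsg.Agent.Helper2
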